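import Cfsg.Agent.H98.SFD


/-!
Maximality of subfield subgroups of orthogonal groups in dimension at least seven: matrix form.
-/

set_option autoImplicit false
set_option linter.unusedSectionVars false

namespace Cfsg.Agent.H98.SF

open QuadraticMap Cfsg.Agent.Orth Cfsg.Agent.OMax Matrix
open scoped MatrixGroups

variable {ι : Type} [Fintype ι] [DecidableEq ι] {F : Type*} [Field F]

/-- The commutator subgroup does not preserve the structure. -/
theorem sub_proper {K : Type*} [Field K] [Algebra K F] [Finite K] [Finite F]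
    {U V : Type*} [AddCommGroup U]
    [Module K U] [AddCommGroup V] [Module F V] {q : QuadraticForm K U} {Q : QuadraticForm F V}
    {j : U → V} (R : RatF q Q j)
    (hQ : (polarBilin Q).Nondegenerate) (hn : 7 ≤ Module.finrank F V)
    (hne : ∃ t : F, ∀ k : K, algebraMap K F k ≠ t) :
    ∃ h ∈ commutator (OGrp Q), ¬ Pres j h := by
  have hfd := R.fd
  have hfdV := R.fdV
  have hnq := R.nd hQ
  have hfr := R.finrank_eq
  obtain ⟨t, ht⟩ := hne
  obtain ⟨e, he0, he⟩ := exists_singular hnq (by omega)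
  obtain ⟨e', he', hee⟩ := exists_partner hnq he he0
  obtain ⟨b, b', hb, hb', hbb, heb, heb', -, -⟩ := hypPair hnq (by omega) e e'
  have h1 : Q (j e) = 0 := by rw [R.jq, he, map_zero]
  have h2 : polar Q (j e) (t • j b) = 0 := by rw [psr, R.jpolar, heb, map_zero, mul_zero]
  refine ⟨eich Q (j e) (t • j b) h1 h2, eich_mem_comm hQ (by omega) h1 h2, ?_⟩
  rintro ⟨c, hc0, hc⟩
  obtain ⟨u, hu⟩ := hc e
  rw [eich_fix h1 h2 (by rw [pself, h1, mul_zero]) h2] at hu
  have hu0 : u ≠ 0 := by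
    rintro rfl
    rw [R.j0, smul_zero] at hu
    exact R.jne he0 hu
  obtain ⟨k, hk, -⟩ := R.jscal hu0 hu.symm
  obtain ⟨u', hu'⟩ := hc e'
  have hQb : Q (t • j b) = 0 := by rw [qsmul, R.jq, hb, map_zero, mul_zero]
  rw [eich_apply, hQb, zero_mul, zero_smul, sub_zero, psr, R.jpolar, heb', map_zero, mul_zero,
    zero_smul, add_zero, R.jpolar, pc q e' e, hee, map_one, one_smul, ← hk, ← R.jsmul] at hu'
  have h3 : t • j b = j (e' - k • u') := by rw [R.jsub, ← hu']; module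
  have hb0 : b ≠ 0 := by
    rintro rfl
    rw [polar_zero_left] at hbb
    exact zero_ne_one hbb
  obtain ⟨k', hk', -⟩ := R.jscal hb0 h3
  exact ht k' hk'

/-- **Maximality of subfield subgroups.** -/
theorem sub_isMaximalIn [Fintype F] (Q : QuadraticForm F (ι → F))
    (hQ : (polarBilin Q).Nondegenerate) (hn : 7 ≤ Fintype.card ι) (F₀ : Subfield F) (r : ℕ)
    (hr : r.Prime) (hcard : Fintype.card F = Nat.card F₀ ^ r) (P : GL ι F)
    (hP : ∀ u : ι → F₀, Q (jP F₀ P u) ∈ F₀) :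
    Cfsg.Geo.IsMaximalIn (Cfsg.Geo.omegaGL ⇑Q)
      (Cfsg.Geo.subfieldSubgroup F₀ P ⊓ Cfsg.Geo.omegaGL ⇑Q) := by
  have hfr : Module.finrank F (ι → F) = Fintype.card ι := Module.finrank_fintype_fun_eq_card F
  have R := ratF Q F₀ P hP
  have hdeg := hdeg_of_card F₀ r hr hcard
  have hne : ∃ t : F, ∀ k : F₀, algebraMap F₀ F k ≠ t := by
    by_contra hcon
    push Not at hcon
    have h1 : Function.Surjective (algebraMap F₀ F) := hcon
    have h2 := Nat.card_le_card_of_surjective _ h1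
    rw [Nat.card_eq_fintype_card (α := F), hcard] at h2
    have h3 : 2 ≤ Nat.card F₀ := Finite.one_lt_card
    have h4 : Nat.card F₀ ^ 2 ≤ Nat.card F₀ ^ r := Nat.pow_le_pow_right (by omega) hr.two_le
    nlinarith
  refine isMaximalIn_of_abstract Q (Cfsg.Geo.subfieldSubgroup F₀ P) (fun g => Pres (jP F₀ P) g)
    (fun g => mem_subfield_iff F₀ P g) (sub_proper R hQ (by rw [hfr]; omega) hne) ?_
  intro M _ hHM hM
  refine sub_maximal R hQ (by rw [hfr]; omega) ?_ hdeg hM
  intro a b ha hab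
  have h1 : Q (jP F₀ P a) = 0 := by rw [R.jq, ha, map_zero]
  have h2 : polar Q (jP F₀ P a) (jP F₀ P b) = 0 := by rw [R.jpolar, hab, map_zero]
  refine ⟨h1, h2, hHM _ (eich_mem_comm hQ (by rw [hfr]; omega) h1 h2) ⟨1, one_ne_zero, fun u => ?_⟩⟩
  exact ⟨_, by rw [one_smul]; exact eich_j R ha hab h1 h2 u⟩


/-- **Subfield clause of the maximality tables**, `n ≥ 7`, any type, any prime index. -/
theorem sub_geo7 {F : Type*} [Field F] [Fintype F] {n : ℕ} (hn : 7 ≤ n) (Q : (Fin n → F) → F)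
    (hQ : Cfsg.Geo.IsNondegenerateQuadraticForm Q) (F₀ : Subfield F) (r : ℕ) (hr : r.Prime)
    (hcard : Fintype.card F = Nat.card F₀ ^ r) (P : Matrix.GeneralLinearGroup (Fin n) F) (ζ : F)
    (hζ : ζ ≠ 0)
    (hP : Cfsg.Geo.IsQuadFormRationalStructure (fun v : Fin n → F => ζ * Q v) F₀ P) :
    Cfsg.Geo.IsMaximalIn (Cfsg.Geo.omegaGL Q)
      (Cfsg.Geo.subfieldSubgroup F₀ P ⊓ Cfsg.Geo.omegaGL Q) := by
  classical
  have h := sub_isMaximalIn (ζ • OMax.qfOf hQ)
    (OMax.smul_nondegenerate (OMax.qfOf_nondegenerate hQ) hζ)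
    (by rw [Fintype.card_fin]; omega) F₀ r hr hcard P (fun u => hP _ fun i => (u i).2)
  have e : Cfsg.Geo.omegaGL ⇑(ζ • OMax.qfOf hQ) = Cfsg.Geo.omegaGL Q := OMax.omegaGL_smul Q hζ
  rwa [e] at h

end Cfsg.Agent.H98.SF
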