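import Cfsg.Agent.H98.OrN
import Cfsg.Agent.GeoMax.OTransport

set_option autoImplicit false
set_option linter.unusedSectionVars false
set_option linter.style.haveILetI false
set_option linter.unusedSimpArgs false

/-!
Extension fields in orthogonal groups, part O: matrix form.
-/

namespace Cfsg.Agent.H98.Or

open Module QuadraticMap Cfsg.Agent.H98.Ext Cfsg.Agent.Orth Cfsg.Agent.GeoMax.Ort Matrix Cfsg.Geo
open Cfsg.Agent.AschCases
open scoped MatrixGroups

variable {ι : Type} [Fintype ι] [DecidableEq ι] {F : Type*} [Field F]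

theorem or_alg {K : Type*} [Field K] [Algebra F K] [Finite F] (φ : K →ₐ[F] Matrix ι ι F)
    {Q : QuadraticForm F (ι → F)} (hQ : (polarBilin Q).Nondegenerate)
    (hsa : ∀ (k : K) v w, polar Q (φ k *ᵥ v) w = polar Q v (φ k *ᵥ w)) (h2 : (2 : F) ≠ 0)
    (hr : (finrank F K).Prime) (hd : 13 ≤ Fintype.card ι) (hnr : 3 * finrank F K ≤ Fintype.card ι)
    (heven : finrank F K = 2 → 14 ≤ Fintype.card ι) :
    (∀ M : Subgroup (OGrp Q), M ≤ commutator (OGrp Q) →
      (∀ g ∈ commutator (OGrp Q), (∀ k : K, ∃ k' : K, (emGL Q g : Matrix ι ι F) * φ k = φ k' * (emGL Q g : Matrix ι ι F))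
        → g ∈ M) →
      (∀ g ∈ M, ∀ k : K, ∃ k' : K, (emGL Q g : Matrix ι ι F) * φ k = φ k' * (emGL Q g : Matrix ι ι F)) ∨
        commutator (OGrp Q) ≤ M) ∧
    ∃ g ∈ commutator (OGrp Q), ¬ ∀ k : K, ∃ k' : K, (emGL Q g : Matrix ι ι F) * φ k = φ k' * (emGL Q g : Matrix ι ι F) := by
  classical
  letI : Module K (ι → F) := Module.compHom (ι → F)
    (((Matrix.toLinAlgEquiv' : Matrix ι ι F ≃ₐ[F] _).toAlgHom.comp φ : K →ₐ[F] _) : K →+* Module.End F (ι → F))
  have hsm : ∀ (k : K) (v : ι → F), k • v = φ k *ᵥ v := fun k v => rfl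
  have htower : IsScalarTower F K (ι → F) := by
    refine ⟨fun c k v => ?_⟩
    rw [hsm, hsm, map_smul, Matrix.smul_mulVec]
  have : FiniteDimensional F K := FiniteDimensional.of_finrank_pos hr.pos
  have hfinK : Finite K := Module.finite_of_finite F
  have hsemi : ∀ g : OGrp Q, (∀ k : K, ∃ k' : K, (emGL Q g : Matrix ι ι F) * φ k = φ k' * (emGL Q g : Matrix ι ι F)) ↔
      Semi K (g : (ι → F) ≃ₗ[F] (ι → F)) := by
    intro g
    constructor
    · intro hg k
      obtain ⟨k', hk'⟩ := hg k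
      refine ⟨k', fun v => ?_⟩
      rw [← emGL_mulVec, ← emGL_mulVec, hsm, hsm, Matrix.mulVec_mulVec, Matrix.mulVec_mulVec, hk']
    · intro hg k
      obtain ⟨k', hk'⟩ := hg k
      refine ⟨k', ?_⟩
      apply Matrix.toLin'.injective
      apply LinearMap.ext
      intro v
      have := hk' v
      rw [← emGL_mulVec, ← emGL_mulVec, hsm, hsm, Matrix.mulVec_mulVec, Matrix.mulVec_mulVec] at this
      exact this
  have key := main_abs (K := K) (V := ι → F) hQ (fun k v w => hsa k v w) h2 hr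
    (by rw [Module.finrank_fintype_fun_eq_card]; exact hd)
    (by rw [Module.finrank_fintype_fun_eq_card]; exact hnr)
    (by rw [Module.finrank_fintype_fun_eq_card]; exact heven)
  rw [← Subgroup.map_subtype_commutator] at key
  simp only [hsemi]
  constructor
  · intro M hM1 hM2
    rcases key.1 (M.map (OGrp Q).subtype) (Subgroup.map_mono hM1) (by
      rintro _ ⟨g, hg, rfl⟩ hs
      exact ⟨g, hM2 g hg hs, rfl⟩) with h | h
    · left
      intro g hg
      exact h _ ⟨g, hg, rfl⟩
    · right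
      exact (Subgroup.map_le_map_iff_of_injective (Subgroup.subtype_injective _)).1 h
  · obtain ⟨_, ⟨g, hg, rfl⟩, hs⟩ := key.2
    exact ⟨g, hg, hs⟩

set_option maxHeartbeats 2000000 in
theorem or_maximal [Finite F] {Q : QuadraticForm F (ι → F)} (hQ : (polarBilin Q).Nondegenerate) {r : ℕ}
    (K : Subalgebra F (Matrix ι ι F)) (hK : IsFieldSubalgebra r K) (hsa : IsSelfAdjointFor (QuadraticMap.polar Q) K)
    (h2 : (2 : F) ≠ 0) (hr : r.Prime) (hd : 13 ≤ Fintype.card ι) (hnr : 3 * r ≤ Fintype.card ι)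
    (heven : r = 2 → 14 ≤ Fintype.card ι) :
    IsMaximalIn (omegaGL ⇑Q) (subalgebraNormalizer K ⊓ omegaGL ⇑Q) := by
  have hι : Nonempty ι := by
    rw [← Fintype.card_pos_iff]
    omega
  have hfr : finrank F K = r := hK.finrank_eq
  have key := @or_alg ι _ _ F _ K (fieldOf hK) (inferInstanceAs (Algebra F K)) _ K.val Q hQ
    (fun k v w => hsa k k.2 v w) h2 (by
      have : finrank F K = r := hK.finrank_eq
      rw [this]
      exact hr) hd (by
      have : finrank F K = r := hK.finrank_eq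
      rw [this]
      exact hnr) (by
      have : finrank F K = r := hK.finrank_eq
      rw [this]
      exact heven)
  refine isMaximalIn_omegaGL Q (H' := (subalgebraNormalizer K).comap (emGL Q)) (fun g => Iff.rfl) ?_
  constructor
  · refine lt_of_le_of_ne inf_le_right ?_
    intro heq
    obtain ⟨g, hg, hg'⟩ := key.2
    apply hg'
    rw [← heq] at hg
    exact mem_normalizer_iff.1 hg.1
  · intro M hM1 hM2
    rcases key.1 M hM2 (fun g hg hs => hM1 ⟨mem_normalizer_iff.2 hs, hg⟩) with h | h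
    · left
      exact le_antisymm (fun g hg => ⟨mem_normalizer_iff.2 (h g hg), hM2 hg⟩) hM1
    · right
      exact le_antisymm hM2 h

end Cfsg.Agent.H98.Or
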