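import Mathlib
import Cfsg.Agent.H98.OrO
import Cfsg.Agent.Orth.Homs

set_option autoImplicit false
set_option linter.unusedSectionVars false
set_option linter.style.haveILetI false
set_option linter.unusedSimpArgs false
set_option linter.unusedVariables false
set_option maxHeartbeats 1000000

/-!
Extension fields in orthogonal groups, small dimensions: quadratic extensions, `ZZ H ≠ 0`.
-/

namespace Cfsg.Agent.H98.Or

open Module QuadraticMap Cfsg.Agent.H98.Ext Cfsg.Agent.Orth Cfsg.Agent.GeoMax.Ort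

section quad
variable {F K : Type*} [Field F] [Field K] [Algebra F K]

/-- the conjugation of a quadratic extension -/
lemma exists_conj [Finite K] (hr : finrank F K = 2) : ∃ σ : K →+* K, (∀ k, σ (σ k) = k) ∧
    (∀ k, algebraMap F K (Algebra.trace F K k) = k + σ k) ∧
    (∀ c : F, σ (algebraMap F K c) = algebraMap F K c) ∧
    ∀ c : F, ∃ k : K, k * σ k = algebraMap F K c := by
  have := fin_F F K
  have := fin_dim F K
  have := Fintype.ofFinite F
  obtain ⟨σ, hσ⟩ : ∃ σ : K →ₐ[F] K, ∀ k, σ k = k ^ Nat.card F :=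
    ⟨FiniteField.frobeniusAlgHom F K, fun k => by
      rw [FiniteField.coe_frobeniusAlgHom, Nat.card_eq_fintype_card]⟩
  have htr : ∀ k, algebraMap F K (Algebra.trace F K k) = k + σ k := by
    intro k
    rw [FiniteField.algebraMap_trace_eq_sum_pow, hr, Finset.sum_range_succ, Finset.sum_range_one,
      hσ]
    simp
  have hno : ∀ k, algebraMap F K (Algebra.norm F k) = k * σ k := by
    intro k
    rw [FiniteField.algebraMap_norm_eq_prod_pow, hr, Finset.prod_range_succ, Finset.prod_range_one,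
      hσ]
    simp
  refine ⟨(σ : K →+* K), ?_, htr, fun c => σ.commutes c, ?_⟩
  · intro k
    change σ (σ k) = k
    have h1 := σ.commutes (Algebra.trace F K k)
    rw [htr, map_add] at h1
    linear_combination h1
  · intro c
    obtain ⟨k, hk⟩ := FiniteField.norm_surjective F K c
    exact ⟨k, by rw [← hk]; exact (hno k).symm⟩

/-- skew maps of a quadratic extension -/
lemma skew_form [Finite K] (h2 : (2 : K) ≠ 0) {σ : K →+* K} (hσσ : ∀ k, σ (σ k) = k)
    (htr : ∀ k, algebraMap F K (Algebra.trace F K k) = k + σ k) {S : K →ₗ[F] K} (hS : Skew S)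
    (h0 : S ≠ 0) : S 1 ≠ 0 ∧ σ (S 1) = - S 1 ∧ ∀ k, S k = S 1 * σ k := by
  obtain ⟨ω, hω⟩ : ∃ ω, ω = S 1 := ⟨_, rfl⟩
  rw [← hω]
  have hA : ∀ k l, k * S l + l * S k + σ k * σ (S l) + σ l * σ (S k) = 0 := by
    intro k l
    have h1 := congrArg (algebraMap F K) (hS k l)
    rw [htr, map_zero, map_add, map_mul, map_mul] at h1
    linear_combination h1
  have hneg : σ ω = -ω := by
    have h1 := hA 1 1
    rw [map_one σ, ← hω] at h1
    have h3 : 2 * (σ ω + ω) = 0 := by linear_combination h1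
    linear_combination (mul_eq_zero.1 h3).resolve_left h2
  have h1 : ∀ k, σ (S k) = ω * σ k - k * ω - S k := by
    intro k
    have h3 := hA k 1
    rw [map_one σ, ← hω, hneg] at h3
    linear_combination h3
  have hform : ∀ k, S k = ω * σ k := by
    intro k
    have h3 := hA k k
    rw [h1] at h3
    have h4 : 2 * ((k - σ k) * (S k - ω * σ k)) = 0 := by linear_combination h3
    rcases mul_eq_zero.1 ((mul_eq_zero.1 h4).resolve_left h2) with h5 | h5
    · have h6 : k = algebraMap F K (Algebra.trace F K k / 2) := by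
        rw [map_div₀, htr, map_ofNat]
        have : σ k = k := by linear_combination -h5
        rw [this]
        field_simp
        ring
      have h7 : S k = (Algebra.trace F K k / 2) • S 1 := by
        rw [← map_smul, Algebra.smul_def, mul_one, ← h6]
      rw [h7, Algebra.smul_def, ← h6, ← hω]
      have : σ k = k := by linear_combination -h5
      rw [this, mul_comm]
    · linear_combination h5
  refine ⟨?_, hneg, hform⟩
  intro h5
  apply h0
  apply LinearMap.ext
  intro k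
  rw [hform, h5, zero_mul, LinearMap.zero_apply]

end quad

section
variable {F K X : Type*} [Field F] [Field K] [Algebra F K] [AddCommGroup X] [Module F X] [Module K X]
  [IsScalarTower F K X] {β : Bt K X} {Om H : Subgroup ((K × X × K) ≃ₗ[F] (K × X × K))}

/-- long root elements -/
lemma root_mem [Finite K] [Nontrivial X] (hy : Hyp β Om H) (hr : finrank F K = 2) {S : K →ₗ[F] K}
    (hS : S ∈ ZZ H) (h0 : S ≠ 0) {z : K × X × K} (hz : z ≠ 0) (hzs : be β z z = 0) :
    ∃ L ∈ H, ∀ v, L v = v + S (be β v z) • z := by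
  have h2 := hy.two
  have hsk := skew_of_ZZ hy hS
  obtain ⟨σ, hσσ, htr, hfix, hno⟩ := exists_conj (F := F) (K := K) hr
  obtain ⟨hω0, hneg, hform⟩ := skew_form h2 hσσ htr hsk h0
  obtain ⟨ω, hω⟩ : ∃ ω, ω = S 1 := ⟨_, rfl⟩
  rw [← hω] at hω0 hneg hform
  obtain ⟨a, ha, hL⟩ := exists_L hy hS hz hzs
  -- the set of coefficients
  obtain ⟨AS, hAS⟩ : ∃ AS : AddSubgroup K, ∀ s, s ∈ AS ↔
      ∃ L ∈ H, ∀ v, L v = v + (s * S (be β v z)) • z := by
    refine ⟨{ carrier := {s | ∃ L ∈ H, ∀ v, L v = v + (s * S (be β v z)) • z}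
              zero_mem' := ⟨1, H.one_mem, fun v => by rw [zero_mul, zero_smul, add_zero]; rfl⟩
              add_mem' := ?_
              neg_mem' := ?_ }, fun s => Iff.rfl⟩
    · rintro s s' ⟨L, hL, hLv⟩ ⟨L', hL', hLv'⟩
      refine ⟨L * L', H.mul_mem hL hL', fun v => ?_⟩
      rw [LinearEquiv.mul_apply, hLv', hLv, be_add_left, be_smul_left, hzs, mul_zero, add_zero]
      module
    · rintro s ⟨L, hL, hLv⟩
      refine ⟨L⁻¹, H.inv_mem hL, fun v => ?_⟩
      have h3 : L (v + (-s * S (be β v z)) • z) = v := by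
        rw [hLv, be_add_left, be_smul_left, hzs, mul_zero, add_zero]
        module
      conv_lhs => rw [← h3]
      exact LinearEquiv.symm_apply_apply L _
  have hmem : ∀ t : F, a * σ a * (algebraMap F K t * algebraMap F K t) ∈ AS := by
    intro t
    obtain ⟨c, hc⟩ := hno t
    by_cases hc0 : c = 0
    · rw [← hc, hc0]
      simp only [zero_mul, mul_zero]
      exact AS.zero_mem
    · obtain ⟨L, hLH, hLv⟩ := hL c hc0
      rw [hAS]
      refine ⟨L, hLH, fun v => ?_⟩
      rw [hLv, be_smul_right, smul_smul, hform, hform (be β v z), map_mul, map_mul, map_mul]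
      congr 2
      rw [← hc]
      ring
  obtain ⟨n, hn⟩ : ∃ n : F, algebraMap F K n = (a * σ a)⁻¹ := by
    have h3 : a * σ a = algebraMap F K (Algebra.trace F K (a * σ a) / 2) := by
      rw [map_div₀, htr, map_ofNat, map_mul, hσσ]
      field_simp
      ring
    refine ⟨(Algebra.trace F K (a * σ a) / 2)⁻¹, ?_⟩
    rw [map_inv₀, ← h3]
  have haa : a * σ a ≠ 0 := mul_ne_zero ha (by
    intro h
    apply ha
    rw [← hσσ a, h, map_zero])
  have h2F := two_F (F := F) h2
  have h1 : (1 : K) ∈ AS := by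
    have h3 := AS.sub_mem (hmem ((n + 1) / 2)) (hmem ((n - 1) / 2))
    convert h3 using 1
    rw [← mul_sub, ← map_mul, ← map_mul, ← map_sub, ← sq_sub h2F, hn, mul_inv_cancel₀ haa]
  rw [hAS] at h1
  obtain ⟨L, hLH, hLv⟩ := h1
  exact ⟨L, hLH, fun v => by rw [hLv, one_mul]⟩

/-- vectors of norm `-2 S(1)` -/
lemma key_x [Finite K] [Nontrivial X] (hy : Hyp β Om H) (hr : finrank F K = 2) {S : K →ₗ[F] K}
    (hS : S ∈ ZZ H) (h0 : S ≠ 0) {x : X} (hx : β.b x x = -2 * S 1) : S ∘ₗ bu F β x ∈ RR H := by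
  have h2 := hy.two
  have hsk := skew_of_ZZ hy hS
  obtain ⟨σ, hσσ, htr, hfix, hno⟩ := exists_conj (F := F) (K := K) hr
  obtain ⟨hω0, hneg, hform⟩ := skew_form h2 hσσ htr hsk h0
  obtain ⟨ω, hω⟩ : ∃ ω, ω = S 1 := ⟨_, rfl⟩
  rw [← hω] at hω0 hneg hform hx
  obtain ⟨z, hz⟩ : ∃ z : K × X × K, z = (1, x, ω) := ⟨_, rfl⟩
  obtain ⟨y, hyy⟩ : ∃ y : K × X × K, y = (0, 0, 1) := ⟨_, rfl⟩
  have hz0 : z ≠ 0 := by
    intro h
    rw [hz] at h
    exact one_ne_zero (congrArg Prod.fst h)
  have hy0 : y ≠ 0 := by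
    intro h
    rw [hyy] at h
    exact one_ne_zero (congrArg (fun t => t.2.2) h)
  have hzz : be β z z = 0 := by
    rw [hz]; unfold be
    simp only
    rw [hx]; ring
  have hyy' : be β y y = 0 := by
    rw [hyy]; unfold be
    simp
  obtain ⟨L, hLH, hLv⟩ := root_mem hy hr hS h0 hz0 hzz
  obtain ⟨T, hTH, hTv⟩ := root_mem hy hr hS h0 hy0 hyy'
  have hTv' : ∀ v : K × X × K, T v = (v.1, v.2.1, v.2.2 + S v.1) := by
    intro v
    rw [hTv, hyy]
    have : be β v ((0, 0, 1) : K × X × K) = v.1 := by unfold be; simp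
    rw [this]
    ext <;> simp
  have hTi : ∀ v : K × X × K, T⁻¹ v = (v.1, v.2.1, v.2.2 - S v.1) := by
    intro v
    have h3 : T (v.1, v.2.1, v.2.2 - S v.1) = v := by
      rw [hTv']
      ext <;> simp
    conv_lhs => rw [← h3]
    exact LinearEquiv.symm_apply_apply T _
  have hLi : ∀ v, L⁻¹ v = v - S (be β v z) • z := by
    intro v
    have h3 : L (v - S (be β v z) • z) = v := by
      rw [hLv, be_sub_left, be_smul_left, hzz, mul_zero, sub_zero]
      abel
    conv_lhs => rw [← h3]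
    exact LinearEquiv.symm_apply_apply L _
  obtain ⟨p, hp⟩ : ∃ p : K → K × X × K, ∀ c, p c = (c, c • x, c * ω + S c) := ⟨_, fun _ => rfl⟩
  obtain ⟨a₀, ha₀⟩ : ∃ a₀ : K × X × K → K, ∀ v, a₀ v = S (v.1 * ω + (v.2.2 - S v.1) + β.b v.2.1 x) :=
    ⟨_, fun _ => rfl⟩
  have hTz : ∀ c : K, T (c • z) = p c := by
    intro c
    rw [hTv', hp, hz]
    simp
  have ha₀' : ∀ v, S (be β (T⁻¹ v) z) = a₀ v := by
    intro v
    rw [ha₀, hTi, hz]
    congr 1
    unfold be
    simp
  obtain ⟨A, hA⟩ : ∃ A, A = T * L * T⁻¹ := ⟨_, rfl⟩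
  have hAH : A ∈ H := by rw [hA]; exact H.mul_mem (H.mul_mem hTH hLH) (H.inv_mem hTH)
  have hTT : ∀ v, T (T⁻¹ v) = v := fun v => LinearEquiv.apply_symm_apply T v
  have hAv : ∀ v, A v = v + p (a₀ v) := by
    intro v
    rw [hA, LinearEquiv.mul_apply, LinearEquiv.mul_apply, hLv, map_add, hTT, ha₀', hTz]
  have hAi : ∀ v, A⁻¹ v = v - p (a₀ v) := by
    intro v
    have e : A⁻¹ = T * L⁻¹ * T⁻¹ := by rw [hA]; group
    rw [e, LinearEquiv.mul_apply, LinearEquiv.mul_apply, hLi, map_sub, hTT, ha₀', hTz]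
  obtain ⟨D, hD⟩ : ∃ D, D = A * R 0 0 S * A⁻¹ := ⟨_, rfl⟩
  have hDH : D ∈ H := by
    rw [hD]; exact H.mul_mem (H.mul_mem hAH (mem_ZZ.1 hS)) (H.inv_mem hAH)
  have hRv : ∀ v : K × X × K, R (0 : X →ₗ[F] K) 0 S v = v + (S v.2.2, 0, 0) := by
    intro v
    rw [R_apply]
    ext <;> simp
  have hDv : ∀ v : K × X × K, v.2.2 = 0 → D v = v + (ω * ω * (a₀ v + σ (a₀ v)), 0, 0) := by
    intro v hv
    have e1 : S ((v - p (a₀ v)).2.2) = ω * ω * (a₀ v + σ (a₀ v)) := by
      have : (v - p (a₀ v)).2.2 = -(a₀ v * ω + S (a₀ v)) := by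
        rw [hp]
        simp [hv]
      rw [this, hform, hform (a₀ v)]
      simp only [map_neg, map_add, map_mul, hneg, hσσ]
      ring
    have e2 : a₀ ((ω * ω * (a₀ v + σ (a₀ v)), 0, 0) : K × X × K) = 0 := by
      rw [ha₀]
      have e4 : ω * ω * (a₀ v + σ (a₀ v)) * ω + ((0 : K) - S (ω * ω * (a₀ v + σ (a₀ v)))) +
          β.b (0 : X) x = 0 := by
        rw [hform (ω * ω * (a₀ v + σ (a₀ v))), map_zero, LinearMap.zero_apply]
        simp only [map_mul, map_add, hneg, hσσ]
        ring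
      rw [e4, map_zero]
    have e3 : p 0 = 0 := by
      rw [hp]
      ext <;> simp
    rw [hD, LinearEquiv.mul_apply, LinearEquiv.mul_apply, hRv, map_add, hAi, ← hAi v]
    rw [show A (A⁻¹ v) = v from LinearEquiv.apply_symm_apply A v, hAi, e1, hAv, e2, e3, add_zero]
  obtain ⟨f, g, S', hR⟩ := exists_R (hy.iso hDH) (by
    intro c
    rw [hDv _ rfl, ha₀]
    simp only [zero_sub, map_zero, LinearMap.zero_apply, add_zero]
    have : S (c * ω + -S c) + σ (S (c * ω + -S c)) = 0 := by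
      rw [hform (c * ω + -S c), hform c]
      simp only [map_mul, map_add, map_neg, hneg, hσσ]
      ring
    rw [this, mul_zero]
    ext <;> simp) (by
    intro x'
    rw [hDv _ rfl]
    simp)
  have hf : ∀ x', f x' = ω * ω * (ω * (σ (β.b x' x) - β.b x' x)) := by
    intro x'
    have h3 : (D (0, x', 0)).1 = f x' := by
      rw [hR, R_apply]
      simp
    rw [← h3, hDv _ rfl, ha₀]
    simp only [zero_mul, map_zero, sub_zero, zero_add, Prod.fst_add]
    rw [hform]
    simp only [map_mul, hneg, hσσ]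
    ring
  have hfR : f ∈ RR H := ⟨g, S', by rw [← hR]; exact hDH⟩
  have h5 := (RR H).add_mem hfR (hy.smul_RR (ω * ω * ω) (hy.bu_mem_RR x))
  have h6 := hy.smul_RR (ω * ω)⁻¹ h5
  convert h6 using 1
  apply LinearMap.ext
  intro x'
  simp only [LinearMap.comp_apply, LinearMap.add_apply, LinearMap.mulLeft_apply, bu_apply, hf,
    hform]
  field_simp
  ring

end

end Cfsg.Agent.H98.Or
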