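import Mathlib
import Cfsg.Agent.H98.Or2A

set_option autoImplicit false
set_option linter.unusedSectionVars false
set_option linter.style.haveILetI false
set_option linter.unusedSimpArgs false
set_option linter.unusedVariables false
set_option maxHeartbeats 1000000

/-!
Extension fields in orthogonal groups, small dimensions: the main theorem.
-/

namespace Cfsg.Agent.H98.Or

open Module QuadraticMap Cfsg.Agent.H98.Ext Cfsg.Agent.Orth Cfsg.Agent.GeoMax.Ort

section
variable {F K X : Type*} [Field F] [Field K] [Algebra F K] [AddCommGroup X] [Module F X] [Module K X]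
  [IsScalarTower F K X] {β : Bt K X} {Om H : Subgroup ((K × X × K) ≃ₗ[F] (K × X × K))}

/-- Vectors of a given norm span. -/
lemma span_norm [Finite K] [Finite X] (h2 : (2 : K) ≠ 0) (hK : 3 < Nat.card K) (β : Bt K X)
    (hd : 2 ≤ finrank K X) {c : K} (hc : c ≠ 0)
    (P : Submodule K X) (hP : ∀ u, β.b u u = c → u ∈ P) : P = ⊤ := by
  have : FiniteDimensional K X := Module.Finite.of_finite
  by_contra hne
  obtain ⟨f, hf, hfP⟩ := Submodule.exists_le_ker_of_lt_top P (lt_top_iff_ne_top.2 hne)
  have hfP' : ∀ x, β.b x x = c → f x = 0 := fun x hx => LinearMap.mem_ker.1 (hfP (hP x hx))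
  obtain ⟨y, hy⟩ : ∃ y, f y ≠ 0 := by
    by_contra hcon
    push Not at hcon
    exact hf (LinearMap.ext hcon)
  let QX : QuadraticForm K X := LinearMap.BilinMap.toQuadraticMap ((2⁻¹ : K) • β.b)
  have hpol : ∀ x y, polar QX x y = β.b x y := by
    intro x y
    rw [LinearMap.BilinMap.polar_toQuadraticMap]
    simp only [LinearMap.smul_apply, smul_eq_mul]
    rw [β.symm y x]
    field_simp
    ring
  have hQX : ∀ x, QX x = 2⁻¹ * β.b x x := fun x => rfl
  have hnd : (polarBilin QX).Nondegenerate := by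
    constructor
    · intro x hx
      apply β.nd
      intro y
      rw [← hpol]
      exact hx y
    · intro x hx
      apply β.nd
      intro y
      rw [← hpol, pc]
      exact hx y
  obtain ⟨x, hx⟩ := exists_q_eq hnd hd (2⁻¹ * c)
  rw [hQX] at hx
  have hxx : β.b x x = c := mul_left_cancel₀ (inv_ne_zero h2) hx
  obtain ⟨t, ht⟩ : ∃ t, t = β.b x y := ⟨_, rfl⟩
  obtain ⟨d, hdd⟩ : ∃ d, d = β.b y y := ⟨_, rfl⟩
  obtain ⟨s, hs⟩ : ∃ s : K, (c * s + t) * (c * s ^ 2 + (2 * t) * s + d) ≠ 0 := by
    obtain ⟨p, hp⟩ : ∃ p : Polynomial K, p = (Polynomial.C c * Polynomial.X + Polynomial.C t) *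
        (Polynomial.C c * Polynomial.X ^ 2 + Polynomial.C (2 * t) * Polynomial.X +
          Polynomial.C d) := ⟨_, rfl⟩
    have hp0 : p ≠ 0 := by
      rw [hp]
      apply mul_ne_zero
      · intro h
        have := congrArg (fun p => Polynomial.coeff p 1) h
        simp at this
        exact hc this
      · intro h
        have := congrArg (fun p => Polynomial.coeff p 2) h
        simp [Polynomial.coeff_X] at this
        exact hc this
    have hdeg : p.natDegree ≤ 1 + 2 := by
      rw [hp]
      refine Polynomial.natDegree_mul_le.trans (add_le_add ?_ ?_)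
      · compute_degree
      · compute_degree
    have := Fintype.ofFinite K
    obtain ⟨s, hs⟩ := Polynomial.exists_eval_ne_zero_of_natDegree_lt_card p hp0 (by
      rw [Cardinal.mk_fintype, ← Nat.card_eq_fintype_card]
      exact_mod_cast (lt_of_le_of_lt hdeg hK))
    refine ⟨s, ?_⟩
    rw [hp, Polynomial.eval_mul] at hs
    simpa using hs
  obtain ⟨v, hv⟩ : ∃ v, v = s • x + y := ⟨_, rfl⟩
  have hxv : β.b x v = c * s + t := by
    rw [hv, map_add, map_smul, hxx, smul_eq_mul, ht]; ring
  have hvv : β.b v v = c * s ^ 2 + (2 * t) * s + d := by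
    rw [hv]
    simp only [map_add, map_smul, LinearMap.add_apply, LinearMap.smul_apply, smul_eq_mul, hxx,
      β.symm y x, ← ht, ← hdd]
    ring
  rw [← hxv, ← hvv] at hs
  have hxv0 := left_ne_zero_of_mul hs
  have hvv0 := right_ne_zero_of_mul hs
  have h3 := hfP' (x - (2 * β.b x v / β.b v v) • v) (by
    simp only [map_sub, map_smul, LinearMap.sub_apply, LinearMap.smul_apply, smul_eq_mul, hxx,
      β.symm v x]
    field_simp
    ring)
  have hfv : f v = f y := by
    rw [hv, map_add, map_smul, hfP' x hxx, smul_zero, zero_add]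
  rw [map_sub, hfP' x hxx, zero_sub, neg_eq_zero, map_smul, smul_eq_mul, hfv] at h3
  rcases mul_eq_zero.1 h3 with h4 | h4
  · rw [div_eq_zero_iff] at h4
    rcases h4 with h4 | h4
    · exact hxv0 ((mul_eq_zero.1 h4).resolve_left h2)
    · exact hvv0 h4
  · exact hy h4

theorem RR_of_two' [Finite K] [Finite X] [Nontrivial X] (hy : Hyp β Om H) (hr : finrank F K = 2)
    (hd : 2 ≤ finrank K X) {S : K →ₗ[F] K} (hS : S ∈ ZZ H) (hS0 : S ≠ 0) (f : X →ₗ[F] K) :
    f ∈ RR H := by
  have h2 := hy.two
  have hsk := skew_of_ZZ hy hS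
  have := fin_F F K
  have := fin_dim F K
  obtain ⟨σ, hσσ, htr, hfix, hno⟩ := exists_conj (F := F) (K := K) hr
  obtain ⟨hω0, hneg, hform⟩ := skew_form h2 hσσ htr hsk hS0
  have hK : 3 < Nat.card K := by
    rw [Module.natCard_eq_pow_finrank (K := F) (V := K), hr]
    have : 2 ≤ Nat.card F := Finite.one_lt_card
    have h2F := two_F (F := F) h2
    have h3 : Nat.card F ≠ 2 := by
      intro h3
      apply h2F
      have := Fintype.ofFinite F
      rw [Nat.card_eq_fintype_card] at h3
      have := FiniteField.cast_card_eq_zero F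
      rw [h3] at this
      exact_mod_cast this
    have h4 : 3 ≤ Nat.card F := by omega
    nlinarith
  let P : Submodule K X :=
    { carrier := {u | S ∘ₗ bu F β u ∈ RR H}
      add_mem' := by
        intro u u' hu hu'
        have e : S ∘ₗ bu F β (u + u') = S ∘ₗ bu F β u + S ∘ₗ bu F β u' := by
          apply LinearMap.ext
          intro x
          simp [bu_apply]
        change S ∘ₗ bu F β (u + u') ∈ RR H
        rw [e]
        exact (RR H).add_mem hu hu'
      zero_mem' := by
        have e : S ∘ₗ bu F β (0 : X) = 0 := by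
          apply LinearMap.ext
          intro x
          simp [bu_apply]
        change S ∘ₗ bu F β (0 : X) ∈ RR H
        rw [e]
        exact (RR H).zero_mem
      smul_mem' := by
        intro c u hu
        have e : S ∘ₗ bu F β (c • u) = mu F (σ c) ∘ₗ (S ∘ₗ bu F β u) := by
          apply LinearMap.ext
          intro x
          simp only [LinearMap.comp_apply, bu_apply, map_smul, smul_eq_mul, LinearMap.mulLeft_apply]
          rw [hform, hform (β.b x u), map_mul]
          ring
        change S ∘ₗ bu F β (c • u) ∈ RR H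
        rw [e]
        exact hy.smul_RR _ hu }
  have hP : P = ⊤ := by
    apply span_norm h2 hK β hd (c := -2 * S 1) (mul_ne_zero (neg_ne_zero.2 h2) hω0)
    intro u hu
    exact key_x hy hr hS hS0 hu
  have h3 : ∀ u, S ∘ₗ bu F β u ∈ RR H := by
    intro u
    have : u ∈ P := by rw [hP]; trivial
    exact this
  -- conclusion
  have : FiniteDimensional K X := Module.Finite.of_finite
  let b := Module.finBasis K X
  let y : Fin (finrank K X) → (K →ₗ[F] K) := fun j =>
    f ∘ₗ ((LinearMap.toSpanSingleton K X (b j)).restrictScalars F)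
  have h1 : f = ∑ j, (y j) ∘ₗ ((b.coord j).restrictScalars F) := by
    ext x
    simp only [LinearMap.sum_apply, LinearMap.comp_apply, LinearMap.restrictScalars_apply, y,
      LinearMap.toSpanSingleton_apply, Module.Basis.coord_apply]
    rw [← map_sum, b.sum_repr]
  rw [h1]
  apply AddSubgroup.sum_mem
  intro j _
  obtain ⟨c, d, hcd⟩ := exists_cd h2 hr hsk hS0 (y j)
  obtain ⟨u, hu⟩ := exists_bu (β := β) (b.coord j)
  have e : (y j) ∘ₗ ((b.coord j).restrictScalars F) = mu F c ∘ₗ bu F β u + mu F d ∘ₗ (S ∘ₗ bu F β u) := by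
    apply LinearMap.ext
    intro x
    rw [LinearMap.comp_apply, LinearMap.restrictScalars_apply, hu, hcd]
    rfl
  rw [e]
  exact (RR H).add_mem (hy.smul_RR c (hy.bu_mem_RR u)) (hy.smul_RR d (h3 u))

variable {Q : QuadraticForm F (K × X × K)}

theorem model_main' [Finite K] [Finite X] [Nontrivial X] (hp : ∀ v w, polar Q v w = tf F β v w) (h2 : (2 : K) ≠ 0)
    (hr : (finrank F K).Prime) (hd : 7 ≤ finrank F (K × X × K)) (hX : 3 ≤ finrank F X)
    (h5 : finrank F K = 2 → 2 ≤ finrank K X) : Concl K ⁅OGrp Q, OGrp Q⁆ := by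
  have := fin_F F K
  have := fin_dim F K
  have : FiniteDimensional F (K × X × K) := Module.Finite.of_finite
  have h2F := two_F (F := F) h2
  have hnd := nd_of_hp hp
  obtain ⟨p, hpp, hpc⟩ : ∃ p : ℕ, Nat.Prime p ∧ CharP F p := by
    obtain ⟨p, hp⟩ := CharP.exists F
    exact ⟨p, (CharP.char_is_prime_or_zero F p).resolve_right (CharP.char_ne_zero_of_finite F p), hp⟩
  have hpf : Fact p.Prime := ⟨hpp⟩
  have hp2 : 2 < p := by
    refine lt_of_le_of_ne hpp.two_le ?_
    rintro rfl
    exact h2F (CharP.cast_eq_zero F 2)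
  have hpF : p ≤ Nat.card F := by
    have hfF' := Fintype.ofFinite F
    rw [Nat.card_eq_fintype_card]
    obtain ⟨n, -, hn⟩ := FiniteField.card F p
    rw [hn]
    exact Nat.le_self_pow n.ne_zero p
  have hXc : p ^ 2 < Nat.card X := by
    have : FiniteDimensional F X := Module.Finite.of_finite
    rw [Module.natCard_eq_pow_finrank (K := F) (V := X)]
    calc p ^ 2 < p ^ 3 := Nat.pow_lt_pow_right hpp.one_lt (by norm_num)
      _ ≤ Nat.card F ^ 3 := Nat.pow_le_pow_left hpF 3
      _ ≤ Nat.card F ^ finrank F X := Nat.pow_le_pow_right Nat.card_pos hX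
  have hle : ⁅OGrp Q, OGrp Q⁆ ≤ OGrp Q := Subgroup.commutator_le_self _
  have hsq : ∀ g ∈ iso F β, g * g ∈ ⁅OGrp Q, OGrp Q⁆ := by
    intro g hg
    have hgO : g ∈ OGrp Q := by
      intro v
      have h1 : ∀ v, 2 * Q v = tf F β v v := fun v => by rw [← pself, hp]
      have h3 : 2 * Q (g v) = 2 * Q v := by rw [h1, h1, (mem_iso.1 hg) v v]
      exact mul_left_cancel₀ h2F h3
    have h1 := mul_self_mem_commutator hnd ⟨g, hgO⟩
    rw [← Subgroup.map_subtype_commutator]
    exact ⟨_, h1, rfl⟩
  have hhyp : ∀ H ≤ ⁅OGrp Q, OGrp Q⁆, (∀ g ∈ ⁅OGrp Q, OGrp Q⁆, Semi K g → g ∈ H) → Hyp β ⁅OGrp Q, OGrp Q⁆ H := by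
    intro H hH1 hH2
    exact ⟨h2, fun g hg => iso_of_OGrp hp (hle hg), hsq, hH1, hH2⟩
  constructor
  · intro H hH1 hH2
    have hy := hhyp H hH1 hH2
    have hA : (∀ f : X →ₗ[F] K, f ∈ RR H) → ⁅OGrp Q, OGrp Q⁆ ≤ H := by
      intro hRR
      have := caseA hp (hH1.trans hle) hy hRR hd
      rwa [Subgroup.map_subtype_commutator] at this
    by_cases hZ : ∀ S ∈ ZZ H, S = 0
    · left
      intro h hh
      exact semi_of_ZZ hy hZ hp2 hr.two_le hXc hh
    · right
      push Not at hZ
      obtain ⟨S, hS, hS0⟩ := hZ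
      rcases hr.eq_two_or_odd' with h | h
      · exact hA (RR_of_two' hy h (h5 h) hS hS0)
      · rcases dich hy hr with h3 | h3
        · exact hA h3
        · exact absurd (ZZ_zero hy hp2 hr h h3 S hS) hS0
  · have hy := hhyp _ le_rfl (fun g hg _ => hg)
    obtain ⟨a, b, hab⟩ := exists_skew (F := F) (K := K) hr.ne_one
    have hsk : Skew (wm F a b) := skew_wm a b
    refine ⟨R 0 0 (wm F a b), hy.R_mem_Om (R_mem_iso ⟨?_, ?_⟩), ?_⟩
    · intro k x; simp
    · intro k l
      have := hsk k l
      simpa using this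
    · intro hs
      obtain ⟨k, hk⟩ := skew_nonlin h2 hsk hab (c := wm F a b 1)
      apply hk
      obtain ⟨k', hk'⟩ := hs k
      have e1 := hk' (1, 0, 0)
      rw [R_apply, R_apply] at e1
      have e1' := congrArg Prod.fst e1
      simp at e1'
      have e2 := hk' (0, 0, 1)
      rw [R_apply, R_apply] at e2
      have e2' := congrArg Prod.fst e2
      simp at e2'
      rw [e2', e1', mul_comm]

end

end Cfsg.Agent.H98.Or
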