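import Mathlib
import Cfsg.Agent.H98.Or2B
import Cfsg.Agent.GeoMax.OTransport

set_option autoImplicit false
set_option linter.unusedSectionVars false
set_option linter.style.haveILetI false
set_option linter.unusedSimpArgs false

/-!
Extension fields in orthogonal groups, dimension at least seven.
-/

namespace Cfsg.Agent.H98.Or

open Module QuadraticMap Cfsg.Agent.H98.Ext Cfsg.Agent.Orth Cfsg.Agent.GeoMax.Ort Matrix Cfsg.Geo
open Cfsg.Agent.AschCases
open scoped MatrixGroups

section

variable {F K V : Type*} [Field F] [Field K] [Algebra F K] [AddCommGroup V] [Module F V] [Module K V]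
  [IsScalarTower F K V] {Q : QuadraticForm F V}

theorem main_abs' [Finite K] [Finite V] (hQ : (polarBilin Q).Nondegenerate)
    (hsa : ∀ (k : K) v w, polar Q (k • v) w = polar Q v (k • w)) (h2 : (2 : F) ≠ 0)
    (hr : (finrank F K).Prime) (hd : 7 ≤ finrank F V) (hnr : 3 * finrank F K ≤ finrank F V)
    (heven : finrank F K = 2 → 8 ≤ finrank F V) : Concl K ⁅OGrp Q, OGrp Q⁆ := by
  have := fin_F F K
  have := fin_dim F K
  have : FiniteDimensional K V := Module.Finite.of_finite
  have : FiniteDimensional F V := Module.Finite.of_finite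
  have h2K : (2 : K) ≠ 0 := by
    intro h
    apply h2
    apply (algebraMap F K).injective
    rw [map_zero, map_ofNat, h]
  obtain ⟨B, hBt, hBs⟩ := exists_kform hsa
  have hBnd : ∀ v, (∀ w, B v w = 0) → v = 0 := by
    intro v hv
    apply hQ.1
    intro w
    rw [pbil, ← hBt, hv, map_zero]
  have hmul : finrank F K * finrank K V = finrank F V := Module.finrank_mul_finrank F K V
  have hdK : 3 ≤ finrank K V := by
    by_contra hcon
    push Not at hcon
    have h0 := hr.pos
    have : finrank F K * finrank K V ≤ finrank F K * 2 := Nat.mul_le_mul_left _ (by omega)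
    omega
  -- a singular vector
  let QK : QuadraticForm K V := LinearMap.BilinMap.toQuadraticMap ((2⁻¹ : K) • B)
  have hQK : ∀ x, QK x = 2⁻¹ * B x x := fun x => rfl
  obtain ⟨e, he0, he⟩ := exists_sing QK hdK
  rw [hQK] at he
  have hee : B e e = 0 := (mul_eq_zero.1 he).resolve_left (inv_ne_zero h2K)
  obtain ⟨f₀, hf₀⟩ : ∃ f, B e f ≠ 0 := by
    by_contra hcon
    push Not at hcon
    exact he0 (hBnd e hcon)
  obtain ⟨f, hf⟩ : ∃ f, B e f = 1 := ⟨(B e f₀)⁻¹ • f₀, by rw [map_smul, smul_eq_mul, inv_mul_cancel₀ hf₀]⟩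
  obtain ⟨e', hee', he'e'⟩ : ∃ e', B e e' = 1 ∧ B e' e' = 0 := by
    refine ⟨f - (B f f / 2) • e, ?_, ?_⟩
    · rw [map_sub, map_smul, hee, smul_zero, sub_zero, hf]
    · simp only [map_sub, map_smul, LinearMap.sub_apply, LinearMap.smul_apply, hee, hf, hBs f e, smul_eq_mul]
      field_simp
      ring
  have he'e : B e' e = 1 := by rw [hBs]; exact hee'
  let X : Submodule K V := LinearMap.ker (B e) ⊓ LinearMap.ker (B e')
  have hX : ∀ x : X, B e x = 0 ∧ B e' x = 0 := fun x => ⟨x.2.1, x.2.2⟩
  have hX' : ∀ x : X, B x e = 0 ∧ B x e' = 0 := fun x => by rw [hBs _ e, hBs _ e']; exact hX x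
  have hXm : ∀ v : V, v - B v e' • e - B v e • e' ∈ X := by
    intro v
    constructor
    · change B e (v - B v e' • e - B v e • e') = 0
      simp only [map_sub, map_smul, hee, hee', smul_eq_mul, hBs e v]
      ring
    · change B e' (v - B v e' • e - B v e • e') = 0
      simp only [map_sub, map_smul, he'e, he'e', smul_eq_mul, hBs e' v]
      ring
  let φ : V ≃ₗ[K] (K × X × K) :=
    { toFun := fun v => (B v e', ⟨v - B v e' • e - B v e • e', hXm v⟩, B v e)
      map_add' := by
        intro v w
        refine Prod.ext (by simp) (Prod.ext (Subtype.ext ?_) (by simp))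
        simp only [map_add, LinearMap.add_apply, add_smul, Prod.snd_add, Prod.fst_add, Submodule.coe_add]
        abel
      map_smul' := by
        intro c v
        refine Prod.ext (by simp) (Prod.ext (Subtype.ext ?_) (by simp))
        simp only [map_smul, LinearMap.smul_apply, smul_eq_mul, mul_smul, Prod.smul_snd, Prod.smul_fst,
          RingHom.id_apply, Submodule.coe_smul, smul_sub]
      invFun := fun t => t.1 • e + t.2.1 + t.2.2 • e'
      left_inv := by
        intro v
        simp only
        abel
      right_inv := by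
        rintro ⟨a, x, b⟩
        have e1 : B (a • e + (x : V) + b • e') e' = a := by
          simp only [map_add, map_smul, LinearMap.add_apply, LinearMap.smul_apply, hee', he'e', (hX' x).2, smul_eq_mul]
          ring
        have e2 : B (a • e + (x : V) + b • e') e = b := by
          simp only [map_add, map_smul, LinearMap.add_apply, LinearMap.smul_apply, hee, he'e, (hX' x).1, smul_eq_mul]
          ring
        refine Prod.ext e1 (Prod.ext (Subtype.ext ?_) e2)
        simp only [e1, e2]
        abel }
  have hφs : ∀ t : K × X × K, φ.symm t = t.1 • e + t.2.1 + t.2.2 • e' := fun t => rfl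
  let β : Bt K X :=
    { b := (B.domRestrict X).compl₂ X.subtype
      symm := fun x y => hBs _ _
      nd := by
        intro x hx
        apply Subtype.ext
        apply hBnd
        intro w
        have e1 : w = B w e' • e + (w - B w e' • e - B w e • e') + B w e • e' := by abel
        have e2 := hx ⟨w - B w e' • e - B w e • e', hXm w⟩
        change B x (w - B w e' • e - B w e • e') = 0 at e2
        rw [e1, map_add, map_add, map_smul, map_smul, (hX' x).1, (hX' x).2, e2]
        simp }
  have hβ : ∀ x y : X, β.b x y = B x y := fun x y => rfl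
  have hbe : ∀ s t : K × X × K, be β s t = B (φ.symm s) (φ.symm t) := by
    intro s t
    unfold be
    rw [hφs, hφs, hβ]
    simp only [map_add, map_smul, LinearMap.add_apply, LinearMap.smul_apply, hee, hee', he'e, he'e',
      (hX _).1, (hX _).2, (hX' _).1, (hX' _).2, smul_eq_mul]
    ring
  let Q' : QuadraticForm F (K × X × K) := Q.comp (φ.symm.restrictScalars F : (K × X × K) →ₗ[F] V)
  have hQ' : ∀ t, Q' t = Q (φ.symm t) := fun t => rfl
  have hp : ∀ s t, polar Q' s t = tf F β s t := by
    intro s t
    unfold tf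
    rw [hbe, hBt]
    simp only [polar, hQ', map_add]
  have hfX : finrank K V = finrank K X + 2 := by
    rw [φ.finrank_eq, finrank_prod, finrank_prod, finrank_self]
    ring
  have hXpos : 0 < finrank K X := by omega
  have hXnt : Nontrivial X := Module.nontrivial_of_finrank_pos hXpos
  have hFX : finrank F X = finrank F V - 2 * finrank F K := by
    have h1 : finrank F K * finrank K X = finrank F X := Module.finrank_mul_finrank F K X
    rw [← h1, ← hmul, hfX, Nat.mul_add]
    omega
  have hr2 := hr.two_le
  have hX3 : 3 ≤ finrank F X := by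
    by_cases h : finrank F K = 2
    · have := heven h
      omega
    · omega
  have key := model_main' hp h2K hr (by
      rw [← (φ.restrictScalars F).finrank_eq]; exact hd) hX3 (by
      intro h
      have h14 := heven h
      rw [h, hfX] at hmul
      omega)
  refine concl_transport φ ?_ key
  ext g
  constructor
  · rintro ⟨h, hh, rfl⟩
    intro t
    rw [hQ', hQ', Ext.cj_apply, LinearEquiv.symm_symm, LinearEquiv.symm_apply_apply]
    exact hh _
  · intro hg
    refine ⟨Ext.cj φ g, ?_, ?_⟩
    · intro v
      have := hg (φ v)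
      rw [hQ', hQ', LinearEquiv.symm_apply_apply] at this
      rw [Ext.cj_apply]
      exact this
    · exact cj_symm' φ g

end

variable {ι : Type} [Fintype ι] [DecidableEq ι] {F : Type*} [Field F]

theorem or_alg' {K : Type*} [Field K] [Algebra F K] [Finite F] (φ : K →ₐ[F] Matrix ι ι F)
    {Q : QuadraticForm F (ι → F)} (hQ : (polarBilin Q).Nondegenerate)
    (hsa : ∀ (k : K) v w, polar Q (φ k *ᵥ v) w = polar Q v (φ k *ᵥ w)) (h2 : (2 : F) ≠ 0)
    (hr : (finrank F K).Prime) (hd : 7 ≤ Fintype.card ι) (hnr : 3 * finrank F K ≤ Fintype.card ι)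
    (heven : finrank F K = 2 → 8 ≤ Fintype.card ι) :
    (∀ M : Subgroup (OGrp Q), M ≤ commutator (OGrp Q) →
      (∀ g ∈ commutator (OGrp Q), (∀ k : K, ∃ k' : K, (emGL Q g : Matrix ι ι F) * φ k = φ k' * (emGL Q g : Matrix ι ι F))
        → g ∈ M) →
      (∀ g ∈ M, ∀ k : K, ∃ k' : K, (emGL Q g : Matrix ι ι F) * φ k = φ k' * (emGL Q g : Matrix ι ι F)) ∨
        commutator (OGrp Q) ≤ M) ∧
    ∃ g ∈ commutator (OGrp Q), ¬ ∀ k : K, ∃ k' : K, (emGL Q g : Matrix ι ι F) * φ k = φ k' * (emGL Q g : Matrix ι ι F) := by
  classical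
  letI : Module K (ι → F) := Module.compHom (ι → F)
    (((Matrix.toLinAlgEquiv' : Matrix ι ι F ≃ₐ[F] _).toAlgHom.comp φ : K →ₐ[F] _) : K →+* Module.End F (ι → F))
  have hsm : ∀ (k : K) (v : ι → F), k • v = φ k *ᵥ v := fun k v => rfl
  have htower : IsScalarTower F K (ι → F) := by
    refine ⟨fun c k v => ?_⟩
    rw [hsm, hsm, map_smul, Matrix.smul_mulVec]
  have : FiniteDimensional F K := FiniteDimensional.of_finrank_pos hr.pos
  have hfinK : Finite K := Module.finite_of_finite F
  have hsemi : ∀ g : OGrp Q, (∀ k : K, ∃ k' : K, (emGL Q g : Matrix ι ι F) * φ k = φ k' * (emGL Q g : Matrix ι ι F)) ↔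
      Semi K (g : (ι → F) ≃ₗ[F] (ι → F)) := by
    intro g
    constructor
    · intro hg k
      obtain ⟨k', hk'⟩ := hg k
      refine ⟨k', fun v => ?_⟩
      rw [← emGL_mulVec, ← emGL_mulVec, hsm, hsm, Matrix.mulVec_mulVec, Matrix.mulVec_mulVec, hk']
    · intro hg k
      obtain ⟨k', hk'⟩ := hg k
      refine ⟨k', ?_⟩
      apply Matrix.toLin'.injective
      apply LinearMap.ext
      intro v
      have := hk' v
      rw [← emGL_mulVec, ← emGL_mulVec, hsm, hsm, Matrix.mulVec_mulVec, Matrix.mulVec_mulVec] at this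
      exact this
  have key := main_abs' (K := K) (V := ι → F) hQ (fun k v w => hsa k v w) h2 hr
    (by rw [Module.finrank_fintype_fun_eq_card]; exact hd)
    (by rw [Module.finrank_fintype_fun_eq_card]; exact hnr)
    (by rw [Module.finrank_fintype_fun_eq_card]; exact heven)
  rw [← Subgroup.map_subtype_commutator] at key
  simp only [hsemi]
  constructor
  · intro M hM1 hM2
    rcases key.1 (M.map (OGrp Q).subtype) (Subgroup.map_mono hM1) (by
      rintro _ ⟨g, hg, rfl⟩ hs
      exact ⟨g, hM2 g hg hs, rfl⟩) with h | h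
    · left
      intro g hg
      exact h _ ⟨g, hg, rfl⟩
    · right
      exact (Subgroup.map_le_map_iff_of_injective (Subgroup.subtype_injective _)).1 h
  · obtain ⟨_, ⟨g, hg, rfl⟩, hs⟩ := key.2
    exact ⟨g, hg, hs⟩

set_option maxHeartbeats 2000000 in
theorem or_maximal_low [Finite F] {Q : QuadraticForm F (ι → F)} (hQ : (polarBilin Q).Nondegenerate) {r : ℕ}
    (K : Subalgebra F (Matrix ι ι F)) (hK : IsFieldSubalgebra r K) (hsa : IsSelfAdjointFor (QuadraticMap.polar Q) K)
    (h2 : (2 : F) ≠ 0) (hr : r.Prime) (hd : 7 ≤ Fintype.card ι) (hnr : 3 * r ≤ Fintype.card ι)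
    (heven : r = 2 → 8 ≤ Fintype.card ι) :
    IsMaximalIn (omegaGL ⇑Q) (subalgebraNormalizer K ⊓ omegaGL ⇑Q) := by
  have hι : Nonempty ι := by
    rw [← Fintype.card_pos_iff]
    omega
  have hfr : finrank F K = r := hK.finrank_eq
  have key := @or_alg' ι _ _ F _ K (fieldOf hK) (inferInstanceAs (Algebra F K)) _ K.val Q hQ
    (fun k v w => hsa k k.2 v w) h2 (by
      have : finrank F K = r := hK.finrank_eq
      rw [this]
      exact hr) hd (by
      have : finrank F K = r := hK.finrank_eq
      rw [this]
      exact hnr) (by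
      have : finrank F K = r := hK.finrank_eq
      rw [this]
      exact heven)
  refine isMaximalIn_omegaGL Q (H' := (subalgebraNormalizer K).comap (emGL Q)) (fun g => Iff.rfl) ?_
  constructor
  · refine lt_of_le_of_ne inf_le_right ?_
    intro heq
    obtain ⟨g, hg, hg'⟩ := key.2
    apply hg'
    rw [← heq] at hg
    exact mem_normalizer_iff.1 hg.1
  · intro M hM1 hM2
    rcases key.1 M hM2 (fun g hg hs => hM1 ⟨mem_normalizer_iff.2 hs, hg⟩) with h | h
    · left
      exact le_antisymm (fun g hg => ⟨mem_normalizer_iff.2 (h g hg), hM2 hg⟩) hM1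
    · right
      exact le_antisymm hM2 h

end Cfsg.Agent.H98.Or
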