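import Mathlib
import Cfsg.Prelude.Def_GeometricClasses
import Cfsg.Agent.GeoMax.Transv
import Cfsg.Agent.H98.SubfieldMax

/-!
Standard block decompositions of `F^ι` given by a map `β : ι → Fin t`; permutation matrices, diagonal matrices,
pseudo-reflections; maximality of the stabiliser of a block decomposition with blocks of size at least 2.
-/

set_option autoImplicit false
set_option linter.unusedSectionVars false

namespace Cfsg.Agent.H98.Blk

open Matrix Cfsg.Geo Cfsg.Agent.GeoMax Cfsg.Agent.H98.Subf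
open scoped MatrixGroups

variable {ι : Type} [Fintype ι] [DecidableEq ι] {F : Type*} [Field F]

/-! ### permutation matrices -/

lemma one_submatrix_mulVec (σ : Equiv.Perm ι) (x : ι → F) :
    ((1 : Matrix ι ι F).submatrix σ id) *ᵥ x = x ∘ σ := by
  ext i
  simp [Matrix.mulVec, dotProduct, Matrix.one_apply]

lemma mat_ext {A B : Matrix ι ι F} (h : ∀ x : ι → F, A *ᵥ x = B *ᵥ x) : A = B := by
  apply Matrix.ext_of_mulVec_single
  intro i; exact h _

/-- permutation matrix, `e_i ↦ e_{σ i}` -/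
def pm (σ : Equiv.Perm ι) : GL ι F where
  val := (1 : Matrix ι ι F).submatrix σ.symm id
  inv := (1 : Matrix ι ι F).submatrix σ id
  val_inv := by
    apply mat_ext; intro x
    rw [← Matrix.mulVec_mulVec, one_submatrix_mulVec, one_submatrix_mulVec, Matrix.one_mulVec]
    ext i; simp
  inv_val := by
    apply mat_ext; intro x
    rw [← Matrix.mulVec_mulVec, one_submatrix_mulVec, one_submatrix_mulVec, Matrix.one_mulVec]
    ext i; simp

lemma pm_mulVec (σ : Equiv.Perm ι) (x : ι → F) : ((pm σ : GL ι F) : Matrix ι ι F) *ᵥ x = x ∘ σ.symm :=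
  one_submatrix_mulVec _ _

lemma pm_inv (σ : Equiv.Perm ι) : (pm σ : GL ι F)⁻¹ = pm σ⁻¹ := by
  apply gl_ext; intro x
  apply gl_mulVec_injective (pm σ)
  simp only [gl_mulVec_inv, pm_mulVec]
  ext i
  change x i = x (σ (σ.symm i))
  simp

lemma pm_mul (σ τ : Equiv.Perm ι) : (pm (σ * τ) : GL ι F) = pm σ * pm τ := by
  apply gl_ext; intro x
  rw [gl_mul_mulVec]
  simp only [pm_mulVec]
  ext i
  simp [Equiv.Perm.mul_def]

lemma pm_single (σ : Equiv.Perm ι) (i : ι) :
    ((pm σ : GL ι F) : Matrix ι ι F) *ᵥ (Pi.single i 1) = Pi.single (σ i) 1 := by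
  rw [pm_mulVec]
  ext j
  simp [Pi.single_apply, Equiv.symm_apply_eq]

lemma vecMul_pm_inv (σ : Equiv.Perm ι) (φ : ι → F) :
    φ ᵥ* (((pm σ : GL ι F)⁻¹ : GL ι F) : Matrix ι ι F) = φ ∘ σ.symm := by
  have h1 : ∀ x : ι → F, (φ ᵥ* (((pm σ : GL ι F)⁻¹ : GL ι F) : Matrix ι ι F)) ⬝ᵥ x = (φ ∘ σ.symm) ⬝ᵥ x := by
    intro x
    rw [← Matrix.dotProduct_mulVec, pm_inv, pm_mulVec]
    simp only [dotProduct, Function.comp]
    rw [← Equiv.sum_comp σ.symm]
    refine Finset.sum_congr rfl fun i _ => ?_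
    change φ (σ.symm i) * x (σ (σ.symm i)) = _
    rw [Equiv.apply_symm_apply]
  ext i
  have := h1 (Pi.single i 1)
  simpa using this

lemma pm_det (σ : Equiv.Perm ι) : ((pm σ : GL ι F) : Matrix ι ι F).det = ((Equiv.Perm.sign σ : ℤ) : F) := by
  change ((1 : Matrix ι ι F).submatrix σ.symm id).det = _
  rw [Matrix.det_permute]
  simp [Equiv.Perm.sign_symm]

lemma pm_mem_sl {σ : Equiv.Perm ι} (h : Equiv.Perm.sign σ = 1) : (pm σ : GL ι F) ∈ specialLinear ι F := by
  change Matrix.GeneralLinearGroup.det _ = 1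
  apply Units.ext
  change ((pm σ : GL ι F) : Matrix ι ι F).det = 1
  rw [pm_det, h]; simp

/-! ### diagonal matrices -/

/-- diagonal matrix -/
def dg (d : ι → Fˣ) : GL ι F where
  val := Matrix.diagonal (fun i => (d i : F))
  inv := Matrix.diagonal (fun i => (((d i)⁻¹ : Fˣ) : F))
  val_inv := by rw [Matrix.diagonal_mul_diagonal]; simp
  inv_val := by rw [Matrix.diagonal_mul_diagonal]; simp

lemma dg_mulVec (d : ι → Fˣ) (x : ι → F) :
    ((dg d : GL ι F) : Matrix ι ι F) *ᵥ x = fun i => (d i : F) * x i := by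
  change Matrix.diagonal (fun i => (d i : F)) *ᵥ x = _
  ext i; rw [Matrix.mulVec_diagonal]

lemma dg_inv (d : ι → Fˣ) : (dg d : GL ι F)⁻¹ = dg d⁻¹ := by
  apply Units.ext; rfl

lemma vecMul_dg_inv (d : ι → Fˣ) (φ : ι → F) :
    φ ᵥ* (((dg d : GL ι F)⁻¹ : GL ι F) : Matrix ι ι F) = fun i => (((d i)⁻¹ : Fˣ) : F) * φ i := by
  change φ ᵥ* Matrix.diagonal (fun i => (((d i)⁻¹ : Fˣ) : F)) = _
  ext i; rw [Matrix.vecMul_diagonal, mul_comm]

lemma dg_det (d : ι → Fˣ) : ((dg d : GL ι F) : Matrix ι ι F).det = ∏ i, (d i : F) := by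
  change (Matrix.diagonal (fun i => (d i : F))).det = _
  rw [Matrix.det_diagonal]

lemma dg_mem_sl {d : ι → Fˣ} (h : ∏ i, d i = 1) : (dg d : GL ι F) ∈ specialLinear ι F := by
  change Matrix.GeneralLinearGroup.det _ = 1
  apply Units.ext
  change ((dg d : GL ι F) : Matrix ι ι F).det = 1
  rw [dg_det, ← Units.coe_prod, h]; rfl

/-! ### pseudo-reflections -/

/-- the pseudo-reflection `1 + (δ - 1) v χᵀ` -/
def rf (v χ : ι → F) (h : χ ⬝ᵥ v = 1) (δ : Fˣ) : GL ι F where
  val := 1 + vecMulVec (((δ : F) - 1) • v) χ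
  inv := 1 + vecMulVec (((((δ)⁻¹ : Fˣ) : F) - 1) • v) χ
  val_inv := by
    have h1 : (((δ : F) - 1) * (((δ⁻¹ : Fˣ) : F) - 1)) = -((δ : F) - 1) - (((δ⁻¹ : Fˣ) : F) - 1) := by
      have : (δ : F) * ((δ⁻¹ : Fˣ) : F) = 1 := δ.mul_inv
      linear_combination this
    rw [add_mul, mul_add, mul_add, vecMulVec_mul_vecMulVec, dotProduct_smul, h, one_mul, one_mul, mul_one,
      smul_eq_mul, mul_one, smul_vecMulVec, smul_vecMulVec, smul_vecMulVec, vecMulVec_smul, smul_smul, h1]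
    module
  inv_val := by
    have h1 : ((((δ⁻¹ : Fˣ) : F) - 1) * ((δ : F) - 1)) = -((δ : F) - 1) - (((δ⁻¹ : Fˣ) : F) - 1) := by
      have : (δ : F) * ((δ⁻¹ : Fˣ) : F) = 1 := δ.mul_inv
      linear_combination this
    rw [add_mul, mul_add, mul_add, vecMulVec_mul_vecMulVec, dotProduct_smul, h, one_mul, one_mul, mul_one,
      smul_eq_mul, mul_one, smul_vecMulVec, smul_vecMulVec, smul_vecMulVec, vecMulVec_smul, smul_smul, h1]
    module

lemma rf_mulVec (v χ : ι → F) (h : χ ⬝ᵥ v = 1) (δ : Fˣ) (x : ι → F) :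
    ((rf v χ h δ : GL ι F) : Matrix ι ι F) *ᵥ x = x + (((δ : F) - 1) * (χ ⬝ᵥ x)) • v := by
  change (1 + vecMulVec (((δ : F) - 1) • v) χ) *ᵥ x = _
  rw [Matrix.add_mulVec, Matrix.one_mulVec, Matrix.vecMulVec_mulVec]
  ext i
  simp
  ring

lemma rf_inv (v χ : ι → F) (h : χ ⬝ᵥ v = 1) (δ : Fˣ) : (rf v χ h δ : GL ι F)⁻¹ = rf v χ h δ⁻¹ := by
  apply Units.ext; rfl

lemma vecMul_rf_inv (v χ : ι → F) (h : χ ⬝ᵥ v = 1) (δ : Fˣ) (φ : ι → F) :
    φ ᵥ* (((rf v χ h δ : GL ι F)⁻¹ : GL ι F) : Matrix ι ι F) =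
      φ + ((((δ⁻¹ : Fˣ) : F) - 1) * (φ ⬝ᵥ v)) • χ := by
  change φ ᵥ* (1 + vecMulVec (((((δ)⁻¹ : Fˣ) : F) - 1) • v) χ) = _
  rw [Matrix.vecMul_add, Matrix.vecMul_one, Matrix.vecMul_vecMulVec, dotProduct_smul, smul_eq_mul]

lemma rf_det (v χ : ι → F) (h : χ ⬝ᵥ v = 1) (δ : Fˣ) :
    Matrix.GeneralLinearGroup.det (rf v χ h δ : GL ι F) = δ := by
  apply Units.ext
  change (1 + vecMulVec (((δ : F) - 1) • v) χ).det = δ
  rw [vecMulVec_eq Unit, Matrix.det_one_add_replicateCol_mul_replicateRow, dotProduct_smul, h]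
  simp

/-! ### block decompositions -/

variable {t : ℕ} (β : ι → Fin t)

/-- supported on the block `j` -/
def Sp (j : Fin t) (x : ι → F) : Prop := ∀ a, β a ≠ j → x a = 0

/-- the block subspace -/
def blk (F : Type*) [Field F] (j : Fin t) : Submodule F (ι → F) where
  carrier := {x | Sp β j x}
  add_mem' hx hy := fun a ha => by simp [hx a ha, hy a ha]
  zero_mem' := fun a _ => rfl
  smul_mem' c x hx := fun a ha => by simp [hx a ha]

variable {β}

lemma mem_blk {j : Fin t} {x : ι → F} : x ∈ blk β F j ↔ Sp β j x := Iff.rfl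

lemma Sp.add {j : Fin t} {x y : ι → F} (hx : Sp β j x) (hy : Sp β j y) : Sp β j (x + y) :=
  (blk β F j).add_mem hx hy
lemma Sp.smul {j : Fin t} {x : ι → F} (c : F) (hx : Sp β j x) : Sp β j (c • x) :=
  (blk β F j).smul_mem c hx

lemma Sp.single (a : ι) (c : F) : Sp β (β a) (Pi.single a c : ι → F) := by
  intro b hb
  have : b ≠ a := by rintro rfl; exact hb rfl
  simp [this]

/-- component in a block -/
def cmp (β : ι → Fin t) (j : Fin t) (x : ι → F) : ι → F := fun a => if β a = j then x a else 0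

lemma cmp_Sp (j : Fin t) (x : ι → F) : Sp β j (cmp β j x) := by
  intro a ha; simp [cmp, ha]

lemma cmp_of_Sp {j : Fin t} {x : ι → F} (hx : Sp β j x) : cmp β j x = x := by
  ext a
  by_cases h : β a = j
  · simp [cmp, h]
  · simp [cmp, h, hx a h]

lemma cmp_of_Sp_ne {j k : Fin t} (hjk : j ≠ k) {x : ι → F} (hx : Sp β j x) : cmp β k x = 0 := by
  ext a
  by_cases h : β a = k
  · simp only [cmp, h, if_true, Pi.zero_apply]
    exact hx a (by rw [h]; exact hjk.symm)
  · simp [cmp, h]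

lemma dot_cmp {j : Fin t} {θ x : ι → F} (hθ : Sp β j θ) : θ ⬝ᵥ x = θ ⬝ᵥ cmp β j x := by
  simp only [dotProduct]
  refine Finset.sum_congr rfl fun a _ => ?_
  by_cases h : β a = j
  · simp [cmp, h]
  · simp [hθ a h]

lemma dot_cmp' {j : Fin t} {θ x : ι → F} (hx : Sp β j x) : θ ⬝ᵥ x = cmp β j θ ⬝ᵥ x := by
  rw [dotProduct_comm, dot_cmp hx, dotProduct_comm]

lemma dot_ne {j k : Fin t} (hjk : j ≠ k) {θ x : ι → F} (hθ : Sp β j θ) (hx : Sp β k x) : θ ⬝ᵥ x = 0 := by
  rw [dot_cmp hθ, cmp_of_Sp_ne hjk.symm hx, dotProduct_zero]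

lemma exists_cmp_ne {x : ι → F} (hx : x ≠ 0) : ∃ j, cmp β j x ≠ 0 := by
  obtain ⟨a, ha⟩ := Function.ne_iff.1 hx
  refine ⟨β a, fun h => ha ?_⟩
  have := congrFun h a
  simpa [cmp] using this

lemma Sp_of_cmp {j : Fin t} {x : ι → F} (h : ∀ k, k ≠ j → cmp β k x = 0) : Sp β j x := by
  intro a ha
  have := congrFun (h _ ha) a
  simpa [cmp] using this

lemma Sp_of_zero {j : Fin t} {x : ι → F} (h : Sp β j x) {k : Fin t} (hk : k ≠ j) (h' : Sp β k x) : x = 0 := by
  ext a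
  by_cases ha : β a = j
  · exact h' a (by rw [ha]; exact hk.symm)
  · exact h a ha

lemma finrank_blk (j : Fin t) : Module.finrank F (blk β F j) = Fintype.card {a // β a = j} := by
  let e : blk β F j ≃ₗ[F] ({a // β a = j} → F) :=
    { toFun := fun x a => x.1 a.1
      map_add' := fun x y => rfl
      map_smul' := fun c x => rfl
      invFun := fun y => ⟨fun a => if h : β a = j then y ⟨a, h⟩ else 0, fun a ha => by simp [ha]⟩
      left_inv := fun x => by
        apply Subtype.ext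
        ext a
        by_cases h : β a = j
        · simp [h]
        · simp [h, x.2 a h]
      right_inv := fun y => by
        ext ⟨a, ha⟩
        simp [ha] }
  rw [e.finrank_eq, Module.finrank_fintype_fun_eq_card]

/-- membership in the stabiliser: every block is mapped into a block -/
lemma mem_stab_iff {m : ℕ} (hm : 0 < m) (hc : ∀ j, Fintype.card {a // β a = j} = m) {g : GL ι F} :
    g ∈ decompositionStabilizer (blk β F) ↔
      ∀ i, ∃ l, ∀ x, Sp β i x → Sp β l ((g : Matrix ι ι F) *ᵥ x) := by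
  constructor
  · rintro ⟨σ, hσ⟩ i
    refine ⟨σ i, fun x hx => ?_⟩
    have : (g : Matrix ι ι F) *ᵥ x ∈ (blk β F i).map (Matrix.toLin' (g : Matrix ι ι F)) := ⟨x, hx, by simp⟩
    rw [hσ i] at this
    exact this
  · intro h
    choose l hl using h
    have hmap : ∀ i, (blk β F i).map (Matrix.toLin' (g : Matrix ι ι F)) = blk β F (l i) := by
      intro i
      apply Submodule.eq_of_le_of_finrank_eq
      · rintro _ ⟨x, hx, rfl⟩
        rw [Matrix.toLin'_apply]
        exact hl i x hx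
      · have hinj : Function.Injective (Matrix.toLin' (g : Matrix ι ι F)) := by
          intro x y hxy
          exact gl_mulVec_injective g (by simpa using hxy)
        rw [← LinearEquiv.finrank_eq (Submodule.equivMapOfInjective _ hinj (blk β F i)), finrank_blk, finrank_blk, hc, hc]
    have hne : ∀ i, ∃ a, β a = i := by
      intro i
      have : 0 < Fintype.card {a // β a = i} := by rw [hc]; exact hm
      obtain ⟨⟨a, ha⟩⟩ := Fintype.card_pos_iff.1 this
      exact ⟨a, ha⟩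
    have hlinj : Function.Injective l := by
      intro i j hij
      by_contra hne'
      obtain ⟨a, ha⟩ := hne i
      have h1 := hl i (Pi.single a 1) (ha ▸ Sp.single a 1)
      have h2 : (g : Matrix ι ι F) *ᵥ (Pi.single a 1) ∈ (blk β F j).map (Matrix.toLin' (g : Matrix ι ι F)) := by
        rw [hmap j, ← hij]; exact h1
      obtain ⟨y, hy, hyx⟩ := h2
      have h3 : y = Pi.single a 1 := gl_mulVec_injective g (by simpa using hyx)
      have h4 := (show Sp β j y from hy) a (by rw [ha]; exact hne')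
      rw [h3] at h4
      simp at h4
    refine ⟨Equiv.ofBijective l ⟨hlinj, Finite.surjective_of_injective hlinj⟩, fun i => hmap i⟩

/-! ### linear algebra in a block -/

lemma exists_blk_orth {k : ℕ} {j : Fin t} (hk : k < Fintype.card {a // β a = j}) (u : Fin k → ι → F) :
    ∃ x : ι → F, Sp β j x ∧ x ≠ 0 ∧ ∀ i, u i ⬝ᵥ x = 0 := by
  let f : blk β F j →ₗ[F] (Fin k → F) := LinearMap.pi (fun i => (dotLin (u i)).comp (blk β F j).subtype)
  have hf : LinearMap.ker f ≠ ⊥ := by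
    apply LinearMap.ker_ne_bot_of_finrank_lt
    rw [finrank_blk]
    simpa using hk
  obtain ⟨φ, hφ, hφ0⟩ := Submodule.exists_mem_ne_zero_of_ne_bot hf
  refine ⟨φ.1, φ.2, ?_, ?_⟩
  · intro h; exact hφ0 (Subtype.ext h)
  · intro i
    have h1 : f φ = 0 := hφ
    exact congrFun h1 i

/-- separation inside a block -/
lemma exists_sep {j : Fin t} {u w : ι → F} (hu : Sp β j u) (hw : ∀ c : F, cmp β j w ≠ c • u) :
    ∃ θ : ι → F, Sp β j θ ∧ θ ⬝ᵥ u = 0 ∧ θ ⬝ᵥ w = 1 := by
  have h1 : cmp β j w ∉ Submodule.span F {u} := by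
    intro hm
    obtain ⟨c, hc⟩ := Submodule.mem_span_singleton.1 hm
    exact hw c hc.symm
  obtain ⟨r, hr, hrv⟩ := exists_dot_of_notMem h1
  set θ : ι → F := cmp β j r with hθ
  have e1 : θ ⬝ᵥ u = 0 := by
    rw [hθ, ← dot_cmp' hu]; exact hr u (Submodule.mem_span_singleton_self _)
  have e2 : θ ⬝ᵥ w = r ⬝ᵥ cmp β j w := by
    rw [dot_cmp (cmp_Sp j r), ← dot_cmp' (cmp_Sp j w)]
  refine ⟨(r ⬝ᵥ cmp β j w)⁻¹ • θ, (cmp_Sp j r).smul _, ?_, ?_⟩
  · rw [smul_dotProduct, e1, smul_zero]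
  · rw [smul_dotProduct, e2, smul_eq_mul, inv_mul_cancel₀ hrv]

lemma exists_sep_one {j : Fin t} {w : ι → F} (hw : cmp β j w ≠ 0) :
    ∃ θ : ι → F, Sp β j θ ∧ θ ⬝ᵥ w = 1 := by
  obtain ⟨θ, h1, _, h3⟩ := exists_sep (β := β) (j := j) (u := 0) (w := w) (fun _ _ => rfl)
    (by intro c; rw [smul_zero]; exact hw)
  exact ⟨θ, h1, h3⟩

end Cfsg.Agent.H98.Blk
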