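import Cfsg.Agent.H98.Blk

/-!
Maximality of the stabiliser in `SL` of a block decomposition with blocks of size at least 2.
-/

set_option autoImplicit false
set_option linter.unusedSectionVars false

namespace Cfsg.Agent.H98.Blk

open Matrix Cfsg.Geo Cfsg.Agent.GeoMax Cfsg.Agent.H98.Subf
open scoped MatrixGroups

variable {ι : Type} [Fintype ι] [DecidableEq ι] {F : Type*} [Field F] {t : ℕ} {β : ι → Fin t}
variable {M : Subgroup (GL ι F)}

/-- all root elements in `M` imply `SL ≤ M` -/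
lemma sl_le_of_roots [Nontrivial ι] (h : ∀ i j : ι, i ≠ j → ∀ c : F, HasT M (Pi.single i 1) (c • Pi.single j 1)) :
    specialLinear ι F ≤ M := by
  apply specialLinear_le_of_basis M 1
  intro i w hw
  have hw' : w i = 0 := by
    rw [Units.val_one, Matrix.one_mulVec] at hw
    simpa using hw
  rw [Units.val_one, Matrix.one_mulVec]
  have key : ∀ s : Finset ι, HasT M (Pi.single i 1) (∑ j ∈ s, w j • (Pi.single j (1 : F) : ι → F)) := by
    intro s
    induction s using Finset.induction_on with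
    | empty => simpa using HasT.zero_right M _
    | insert a s ha ih =>
      rw [Finset.sum_insert ha]
      refine HasT.add_right ?_ ih
      by_cases hai : a = i
      · rw [hai, hw', zero_smul]; exact HasT.zero_right _ _
      · exact h i a (Ne.symm hai) _
  have h1 := key Finset.univ
  have h2 : (∑ j, w j • (Pi.single j (1 : F) : ι → F)) = w := by
    ext k
    simp [Finset.sum_apply, Pi.single_apply]
  rwa [h2] at h1

section two

variable (hT : ∀ (j : Fin t) (u θ : ι → F), Sp β j u → Sp β j θ → θ ⬝ᵥ u = 0 → HasT M u θ)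

include hT in
/-- stage 3: centre in a block, the functional has a nonzero component outside: all functionals of that block -/
lemma stage3 {j k : Fin t} (hjk : j ≠ k) (hk2 : 2 ≤ Fintype.card {a // β a = k}) {u ψ : ι → F}
    (hu : Sp β j u) (hψ : cmp β k ψ ≠ 0) (h : HasT M u ψ) :
    ∀ θ : ι → F, Sp β k θ → HasT M u θ := by
  -- first for `θ` not proportional to `ψ_k`
  have h1 : ∀ θ : ι → F, Sp β k θ → (∀ c : F, cmp β k ψ ≠ c • θ) → HasT M u θ := by
    intro θ hθ hne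
    obtain ⟨x, hx, hx0, hx1⟩ := exists_sep hθ hne
    rw [dotProduct_comm] at hx0 hx1
    have h2 := conjT (hT k x θ hx hθ hx0) h
    rw [dot_ne hjk.symm hθ hu, zero_smul, add_zero, hx1, one_smul] at h2
    have h3 := h.sub_right h2
    rwa [sub_sub_cancel] at h3
  intro θ hθ
  by_cases hne : ∀ c : F, cmp β k ψ ≠ c • θ
  · exact h1 θ hθ hne
  · push Not at hne
    obtain ⟨c, hc⟩ := hne
    have hc0 : c ≠ 0 := by
      rintro rfl
      rw [zero_smul] at hc; exact hψ hc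
    -- find `η` in block `k` not proportional to `θ`
    obtain ⟨a, ha⟩ := Function.ne_iff.1 hψ
    have hak : β a = k := by
      by_contra hne'
      exact ha (by simp [cmp, hne'])
    obtain ⟨⟨b, hb⟩, hba⟩ := Fintype.exists_ne_of_one_lt_card (show 1 < Fintype.card {a // β a = k} by omega)
      ⟨a, hak⟩
    have hba' : b ≠ a := fun e => hba (Subtype.ext e)
    have hη : Sp β k (Pi.single b (1 : F) : ι → F) := hb ▸ Sp.single b 1
    have hθa : θ a ≠ 0 := by
      intro h0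
      apply ha
      rw [hc]; simp [h0]
    have i1 : ∀ d : F, cmp β k ψ ≠ d • (Pi.single b (1 : F) : ι → F) := by
      intro d hd
      apply ha
      rw [hd]; simp [hba'.symm]
    have i2 : ∀ d : F, cmp β k ψ ≠ d • (θ - (Pi.single b (1 : F) : ι → F)) := by
      intro d hd
      rw [hc] at hd
      have e1 := congrFun hd a
      have e2 := congrFun hd b
      simp [hba'.symm] at e1 e2
      rcases e1 with e1 | e1
      · subst e1
        exact hc0 (by linear_combination e2)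
      · exact hθa e1
    have h4 := h1 _ hη i1
    have h5 := h1 _ (hθ.add (by
      have := Sp.smul (-1 : F) hη
      rwa [neg_one_smul] at this)) (by simpa [sub_eq_add_neg] using i2)
    have h6 := h5.add_right h4
    simpa using h6

include hT in
lemma stage4 {j k : Fin t} {u : ι → F} (hu : Sp β j u) (hu0 : u ≠ 0)
    (h : ∀ θ : ι → F, Sp β k θ → HasT M u θ) (hjk : j ≠ k) :
    ∀ x θ : ι → F, Sp β j x → Sp β k θ → HasT M x θ := by
  intro x θ hx hθ
  by_cases hne : ∀ c : F, u ≠ c • x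
  · obtain ⟨φ, hφ, hφ0, hφ1⟩ := exists_sep (w := u) hx (by rwa [cmp_of_Sp hu])
    have h1 := conjT (hT j x φ hx hφ hφ0) (h θ hθ)
    rw [hφ1, one_smul, dot_ne hjk.symm hθ hx, zero_smul, sub_zero] at h1
    have h2 := sub_left h1 (h θ hθ)
    rwa [add_sub_cancel_left] at h2
  · push Not at hne
    obtain ⟨c, hc⟩ := hne
    have hc0 : c ≠ 0 := by
      rintro rfl; rw [zero_smul] at hc; exact hu0 hc
    have h1 := h (c⁻¹ • θ) (hθ.smul _)
    rw [hc, hasT_smul_left_iff hc0, smul_smul, mul_inv_cancel₀ hc0, one_smul] at h1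
    exact h1

/-- the goal of the reduction -/
def Good (β : ι → Fin t) (M : Subgroup (GL ι F)) : Prop :=
  ∃ j k, j ≠ k ∧ ∃ u ψ : ι → F, Sp β j u ∧ u ≠ 0 ∧ cmp β k ψ ≠ 0 ∧ HasT M u ψ

include hT in
lemma good_of_left {j k : Fin t} (hjk : j ≠ k) {w ψ u : ι → F} (hu : Sp β j u) (hu0 : u ≠ 0)
    (hψu : ψ ⬝ᵥ u = 0) (hne : ∀ c : F, cmp β j w ≠ c • u) (hk : cmp β k ψ ≠ 0) (h : HasT M w ψ) :
    Good β M := by
  obtain ⟨θ, hθ, hθ0, hθ1⟩ := exists_sep hu hne
  have h1 := conjT (hT j u θ hu hθ hθ0) h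
  rw [hθ1, one_smul, hψu, zero_smul, sub_zero] at h1
  have h2 := sub_left h1 h
  rw [add_sub_cancel_left] at h2
  exact ⟨j, k, hjk, u, ψ, hu, hu0, hk, h2⟩

lemma exists_nonprop {j : Fin t} (h2 : 2 ≤ Fintype.card {a // β a = j}) {w : ι → F} (hw : cmp β j w ≠ 0) :
    ∃ x : ι → F, Sp β j x ∧ x ≠ 0 ∧ ∀ c : F, cmp β j w ≠ c • x := by
  obtain ⟨a, ha⟩ := Function.ne_iff.1 hw
  have hak : β a = j := by
    by_contra hne'
    exact ha (by simp [cmp, hne'])
  obtain ⟨⟨b, hb⟩, hba⟩ := Fintype.exists_ne_of_one_lt_card (show 1 < Fintype.card {a // β a = j} by omega)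
    ⟨a, hak⟩
  have hba' : b ≠ a := fun e => hba (Subtype.ext e)
  refine ⟨Pi.single b 1, hb ▸ Sp.single b 1, ?_, ?_⟩
  · intro h
    have := congrFun h b
    simp at this
  · intro c hc
    apply ha
    rw [hc]; simp [hba'.symm]

include hT in
lemma good_of_block {j k : Fin t} (hjk : j ≠ k) (h2 : 2 ≤ Fintype.card {a // β a = k}) {w ψ : ι → F}
    (hψ : Sp β j ψ) (hψ0 : ψ ≠ 0) (hw : cmp β k w ≠ 0) (h : HasT M w ψ) : Good β M := by
  obtain ⟨x, hx, hx0, hne⟩ := exists_nonprop h2 hw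
  refine good_of_left hT hjk.symm hx hx0 (dot_ne hjk hψ hx) hne ?_ h
  rw [cmp_of_Sp hψ]; exact hψ0

include hT in
lemma good_of_right {j k : Fin t} (hjk : j ≠ k) (h2 : 2 ≤ Fintype.card {a // β a = k}) {w ψ θ : ι → F}
    (hθ : Sp β j θ) (hθ0 : θ ≠ 0)
    (hθw : θ ⬝ᵥ w = 0) (hne : ∀ c : F, cmp β j ψ ≠ c • θ) (hk : cmp β k w ≠ 0) (h : HasT M w ψ) :
    Good β M := by
  obtain ⟨u, hu, hu0, hu1⟩ := exists_sep hθ hne
  rw [dotProduct_comm] at hu0 hu1
  have h1 := conjT (hT j u θ hu hθ hu0) h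
  rw [hθw, zero_smul, add_zero, hu1, one_smul] at h1
  have h3 := h.sub_right h1
  rw [sub_sub_cancel] at h3
  exact good_of_block hT hjk h2 hθ hθ0 hk h3

include hT in
/-- the main reduction -/
lemma good_of_nonblock {m : ℕ} (hm : 2 ≤ m) (hc : ∀ j, Fintype.card {a // β a = j} = m)
    (hex : m = 2 → 3 ≤ t ∧ ∃ δ : Fˣ, δ ≠ 1)
    (hR : ∀ (j k : Fin t), j ≠ k → ∀ (v χ v' χ' : ι → F) (h : χ ⬝ᵥ v = 1) (h' : χ' ⬝ᵥ v' = 1) (δ : Fˣ),
      Sp β j v → Sp β j χ → Sp β k v' → Sp β k χ' → rf v χ h δ * rf v' χ' h' δ⁻¹ ∈ M)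
    {w ψ : ι → F} (hw : ∀ l, ¬ Sp β l w) (hψ0 : ψ ≠ 0) (h : HasT M w ψ) : Good β M := by
  have hw0 : w ≠ 0 := by
    rintro rfl
    have : 0 < t := by
      by_contra ht
      obtain ⟨j, -⟩ := exists_cmp_ne (β := β) hψ0
      exact ht j.pos
    exact hw ⟨0, this⟩ (fun _ _ => rfl)
  obtain ⟨k₁, hk₁⟩ := exists_cmp_ne (β := β) hw0
  obtain ⟨k₂, hk₂, hk₂'⟩ : ∃ k₂, k₂ ≠ k₁ ∧ cmp β k₂ w ≠ 0 := by
    by_contra hcon
    push Not at hcon
    exact hw k₁ (Sp_of_cmp hcon)
  have hc2 : ∀ j, 2 ≤ Fintype.card {a // β a = j} := fun j => by rw [hc]; exact hm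
  by_cases hψb : ∃ j, Sp β j ψ
  · obtain ⟨j, hj⟩ := hψb
    by_cases hj1 : j = k₁
    · subst hj1
      exact good_of_block hT hk₂.symm (hc2 _) hj hψ0 hk₂' h
    · exact good_of_block hT hj1 (hc2 _) hj hψ0 hk₁ h
  · push Not at hψb
    -- for every block there is another block in the support of ψ
    have hother : ∀ j, ∃ k, j ≠ k ∧ cmp β k ψ ≠ 0 := by
      intro j
      by_contra hcon
      push Not at hcon
      exact hψb j (Sp_of_cmp fun k hk => hcon k hk.symm)
    by_contra hbad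
    have A1 : ∀ j, cmp β j w ≠ 0 → cmp β j ψ ≠ 0 := by
      intro j hj h0
      obtain ⟨x, hx, hx0, hne⟩ := exists_nonprop (hc2 j) hj
      obtain ⟨k, hjk, hk⟩ := hother j
      exact hbad (good_of_left hT hjk hx hx0 (by rw [dot_cmp' hx, h0, zero_dotProduct]) hne hk h)
    have A2 : ∀ j, cmp β j w ≠ 0 → ψ ⬝ᵥ cmp β j w = 0 := by
      intro j hj
      by_contra h0
      obtain ⟨x, hx, hx0, hx1⟩ := exists_blk_orth (k := 1) (β := β) (j := j) (by have := hc2 j; omega) ![ψ]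
      have hx1' : ψ ⬝ᵥ x = 0 := hx1 0
      obtain ⟨k, hjk, hk⟩ := hother j
      refine hbad (good_of_left hT hjk hx hx0 hx1' ?_ hk h)
      intro c hc'
      apply h0
      rw [hc', dotProduct_smul, hx1', smul_zero]
    have A3 : m = 2 := by
      by_contra hm2
      obtain ⟨χ, hχ, hχ1⟩ := exists_sep_one hk₁
      obtain ⟨x, hx, hx0, hx1⟩ := exists_blk_orth (k := 2) (β := β) (j := k₁) (by rw [hc]; omega) ![ψ, χ]
      have e1 : ψ ⬝ᵥ x = 0 := hx1 0
      have e2 : χ ⬝ᵥ x = 0 := hx1 1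
      obtain ⟨k, hjk, hk⟩ := hother k₁
      refine hbad (good_of_left hT hjk hx hx0 e1 ?_ hk h)
      intro c hc'
      rw [dot_cmp hχ, hc', dotProduct_smul, e2, smul_zero] at hχ1
      exact zero_ne_one hχ1
    obtain ⟨ht, δ, hδ⟩ := hex A3
    have hδ1 : (δ : F) - 1 ≠ 0 := by
      intro h0
      exact hδ (Units.ext (by rw [Units.val_one]; linear_combination h0))
    have A4 : ∀ j, cmp β j w = 0 → cmp β j ψ = 0 := by
      intro j hj
      by_contra h0
      obtain ⟨x, hx, hx0, hne⟩ := exists_nonprop (hc2 j) h0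
      have hjk : j ≠ k₁ := by rintro rfl; exact hk₁ hj
      refine hbad (good_of_right hT hjk (hc2 _) hx hx0 ?_ hne hk₁ h)
      rw [dot_cmp hx, hj, dotProduct_zero]
    obtain ⟨χ, hχ, hχ1⟩ := exists_sep_one hk₁
    set wa := cmp β k₁ w with hwa
    have hwaS : Sp β k₁ wa := cmp_Sp _ _
    have hχa : χ ⬝ᵥ wa = 1 := by rw [hwa, ← dot_cmp hχ, hχ1]
    by_cases hthird : ∃ c, c ≠ k₁ ∧ c ≠ k₂ ∧ cmp β c w ≠ 0
    · obtain ⟨c, hc1, hc2', hcw⟩ := hthird
      obtain ⟨χ', hχ', hχ'1⟩ := exists_sep_one hk₂'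
      set wb := cmp β k₂ w with hwb
      have hwbS : Sp β k₂ wb := cmp_Sp _ _
      have hχb : χ' ⬝ᵥ wb = 1 := by rw [hwb, ← dot_cmp hχ', hχ'1]
      have hm1 := hR k₁ k₂ hk₂.symm wa χ wb χ' hχa hχb δ hwaS hχ hwbS hχ'
      have h1 := h.conj hm1
      have e1 : ((rf wa χ hχa δ * rf wb χ' hχb δ⁻¹ : GL ι F) : Matrix ι ι F) *ᵥ w =
          w + (((δ⁻¹ : Fˣ) : F) - 1) • wb + ((δ : F) - 1) • wa := by
        rw [gl_mul_mulVec, rf_mulVec wb χ' hχb, hχ'1, mul_one, rf_mulVec, dotProduct_add, hχ1, dotProduct_smul,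
          dot_ne hk₂.symm hχ hwbS, smul_zero, add_zero, mul_one]
      have e2 : ψ ᵥ* (((rf wa χ hχa δ * rf wb χ' hχb δ⁻¹)⁻¹ : GL ι F) : Matrix ι ι F) = ψ := by
        rw [_root_.mul_inv_rev, Units.val_mul, ← Matrix.vecMul_vecMul, vecMul_rf_inv wb χ' hχb, A2 k₂ hk₂']
        simp only [mul_zero, zero_smul, add_zero]
        rw [vecMul_rf_inv, A2 k₁ hk₁]
        simp
      rw [e1, e2] at h1
      have h2 := sub_left h1 h
      set w' := w + (((δ⁻¹ : Fˣ) : F) - 1) • wb + ((δ : F) - 1) • wa - w with hw'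
      have e3 : w' = (((δ⁻¹ : Fˣ) : F) - 1) • wb + ((δ : F) - 1) • wa := by rw [hw']; abel
      have e4 : cmp β c w' = 0 := by
        rw [e3]
        ext a
        by_cases ha : β a = c
        · have i1 : wb a = 0 := hwbS a (by rw [ha]; exact hc2')
          have i2 : wa a = 0 := hwaS a (by rw [ha]; exact hc1)
          simp [cmp, i1, i2]
        · simp [cmp, ha]
      have e5 : cmp β k₁ w' ≠ 0 := by
        intro h0
        apply hk₁
        ext a
        by_cases ha : β a = k₁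
        · have i1 : wb a = 0 := hwbS a (by rw [ha]; exact hk₂.symm)
          have i2 := congrFun h0 a
          rw [e3] at i2
          simp only [cmp, ha, if_true, Pi.add_apply, Pi.smul_apply, i1, smul_eq_mul, mul_zero, zero_add,
            Pi.zero_apply, mul_eq_zero] at i2
          exact i2.resolve_left hδ1
        · exact hwaS a ha
      obtain ⟨x, hx, hx0, hne⟩ := exists_nonprop (hc2 c) (A1 c hcw)
      refine hbad (good_of_right hT hc1 (hc2 _) hx hx0 ?_ hne e5 h2)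
      rw [dot_cmp hx, e4, dotProduct_zero]
    · push Not at hthird
      obtain ⟨c, hc1, hc2'⟩ : ∃ c : Fin t, c ≠ k₁ ∧ c ≠ k₂ := by
        have : ({k₁, k₂} : Finset (Fin t)).card < Fintype.card (Fin t) := by
          have := Finset.card_le_two (a := k₁) (b := k₂)
          rw [Fintype.card_fin]; omega
        obtain ⟨c, -, hc⟩ := Finset.exists_mem_notMem_of_card_lt_card (s := {k₁, k₂}) (t := Finset.univ)
          (by rwa [Finset.card_univ])
        simp at hc
        exact ⟨c, hc.1, hc.2⟩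
      have hcw := hthird c hc1 hc2'
      have hcψ := A4 c hcw
      obtain ⟨⟨e, he⟩⟩ := Fintype.card_pos_iff.1 (show 0 < Fintype.card {a // β a = c} by have := hc2 c; omega)
      have hes : Sp β c (Pi.single e (1 : F) : ι → F) := he ▸ Sp.single e 1
      have hee : (Pi.single e (1 : F) : ι → F) ⬝ᵥ (Pi.single e (1 : F) : ι → F) = 1 := by simp
      have hm1 := hR k₁ c hc1.symm wa χ _ _ hχa hee δ hwaS hχ hes hes
      have h1 := h.conj hm1
      have i1 : (Pi.single e (1 : F) : ι → F) ⬝ᵥ w = 0 := by rw [dot_cmp hes, hcw, dotProduct_zero]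
      have i2 : ψ ⬝ᵥ (Pi.single e (1 : F) : ι → F) = 0 := by rw [dot_cmp' hes, hcψ, zero_dotProduct]
      have e1 : ((rf wa χ hχa δ * rf _ _ hee δ⁻¹ : GL ι F) : Matrix ι ι F) *ᵥ w =
          w + ((δ : F) - 1) • wa := by
        rw [gl_mul_mulVec, rf_mulVec _ _ hee, i1, mul_zero, zero_smul, add_zero, rf_mulVec, hχ1, mul_one]
      have e2 : ψ ᵥ* (((rf wa χ hχa δ * rf _ _ hee δ⁻¹)⁻¹ : GL ι F) : Matrix ι ι F) = ψ := by
        rw [_root_.mul_inv_rev, Units.val_mul, ← Matrix.vecMul_vecMul, vecMul_rf_inv _ _ hee, i2]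
        simp only [mul_zero, zero_smul, add_zero]
        rw [vecMul_rf_inv, A2 k₁ hk₁]
        simp
      rw [e1, e2] at h1
      have h2 := sub_left h1 h
      rw [add_sub_cancel_left] at h2
      exact hbad ⟨k₁, k₂, hk₂.symm, _, ψ, hwaS.smul _, smul_ne_zero hδ1 hk₁, A1 k₂ hk₂', h2⟩

include hT in
theorem block_core [Nontrivial ι] {m : ℕ} (hm : 2 ≤ m) (hc : ∀ j, Fintype.card {a // β a = j} = m)
    (hex : m = 2 → 3 ≤ t ∧ ∃ δ : Fˣ, δ ≠ 1)
    (hR : ∀ (j k : Fin t), j ≠ k → ∀ (v χ v' χ' : ι → F) (h : χ ⬝ᵥ v = 1) (h' : χ' ⬝ᵥ v' = 1) (δ : Fˣ),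
      Sp β j v → Sp β j χ → Sp β k v' → Sp β k χ' → rf v χ h δ * rf v' χ' h' δ⁻¹ ∈ M)
    (hP : ∀ j k j' k' : Fin t, j ≠ k → j' ≠ k' → ∃ σ : Equiv.Perm ι, pm σ ∈ M ∧
      (∀ a, β (σ a) = j' ↔ β a = j) ∧ (∀ a, β (σ a) = k' ↔ β a = k))
    {w ψ : ι → F} (hw : ∀ l, ¬ Sp β l w) (hψ0 : ψ ≠ 0) (h : HasT M w ψ) : specialLinear ι F ≤ M := by
  obtain ⟨j, k, hjk, u, φ, hu, hu0, hφ, hg⟩ := good_of_nonblock hT hm hc hex hR hw hψ0 h
  have h3 := stage3 hT hjk (by rw [hc]; exact hm) hu hφ hg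
  have h4 := stage4 hT hu hu0 h3 hjk
  have h5 : ∀ j' k' : Fin t, j' ≠ k' → ∀ x θ : ι → F, Sp β j' x → Sp β k' θ → HasT M x θ := by
    intro j' k' hjk' x θ hx hθ
    obtain ⟨σ, hσ, hσj, hσk⟩ := hP j k j' k' hjk hjk'
    have e1 : Sp β j (x ∘ σ) := by
      intro a ha
      exact hx (σ a) (fun h => ha ((hσj a).1 h))
    have e2 : Sp β k (θ ∘ σ) := by
      intro a ha
      exact hθ (σ a) (fun h => ha ((hσk a).1 h))
    have h6 := (h4 _ _ e1 e2).conj hσ
    rw [pm_mulVec, vecMul_pm_inv] at h6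
    convert h6 using 1
    · ext a; simp
    · ext a; simp
  apply sl_le_of_roots
  intro a b hab c
  by_cases hβ : β a = β b
  · refine hT (β a) _ _ (Sp.single a 1) ?_ (by simp [hab])
    rw [hβ]; exact (Sp.single b 1).smul c
  · exact h5 _ _ hβ _ _ (Sp.single a 1) ((Sp.single b 1).smul c)

end two

/-! ### the stabiliser of the standard block decomposition -/

section std

variable {m : ℕ} (hm : 0 < m) (hc : ∀ j, Fintype.card {a // β a = j} = m)

include hm hc in
lemma tvec_mem_stab {j : Fin t} {u θ : ι → F} (hu : Sp β j u) (hθ : Sp β j θ) (h : θ ⬝ᵥ u = 0) :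
    tvec u θ h ∈ decompositionStabilizer (blk β F) := by
  rw [mem_stab_iff hm hc]
  intro i
  refine ⟨i, fun x hx => ?_⟩
  rw [tvec_mulVec]
  by_cases hij : i = j
  · subst hij; exact hx.add (hu.smul _)
  · rw [dot_ne (Ne.symm hij) hθ hx, zero_smul, add_zero]; exact hx

include hm hc in
lemma rf_mem_stab {j : Fin t} {u θ : ι → F} (hu : Sp β j u) (hθ : Sp β j θ) (h : θ ⬝ᵥ u = 1) (δ : Fˣ) :
    rf u θ h δ ∈ decompositionStabilizer (blk β F) := by
  rw [mem_stab_iff hm hc]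
  intro i
  refine ⟨i, fun x hx => ?_⟩
  rw [rf_mulVec]
  by_cases hij : i = j
  · subst hij; exact hx.add (hu.smul _)
  · rw [dot_ne (Ne.symm hij) hθ hx, mul_zero, zero_smul, add_zero]; exact hx

include hm hc in
lemma pm_mem_stab {σ : Equiv.Perm ι} {τ : Equiv.Perm (Fin t)} (h : ∀ a, β (σ a) = τ (β a)) :
    pm σ ∈ decompositionStabilizer (blk β F) := by
  rw [mem_stab_iff hm hc]
  intro i
  refine ⟨τ i, fun x hx => ?_⟩
  rw [pm_mulVec]
  intro b hb
  apply hx
  intro h'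
  apply hb
  have := h (σ.symm b)
  rw [Equiv.apply_symm_apply] at this
  rw [this, h']

/-- labelling of the index set -/
noncomputable def lab (β : ι → Fin t) (hc : ∀ j, Fintype.card {a // β a = j} = m) : ι ≃ Fin t × Fin m :=
  (Equiv.sigmaFiberEquiv β).symm.trans
    ((Equiv.sigmaCongrRight fun j => Fintype.equivFinOfCardEq (hc j)).trans (Equiv.sigmaEquivProd _ _))

lemma lab_fst (a : ι) : (lab β hc a).1 = β a := rfl

include hc in
lemma exists_even (hm : 2 ≤ m) (ht : 0 < t) (τ : Equiv.Perm (Fin t)) :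
    ∃ σ : Equiv.Perm ι, Equiv.Perm.sign σ = 1 ∧ ∀ a, β (σ a) = τ (β a) := by
  let σ₀ : Equiv.Perm ι := (lab β hc).trans ((Equiv.prodCongr τ (Equiv.refl _)).trans (lab β hc).symm)
  have h0 : ∀ a, β (σ₀ a) = τ (β a) := by
    intro a
    rw [← lab_fst hc (σ₀ a)]
    simp [σ₀, lab_fst]
  rcases Int.units_eq_one_or (Equiv.Perm.sign σ₀) with h1 | h1
  · exact ⟨σ₀, h1, h0⟩
  · let x : ι := (lab β hc).symm (⟨0, ht⟩, ⟨0, by omega⟩)
    let y : ι := (lab β hc).symm (⟨0, ht⟩, ⟨1, by omega⟩)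
    have hxy : x ≠ y := by
      intro h
      have := (lab β hc).symm.injective h
      simp at this
    have hb : β x = β y := by
      rw [← lab_fst hc x, ← lab_fst hc y]; simp [x, y]
    refine ⟨σ₀ * Equiv.swap x y, ?_, ?_⟩
    · rw [map_mul, h1, Equiv.Perm.sign_swap hxy]; simp
    · intro a
      rw [Equiv.Perm.mul_apply, h0]
      congr 1
      by_cases hax : a = x
      · subst hax; rw [Equiv.swap_apply_left, hb]
      · by_cases hay : a = y
        · subst hay; rw [Equiv.swap_apply_right, hb]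
        · rw [Equiv.swap_apply_of_ne_of_ne hax hay]

lemma exists_perm_pair {j k j' k' : Fin t} (h : j ≠ k) (h' : j' ≠ k') :
    ∃ τ : Equiv.Perm (Fin t), τ j = j' ∧ τ k = k' := by
  refine ⟨Equiv.swap (Equiv.swap j j' k) k' * Equiv.swap j j', ?_, ?_⟩
  · rw [Equiv.Perm.mul_apply, Equiv.swap_apply_left]
    refine Equiv.swap_apply_of_ne_of_ne ?_ h'
    intro h1
    have h2 : Equiv.swap j j' j = Equiv.swap j j' k := by rw [Equiv.swap_apply_left]; exact h1
    exact h ((Equiv.swap j j').injective h2)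
  · rw [Equiv.Perm.mul_apply, Equiv.swap_apply_left]

include hc in
/-- **blocks of size at least 2** -/
theorem std_maximal (hm : 2 ≤ m) (ht : 2 ≤ t) (hex : m = 2 → 3 ≤ t ∧ ∃ δ : Fˣ, δ ≠ 1) :
    IsMaximalIn (specialLinear ι F) (decompositionStabilizer (blk β F) ⊓ specialLinear ι F) := by
  have hm0 : 0 < m := by omega
  have hne : ∀ j, ∃ a, β a = j := by
    intro i
    have : 0 < Fintype.card {a // β a = i} := by rw [hc]; exact hm0
    obtain ⟨⟨a, ha⟩⟩ := Fintype.card_pos_iff.1 this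
    exact ⟨a, ha⟩
  obtain ⟨a₀, ha₀⟩ := hne ⟨0, by omega⟩
  obtain ⟨b₀, hb₀⟩ := hne ⟨1, by omega⟩
  have hβab : β a₀ ≠ β b₀ := by rw [ha₀, hb₀]; simp
  have hab : a₀ ≠ b₀ := by rintro rfl; exact hβab rfl
  have : Nontrivial ι := ⟨a₀, b₀, hab⟩
  refine ⟨lt_of_le_of_ne inf_le_right ?_, ?_⟩
  · intro heq
    have h0 : (Pi.single b₀ 1 : ι → F) ⬝ᵥ Pi.single a₀ 1 = 0 := by simp [hab.symm]
    have h1 := tvec_det (Pi.single a₀ (1 : F)) (Pi.single b₀ (1 : F)) h0
    rw [← heq] at h1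
    obtain ⟨l, hl⟩ := (mem_stab_iff hm0 hc).1 (Subgroup.mem_inf.1 h1).1 (β b₀)
    have h2 := hl _ (Sp.single b₀ 1)
    rw [tvec_mulVec] at h2
    by_cases hla : β a₀ = l
    · have h3 := h2 b₀ (by rw [← hla]; exact hβab.symm)
      simp [hab.symm] at h3
    · have h3 := h2 a₀ hla
      simp [hab] at h3
  · intro M hHM hMS
    by_cases hM : M ≤ decompositionStabilizer (blk β F)
    · left
      exact le_antisymm (le_inf hM hMS) hHM
    · right
      refine le_antisymm hMS ?_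
      obtain ⟨g, hg, hgS⟩ := SetLike.not_le_iff_exists.1 hM
      rw [mem_stab_iff hm0 hc] at hgS
      push Not at hgS
      obtain ⟨i, hi⟩ := hgS
      have hT : ∀ (j : Fin t) (u θ : ι → F), Sp β j u → Sp β j θ → θ ⬝ᵥ u = 0 → HasT M u θ := by
        intro j u θ hu hθ h
        rw [hasT_iff]
        exact ⟨h, hHM ⟨tvec_mem_stab hm0 hc hu hθ h, tvec_det u θ h⟩⟩
      obtain ⟨v, hv, hgv⟩ : ∃ v, Sp β i v ∧ ∀ l, ¬ Sp β l ((g : Matrix ι ι F) *ᵥ v) := by
        by_contra hcon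
        push Not at hcon
        obtain ⟨a, ha⟩ := hne i
        have hs : Sp β i (Pi.single a (1 : F) : ι → F) := ha ▸ Sp.single a 1
        obtain ⟨l₀, hl₀⟩ := hcon _ hs
        obtain ⟨x, hx, hx'⟩ := hi l₀
        obtain ⟨l₁, hl₁⟩ := hcon _ hx
        obtain ⟨l₂, hl₂⟩ := hcon _ (hs.add hx)
        rw [Matrix.mulVec_add] at hl₂
        have hne' : l₁ ≠ l₀ := by rintro rfl; exact hx' hl₁
        by_cases h2 : l₂ = l₀
        · subst h2
          apply hx'
          have := hl₂.add (hl₀.smul (-1))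
          simpa using this
        · have h3 : Sp β l₂ ((g : Matrix ι ι F) *ᵥ (Pi.single a (1 : F) : ι → F)) ∨ True := Or.inr trivial
          have h4 : (g : Matrix ι ι F) *ᵥ (Pi.single a (1 : F) : ι → F) = 0 := by
            ext b
            by_cases hb : β b = l₀
            · have i1 := hl₂ b (by rw [hb]; exact Ne.symm h2)
              have i2 := hl₁ b (by rw [hb]; exact hne'.symm)
              rw [Pi.add_apply, i2, add_zero] at i1
              exact i1
            · exact hl₀ b hb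
          have h5 : (Pi.single a (1 : F) : ι → F) = 0 := gl_mulVec_injective g (by simpa using h4)
          have := congrFun h5 a
          simp at this
      obtain ⟨φ, hφ, hφ0, hφ1⟩ := exists_blk_orth (k := 1) (β := β) (j := i) (by rw [hc]; omega) ![v]
      have hφv : φ ⬝ᵥ v = 0 := by rw [dotProduct_comm]; exact hφ1 0
      have hgT := (hT i v φ hv hφ hφv).conj hg
      refine block_core hT hm hc hex ?_ ?_ hgv (vecMul_inv_ne hφ0) hgT
      · intro j k hjk v χ v' χ' h h' δ hv hχ hv' hχ'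
        apply hHM
        refine ⟨Subgroup.mul_mem _ (rf_mem_stab hm0 hc hv hχ h δ) (rf_mem_stab hm0 hc hv' hχ' h' _), ?_⟩
        change Matrix.GeneralLinearGroup.det _ = 1
        rw [map_mul, rf_det, rf_det, mul_inv_cancel]
      · intro j k j' k' hjk hjk'
        obtain ⟨τ, h1, h2⟩ := exists_perm_pair hjk hjk'
        obtain ⟨σ, hσ, hστ⟩ := exists_even hc hm (by omega) τ
        refine ⟨σ, hHM ⟨pm_mem_stab hm0 hc hστ, pm_mem_sl hσ⟩, ?_, ?_⟩
        · intro a
          rw [hστ, ← h1]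
          exact τ.injective.eq_iff
        · intro a
          rw [hστ, ← h2]
          exact τ.injective.eq_iff

end std

end Cfsg.Agent.H98.Blk
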