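import Mathlib
import Cfsg.Agent.Uni.Stab
import Cfsg.Agent.Uni.Sub

set_option autoImplicit false
set_option linter.unusedSectionVars false
set_option linter.unusedVariables false
set_option linter.style.haveILetI false
set_option maxHeartbeats 1000000

/-!
Irreducible isometries of Hermitian spaces over finite fields.
-/

namespace Cfsg.Agent.H98.CovU

open Cfsg.Agent.Uni Module

variable {F : Type} [Field F] [Fintype F] {q : ℕ}

section Abs
variable {V : Type*} [AddCommGroup V] [Module F V] [Module.Finite F V]

/-- Hermitian forms -/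
structure Herm (q : ℕ) (B : V → V → F) : Prop where
  add_left : ∀ x y z, B (x + y) z = B x z + B y z
  smul_left : ∀ (c : F) x y, B (c • x) y = c * B x y
  symm : ∀ x y, B x y ^ q = B y x
  nd : ∀ x, (∀ y, B x y = 0) → x = 0

/-- `T` has no proper invariant subspaces -/
def Irr (T : V →ₗ[F] V) : Prop :=
  ∀ W : Submodule F V, (∀ x ∈ W, T x ∈ W) → W = ⊥ ∨ W = ⊤

theorem exists_field_model (T : V →ₗ[F] V) [Nontrivial V] (hirr : Irr T)
    {L : Type} [Field L] [Algebra F L] (hL : finrank F L = finrank F V) :
    ∃ (l : L) (ψ : V ≃ₗ[F] L), ∀ x, ψ (T x) = l * ψ x := by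
  classical
  obtain ⟨p, hp⟩ := CharP.exists F
  haveI hpp : Fact p.Prime := ⟨CharP.char_is_prime F p⟩
  haveI : Finite V := Module.finite_of_finite F
  haveI : Finite (V →ₗ[F] V) := DFunLike.finite _
  haveI : Finite (Algebra.adjoin F {T} : Subalgebra F (Module.End F V)) :=
    Finite.of_injective (fun a => (a : V →ₗ[F] V)) Subtype.coe_injective
  letI : CommRing (Algebra.adjoin F {T} : Subalgebra F (Module.End F V)) :=
    Algebra.adjoinCommRingOfComm F (by
      intro a ha b hb
      rw [Set.mem_singleton_iff] at ha hb
      rw [ha, hb])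
  let T' : (Algebra.adjoin F {T} : Subalgebra F (Module.End F V)) :=
    ⟨T, Algebra.subset_adjoin (Set.mem_singleton T)⟩
  have hcomm : ∀ a : (Algebra.adjoin F {T} : Subalgebra F (Module.End F V)), ∀ x,
      (a : Module.End F V) (T x) = T ((a : Module.End F V) x) := by
    intro a x
    have h1 : a * T' = T' * a := mul_comm a T'
    have h2 := congrArg (fun b : (Algebra.adjoin F {T} : Subalgebra F (Module.End F V)) =>
      (b : Module.End F V) x) h1
    exact h2
  have hinj : ∀ a : (Algebra.adjoin F {T} : Subalgebra F (Module.End F V)), a ≠ 0 →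
      ∀ x, (a : Module.End F V) x = 0 → x = 0 := by
    intro a ha x hx
    rcases hirr (LinearMap.ker (a : Module.End F V)) (fun y hy => by
      rw [LinearMap.mem_ker] at hy ⊢
      rw [hcomm, hy, map_zero]) with h | h
    · have : x ∈ LinearMap.ker (a : Module.End F V) := hx
      rwa [h, Submodule.mem_bot] at this
    · exfalso
      apply ha
      apply Subtype.ext
      exact LinearMap.ker_eq_top.1 h
  haveI : Nontrivial (Algebra.adjoin F {T} : Subalgebra F (Module.End F V)) := by
    refine ⟨1, 0, fun h => ?_⟩
    obtain ⟨x, hx⟩ := exists_ne (0 : V)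
    apply hx
    have h2 := congrArg (fun b : (Algebra.adjoin F {T} : Subalgebra F (Module.End F V)) =>
      (b : Module.End F V) x) h
    exact h2
  haveI : NoZeroDivisors (Algebra.adjoin F {T} : Subalgebra F (Module.End F V)) := by
    refine ⟨fun {a b} hab => ?_⟩
    by_contra hcon
    push Not at hcon
    obtain ⟨x, hx⟩ := exists_ne (0 : V)
    apply hx
    apply hinj b hcon.2
    apply hinj a hcon.1
    have h2 := congrArg (fun b : (Algebra.adjoin F {T} : Subalgebra F (Module.End F V)) =>
      (b : Module.End F V) x) hab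
    exact h2
  haveI : IsDomain (Algebra.adjoin F {T} : Subalgebra F (Module.End F V)) :=
    NoZeroDivisors.to_isDomain _
  obtain ⟨x₀, hx₀⟩ := exists_ne (0 : V)
  -- evaluation
  let ev : (Algebra.adjoin F {T} : Subalgebra F (Module.End F V)) →ₗ[F] V :=
    { toFun := fun a => (a : Module.End F V) x₀
      map_add' := fun a b => rfl
      map_smul' := fun c a => rfl }
  have hevi : Function.Injective ev := by
    rw [← LinearMap.ker_eq_bot, LinearMap.ker_eq_bot']
    intro a ha
    by_contra hne
    exact hx₀ (hinj a hne x₀ ha)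
  have hevs : Function.Surjective ev := by
    rw [← LinearMap.range_eq_top]
    rcases hirr (LinearMap.range ev) (fun y hy => by
      obtain ⟨a, rfl⟩ := hy
      exact ⟨T' * a, rfl⟩) with h | h
    · exfalso
      apply hx₀
      have : ev 1 ∈ LinearMap.range ev := ⟨1, rfl⟩
      rw [h, Submodule.mem_bot] at this
      exact this
    · exact h
  let E : (Algebra.adjoin F {T} : Subalgebra F (Module.End F V)) ≃ₗ[F] V :=
    LinearEquiv.ofBijective ev ⟨hevi, hevs⟩
  haveI : NeZero (finrank F V) := ⟨Module.finrank_pos.ne'⟩
  letI : Field (Algebra.adjoin F {T} : Subalgebra F (Module.End F V)) :=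
    (Finite.isField_of_domain _).toField
  have hK : finrank F (Algebra.adjoin F {T} : Subalgebra F (Module.End F V)) = finrank F V :=
    E.finrank_eq
  let e1 := FiniteField.algEquivExtension F p (finrank F V)
    (Algebra.adjoin F {T} : Subalgebra F (Module.End F V)) hK
  let e2 := FiniteField.algEquivExtension F p (finrank F V) L hL
  let e3 := e1.trans e2.symm
  refine ⟨e3 T', E.symm.trans e3.toLinearEquiv, fun x => ?_⟩
  obtain ⟨a, rfl⟩ := E.surjective x
  have h1 : T (E a) = E (T' * a) := rfl
  rw [h1, LinearEquiv.trans_apply, LinearEquiv.trans_apply, E.symm_apply_apply,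
    E.symm_apply_apply]
  exact map_mul e3 T' a

end Abs

end Cfsg.Agent.H98.CovU
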