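import Mathlib
import Cfsg.Agent.H98.CovA

set_option autoImplicit false
set_option linter.unusedSectionVars false
set_option linter.unusedVariables false
set_option linter.style.haveILetI false
set_option maxHeartbeats 1000000

/-!
Irreducible isometries of Hermitian spaces over finite fields: the field model.
-/

namespace Cfsg.Agent.H98.CovU

open Cfsg.Agent.Uni Module

variable {F : Type} [Field F] [Fintype F] {q : ℕ}

theorem pow_red {L : Type} [Field L] [Fintype L] {m : ℕ} (hc : Fintype.card L = q ^ m) (a r : ℕ)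
    (x : L) : x ^ (q ^ (m * a + r)) = x ^ (q ^ r) := by
  induction a with
  | zero => rw [mul_zero, zero_add]
  | succ a ih =>
    rw [Nat.mul_succ, add_right_comm, pow_add, pow_mul, ih, ← pow_mul, mul_comm, pow_mul,
      ← hc, FiniteField.pow_card]

theorem dvd_of_pow {L : Type} [Field L] [Fintype L] {m j : ℕ} (hq : 2 ≤ q) (hm : 0 < m)
    (hc : Fintype.card L = q ^ m) (h : ∀ x : L, x ^ (q ^ j) = x) : m ∣ j := by
  rw [Nat.dvd_iff_mod_eq_zero]
  by_contra hne
  have h1 : ∀ x : L, x ^ (q ^ (j % m)) = x := by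
    intro x
    have h2 := h x
    rw [← Nat.div_add_mod j m, pow_red hc] at h2
    exact h2
  have hlt : j % m < m := Nat.mod_lt _ hm
  have hqr : q ^ (j % m) < q ^ m := Nat.pow_lt_pow_right (by omega) hlt
  have h3 : Fintype.card L - 1 ∣ q ^ (j % m) - 1 := by
    rw [← FiniteField.forall_pow_eq_one_iff]
    intro x
    have hpos : 0 < q ^ (j % m) := by positivity
    ext
    rw [Units.val_pow_eq_pow_val, Units.val_one]
    have h4 := h1 x
    rw [← Nat.sub_add_cancel hpos, pow_succ] at h4
    exact (mul_eq_right₀ x.ne_zero).1 h4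
  rw [hc] at h3
  have h5 : 2 ≤ q ^ (j % m) := by
    calc 2 ≤ q := hq
      _ = q ^ 1 := (pow_one q).symm
      _ ≤ q ^ (j % m) := Nat.pow_le_pow_right (by omega) (Nat.pos_of_ne_zero hne)
  have := Nat.le_of_dvd (by omega) h3
  omega

section Abs
variable {V : Type*} [AddCommGroup V] [Module F V] [Module.Finite F V] {B : V → V → F}

theorem Herm.add_right (hF : Fintype.card F = q ^ 2) (h : Herm q B) (x y z : V) :
    B x (y + z) = B x y + B x z := by
  rw [← h.symm, h.add_left, add_pow_q hF, h.symm, h.symm]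

theorem Herm.smul_right (h : Herm q B) (c : F) (x y : V) : B x (c • y) = c ^ q * B x y := by
  rw [← h.symm, h.smul_left, mul_pow, h.symm]

theorem Herm.zero_left (h : Herm q B) (x : V) : B 0 x = 0 := by
  have := h.smul_left 0 0 x
  rwa [zero_smul, zero_mul] at this

theorem irr_main (hF : Fintype.card F = q ^ 2) (hB : Herm q B) (T : V →ₗ[F] V) [Nontrivial V]
    (hT : ∀ x y, B (T x) (T y) = B x y) (hirr : Irr T)
    {L : Type} [Field L] [Algebra F L] (hL : finrank F L = finrank F V) :
    Odd (finrank F V) ∧ ∃ (l : L) (ψ : V ≃ₗ[F] L), (∀ x, ψ (T x) = l * ψ x) ∧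
      ∀ x y, B x y = Algebra.trace F L (ψ x * (ψ y) ^ (q ^ finrank F V)) := by
  classical
  obtain ⟨l, ψ, hψ⟩ := exists_field_model T hirr hL
  obtain ⟨n, hn⟩ : ∃ n, n = finrank F V := ⟨_, rfl⟩
  rw [← hn] at hL ⊢
  have hn0 : 0 < n := by rw [hn]; exact Module.finrank_pos
  have hq := two_le_q hF
  haveI : Module.Finite F L := Module.finite_of_finrank_pos (by rw [hL]; exact hn0)
  haveI : Finite L := Module.finite_of_finite F
  letI : Fintype L := Fintype.ofFinite L
  have hcard : Fintype.card L = q ^ (2 * n) := by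
    rw [Module.card_eq_pow_finrank (K := F), hL, hF, ← pow_mul]
  have hcard' : Fintype.card L = (q ^ n) ^ 2 := by rw [hcard, ← pow_mul, mul_comm]
  -- the trace form
  have htr := traceForm_nondegenerate F L
  have huniq : ∀ a b : L, (∀ x, Algebra.trace F L (x * a) = Algebra.trace F L (x * b)) → a = b := by
    intro a b hab
    rw [← sub_eq_zero]
    refine htr.1 (a - b) fun x => ?_
    rw [Algebra.traceForm_apply, sub_mul, map_sub, mul_comm a, mul_comm b, hab x, sub_self]
  obtain ⟨C, hC⟩ : ∃ C : L → L → F, ∀ x y, C x y = B (ψ.symm x) (ψ.symm y) :=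
    ⟨_, fun _ _ => rfl⟩
  have hex : ∀ y, ∃ t : L, ∀ x, C x y = Algebra.trace F L (x * t) := by
    intro y
    let f : L →ₗ[F] F :=
      { toFun := fun x => C x y
        map_add' := fun a b => by simp only [hC, map_add, hB.add_left]
        map_smul' := fun c a => by
          simp only [hC, map_smul, hB.smul_left, smul_eq_mul, RingHom.id_apply] }
    refine ⟨(LinearMap.BilinForm.toDual (Algebra.traceForm F L) htr).symm f, fun x => ?_⟩
    have h1 := LinearMap.BilinForm.apply_toDual_symm_apply (hB := htr) f x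
    rw [Algebra.traceForm_apply, mul_comm] at h1
    rw [h1]
    rfl
  choose θ hθ using hex
  have θadd : ∀ y z, θ (y + z) = θ y + θ z := by
    intro y z
    apply huniq
    intro x
    rw [← hθ, mul_add, map_add, ← hθ, ← hθ, hC, hC, hC, map_add, hB.add_right hF]
  have θsmul : ∀ (c : F) y, θ (c • y) = c ^ q • θ y := by
    intro c y
    apply huniq
    intro x
    rw [← hθ, mul_smul_comm, map_smul, ← hθ, hC, hC, map_smul, hB.smul_right, smul_eq_mul]
  have hψs : ∀ x, ψ.symm (l * x) = T (ψ.symm x) := by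
    intro x
    rw [LinearEquiv.symm_apply_eq, hψ, LinearEquiv.apply_symm_apply]
  have θlam : ∀ y, l * θ (l * y) = θ y := by
    intro y
    apply huniq
    intro x
    rw [← hθ, ← mul_assoc, mul_comm x l, ← hθ, hC, hC, hψs, hψs, hT]
  have θne : ∀ y, y ≠ 0 → θ y ≠ 0 := by
    intro y hy h0
    apply hy
    have h1 : ψ.symm y = 0 := by
      apply hB.nd
      intro z
      rw [← hB.symm]
      have h2 := hθ y (ψ z)
      rw [h0, mul_zero, map_zero, hC, LinearEquiv.symm_apply_apply] at h2
      rw [h2, zero_pow (by omega)]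
    rw [LinearEquiv.symm_apply_eq, map_zero] at h1
    exact h1
  have hl0 : l ≠ 0 := by
    rintro rfl
    have := θlam 1
    rw [zero_mul] at this
    exact θne 1 one_ne_zero this.symm
  -- generation
  have hgen : ∀ S : Submodule F L, (∀ b ∈ S, l * b ∈ S) → (1 : L) ∈ S → S = ⊤ := by
    intro S hS h1
    rcases hirr (S.comap ψ.toLinearMap) (fun x hx => by
      rw [Submodule.mem_comap] at hx ⊢
      change ψ (T x) ∈ S
      rw [hψ]
      exact hS _ hx) with h | h
    · exfalso
      have h2 : ψ.symm 1 ∈ S.comap ψ.toLinearMap := by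
        rw [Submodule.mem_comap]
        change ψ (ψ.symm 1) ∈ S
        rw [LinearEquiv.apply_symm_apply]
        exact h1
      rw [h, Submodule.mem_bot, LinearEquiv.symm_apply_eq, map_zero] at h2
      exact one_ne_zero h2
    · rw [eq_top_iff]
      intro b _
      have h2 : ψ.symm b ∈ S.comap ψ.toLinearMap := by rw [h]; exact Submodule.mem_top
      rw [Submodule.mem_comap] at h2
      change ψ (ψ.symm b) ∈ S at h2
      rwa [LinearEquiv.apply_symm_apply] at h2
  -- the automorphism
  have hPex : ∀ b : L, ∃ s, ∀ y, θ (b * y) = s * θ y := by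
    let S : Submodule F L :=
      { carrier := {b | ∃ s, ∀ y, θ (b * y) = s * θ y}
        add_mem' := by
          rintro a b ⟨s, hs⟩ ⟨t, ht⟩
          exact ⟨s + t, fun y => by rw [add_mul, θadd, hs, ht, add_mul]⟩
        zero_mem' := ⟨0, fun y => by
          have := θsmul 0 0
          rw [zero_mul, zero_mul]
          rwa [zero_smul, zero_pow (by omega), zero_smul] at this⟩
        smul_mem' := by
          rintro c b ⟨s, hs⟩
          exact ⟨c ^ q • s, fun y => by rw [smul_mul_assoc, θsmul, hs, smul_mul_assoc]⟩ }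
    have hST : S = ⊤ := by
      apply hgen
      · rintro b ⟨s, hs⟩
        refine ⟨l⁻¹ * s, fun y => ?_⟩
        have h1 := θlam (b * y)
        rw [hs] at h1
        rw [mul_assoc l b y, mul_assoc, ← h1, inv_mul_cancel_left₀ hl0]
      · exact ⟨1, fun y => by rw [one_mul, one_mul]⟩
    intro b
    have : b ∈ S := by rw [hST]; exact Submodule.mem_top
    exact this
  choose σ hσ using hPex
  have hθ1 := θne 1 one_ne_zero
  have σval : ∀ b s, θ b = s * θ 1 → σ b = s := by
    intro b s h
    have h1 := hσ b 1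
    rw [mul_one, h] at h1
    exact (mul_right_cancel₀ hθ1 h1).symm
  have θσ : ∀ b, θ b = σ b * θ 1 := by
    intro b
    have h1 := hσ b 1
    rwa [mul_one] at h1
  have σadd : ∀ a b, σ (a + b) = σ a + σ b := by
    intro a b
    apply σval
    rw [θadd, θσ a, θσ b, add_mul]
  have σmul : ∀ a b, σ (a * b) = σ a * σ b := by
    intro a b
    apply σval
    rw [hσ, θσ b, mul_assoc]
  have σone : σ 1 = 1 := by apply σval; rw [one_mul]
  have σalg : ∀ c : F, σ (algebraMap F L c) = algebraMap F L (c ^ q) := by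
    intro c
    apply σval
    rw [Algebra.algebraMap_eq_smul_one, θsmul, Algebra.smul_def]
  have σzero : σ 0 = 0 := by
    have := σalg 0
    rwa [map_zero, zero_pow (by omega), map_zero] at this
  have σl : σ l = l⁻¹ := by
    apply σval
    have := θlam 1
    rw [mul_one] at this
    rw [← this, inv_mul_cancel_left₀ hl0]
  have σσ : ∀ b, σ (σ b) = b := by
    let S : Submodule F L :=
      { carrier := {b | σ (σ b) = b}
        add_mem' := by
          intro a b ha hb
          change σ (σ (a + b)) = a + b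
          rw [σadd, σadd]
          rw [show σ (σ a) = a from ha, show σ (σ b) = b from hb]
        zero_mem' := by
          change σ (σ 0) = 0
          rw [σzero, σzero]
        smul_mem' := by
          intro c b hb
          change σ (σ (c • b)) = c • b
          rw [Algebra.smul_def, σmul, σmul, show σ (σ b) = b from hb, σalg, σalg,
            pow_q_pow_q hF] }
    have hST : S = ⊤ := by
      apply hgen
      · intro b hb
        change σ (σ (l * b)) = l * b
        rw [σmul, σmul, show σ (σ b) = b from hb, σl]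
        congr 1
        have h1 : σ l * σ l⁻¹ = 1 := by rw [← σmul, mul_inv_cancel₀ hl0, σone]
        rw [σl] at h1
        exact (inv_mul_eq_one₀ hl0).1 h1 |>.symm
      · change σ (σ 1) = 1
        rw [σone, σone]
    intro b
    have : b ∈ S := by rw [hST]; exact Submodule.mem_top
    exact this
  -- Frobenius
  obtain ⟨p, f, hp, hcp, hf, hqp⟩ := q_prime_pow hF
  haveI := Fact.mk hp
  haveI : CharP L p := charP_of_injective_algebraMap (algebraMap F L).injective p
  have hLadd : ∀ x y : L, (x + y) ^ q = x ^ q + y ^ q := by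
    intro x y
    rw [hqp]
    exact add_pow_char_pow x y p f
  let τ : L →ₐ[F] L :=
    { toFun := fun b => σ b ^ q
      map_one' := by simp only [σone, one_pow]
      map_mul' := fun a b => by simp only [σmul, mul_pow]
      map_zero' := by simp only [σzero]; exact zero_pow (by omega)
      map_add' := fun a b => by simp only [σadd, hLadd]
      commutes' := fun c => by simp only [σalg, ← map_pow, pow_q_pow_q hF] }
  obtain ⟨i, hi⟩ := FiniteField.exists_forall_apply_eq_pow F p L
    (AlgEquiv.ofBijective τ (Algebra.IsAlgebraic.algHom_bijective τ))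
  have hi' : ∀ x, σ x ^ q = x ^ (q ^ (2 * i)) := by
    intro x
    have h1 := hi x
    rw [Nat.card_eq_fintype_card, hF, ← pow_mul] at h1
    exact h1
  have hσm : ∀ x, σ x = x ^ (q ^ (2 * i + (2 * n - 1))) := by
    intro x
    have h1 := congrArg (fun y => y ^ (q ^ (2 * n - 1))) (hi' x)
    simp only [← pow_mul] at h1
    rw [← pow_succ', Nat.sub_add_cancel (by omega), ← hcard, FiniteField.pow_card, ← pow_add] at h1
    exact h1
  obtain ⟨m, hm⟩ : ∃ m, m = 2 * i + (2 * n - 1) := ⟨_, rfl⟩
  rw [← hm] at hσm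
  have hdvd : 2 * n ∣ 2 * m := by
    refine dvd_of_pow (L := L) hq (by omega) hcard fun x => ?_
    have h1 := σσ x
    rw [hσm, hσm, ← pow_mul, ← pow_add, ← two_mul] at h1
    exact h1
  obtain ⟨j, hj⟩ := Nat.dvd_of_mul_dvd_mul_left (by norm_num) hdvd
  have hmodd : Odd m := ⟨i + n - 1, by omega⟩
  rw [hj, Nat.odd_mul] at hmodd
  obtain ⟨hnodd, ⟨s, hs⟩⟩ := hmodd
  have hσn : ∀ x, σ x = x ^ (q ^ n) := by
    intro x
    rw [hσm, hj, hs, show n * (2 * s + 1) = 2 * n * s + n by ring, pow_red hcard]
  -- `c = θ 1`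
  obtain ⟨c, hc⟩ : ∃ c, c = θ 1 := ⟨_, rfl⟩
  obtain ⟨Q, hQ⟩ : ∃ Q, Q = q ^ n := ⟨_, rfl⟩
  have hQQ : ∀ x : L, (x ^ Q) ^ Q = x := by
    intro x
    rw [← pow_mul, hQ, ← sq, ← hcard', FiniteField.pow_card]
  have hCx : ∀ x y, C x y = Algebra.trace F L (x * (y ^ Q * c)) := by
    intro x y
    rw [hθ, θσ, hσn, hc, hQ]
  have hFQ : ∀ a : F, a ^ Q = a ^ q := by
    intro a
    obtain ⟨r, hr⟩ := hnodd
    rw [hQ, hr, pow_red hF, pow_one]
  have htrQ : ∀ x : L, (Algebra.trace F L x) ^ q = Algebra.trace F L (x ^ Q) := by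
    intro x
    apply (algebraMap F L).injective
    have h1 : algebraMap F L ((Algebra.trace F L x) ^ q) =
        (algebraMap F L (Algebra.trace F L x)) ^ Q := by
      rw [← hFQ, map_pow]
    rw [h1, FiniteField.algebraMap_trace_eq_sum_pow, FiniteField.algebraMap_trace_eq_sum_pow, hQ, hqp,
      ← pow_mul p f n, sum_pow_char_pow]
    refine Finset.sum_congr rfl fun k _ => ?_
    rw [← pow_mul, ← pow_mul, mul_comm]
  have hcQ : c ^ Q = c := by
    symm
    apply huniq
    intro y
    have h1 : C y 1 = (C 1 y) ^ q := by rw [hC, hC, hB.symm]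
    rw [hCx, hCx, htrQ, one_pow, one_mul, one_mul, mul_pow, hQQ] at h1
    exact h1
  obtain ⟨r, hr⟩ := exists_norm_eq (F := L) (q := Q) (by rw [hQ]; exact hcard') hcQ
  have hr0 : r ≠ 0 := by
    rintro rfl
    rw [zero_pow (by omega)] at hr
    apply hθ1
    rw [← hc, hr]
  refine ⟨hnodd, l, ψ.trans ((LinearEquiv.smulOfNeZero L L r hr0).restrictScalars F), ?_, ?_⟩
  · intro x
    change r • ψ (T x) = l * (r • ψ x)
    rw [hψ, smul_eq_mul, smul_eq_mul]
    ring
  · intro x y
    change B x y = Algebra.trace F L ((r • ψ x) * (r • ψ y) ^ (q ^ n))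
    have h1 := hCx (ψ x) (ψ y)
    rw [hC, LinearEquiv.symm_apply_apply, LinearEquiv.symm_apply_apply] at h1
    rw [h1, smul_eq_mul, smul_eq_mul, ← hQ, ← hr, mul_pow, pow_succ]
    congr 1
    ring

end Abs

end Cfsg.Agent.H98.CovU
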