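import Mathlib
import Cfsg.Agent.H98.CovB

set_option autoImplicit false
set_option linter.unusedSectionVars false
set_option linter.unusedVariables false
set_option linter.style.haveILetI false
set_option maxHeartbeats 1000000

/-!
Every element of `SU 4` fixes a nonisotropic point or a totally isotropic line.
-/

namespace Cfsg.Agent.H98.CovU

open Cfsg.Agent.Uni Module

variable {F : Type} [Field F] [Fintype F] {q n : ℕ}

theorem exists_extension (F : Type) [Field F] [Fintype F] (n : ℕ) (hn : 0 < n) :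
    ∃ (L : Type) (_ : Field L) (_ : Algebra F L), finrank F L = n := by
  obtain ⟨p, hp⟩ := CharP.exists F
  haveI hpp : Fact p.Prime := ⟨CharP.char_is_prime F p⟩
  haveI : NeZero n := ⟨hn.ne'⟩
  exact ⟨FiniteField.Extension F p n, inferInstance, inferInstance,
    FiniteField.finrank_extension F p n⟩

section Abs
variable {V : Type*} [AddCommGroup V] [Module F V] [Module.Finite F V] {B : V → V → F}

theorem exists_inv (hF : Fintype.card F = q ^ 2) (hB : Herm q B) (T : V →ₗ[F] V)
    (hT : ∀ x y, B (T x) (T y) = B x y) (h0 : 0 < finrank F V) (hev : ¬ Odd (finrank F V)) :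
    ∃ W : Submodule F V, (∀ x ∈ W, T x ∈ W) ∧ W ≠ ⊥ ∧ W ≠ ⊤ := by
  haveI : Nontrivial V := Module.finrank_pos_iff.1 h0
  obtain ⟨L, _, _, hL⟩ := exists_extension F _ h0
  by_contra hcon
  push Not at hcon
  exact hev (irr_main hF hB T hT (fun W hW => by
    by_cases h : W = ⊥
    · exact Or.inl h
    · exact Or.inr (hcon W hW h)) hL).1

theorem eig_of_one {W : Submodule F V} (T : V →ₗ[F] V) (hW : ∀ x ∈ W, T x ∈ W)
    (h1 : finrank F W = 1) : ∃ x ∈ W, x ≠ 0 ∧ ∃ μ : F, T x = μ • x := by
  obtain ⟨v, hv0, hv⟩ := finrank_eq_one_iff'.1 h1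
  refine ⟨v, v.2, fun h => hv0 (Subtype.ext h), ?_⟩
  obtain ⟨μ, hμ⟩ := hv ⟨T v, hW v v.2⟩
  exact ⟨μ, (congrArg Subtype.val hμ).symm⟩

theorem exists_eig_of_two (hF : Fintype.card F = q ^ 2) (hB : Herm q B) (T : V →ₗ[F] V)
    (hT : ∀ x y, B (T x) (T y) = B x y) (h2 : finrank F V = 2) :
    ∃ x, x ≠ 0 ∧ ∃ μ : F, T x = μ • x := by
  obtain ⟨W, hW, hbot, htop⟩ := exists_inv hF hB T hT (by omega) (by rw [h2]; decide)
  have h3 : finrank F W < 2 := by
    rw [← h2]
    exact Submodule.finrank_lt htop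
  have h4 : finrank F W ≠ 0 := fun h => hbot (Submodule.finrank_eq_zero.1 h)
  obtain ⟨x, -, hx0, hx⟩ := eig_of_one T hW (by omega)
  exact ⟨x, hx0, hx⟩

end Abs

/-- the linear map of an element of `SU` -/
def lin (g : SU n F q) : (Fin n → F) →ₗ[F] (Fin n → F) where
  toFun := act g
  map_add' := act_add g
  map_smul' := act_smul g

theorem lin_apply (g : SU n F q) (x : Fin n → F) : lin g x = act g x := rfl

theorem herm_form (hF : Fintype.card F = q ^ 2) : Herm q (hermForm n F q) where
  add_left := hermForm_add_left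
  smul_left := hermForm_smul_left
  symm := hermForm_symm hF
  nd := fun _ h => hermForm_nondeg hF h

theorem herm_sub (hF : Fintype.card F = q ^ 2) {W : Submodule F (Fin n → F)} (hW : ND q W) :
    Herm q (fun x y : W => hermForm n F q x y) where
  add_left := fun x y z => hermForm_add_left _ _ _
  smul_left := fun c x y => hermForm_smul_left _ _ _
  symm := fun x y => hermForm_symm hF _ _
  nd := fun x h => Subtype.ext (hW x x.2 fun y hy => h ⟨y, hy⟩)

theorem perp_inv (hF : Fintype.card F = q ^ 2) (g : SU n F q) {W : Submodule F (Fin n → F)}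
    (hW : ∀ x ∈ W, act g x ∈ W) : ∀ x ∈ perp q W, act g x ∈ perp q W := by
  have h1 : W.map (lin g) = W := by
    apply Submodule.eq_of_le_of_finrank_eq
    · rintro _ ⟨w, hw, rfl⟩
      exact hW w hw
    · exact (Submodule.equivMapOfInjective (lin g) (fun x y h => act_inj.1 h) W).finrank_eq.symm
  intro x hx w hw
  rw [← h1] at hw
  obtain ⟨w', hw', rfl⟩ := hw
  rw [lin_apply, act_form]
  exact hx w' hw'

/-- Step: no eigenvectors. -/
theorem no_eig (hF : Fintype.card F = q ^ 2) (g : SU 4 F q)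
    (hno : ∀ x : Fin 4 → F, x ≠ 0 → ∀ μ : F, act g x ≠ μ • x) :
    ∃ W : Submodule F (Fin 4 → F), (∀ x ∈ W, act g x ∈ W) ∧ finrank F W = 2 ∧
      ∀ x ∈ W, ∀ y ∈ W, hermForm 4 F q x y = 0 := by
  have hno1 : ∀ W : Submodule F (Fin 4 → F), (∀ x ∈ W, act g x ∈ W) → finrank F W ≠ 1 := by
    intro W hW h1
    obtain ⟨x, -, hx0, μ, hμ⟩ := eig_of_one (lin g) hW h1
    exact hno x hx0 μ hμ
  obtain ⟨W, hW, hbot, htop⟩ := exists_inv hF (herm_form (n := 4) hF) (lin g)
    (fun x y => act_form g x y) (by rw [finrank_fin_fun]; norm_num)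
    (by rw [finrank_fin_fun]; decide)
  have h4 : finrank F W < 4 := by
    have := Submodule.finrank_lt htop
    rwa [finrank_fin_fun] at this
  have h0 : finrank F W ≠ 0 := fun h => hbot (Submodule.finrank_eq_zero.1 h)
  have h1 := hno1 W hW
  have hP := finrank_perp hF W
  have h3 : finrank F W ≠ 3 := by
    intro h3
    exact hno1 _ (perp_inv hF g hW) (by omega)
  have h2 : finrank F W = 2 := by omega
  have hWinf : ∀ x ∈ W ⊓ perp q W, act g x ∈ W ⊓ perp q W := fun x hx =>
    ⟨hW x hx.1, perp_inv hF g hW x hx.2⟩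
  have hle : finrank F (W ⊓ perp q W : Submodule F (Fin 4 → F)) ≤ 2 := by
    rw [← h2]; exact Submodule.finrank_mono inf_le_left
  have hne1 := hno1 _ hWinf
  by_cases hz : finrank F (W ⊓ perp q W : Submodule F (Fin 4 → F)) = 0
  · exfalso
    have hnd : ND q W := (nd_iff_inf W).2 (Submodule.finrank_eq_zero.1 hz)
    obtain ⟨x, hx0, μ, hμ⟩ := exists_eig_of_two hF (herm_sub hF hnd)
      ((lin g).restrict (p := W) (q := W) hW) (fun x y => act_form g x y) h2
    exact hno x (fun h => hx0 (Subtype.ext h)) μ (congrArg Subtype.val hμ)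
  · have h2' : W ⊓ perp q W = W := by
      apply Submodule.eq_of_le_of_finrank_eq inf_le_left
      omega
    have hWP : W ≤ perp q W := inf_eq_left.1 h2'
    exact ⟨W, hW, h2, fun x hx y hy => hWP hx y hy⟩

theorem two_iso (hF : Fintype.card F = q ^ 2) (g : SU n F q) {x w : Fin n → F} {a b c : F}
    (hx : act g x = a • x) (hw : act g w = b • w + c • x) (hxx : hermForm n F q x x = 0)
    (hww : hermForm n F q w w = 0) (hwx : hermForm n F q w x = 0)
    (hli : LinearIndependent F ![x, w]) :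
    ∃ W : Submodule F (Fin n → F), (∀ x ∈ W, act g x ∈ W) ∧ finrank F W = 2 ∧
      ∀ x ∈ W, ∀ y ∈ W, hermForm n F q x y = 0 := by
  have hxw := (hermForm_eq_zero_comm hF).1 hwx
  refine ⟨Submodule.span F {x, w}, ?_, ?_, ?_⟩
  · intro v hv
    obtain ⟨s, t, rfl⟩ := Submodule.mem_span_pair.1 hv
    rw [act_add, act_smul, act_smul, hx, hw]
    refine Submodule.mem_span_pair.2 ⟨s * a + t * c, t * b, ?_⟩
    module
  · have := finrank_span_eq_card hli
    rw [Fintype.card_fin, Matrix.range_cons, Matrix.range_cons, Matrix.range_empty,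
      Set.union_empty, Set.singleton_union] at this
    exact this
  · intro v hv v' hv'
    obtain ⟨s, t, rfl⟩ := Submodule.mem_span_pair.1 hv
    obtain ⟨s', t', rfl⟩ := Submodule.mem_span_pair.1 hv'
    simp only [hermForm_add_left, hermForm_add_right hF, hermForm_smul_left, hermForm_smul_right,
      hxx, hww, hwx, hxw]
    ring

/-- an eigenvector modulo an isotropic eigenvector -/
theorem lift_eig (hF : Fintype.card F = q ^ 2) (g : SU n F q) {x y : Fin n → F} {a b c : F}
    (hx : act g x = a • x) (hy : act g y = b • y + c • x) (hxx : hermForm n F q x x = 0)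
    (hyx : hermForm n F q y x = 0) (hyy : hermForm n F q y y ≠ 0) (hab : b ≠ a) :
    ∃ v, hermForm n F q v v ≠ 0 ∧ ∃ μ : F, act g v = μ • v := by
  have hxy := (hermForm_eq_zero_comm hF).1 hyx
  have hba : b - a ≠ 0 := sub_ne_zero.2 hab
  refine ⟨y + (c / (b - a)) • x, ?_, b, ?_⟩
  · rw [hermForm_add_left, hermForm_add_right hF, hermForm_add_right hF, hermForm_smul_left,
      hermForm_smul_left, hermForm_smul_right, hermForm_smul_right, hxx, hyx, hxy]
    simpa using hyy
  · rw [act_add, act_smul, hx, hy]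
    have h1 : c = b * (c / (b - a)) - (c / (b - a)) * a := by
      field_simp
    calc b • y + c • x + (c / (b - a)) • a • x
        = b • y + (c + (c / (b - a)) * a) • x := by module
      _ = b • y + (b * (c / (b - a))) • x := by
        congr 2
        linear_combination h1
      _ = b • (y + (c / (b - a)) • x) := by module

/-- Step: an isotropic eigenvector. -/
theorem iso_eig (hF : Fintype.card F = q ^ 2) (g : SU 4 F q) {x : Fin 4 → F} {a : F}
    (hx0 : x ≠ 0) (hx : act g x = a • x) (hxx : hermForm 4 F q x x = 0) :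
    (∃ v, hermForm 4 F q v v ≠ 0 ∧ ∃ μ : F, act g v = μ • v) ∨
    ∃ W : Submodule F (Fin 4 → F), (∀ x ∈ W, act g x ∈ W) ∧ finrank F W = 2 ∧
      ∀ x ∈ W, ∀ y ∈ W, hermForm 4 F q x y = 0 := by
  obtain ⟨x', hyp⟩ := exists_hyp' hF hx0 hxx
  have hyp' := hyp.symm hF
  obtain ⟨W, hWdef⟩ : ∃ W, W = perp q (Submodule.span F {x, x'}) := ⟨_, rfl⟩
  have hmem : ∀ {w : Fin 4 → F}, w ∈ W ↔ hermForm 4 F q w x = 0 ∧ hermForm 4 F q w x' = 0 := by
    intro w; rw [hWdef]; exact Hyp.mem_perp_iff hF
  have hWnd : ND q W := by rw [hWdef]; exact (hyp.nd hF).perp hF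
  have hW2 : finrank F W = 2 := by rw [hWdef, hyp.finrank_perp hF]
  have ha0 : a ≠ 0 := by
    rintro rfl
    rw [zero_smul] at hx
    exact act_ne_zero hx0 hx
  have hTx : ∀ w, hermForm 4 F q w x = 0 → hermForm 4 F q (act g w) x = 0 := by
    intro w hw
    have h1 := act_form g w x
    rw [hx, hermForm_smul_right, hw] at h1
    exact (mul_eq_zero.1 h1).resolve_left (pow_ne_zero _ ha0)
  have hproj : ∀ w ∈ W, act g w - hermForm 4 F q (act g w) x' • x ∈ W := by
    intro w hw
    rw [hmem] at hw ⊢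
    rw [hermForm_sub_left, hermForm_sub_left, hermForm_smul_left, hermForm_smul_left, hTx w hw.1,
      hxx, hyp.2.2]
    constructor <;> ring
  let T : W →ₗ[F] W :=
    { toFun := fun w => ⟨act g w - hermForm 4 F q (act g w) x' • x, hproj w w.2⟩
      map_add' := fun u v => by
        apply Subtype.ext
        change act g ((u : Fin 4 → F) + v) - hermForm 4 F q (act g ((u : Fin 4 → F) + v)) x' • x =
          (act g u - hermForm 4 F q (act g u) x' • x) + (act g v - hermForm 4 F q (act g v) x' • x)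
        rw [act_add, hermForm_add_left, add_smul]
        abel
      map_smul' := fun c u => by
        apply Subtype.ext
        change act g (c • (u : Fin 4 → F)) - hermForm 4 F q (act g (c • (u : Fin 4 → F))) x' • x =
          c • (act g u - hermForm 4 F q (act g u) x' • x)
        rw [act_smul, hermForm_smul_left, mul_smul, smul_sub] }
  have hTv : ∀ w : W, ((T w : W) : Fin 4 → F) = act g w - hermForm 4 F q (act g w) x' • x :=
    fun _ => rfl
  have hTact : ∀ w : W, act g w = (T w : Fin 4 → F) + hermForm 4 F q (act g w) x' • x := by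
    intro w; rw [hTv]; abel
  have hTiso : ∀ u v : W, hermForm 4 F q (T u) (T v) = hermForm 4 F q u v := by
    intro u v
    have hu := hTx u (hmem.1 u.2).1
    have hv := (hermForm_eq_zero_comm hF).1 (hTx v (hmem.1 v.2).1)
    rw [hTv, hTv, hermForm_sub_left, hermForm_sub_right hF, hermForm_sub_right hF,
      hermForm_smul_left, hermForm_smul_left, hermForm_smul_right, hermForm_smul_right, hu, hv,
      hxx, act_form]
    ring
  obtain ⟨y, hy0, b, hyb⟩ := exists_eig_of_two hF (herm_sub hF hWnd) T hTiso hW2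
  have hyact := hTact y
  rw [hyb] at hyact
  change act g (y : Fin 4 → F) = b • (y : Fin 4 → F) + _ at hyact
  have hyx := (hmem.1 y.2).1
  have hli : ∀ w : Fin 4 → F, w ∈ W → w ≠ 0 → LinearIndependent F ![x, w] := by
    intro w hw hw0
    rw [LinearIndependent.pair_iff]
    intro s t hst
    have h1 : hermForm 4 F q (s • x + t • w) x' = 0 := by rw [hst, hermForm_zero_left]
    rw [hermForm_add_left, hermForm_smul_left, hermForm_smul_left, hyp.2.2, (hmem.1 hw).2,
      mul_one, mul_zero, add_zero] at h1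
    refine ⟨h1, ?_⟩
    rw [h1, zero_smul, zero_add] at hst
    exact (smul_eq_zero.1 hst).resolve_right hw0
  by_cases hyy : hermForm 4 F q (y : Fin 4 → F) y = 0
  · right
    exact two_iso hF g hx hyact hxx hyy hyx (hli y y.2 (fun h => hy0 (Subtype.ext h)))
  by_cases hba : b = a
  swap
  · left
    exact lift_eig hF g hx hyact hxx hyx hyy hba
  -- the orthogonal complement of `y` in `W`
  have hndy := nd_span_unit hyy
  have hle : Submodule.span F {(y : Fin 4 → F)} ≤ W := by
    rw [Submodule.span_singleton_le_iff_mem]; exact y.2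
  have hfr := finrank_inf_perp hF hndy hle
  have hyne : (y : Fin 4 → F) ≠ 0 := fun h => hy0 (Subtype.ext h)
  rw [finrank_span_singleton hyne, hW2] at hfr
  obtain ⟨z, hz, hzz⟩ := (hWnd.inf_perp hF hndy hle).exists_unit hF (by
    intro hbot
    rw [hbot, finrank_bot] at hfr
    omega)
  have hzy : hermForm 4 F q z y = 0 := hz.2 y (Submodule.mem_span_singleton_self _)
  have hb0 : b ≠ 0 := by rw [hba]; exact ha0
  have hTz : (T ⟨z, hz.1⟩ : Fin 4 → F) ∈ W ⊓ perp q (Submodule.span F {(y : Fin 4 → F)}) := by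
    refine Submodule.mem_inf.2 ⟨(T ⟨z, hz.1⟩).2, (mem_perp_span hF).2 ?_⟩
    intro w hw
    rw [Set.mem_singleton_iff] at hw
    subst hw
    have h1 := hTiso ⟨z, hz.1⟩ y
    rw [hyb] at h1
    change hermForm 4 F q (T ⟨z, hz.1⟩ : Fin 4 → F) (b • (y : Fin 4 → F)) = hermForm 4 F q z y at h1
    rw [hermForm_smul_right, hzy] at h1
    exact (mul_eq_zero.1 h1).resolve_left (pow_ne_zero _ hb0)
  have hzne : z ≠ 0 := by
    rintro rfl
    rw [hermForm_zero_left] at hzz
    exact zero_ne_one hzz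
  obtain ⟨d, hd⟩ : ∃ d : F, (T ⟨z, hz.1⟩ : Fin 4 → F) = d • z := by
    have h1 : finrank F (W ⊓ perp q (Submodule.span F {(y : Fin 4 → F)}) :
        Submodule F (Fin 4 → F)) = 1 := by omega
    obtain ⟨d, hd⟩ := (finrank_eq_one_iff_of_nonzero' (⟨z, hz⟩ :
      (W ⊓ perp q (Submodule.span F {(y : Fin 4 → F)}) : Submodule F (Fin 4 → F)))
      (fun h => hzne (congrArg Subtype.val h))).1 h1 ⟨_, hTz⟩
    exact ⟨d, (congrArg Subtype.val hd).symm⟩
  have hzact := hTact ⟨z, hz.1⟩
  rw [hd] at hzact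
  change act g z = _ at hzact
  by_cases hda : d = a
  swap
  · left
    exact lift_eig hF g hx hzact hxx (hmem.1 hz.1).1 (by rw [hzz]; exact one_ne_zero) hda
  -- `T` is scalar
  right
  obtain ⟨w, hw, hw0, hww⟩ := hWnd.exists_isotropic hF (by omega)
  -- `w` is a combination of `y` and `z`
  obtain ⟨s, hs, t, ht, hst⟩ := hndy.exists_add hF w
  obtain ⟨s', hs'⟩ := Submodule.mem_span_singleton.1 hs
  have htW : t ∈ W ⊓ perp q (Submodule.span F {(y : Fin 4 → F)}) := by
    refine ⟨?_, ht⟩
    have : t = w - s := by rw [hst]; abel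
    rw [this]
    exact W.sub_mem hw (hle hs)
  obtain ⟨t', ht'⟩ : ∃ t' : F, t = t' • z := by
    have h1 : finrank F (W ⊓ perp q (Submodule.span F {(y : Fin 4 → F)}) :
        Submodule F (Fin 4 → F)) = 1 := by omega
    obtain ⟨d, hd⟩ := (finrank_eq_one_iff_of_nonzero' (⟨z, hz⟩ :
      (W ⊓ perp q (Submodule.span F {(y : Fin 4 → F)}) : Submodule F (Fin 4 → F)))
      (fun h => hzne (congrArg Subtype.val h))).1 h1 ⟨_, htW⟩
    exact ⟨d, (congrArg Subtype.val hd).symm⟩
  refine two_iso hF g (w := w) (b := a) (c := s' * hermForm 4 F q (act g y) x' +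
    t' * hermForm 4 F q (act g z) x') hx ?_ hxx hww (hmem.1 hw).1 (hli w hw hw0)
  rw [hst, ← hs', ht', act_add, act_smul, act_smul]
  have e1 : act g (y : Fin 4 → F) = a • (y : Fin 4 → F) + hermForm 4 F q (act g y) x' • x := by
    rw [← hba]; exact hyact
  have e2 : act g z = a • z + hermForm 4 F q (act g z) x' • x := by
    rw [← hda]; exact hzact
  generalize hermForm 4 F q (act g y) x' = A at e1 ⊢
  generalize hermForm 4 F q (act g z) x' = A' at e2 ⊢
  rw [e1, e2]
  module

theorem four_cases (hF : Fintype.card F = q ^ 2) (g : SU 4 F q) :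
    (∃ v, hermForm 4 F q v v ≠ 0 ∧ ∃ μ : F, act g v = μ • v) ∨
    ∃ W : Submodule F (Fin 4 → F), (∀ x ∈ W, act g x ∈ W) ∧ finrank F W = 2 ∧
      ∀ x ∈ W, ∀ y ∈ W, hermForm 4 F q x y = 0 := by
  by_cases h : ∃ x : Fin 4 → F, x ≠ 0 ∧ ∃ μ : F, act g x = μ • x
  · obtain ⟨x, hx0, μ, hμ⟩ := h
    by_cases hxx : hermForm 4 F q x x = 0
    · exact iso_eig hF g hx0 hμ hxx
    · exact Or.inl ⟨x, hxx, μ, hμ⟩
  · push Not at h
    exact Or.inr (no_eig hF g h)

end Cfsg.Agent.H98.CovU
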