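import Mathlib
import Cfsg.Agent.H98.CovC
import Cfsg.Agent.Uni.Simple

set_option autoImplicit false
set_option linter.unusedSectionVars false
set_option linter.unusedVariables false
set_option linter.style.haveILetI false
set_option maxHeartbeats 1000000

/-!
`PSU 4` is the union of the conjugates of two proper subgroups.
-/

namespace Cfsg.Agent.H98.CovU

open Cfsg.Agent.Uni Module

variable {F : Type} [Field F] [Fintype F] {q n : ℕ}

/-- A subspace invariant under all unitary transvections is trivial. -/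
theorem bot_or_top (hF : Fintype.card F = q ^ 2) (hn : 2 ≤ n)
    (W : Submodule F (Fin n → F)) (hW : ∀ g : SU n F q, ∀ w ∈ W, act g w ∈ W) :
    W = ⊥ ∨ W = ⊤ := by
  by_cases h0 : W = ⊥
  · exact Or.inl h0
  right
  obtain ⟨w, hw, hw0⟩ := (Submodule.ne_bot_iff _).1 h0
  obtain ⟨c, hc0, hc⟩ := exists_skew hF
  have key : ∀ w ∈ W, ∀ u, hermForm n F q u u = 0 → hermForm n F q w u ≠ 0 → u ∈ W := by
    intro w hw u hu hwu
    obtain ⟨g, -, hg⟩ := exists_transv hF hu hc
    have h1 := W.sub_mem (hW g w hw) hw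
    rw [hg, add_sub_cancel_left] at h1
    exact (W.smul_mem_iff (mul_ne_zero hc0 hwu)).1 h1
  obtain ⟨u, hu, hwu⟩ := exists_isotropic_form_ne hF hn hw0
  have huW := key w hw u hu hwu
  have hu0 : u ≠ 0 := by
    rintro rfl
    exact hwu (hermForm_zero_right hF _)
  have hall : ∀ z, hermForm n F q z z = 0 → z ∈ W := by
    intro z hz
    by_cases hz0 : z = 0
    · rw [hz0]; exact W.zero_mem
    obtain ⟨y, hy, huy, hzy⟩ := exists_isotropic_form_ne_two hF hn hu0 hz0
    have hyW := key u huW y hy huy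
    exact key y hyW z hz (fun h => hzy ((hermForm_eq_zero_comm hF).1 h))
  have hperp : perp q W = ⊥ := by
    by_contra hne
    obtain ⟨x, hx, hx0⟩ := (Submodule.ne_bot_iff _).1 hne
    obtain ⟨y, hy, hxy⟩ := exists_isotropic_form_ne hF hn hx0
    exact hxy (hx y (hall y hy))
  have := finrank_perp (q := q) hF W
  rw [hperp, finrank_bot, zero_add] at this
  apply Submodule.eq_top_of_finrank_eq
  rw [this, Module.finrank_fin_fun]

theorem mem_sstab' {g : SU n F q} {W : Submodule F (Fin n → F)} (h : ∀ w ∈ W, act g w ∈ W) :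
    g ∈ sstab q W := by
  rw [mem_sstab]
  intro v
  refine ⟨h v, fun hv => ?_⟩
  have h1 : W.map (lin g) = W := by
    apply Submodule.eq_of_le_of_finrank_eq
    · rintro _ ⟨w, hw, rfl⟩
      exact h w hw
    · exact (Submodule.equivMapOfInjective (lin g) (fun x y h => act_inj.1 h) W).finrank_eq.symm
  rw [← h1] at hv
  obtain ⟨w, hw, hwv⟩ := hv
  rw [lin_apply, act_inj] at hwv
  rwa [← hwv]

theorem sstab_ne_top (hF : Fintype.card F = q ^ 2) (hn : 2 ≤ n) {W : Submodule F (Fin n → F)}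
    (h0 : W ≠ ⊥) (h1 : W ≠ ⊤) : sstab q W ≠ ⊤ := by
  intro h
  rcases bot_or_top hF hn W (fun g w hw => by
    have : g ∈ sstab q W := by rw [h]; exact Subgroup.mem_top g
    exact (mem_sstab.1 this w).1 hw) with h2 | h2
  · exact h0 h2
  · exact h1 h2

theorem center_act' (hF : Fintype.card F = q ^ 2) (hn : 2 ≤ n) {z : SU n F q}
    (hz : z ∈ Subgroup.center (SU n F q)) : ∃ c : F, ∀ x, act z x = c • x := by
  obtain ⟨c, hc⟩ := (mem_center_SU_iff hF hn z).1 hz
  refine ⟨c, fun x => ?_⟩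
  rw [act_def, hc]
  ext i
  rw [Matrix.mulVec_diagonal]
  rfl

theorem center_le' (hF : Fintype.card F = q ^ 2) (hn : 2 ≤ n) (W : Submodule F (Fin n → F)) :
    Subgroup.center (SU n F q) ≤ sstab q W := by
  intro z hz
  obtain ⟨c, hc⟩ := center_act' hF hn hz
  exact mem_sstab' fun w hw => by rw [hc]; exact W.smul_mem c hw

/-- from `SU` to `PSU` -/
theorem cover_quot (H K : Subgroup (SU n F q)) (hH : H ≠ ⊤) (hK : K ≠ ⊤)
    (hHZ : Subgroup.center (SU n F q) ≤ H) (hKZ : Subgroup.center (SU n F q) ≤ K)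
    (hcov : ∀ g : SU n F q, ∃ x : SU n F q, x * g * x⁻¹ ∈ H ∨ x * g * x⁻¹ ∈ K) :
    ∃ H K : Subgroup (Cfsg.PSU n F q), H ≠ ⊤ ∧ K ≠ ⊤ ∧
      ∀ g : Cfsg.PSU n F q, ∃ x : Cfsg.PSU n F q, x * g * x⁻¹ ∈ H ∨ x * g * x⁻¹ ∈ K := by
  have hne : ∀ H : Subgroup (SU n F q), H ≠ ⊤ → Subgroup.center (SU n F q) ≤ H →
      H.map (QuotientGroup.mk' (Subgroup.center (SU n F q))) ≠ ⊤ := by
    intro H hH hZ h
    apply hH
    rw [← Subgroup.comap_map_eq_self (f := QuotientGroup.mk' (Subgroup.center (SU n F q)))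
      (H := H) (by rw [QuotientGroup.ker_mk']; exact hZ), h, Subgroup.comap_top]
  refine ⟨H.map (QuotientGroup.mk' _), K.map (QuotientGroup.mk' _), hne H hH hHZ, hne K hK hKZ, ?_⟩
  intro g
  obtain ⟨g, rfl⟩ := QuotientGroup.mk'_surjective _ g
  obtain ⟨x, hx⟩ := hcov g
  refine ⟨QuotientGroup.mk' _ x, ?_⟩
  rw [← map_mul, ← map_inv, ← map_mul]
  rcases hx with h | h
  · exact Or.inl ⟨_, h, rfl⟩
  · exact Or.inr ⟨_, h, rfl⟩

/-- an element of `GU` of determinant one comes from `SU` -/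
theorem exists_su (hF : Fintype.card F = q ^ 2) {k : GU n F q}
    (hk : ((detHom hF n k : Fˣ) : F) = 1) : ∃ x : SU n F q, ∀ v, act x v = gact k v := by
  have h1 : k ∈ (suToGU hF n).range := by
    rw [suToGU_range hF, MonoidHom.mem_ker]
    apply Subtype.ext
    apply Units.ext
    rw [hk]
    rfl
  obtain ⟨x, hx⟩ := h1
  refine ⟨x, fun v => ?_⟩
  rw [← hx, gact_suToGU]

theorem det_norm (hF : Fintype.card F = q ^ 2) (k : GU n F q) :
    ((detHom hF n k : Fˣ) : F) ^ (q + 1) = 1 := by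
  have h := (detHom hF n k).2
  rw [MonoidHom.mem_ker] at h
  have h' := congrArg Units.val h
  simpa using h'

/-- `SU` is transitive on nonisotropic points -/
theorem exists_su_point (hF : Fintype.card F = q ^ 2) {v w : Fin n → F}
    (hv : hermForm n F q v v ≠ 0) (hw : hermForm n F q w w = 1) :
    ∃ x : SU n F q, ∃ a : F, a ≠ 0 ∧ act x v = a • w := by
  obtain ⟨c, hc0, -, hc⟩ := exists_unit_of_ne_zero hF ⊤ (Submodule.mem_top (x := v)) hv
  obtain ⟨k, hk⟩ := exists_GU_of_unit hF hc hw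
  have hk' : gact k (c • v) = w := hk
  obtain ⟨d, hd⟩ : ∃ d, d = ((detHom hF n k : Fˣ) : F) := ⟨_, rfl⟩
  have hdn : d ^ (q + 1) = 1 := by rw [hd]; exact det_norm hF k
  have hd0 : d ≠ 0 := by
    rintro rfl
    rw [zero_pow (by omega)] at hdn
    exact zero_ne_one hdn
  obtain ⟨r, hr, hrd⟩ := exists_grefl hF hw (a := d⁻¹) (by rw [inv_pow, hdn, inv_one])
  obtain ⟨x, hx⟩ := exists_su hF (k := r * k) (by
    rw [map_mul, Subgroup.coe_mul, Units.val_mul, hrd, ← hd, inv_mul_cancel₀ hd0])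
  refine ⟨x, c⁻¹ * d⁻¹, mul_ne_zero (inv_ne_zero hc0) (inv_ne_zero hd0), ?_⟩
  have h1 : v = c⁻¹ • (c • v) := by rw [smul_smul, inv_mul_cancel₀ hc0, one_smul]
  have h2 : w + ((d⁻¹ - 1) * 1) • w = d⁻¹ • w := by module
  rw [h1, act_smul, hx, gact_mul, hk', hr, hw, h2, smul_smul]

theorem exists_su_ti (hF : Fintype.card F = q ^ 2) (hn : 1 ≤ n) {W W' : Submodule F (Fin n → F)}
    (hd : finrank F W = finrank F W') (hW : ∀ u ∈ W, ∀ v ∈ W, hermForm n F q u v = 0)
    (hW' : ∀ u ∈ W', ∀ v ∈ W', hermForm n F q u v = 0) :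
    ∃ x : SU n F q, ∀ v, v ∈ W ↔ act x v ∈ W' := by
  obtain ⟨k, hk⟩ := exists_map_eq_of_ti hF hd hW hW'
  obtain ⟨d, hdd⟩ : ∃ d, d = ((detHom hF n k : Fˣ) : F) := ⟨_, rfl⟩
  have hdn : d ^ (q + 1) = 1 := by rw [hdd]; exact det_norm hF k
  have hd0 : d ≠ 0 := by
    rintro rfl
    rw [zero_pow (by omega)] at hdn
    exact zero_ne_one hdn
  obtain ⟨r, hr, hrd⟩ := exists_gstab_det hF hn hW' (d⁻¹) (by rw [inv_pow, hdn, inv_one])
  obtain ⟨x, hx⟩ := exists_su hF (k := r * k) (by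
    rw [map_mul, Subgroup.coe_mul, Units.val_mul, hrd, ← hdd, inv_mul_cancel₀ hd0])
  refine ⟨x, fun v => ?_⟩
  rw [hx, gact_mul, ← mem_gstab.1 hr, ← hk]
  constructor
  · intro hv; exact ⟨v, hv, rfl⟩
  · rintro ⟨w, hw, hwv⟩
    rwa [← gmap_injective k hwv]

theorem point_conj (hF : Fintype.card F = q ^ 2) {w : Fin n → F} (hw : hermForm n F q w w = 1)
    (g : SU n F q) (h : ∃ v, hermForm n F q v v ≠ 0 ∧ ∃ μ : F, act g v = μ • v) :
    ∃ x : SU n F q, x * g * x⁻¹ ∈ sstab q (Submodule.span F {w}) := by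
  obtain ⟨v, hv, μ, hμ⟩ := h
  obtain ⟨x, a, ha, hx⟩ := exists_su_point hF hv hw
  refine ⟨x, mem_sstab' fun u hu => ?_⟩
  obtain ⟨c, rfl⟩ := Submodule.mem_span_singleton.1 hu
  have h1 : act x⁻¹ w = a⁻¹ • v := by
    have h2 := congrArg (act x⁻¹) hx
    rw [act_inv_act, act_smul] at h2
    rw [h2, smul_smul, inv_mul_cancel₀ ha, one_smul]
  rw [act_mul, act_mul, act_smul, act_smul, act_smul, h1, act_smul, act_smul, hμ, act_smul, hx]
  exact Submodule.smul_mem _ _ (Submodule.smul_mem _ _ (Submodule.smul_mem _ _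
    (Submodule.smul_mem _ _ (Submodule.mem_span_singleton_self w))))

theorem cov_PSU4 {F : Type} [Field F] [Fintype F] (q : ℕ) (hF : Fintype.card F = q ^ 2) :
    ∃ H K : Subgroup (Cfsg.PSU 4 F q), H ≠ ⊤ ∧ K ≠ ⊤ ∧
      ∀ g : Cfsg.PSU 4 F q, ∃ x : Cfsg.PSU 4 F q, x * g * x⁻¹ ∈ H ∨ x * g * x⁻¹ ∈ K := by
  obtain ⟨w, -, hw⟩ := (nd_top (n := 4) hF).exists_unit hF (by
    intro h
    have h1 := congrArg (fun W : Submodule F (Fin 4 → F) => finrank F W) h
    simp only [finrank_top, finrank_bot, finrank_fin_fun] at h1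
    omega)
  have hw0 : w ≠ 0 := by
    rintro rfl
    rw [hermForm_zero_left] at hw
    exact zero_ne_one hw
  have hH : sstab q (Submodule.span F {w}) ≠ ⊤ := by
    apply sstab_ne_top hF (by norm_num)
    · rwa [Ne, Submodule.span_singleton_eq_bot]
    · intro h
      have h1 := finrank_span_singleton (K := F) hw0
      rw [h, finrank_top, finrank_fin_fun] at h1
      omega
  have hHZ := center_le' (q := q) hF (show 2 ≤ 4 by norm_num) (Submodule.span F {w})
  by_cases hex : ∃ W : Submodule F (Fin 4 → F), finrank F W = 2 ∧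
      ∀ x ∈ W, ∀ y ∈ W, hermForm 4 F q x y = 0
  · obtain ⟨W₀, hW₀, hti⟩ := hex
    refine cover_quot (sstab q (Submodule.span F {w})) (sstab q W₀) hH ?_ hHZ
      (center_le' hF (by norm_num) _) fun g => ?_
    · apply sstab_ne_top hF (by norm_num)
      · rintro rfl
        rw [finrank_bot] at hW₀
        omega
      · rintro rfl
        rw [finrank_top, finrank_fin_fun] at hW₀
        omega
    rcases four_cases hF g with h | ⟨W, hW, hW2, hWti⟩
    · obtain ⟨x, hx⟩ := point_conj hF hw g h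
      exact ⟨x, Or.inl hx⟩
    · obtain ⟨x, hx⟩ := exists_su_ti hF (by norm_num) (by rw [hW2, hW₀]) hWti hti
      refine ⟨x, Or.inr (mem_sstab' fun u hu => ?_)⟩
      rw [act_mul, act_mul, ← hx]
      apply hW
      rw [hx, act_act_inv]
      exact hu
  · refine cover_quot (sstab q (Submodule.span F {w})) (sstab q (Submodule.span F {w})) hH hH hHZ
      hHZ fun g => ?_
    rcases four_cases hF g with h | ⟨W, hW, hW2, hWti⟩
    · obtain ⟨x, hx⟩ := point_conj hF hw g h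
      exact ⟨x, Or.inl hx⟩
    · exact absurd ⟨W, hW2, hWti⟩ hex

end Cfsg.Agent.H98.CovU
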