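import Mathlib
import Cfsg.Agent.H98.CovD

set_option autoImplicit false
set_option linter.unusedSectionVars false
set_option linter.unusedVariables false
set_option linter.style.haveILetI false
set_option maxHeartbeats 1000000

/-!
Elements of `SU 3` in characteristic three.
-/

namespace Cfsg.Agent.H98.CovU

open Cfsg.Agent.Uni Module

variable {F : Type} [Field F] [Fintype F] {q : ℕ}

theorem cyc_aux (hF : Fintype.card F = q ^ 2) (h3 : (3 : F) = 0)
    (T : (Fin 3 → F) →ₗ[F] (Fin 3 → F))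
    (hT : ∀ x y, hermForm 3 F q (T x) (T y) = hermForm 3 F q x y) (hT3 : ∀ x, T (T (T x)) = x)
    {x : Fin 3 → F} (ht : hermForm 3 F q x x + hermForm 3 F q x (T x) +
      (hermForm 3 F q x (T x)) ^ q = 1) :
    ∃ w, hermForm 3 F q w w = 1 ∧ hermForm 3 F q w (T w) = 0 ∧ hermForm 3 F q w (T (T w)) = 0 := by
  obtain ⟨A, hA⟩ : ∃ A, A = hermForm 3 F q x x := ⟨_, rfl⟩
  obtain ⟨B, hB⟩ : ∃ B, B = hermForm 3 F q x (T x) := ⟨_, rfl⟩
  obtain ⟨e0, he0⟩ : ∃ e0, e0 = x := ⟨_, rfl⟩
  obtain ⟨e1, he1⟩ : ∃ e1, e1 = T x := ⟨_, rfl⟩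
  obtain ⟨e2, he2⟩ : ∃ e2, e2 = T (T x) := ⟨_, rfl⟩
  have T0 : T e0 = e1 := by rw [he0, he1]
  have T1 : T e1 = e2 := by rw [he1, he2]
  have T2 : T e2 = e0 := by rw [he2, he0, hT3]
  have g00 : hermForm 3 F q e0 e0 = A := by rw [he0, hA]
  have g01 : hermForm 3 F q e0 e1 = B := by rw [he0, he1, hB]
  have g10 : hermForm 3 F q e1 e0 = B ^ q := by rw [← g01, hermForm_symm hF]
  have g11 : hermForm 3 F q e1 e1 = A := by rw [← T0, hT, g00]
  have g12 : hermForm 3 F q e1 e2 = B := by rw [← T1, ← T0, hT, T0, g01]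
  have g20 : hermForm 3 F q e2 e0 = B := by
    have := hT e1 e2
    rwa [T1, T2, g12] at this
  have g21 : hermForm 3 F q e2 e1 = B ^ q := by rw [← g12, hermForm_symm hF]
  have g02 : hermForm 3 F q e0 e2 = B ^ q := by rw [← g20, hermForm_symm hF]
  have g22 : hermForm 3 F q e2 e2 = A := by rw [← T1, hT, g11]
  have hBq : (B ^ q) ^ q = B := pow_q_pow_q hF B
  rw [← hA, ← hB] at ht
  have hA' : A = 1 - B - B ^ q := by linear_combination ht
  obtain ⟨b, hb⟩ := exists_trace_eq hF (c := (B + B ^ q) ^ 2) (by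
    rw [← pow_mul, mul_comm, pow_mul, add_pow_q hF, hBq, add_comm])
  have hb' : b ^ q = (B + B ^ q) ^ 2 - b := by linear_combination hb
  obtain ⟨w, hw⟩ : ∃ w, w = (1 + B + b) • e0 + (b - B) • e1 + b • e2 := ⟨_, rfl⟩
  have Tw : T w = (1 + B + b) • e1 + (b - B) • e2 + b • e0 := by
    rw [hw, map_add, map_add, map_smul, map_smul, map_smul, T0, T1, T2]
  have TTw : T (T w) = (1 + B + b) • e2 + (b - B) • e0 + b • e1 := by
    rw [Tw, map_add, map_add, map_smul, map_smul, map_smul, T0, T1, T2]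
  refine ⟨w, ?_, ?_, ?_⟩
  · rw [hw]
    simp only [hermForm_add_left, hermForm_add_right hF, hermForm_smul_left, hermForm_smul_right,
      g00, g01, g02, g10, g11, g12, g20, g21, g22, add_pow_q hF, sub_pow_q hF, one_pow, hb', hA']
    linear_combination (2*B*B^q*b + -1*B*(B^q)^2 + -1*B^2*B^q + 1*B^2*b + 1*(B^q)^2*b + -1*b^2) * h3
  · rw [Tw, hw]
    simp only [hermForm_add_left, hermForm_add_right hF, hermForm_smul_left, hermForm_smul_right,
      g00, g01, g02, g10, g11, g12, g20, g21, g22, add_pow_q hF, sub_pow_q hF, one_pow, hb', hA']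
    linear_combination (1*B*B^q + 2*B*B^q*b + 1*B^2 + 1*B^2*B^q + 1*B^2*b + 1*(B^q)^2*b + -1*b^2) * h3
  · rw [TTw, hw]
    simp only [hermForm_add_left, hermForm_add_right hF, hermForm_smul_left, hermForm_smul_right,
      g00, g01, g02, g10, g11, g12, g20, g21, g22, add_pow_q hF, sub_pow_q hF, one_pow, hb', hA']
    linear_combination (1*B*B^q + 2*B*B^q*b + 1*B*(B^q)^2 + 1*B^2*b + 1*(B^q)^2 + 1*(B^q)^2*b +
      -1*b^2) * h3

theorem cyc_ON (hF : Fintype.card F = q ^ 2) (h3 : (3 : F) = 0)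
    (T : (Fin 3 → F) →ₗ[F] (Fin 3 → F))
    (hT : ∀ x y, hermForm 3 F q (T x) (T y) = hermForm 3 F q x y) (hT3 : ∀ x, T (T (T x)) = x)
    {x : Fin 3 → F} (ht : hermForm 3 F q x (x + T x + T (T x)) ≠ 0) :
    ∃ w, IsON q ![w, T w, T (T w)] := by
  have e1 : hermForm 3 F q x (T (T x)) = (hermForm 3 F q x (T x)) ^ q := by
    rw [← hT, hT3, hermForm_symm hF]
  obtain ⟨t, htd⟩ : ∃ t, t = hermForm 3 F q x (x + T x + T (T x)) := ⟨_, rfl⟩
  have ht' : t = hermForm 3 F q x x + hermForm 3 F q x (T x) + (hermForm 3 F q x (T x)) ^ q := by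
    rw [htd, hermForm_add_right hF, hermForm_add_right hF, e1]
  have htq : t ^ q = t := by
    rw [ht', add_pow_q hF, add_pow_q hF, hermForm_self_pow_q hF, pow_q_pow_q hF]
    ring
  rw [← htd] at ht
  obtain ⟨s, hs⟩ := exists_norm_eq hF (c := t⁻¹) (by rw [inv_pow, htq])
  have h1 : hermForm 3 F q (s • x) (s • x) + hermForm 3 F q (s • x) (T (s • x)) +
      (hermForm 3 F q (s • x) (T (s • x))) ^ q = 1 := by
    rw [map_smul, hermForm_smul_left, hermForm_smul_right, hermForm_smul_left, hermForm_smul_right,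
      mul_pow, mul_pow, pow_q_pow_q hF]
    have h2 : s ^ (q + 1) * t = 1 := by rw [hs, inv_mul_cancel₀ ht]
    rw [pow_succ] at h2
    rw [ht'] at h2
    linear_combination h2
  obtain ⟨w, w0, w1, w2⟩ := cyc_aux hF h3 T hT hT3 h1
  have w10 := (hermForm_eq_zero_comm hF).1 w1
  have w20 := (hermForm_eq_zero_comm hF).1 w2
  refine ⟨w, ?_⟩
  intro i j
  fin_cases i <;> fin_cases j
  · exact w0
  · exact w1
  · exact w2
  · exact w10
  · change hermForm 3 F q (T w) (T w) = _
    rw [hT, w0]; rfl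
  · change hermForm 3 F q (T w) (T (T w)) = _
    rw [hT, w1]; rfl
  · exact w20
  · change hermForm 3 F q (T (T w)) (T w) = _
    rw [hT, w10]; rfl
  · change hermForm 3 F q (T (T w)) (T (T w)) = _
    rw [hT, hT, w0]; rfl

/-- reducible elements without nonisotropic eigenvectors -/
theorem three_unip (hF : Fintype.card F = q ^ 2) (h3 : (3 : F) = 0) (g : SU 3 F q)
    (hno : ∀ v, hermForm 3 F q v v ≠ 0 → ∀ μ : F, act g v ≠ μ • v)
    {x : Fin 3 → F} {a : F} (hx0 : x ≠ 0) (hx : act g x = a • x) :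
    (∀ v, act g (act g (act g v)) = v) ∧
      (∃ y, hermForm 3 F q y (y + act g y + act g (act g y)) ≠ 0) ∧
      hermForm 3 F q x x = 0 ∧ act g x = x := by
  have hxx : hermForm 3 F q x x = 0 := by
    by_contra h
    exact hno x h a hx
  obtain ⟨x', hyp⟩ := exists_hyp' hF hx0 hxx
  have hyp' := hyp.symm hF
  obtain ⟨W, hWdef⟩ : ∃ W, W = perp q (Submodule.span F {x, x'}) := ⟨_, rfl⟩
  have hmem : ∀ {w : Fin 3 → F}, w ∈ W ↔ hermForm 3 F q w x = 0 ∧ hermForm 3 F q w x' = 0 := by
    intro w; rw [hWdef]; exact Hyp.mem_perp_iff hF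
  have hWnd : ND q W := by rw [hWdef]; exact (hyp.nd hF).perp hF
  have hW1 : finrank F W = 1 := by rw [hWdef, hyp.finrank_perp hF]
  obtain ⟨z, hz, hzz⟩ := hWnd.exists_unit hF (by
    intro h; rw [h, finrank_bot] at hW1; omega)
  have hzx := (hmem.1 hz).1
  have hzx' := (hmem.1 hz).2
  have hxz := (hermForm_eq_zero_comm hF).1 hzx
  have hx'z := (hermForm_eq_zero_comm hF).1 hzx'
  have hx'x' := hyp.2.1
  have hxx'1 := hyp.2.2
  have hx'x := hyp'.2.2
  have hz0 : z ≠ 0 := by
    rintro rfl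
    rw [hermForm_zero_left] at hzz
    exact zero_ne_one hzz
  have ha0 : a ≠ 0 := by
    rintro rfl
    rw [zero_smul] at hx
    exact act_ne_zero hx0 hx
  -- expansion
  have hexp : ∀ v, v = hermForm 3 F q v x' • x + hermForm 3 F q v z • z +
      hermForm 3 F q v x • x' := by
    intro v
    obtain ⟨e, he⟩ : ∃ e, e = v - (hermForm 3 F q v x' • x + hermForm 3 F q v z • z +
      hermForm 3 F q v x • x') := ⟨_, rfl⟩
    have e1 : hermForm 3 F q e x = 0 := by
      rw [he]
      simp only [hermForm_sub_left, hermForm_add_left, hermForm_smul_left, hxx, hzx, hx'x]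
      ring
    have e2 : hermForm 3 F q e x' = 0 := by
      rw [he]
      simp only [hermForm_sub_left, hermForm_add_left, hermForm_smul_left, hxx'1, hzx', hx'x']
      ring
    have e3 : hermForm 3 F q e z = 0 := by
      rw [he]
      simp only [hermForm_sub_left, hermForm_add_left, hermForm_smul_left, hxz, hzz, hx'z]
      ring
    have heW : e ∈ W := hmem.2 ⟨e1, e2⟩
    obtain ⟨d, hd⟩ := (finrank_eq_one_iff_of_nonzero' (⟨z, hz⟩ : W)
      (fun h => hz0 (congrArg Subtype.val h))).1 hW1 ⟨e, heW⟩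
    have hd' : d • z = e := congrArg Subtype.val hd
    have hd0 : d = 0 := by
      rw [← hd', hermForm_smul_left, hzz, mul_one] at e3
      exact e3
    rw [hd0, zero_smul] at hd'
    rw [← hd'] at he
    exact (sub_eq_zero.1 he.symm)
  -- the shape of `g`
  have hTz := hexp (act g z)
  have hTx' := hexp (act g x')
  have f1 : hermForm 3 F q (act g z) x = 0 := by
    have h1 := act_form g z x
    rw [hx, hermForm_smul_right, hzx] at h1
    exact (mul_eq_zero.1 h1).resolve_left (pow_ne_zero _ ha0)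
  rw [f1, zero_smul, add_zero] at hTz
  obtain ⟨ν, hν⟩ : ∃ ν, ν = hermForm 3 F q (act g z) x' := ⟨_, rfl⟩
  obtain ⟨μ, hμ⟩ : ∃ μ, μ = hermForm 3 F q (act g z) z := ⟨_, rfl⟩
  rw [← hν, ← hμ] at hTz
  have hμa : μ = a := by
    by_contra hne
    obtain ⟨v, hv, m, hm⟩ := lift_eig hF g hx (by rw [hTz, add_comm]) hxx hzx
      (by rw [hzz]; exact one_ne_zero) hne
    exact hno v hv m hm
  rw [hμa] at hTz
  have han : a * a ^ q = 1 := by
    have h1 := act_form g z z
    rw [hTz] at h1
    simp only [hermForm_add_left, hermForm_add_right hF, hermForm_smul_left, hermForm_smul_right,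
      hxx, hzz, hxz, hzx] at h1
    linear_combination h1
  obtain ⟨β, hβ⟩ : ∃ β, β = hermForm 3 F q (act g x') x' := ⟨_, rfl⟩
  obtain ⟨α, hα⟩ : ∃ α, α = hermForm 3 F q (act g x') z := ⟨_, rfl⟩
  obtain ⟨δ, hδ⟩ : ∃ δ, δ = hermForm 3 F q (act g x') x := ⟨_, rfl⟩
  rw [← hβ, ← hα, ← hδ] at hTx'
  have hδa : δ = a := by
    have h1 := act_form g x' x
    rw [hx, hermForm_smul_right, ← hδ, hx'x] at h1
    linear_combination a * h1 - δ * han
  rw [hδa] at hTx'
  -- determinant
  have ha3 : a * a * a = 1 := by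
    obtain ⟨P, hP⟩ : ∃ P : Matrix (Fin 3) (Fin 3) F, P = Matrix.of fun i j => ![x, z, x'] j i :=
      ⟨_, rfl⟩
    obtain ⟨U, hU⟩ : ∃ U : Matrix (Fin 3) (Fin 3) F, U = !![a, ν, β; 0, a, α; 0, 0, a] := ⟨_, rfl⟩
    obtain ⟨M, hM⟩ : ∃ M : Matrix (Fin 3) (Fin 3) F, M =
      ((g : Matrix.SpecialLinearGroup (Fin 3) F) : Matrix (Fin 3) (Fin 3) F) := ⟨_, rfl⟩
    have hMdet : M.det = 1 := by rw [hM]; exact Matrix.SpecialLinearGroup.det_coe _
    have hMP : M * P = P * U := by
      ext i j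
      have hcol : (M * P) i j = (M.mulVec (![x, z, x'] j)) i := by
        rw [Matrix.mul_apply, Matrix.mulVec, dotProduct, hP]
        rfl
      rw [hcol, Matrix.mul_apply, Fin.sum_univ_three, hP, hU, hM]
      fin_cases j
      · change act g x i = _
        rw [hx]; simp [mul_comm]
      · change act g z i = _
        rw [hTz]; simp [mul_comm]
      · change act g x' i = _
        rw [hTx']; simp [mul_comm]
    have hPdet : P.det ≠ 0 := by
      have hG : P.transpose * P.map (conjHom hF) = !![0, 0, 1; 0, 1, 0; 1, 0, 0] := by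
        ext i j
        have hij : (P.transpose * P.map (conjHom hF)) i j =
            hermForm 3 F q (![x, z, x'] i) (![x, z, x'] j) := by
          rw [Matrix.mul_apply, hermForm_def, hP]
          rfl
        rw [hij]
        fin_cases i <;> fin_cases j
        exacts [hxx, hxz, hxx'1, hzx, hzz, hzx', hx'x, hx'z, hx'x']
      intro h0
      have := congrArg Matrix.det hG
      rw [Matrix.det_mul, Matrix.det_transpose, h0, zero_mul] at this
      simp [Matrix.det_fin_three] at this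
    have hdet := congrArg Matrix.det hMP
    rw [Matrix.det_mul, Matrix.det_mul, hMdet, one_mul] at hdet
    have hU1 : U.det = 1 := by
      have : P.det * U.det = P.det * 1 := by rw [mul_one, ← hdet]
      exact mul_left_cancel₀ hPdet this
    rw [hU, Matrix.det_fin_three] at hU1
    simpa using hU1
  have ha1 : a = 1 := by
    have h1 : (a - 1) ^ 3 = 0 := by linear_combination ha3 + (a - a ^ 2) * h3
    exact sub_eq_zero.1 (eq_zero_of_pow_eq_zero h1)
  rw [ha1, one_smul] at hx hTz hTx'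
  have hν0 : ν ≠ 0 := by
    intro h0
    rw [h0, zero_smul, zero_add] at hTz
    exact hno z (by rw [hzz]; exact one_ne_zero) 1 (by rw [one_smul]; exact hTz)
  have hα0 : α ≠ 0 := by
    have h1 := act_form g x' z
    rw [hTx', hTz, hx'z] at h1
    simp only [hermForm_add_left, hermForm_add_right hF, hermForm_smul_left, hermForm_smul_right,
      hxx, hzz, hxz, hzx, hx'z, hx'x, hzx', hxx'1] at h1
    intro h0
    rw [h0] at h1
    apply pow_ne_zero q hν0
    linear_combination h1
  have T2x' : act g (act g x') = (2 * β + α * ν) • x + (2 * α) • z + x' := by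
    conv_lhs => rw [hTx']
    rw [act_add, act_add, act_smul, act_smul, hx, hTz, hTx']
    module
  refine ⟨?_, ⟨x', ?_⟩, hxx, hx⟩
  · have cx : act g (act g (act g x)) = x := by rw [hx, hx, hx]
    have cz : act g (act g (act g z)) = z := by
      rw [hTz, act_add, act_smul, hx, hTz, act_add, act_smul, act_add, act_smul, hx, hTz]
      calc ν • x + (ν • x + (ν • x + z)) = (3 * ν) • x + z := by module
        _ = z := by rw [h3, zero_mul, zero_smul, zero_add]
    have cx' : act g (act g (act g x')) = x' := by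
      rw [T2x', act_add, act_add, act_smul, act_smul, hx, hTz, hTx']
      calc (2 * β + α * ν) • x + (2 * α) • (ν • x + z) + (β • x + α • z + x')
          = (3 * (β + α * ν)) • x + (3 * α) • z + x' := by module
        _ = x' := by rw [h3, zero_mul, zero_mul, zero_smul, zero_smul, zero_add, zero_add]
    intro v
    rw [hexp v]
    simp only [act_add, act_smul, cx, cz, cx']
  · rw [T2x', hTx']
    simp only [hermForm_add_left, hermForm_add_right hF, hermForm_smul_left, hermForm_smul_right,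
      hx'x, hx'z, hx'x', add_pow_q hF, mul_pow]
    intro h0
    apply mul_ne_zero (pow_ne_zero q hα0) (pow_ne_zero q hν0)
    have h2q : (2 : F) ^ q = 2 := by
      have : (2 : F) = 1 + 1 := by norm_num
      rw [this, add_pow_q hF, one_pow]
    rw [h2q] at h0
    linear_combination h0 - β ^ q * h3

theorem three_cases (hF : Fintype.card F = q ^ 2) (h3 : (3 : F) = 0) (g : SU 3 F q) :
    (∃ v, hermForm 3 F q v v ≠ 0 ∧ ∃ μ : F, act g v = μ • v) ∨ Irr (lin g) ∨
    ((∀ v, act g (act g (act g v)) = v) ∧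
      (∃ y, hermForm 3 F q y (y + act g y + act g (act g y)) ≠ 0) ∧
      ∃ x, x ≠ 0 ∧ hermForm 3 F q x x = 0 ∧ act g x = x) := by
  by_cases h1 : ∃ v, hermForm 3 F q v v ≠ 0 ∧ ∃ μ : F, act g v = μ • v
  · exact Or.inl h1
  by_cases h2 : Irr (lin g)
  · exact Or.inr (Or.inl h2)
  right; right
  push Not at h1
  have hex : ∃ x : Fin 3 → F, x ≠ 0 ∧ ∃ μ : F, act g x = μ • x := by
    unfold Irr at h2
    push Not at h2
    obtain ⟨W, hW, hbot, htop⟩ := h2
    have hlt : finrank F W < 3 := by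
      have := Submodule.finrank_lt htop
      rwa [finrank_fin_fun] at this
    have h0 : finrank F W ≠ 0 := fun h => hbot (Submodule.finrank_eq_zero.1 h)
    by_cases hW1 : finrank F W = 1
    · obtain ⟨x, -, hx0, hx⟩ := eig_of_one (lin g) hW hW1
      exact ⟨x, hx0, hx⟩
    · have hP := finrank_perp hF W
      obtain ⟨x, -, hx0, hx⟩ := eig_of_one (lin g) (perp_inv hF g hW) (by omega)
      exact ⟨x, hx0, hx⟩
  obtain ⟨x, hx0, a, hx⟩ := hex
  obtain ⟨c1, c2, c3, c4⟩ := three_unip hF h3 g h1 hx0 hx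
  exact ⟨c1, c2, x, hx0, c3, c4⟩

end Cfsg.Agent.H98.CovU
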