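import Mathlib
import Cfsg.Agent.H98.CovE
import Cfsg.Agent.Uni.Iso

set_option autoImplicit false
set_option linter.unusedSectionVars false
set_option linter.unusedVariables false
set_option linter.style.haveILetI false
set_option linter.unusedSimpArgs false
set_option maxHeartbeats 1000000

/-!
`PSU 3` in characteristic three is the union of the conjugates of two proper subgroups.
-/

namespace Cfsg.Agent.H98.CovU

open Cfsg.Agent.Uni Module

variable {F : Type} [Field F] [Fintype F] {q : ℕ}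

theorem tr_pow (hF : Fintype.card F = q ^ 2) {L : Type} [Field L] [Algebra F L] [Finite L] (k : ℕ)
    (x : L) : Algebra.trace F L (x ^ (q ^ k)) = (Algebra.trace F L x) ^ (q ^ k) := by
  obtain ⟨p, f, hp, hcp, hf, hqp⟩ := q_prime_pow hF
  haveI := Fact.mk hp
  haveI : CharP L p := charP_of_injective_algebraMap (algebraMap F L).injective p
  apply (algebraMap F L).injective
  rw [(algebraMap F L).map_pow, FiniteField.algebraMap_trace_eq_sum_pow,
    FiniteField.algebraMap_trace_eq_sum_pow, hqp, ← pow_mul p f k, sum_pow_char_pow]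
  refine Finset.sum_congr rfl fun k _ => ?_
  rw [← pow_mul, ← pow_mul, mul_comm]

section model
variable {L : Type} [Field L] [Algebra F L] [Fintype L]

/-- the semilinear group -/
def KK (Ψ : (Fin 3 → F) ≃ₗ[F] L) (hc : Fintype.card L = q ^ 6) : Subgroup (SU 3 F q) where
  carrier := {g | ∃ (c : L) (i : ℕ), c ≠ 0 ∧ ∀ x, Ψ (act g x) = c * (Ψ x) ^ (q ^ (2 * i))}
  one_mem' := ⟨1, 0, one_ne_zero, fun x => by simp [act_one]⟩
  mul_mem' := by
    rintro g h ⟨c, i, hc0, hg⟩ ⟨d, j, hd0, hh⟩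
    refine ⟨c * d ^ (q ^ (2 * i)), i + j, mul_ne_zero hc0 (pow_ne_zero _ hd0), fun x => ?_⟩
    rw [act_mul, hg, hh, mul_pow, ← pow_mul, ← pow_add, mul_assoc,
      show 2 * j + 2 * i = 2 * (i + j) by ring]
  inv_mem' := by
    rintro g ⟨c, i, hc0, hg⟩
    refine ⟨(c⁻¹) ^ (q ^ (2 * (2 * i))), 2 * i, pow_ne_zero _ (inv_ne_zero hc0), fun x => ?_⟩
    have h1 := hg (act g⁻¹ x)
    rw [act_act_inv] at h1
    have h2 : (Ψ (act g⁻¹ x)) ^ (q ^ (2 * i)) = c⁻¹ * Ψ x := by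
      rw [h1, inv_mul_cancel_left₀ hc0]
    have h3 : Ψ (act g⁻¹ x) = ((Ψ (act g⁻¹ x)) ^ (q ^ (2 * i))) ^ (q ^ (2 * (2 * i))) := by
      rw [← pow_mul, ← pow_add, show 2 * i + 2 * (2 * i) = 6 * i + 0 by ring, pow_red hc, pow_zero,
        pow_one]
    rw [h3, h2, mul_pow]

theorem mem_KK {Ψ : (Fin 3 → F) ≃ₗ[F] L} {hc : Fintype.card L = q ^ 6} {g : SU 3 F q} :
    g ∈ KK Ψ hc ↔ ∃ (c : L) (i : ℕ), c ≠ 0 ∧ ∀ x, Ψ (act g x) = c * (Ψ x) ^ (q ^ (2 * i)) := Iff.rfl

theorem card_KK_le (Ψ : (Fin 3 → F) ≃ₗ[F] L) (hc : Fintype.card L = q ^ 6) :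
    Nat.card (KK Ψ hc) ≤ q ^ 6 * 3 := by
  classical
  have h : ∀ g : KK Ψ hc, ∃ (c : L) (i : ℕ), c ≠ 0 ∧
      ∀ x, Ψ (act (g : SU 3 F q) x) = c * (Ψ x) ^ (q ^ (2 * i)) := fun g => g.2
  choose c i hc0 hg using h
  have hinj : Function.Injective (fun g : KK Ψ hc => ((c g, (⟨i g % 3, Nat.mod_lt _ (by norm_num)⟩ :
      Fin 3)) : L × Fin 3)) := by
    intro g g' hgg
    have h1 : c g = c g' := congrArg Prod.fst hgg
    have h2 : i g % 3 = i g' % 3 := congrArg (fun z : L × Fin 3 => (z.2 : ℕ)) hgg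
    apply Subtype.ext
    apply act_ext
    intro x
    apply Ψ.injective
    have hred : ∀ (j : ℕ) (y : L), y ^ (q ^ (2 * j)) = y ^ (q ^ (2 * (j % 3))) := by
      intro j y
      conv_lhs => rw [← Nat.div_add_mod j 3]
      rw [show 2 * (3 * (j / 3) + j % 3) = 6 * (j / 3) + 2 * (j % 3) by ring, pow_red hc]
    rw [hg, hg, h1, hred, hred (i g'), h2]
  have := Nat.card_le_card_of_injective _ hinj
  rwa [Nat.card_prod, Nat.card_eq_fintype_card (α := L), hc, Nat.card_fin] at this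

theorem KK_ne_top (hF : Fintype.card F = q ^ 2) (hq : 3 ≤ q) (Ψ : (Fin 3 → F) ≃ₗ[F] L)
    (hc : Fintype.card L = q ^ 6) : KK Ψ hc ≠ (⊤ : Subgroup (SU 3 F q)) := by
  intro h
  have h1 := card_KK_le Ψ hc
  rw [h, Subgroup.card_top] at h1
  have h2 := card_SU (n := 3) hF (by norm_num)
  rw [Finset.prod_range_succ, Finset.prod_range_succ, Finset.prod_range_one, if_pos (by decide),
    if_neg (by decide), if_pos (by decide)] at h2
  norm_num at h2
  have h3 : 8 ≤ q ^ 2 - 1 := by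
    have : 3 ^ 2 ≤ q ^ 2 := Nat.pow_le_pow_left hq 2
    omega
  have h4 : (q + 1) * (q ^ 3 * (8 * (q ^ 3 + 1))) ≤ (q + 1) * (q ^ 6 * 3) := by
    calc (q + 1) * (q ^ 3 * (8 * (q ^ 3 + 1))) ≤ (q + 1) * (q ^ 3 * ((q ^ 2 - 1) * (q ^ 3 + 1))) := by
          gcongr
      _ = q ^ 3 * ((q + 1) * (q ^ 2 - 1) * (q ^ 3 + 1)) := by ring
      _ = (q + 1) * Nat.card (SU 3 F q) := h2.symm
      _ ≤ (q + 1) * (q ^ 6 * 3) := Nat.mul_le_mul_left _ h1
  have h5 := Nat.le_of_mul_le_mul_left h4 (by omega)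
  have hpos : 0 < q ^ 3 := by positivity
  have h6 : q ^ 6 = q ^ 3 * q ^ 3 := by ring
  rw [h6, mul_assoc] at h5
  have h7 := Nat.le_of_mul_le_mul_left h5 hpos
  omega

theorem center_le_KK (hF : Fintype.card F = q ^ 2) (Ψ : (Fin 3 → F) ≃ₗ[F] L)
    (hc : Fintype.card L = q ^ 6) : Subgroup.center (SU 3 F q) ≤ KK Ψ hc := by
  intro z hz
  obtain ⟨c, hc⟩ := center_act' hF (by norm_num) hz
  rw [mem_KK]
  refine ⟨algebraMap F L c, 0, ?_, fun x => ?_⟩
  · rw [Ne, map_eq_zero]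
    rintro rfl
    obtain ⟨x, hx⟩ := exists_ne (0 : Fin 3 → F)
    have := hc x
    rw [zero_smul] at this
    exact act_ne_zero hx this
  · rw [hc, map_smul, Algebra.smul_def, mul_zero, pow_zero, pow_one]

end model

/-- adjusting the determinant by a scalar -/
theorem exists_su_scalar (hF : Fintype.card F = q ^ 2) {a : ℕ} (ha : 1 ≤ a) (hq : q = 3 ^ a)
    (k : GU 3 F q) : ∃ (x : SU 3 F q) (s : F), s ≠ 0 ∧ ∀ v, act x v = s • gact k v := by
  obtain ⟨d, hd⟩ : ∃ d, d = ((detHom hF 3 k : Fˣ) : F) := ⟨_, rfl⟩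
  have hdn : d ^ (q + 1) = 1 := by rw [hd]; exact det_norm hF k
  obtain ⟨s, hs⟩ : ∃ s, s = d ^ (3 ^ (a - 1)) := ⟨_, rfl⟩
  have hs3 : s ^ 3 = d ^ q := by
    rw [hs, ← pow_mul, ← pow_succ, Nat.sub_add_cancel ha, hq]
  have hsn : s ^ (q + 1) = 1 := by rw [hs, ← pow_mul, mul_comm, pow_mul, hdn, one_pow]
  have hs0 : s ≠ 0 := by
    rintro rfl
    rw [zero_pow (by omega)] at hsn
    exact zero_ne_one hsn
  obtain ⟨z, hz⟩ : ∃ z : GU 3 F q, z = mkGU hF (Matrix.diagonal (fun _ : Fin 3 => s))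
    ((pres_scalar_iff (by norm_num) s).2 hsn) := ⟨_, rfl⟩
  have hzdet : ((detHom hF 3 z : Fˣ) : F) = s ^ 3 := by
    rw [detHom_coe, hz, mkGU_coe, Matrix.det_diagonal, Finset.prod_const, Finset.card_univ,
      Fintype.card_fin]
  have hzact : ∀ v, gact z v = s • v := by
    intro v
    rw [gact_def, hz, mkGU_coe]
    ext i
    rw [Matrix.mulVec_diagonal]
    rfl
  obtain ⟨x, hx⟩ := exists_su hF (k := z * k) (by
    rw [map_mul, Subgroup.coe_mul, Units.val_mul, hzdet, ← hd, hs3, ← pow_succ, hdn])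
  exact ⟨x, s, hs0, fun v => by rw [hx, gact_mul, hzact]⟩

theorem three_zero {q a : ℕ} (hF : Fintype.card F = q ^ 2) (ha : 1 ≤ a) (hq : q = 3 ^ a) :
    (3 : F) = 0 := by
  obtain ⟨p, f, hp, hcp, hf, hqp⟩ := q_prime_pow hF
  have h1 : p ∣ 3 ^ a := by
    rw [← hq, hqp]
    exact dvd_pow_self p (by omega)
  have h2 : p = 3 := (Nat.prime_dvd_prime_iff_eq hp (by norm_num)).1 (hp.dvd_of_dvd_pow h1)
  subst h2
  exact_mod_cast CharP.cast_eq_zero F 3

theorem cov_PSU3 {F : Type} [Field F] [Fintype F] (q a : ℕ) (hF : Fintype.card F = q ^ 2)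
    (ha : 1 ≤ a) (hq : q = 3 ^ a) :
    ∃ H K : Subgroup (Cfsg.PSU 3 F q), H ≠ ⊤ ∧ K ≠ ⊤ ∧
      ∀ g : Cfsg.PSU 3 F q, ∃ x : Cfsg.PSU 3 F q, x * g * x⁻¹ ∈ H ∨ x * g * x⁻¹ ∈ K := by
  classical
  have h3 := three_zero hF ha hq
  have hq3 : 3 ≤ q := by
    rw [hq]
    calc 3 = 3 ^ 1 := (pow_one 3).symm
      _ ≤ 3 ^ a := Nat.pow_le_pow_right (by norm_num) ha
  obtain ⟨w, -, hw⟩ := (nd_top (n := 3) hF).exists_unit hF (by
    intro h
    have h1 := congrArg (fun W : Submodule F (Fin 3 → F) => finrank F W) h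
    simp only [finrank_top, finrank_bot, finrank_fin_fun] at h1
    omega)
  have hw0 : w ≠ 0 := by
    rintro rfl
    rw [hermForm_zero_left] at hw
    exact zero_ne_one hw
  have hline : ∀ u : Fin 3 → F, u ≠ 0 → sstab q (Submodule.span F {u}) ≠ ⊤ := by
    intro u hu
    apply sstab_ne_top hF (by norm_num)
    · rwa [Ne, Submodule.span_singleton_eq_bot]
    · intro h
      have h1 := finrank_span_singleton (K := F) hu
      rw [h, finrank_top, finrank_fin_fun] at h1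
      omega
  have hHZ : ∀ W : Submodule F (Fin 3 → F), Subgroup.center (SU 3 F q) ≤ sstab q W :=
    fun W => center_le' (q := q) hF (show 2 ≤ 3 by norm_num) W
  by_cases hex : ∃ g₀ : SU 3 F q, Irr (lin g₀)
  swap
  · obtain ⟨u₀, hu0, huu⟩ := exists_isotropic (F := F) (n := 3) hF (by norm_num)
    refine cover_quot (sstab q (Submodule.span F {w})) (sstab q (Submodule.span F {u₀}))
      (hline w hw0) (hline u₀ hu0) (hHZ _) (hHZ _) fun g => ?_
    rcases three_cases hF h3 g with h | h | ⟨-, -, x, hx0, hxx, hx⟩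
    · obtain ⟨x, hx⟩ := point_conj hF hw g h
      exact ⟨x, Or.inl hx⟩
    · exact absurd ⟨g, h⟩ hex
    · have hti : ∀ v : Fin 3 → F, hermForm 3 F q v v = 0 → ∀ y ∈ Submodule.span F {v},
          ∀ y' ∈ Submodule.span F {v}, hermForm 3 F q y y' = 0 := by
        intro v hv y hy y' hy'
        obtain ⟨c, rfl⟩ := Submodule.mem_span_singleton.1 hy
        obtain ⟨c', rfl⟩ := Submodule.mem_span_singleton.1 hy'
        rw [hermForm_smul_left, hermForm_smul_right, hv, mul_zero, mul_zero]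
      obtain ⟨k, hk⟩ := exists_su_ti hF (by norm_num) (by
        rw [finrank_span_singleton hx0, finrank_span_singleton hu0]) (hti x hxx) (hti u₀ huu)
      refine ⟨k, Or.inr (mem_sstab' fun u hu => ?_)⟩
      rw [act_mul, act_mul, ← hk]
      have h1 : act k⁻¹ u ∈ Submodule.span F {x} := by rw [hk, act_act_inv]; exact hu
      obtain ⟨c, hc⟩ := Submodule.mem_span_singleton.1 h1
      rw [← hc, act_smul, hx]
      exact Submodule.smul_mem _ _ (Submodule.mem_span_singleton_self x)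
  -- there is an irreducible element
  obtain ⟨g₀, hg₀⟩ := hex
  obtain ⟨L, _, _, hL⟩ := exists_extension F 3 (by norm_num)
  have hL' : finrank F L = finrank F (Fin 3 → F) := by rw [hL, finrank_fin_fun]
  haveI : Module.Finite F L := Module.finite_of_finrank_pos (by rw [hL]; norm_num)
  haveI : Finite L := Module.finite_of_finite F
  letI : Fintype L := Fintype.ofFinite L
  have hcard : Fintype.card L = q ^ 6 := by
    rw [Module.card_eq_pow_finrank (K := F), hL, hF, ← pow_mul]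
  obtain ⟨-, l₀, Ψ, -, hΨ⟩ := irr_main hF (herm_form (n := 3) hF) (lin g₀)
    (fun x y => act_form g₀ x y) hg₀ hL'
  rw [finrank_fin_fun] at hΨ
  refine cover_quot (sstab q (Submodule.span F {w})) (KK Ψ hcard) (hline w hw0)
    (KK_ne_top hF hq3 Ψ hcard) (hHZ _) (center_le_KK hF Ψ hcard) fun g => ?_
  rcases three_cases hF h3 g with h | h | ⟨hg3, ⟨y, hy⟩, -⟩
  · obtain ⟨x, hx⟩ := point_conj hF hw g h
    exact ⟨x, Or.inl hx⟩
  · -- irreducible
    obtain ⟨-, l, ψ, hψ, hψ2⟩ := irr_main hF (herm_form (n := 3) hF) (lin g)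
      (fun x y => act_form g x y) h hL'
    rw [finrank_fin_fun] at hψ2
    have hl0 : l ≠ 0 := by
      rintro rfl
      obtain ⟨v, hv⟩ := exists_ne (0 : Fin 3 → F)
      have h1 := hψ v
      rw [zero_mul] at h1
      exact act_ne_zero hv ((LinearEquiv.map_eq_zero_iff ψ).1 h1)
    obtain ⟨k, hk⟩ := exists_GU_of_linearEquiv hF (ψ.trans Ψ.symm) (fun u v => by
      rw [hΨ, hψ2, LinearEquiv.trans_apply, LinearEquiv.trans_apply, LinearEquiv.apply_symm_apply,
        LinearEquiv.apply_symm_apply])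
    have hk' : ∀ v, Ψ (gact k v) = ψ v := by
      intro v
      have h1 := hk v
      rw [LinearEquiv.trans_apply] at h1
      rw [gact_def, h1, LinearEquiv.apply_symm_apply]
    obtain ⟨x, s, hs0, hx⟩ := exists_su_scalar hF ha hq k
    refine ⟨x, Or.inr ?_⟩
    rw [mem_KK]
    refine ⟨l, 0, hl0, fun u => ?_⟩
    obtain ⟨v, rfl⟩ : ∃ v, u = act x v := ⟨act x⁻¹ u, (act_act_inv x u).symm⟩
    rw [act_mul, act_mul, act_inv_act, hx, hx, map_smul, map_smul, hk', hk', mul_zero, pow_zero,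
      pow_one, mul_smul_comm]
    congr 1
    exact hψ v
  · -- unipotent
    obtain ⟨u, hu⟩ := cyc_ON hF h3 (lin g) (fun x y => act_form g x y) hg3 hy
    obtain ⟨φ, hφ⟩ : ∃ φ : L →ₗ[F] L, ∀ x, φ x = x ^ (q ^ 2) :=
      ⟨(FiniteField.frobeniusAlgEquivOfAlgebraic F L).toLinearMap, fun x => by
        rw [← hF]
        rfl⟩
    obtain ⟨T, hT⟩ : ∃ T : (Fin 3 → F) →ₗ[F] (Fin 3 → F), ∀ x, Ψ (T x) = (Ψ x) ^ (q ^ 2) :=
      ⟨Ψ.symm.toLinearMap ∘ₗ φ ∘ₗ Ψ.toLinearMap, fun x => by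
        change Ψ (Ψ.symm (φ (Ψ x))) = _
        rw [LinearEquiv.apply_symm_apply, hφ]⟩
    have hTT : ∀ x y, hermForm 3 F q (T x) (T y) = hermForm 3 F q x y := by
      intro x y
      rw [hΨ, hΨ, hT, hT, ← pow_mul, mul_comm (q ^ 2), pow_mul, ← mul_pow, tr_pow hF, ← hF,
        FiniteField.pow_card]
    have hT3 : ∀ x, T (T (T x)) = x := by
      intro x
      apply Ψ.injective
      rw [hT, hT, hT, ← pow_mul, ← pow_mul, ← pow_add, ← pow_add, show 2 + (2 + 2) = 6 * 1 + 0 by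
        norm_num, pow_red hcard, pow_zero, pow_one]
    obtain ⟨z, hz⟩ := Algebra.trace_surjective F L 1
    obtain ⟨u', hu'⟩ := cyc_ON hF h3 T hTT hT3 (x := Ψ.symm z) (by
      rw [hΨ, map_add, map_add, hT, hT, hT, LinearEquiv.apply_symm_apply]
      have h1 : z + z ^ q ^ 2 + (z ^ q ^ 2) ^ q ^ 2 = 1 := by
        have h2 := FiniteField.algebraMap_trace_eq_sum_pow F L z
        rw [hL, Finset.sum_range_succ, Finset.sum_range_succ, Finset.sum_range_one,
          Nat.card_eq_fintype_card, hF, hz, map_one, pow_zero, pow_one, pow_one] at h2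
        rw [h2, ← pow_mul, ← sq]
      rw [h1, one_pow, mul_one, hz]
      exact one_ne_zero)
    obtain ⟨k, hk⟩ := exists_GU_of_ON hF hu hu' (by norm_num)
    have k0 : gact k u = u' := hk 0
    have k1 : gact k (act g u) = T u' := hk 1
    have k2 : gact k (act g (act g u)) = T (T u') := hk 2
    have hcomm : ∀ v, gact k (act g v) = T (gact k v) := by
      intro v
      obtain ⟨c0, c1, c2, hv⟩ : ∃ c0 c1 c2 : F, v = c0 • u + c1 • act g u + c2 • act g (act g u) := by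
        have h1 := IsON.sum_eq hF hu v
        rw [Fin.sum_univ_three] at h1
        exact ⟨_, _, _, h1.symm⟩
      rw [hv]
      simp only [act_add, act_smul, gact_add, gact_smul, map_add, map_smul, k0, k1, k2, hg3, hT3]
    obtain ⟨x, s, hs0, hx⟩ := exists_su_scalar hF ha hq k
    refine ⟨x, Or.inr ?_⟩
    rw [mem_KK]
    refine ⟨1, 1, one_ne_zero, fun r => ?_⟩
    obtain ⟨v, rfl⟩ : ∃ v, r = act x v := ⟨act x⁻¹ r, (act_act_inv x r).symm⟩
    rw [act_mul, act_mul, act_inv_act, hx, hx, hcomm, ← map_smul, hT, one_mul, mul_one]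

end Cfsg.Agent.H98.CovU
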