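import Cfsg.Agent.H98.Blk

/-!
Subgroups of `GL κ F` containing all monomial matrices, `|F| ≥ 5`: a non-monomial one contains root elements.
-/

set_option autoImplicit false
set_option linter.unusedSectionVars false

namespace Cfsg.Agent.H98.Mono

open Matrix Cfsg.Geo Cfsg.Agent.GeoMax Cfsg.Agent.H98.Subf Cfsg.Agent.H98.Blk
open scoped MatrixGroups

variable {κ : Type} [Fintype κ] [DecidableEq κ] {F : Type*} [Field F] {G : Subgroup (GL κ F)}

/-- a pair giving a full torus of pseudo-reflections in `G` -/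
def RP (G : Subgroup (GL κ F)) (u v : κ → F) : Prop :=
  ∃ h : v ⬝ᵥ u = 1, ∀ a : Fˣ, rf u v h a ∈ G

lemma rf_conj {u v : κ → F} (h : v ⬝ᵥ u = 1) (g : GL κ F)
    (h' : (v ᵥ* ((g⁻¹ : GL κ F) : Matrix κ κ F)) ⬝ᵥ ((g : Matrix κ κ F) *ᵥ u) = 1) (a : Fˣ) :
    rf ((g : Matrix κ κ F) *ᵥ u) (v ᵥ* ((g⁻¹ : GL κ F) : Matrix κ κ F)) h' a = g * rf u v h a * g⁻¹ := by
  apply gl_ext; intro x
  rw [gl_mul_mulVec, gl_mul_mulVec, rf_mulVec, rf_mulVec, Matrix.mulVec_add, gl_mulVec_inv, Matrix.mulVec_smul,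
    Matrix.dotProduct_mulVec]

lemma RP.conj {u v : κ → F} (h : RP G u v) {g : GL κ F} (hg : g ∈ G) :
    RP G ((g : Matrix κ κ F) *ᵥ u) (v ᵥ* ((g⁻¹ : GL κ F) : Matrix κ κ F)) := by
  obtain ⟨h0, hm⟩ := h
  refine ⟨by rw [vecMul_inv_dot, h0], fun a => ?_⟩
  rw [rf_conj h0]
  exact G.mul_mem (G.mul_mem hg (hm a)) (G.inv_mem hg)

lemma RP.sub_left {u u' v : κ → F} (h : RP G u v) (h' : RP G u' v) (a : Fˣ) :
    HasT G (u' - u) ((1 - ((a⁻¹ : Fˣ) : F)) • v) := by
  obtain ⟨h0, hm⟩ := h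
  obtain ⟨h0', hm'⟩ := h'
  have hz : ((1 - ((a⁻¹ : Fˣ) : F)) • v) ⬝ᵥ (u' - u) = 0 := by
    rw [smul_dotProduct, dotProduct_sub, h0, h0']; simp
  rw [hasT_iff]
  refine ⟨hz, ?_⟩
  have : tvec (u' - u) ((1 - ((a⁻¹ : Fˣ) : F)) • v) hz = rf u' v h0' a * rf u v h0 a⁻¹ := by
    apply gl_ext; intro x
    have ha : (a : F) * ((a⁻¹ : Fˣ) : F) = 1 := a.mul_inv
    rw [gl_mul_mulVec, rf_mulVec, rf_mulVec, tvec_mulVec, dotProduct_add, dotProduct_smul, h0, smul_dotProduct]
    simp only [smul_eq_mul, mul_one]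
    ext i
    simp only [Pi.add_apply, Pi.smul_apply, Pi.sub_apply, smul_eq_mul]
    linear_combination (v ⬝ᵥ x) * (u' i) * (-1 : F) * ha
  rw [this]
  exact G.mul_mem (hm' a) (hm _)

lemma RP.sub_right {u v v' : κ → F} (h : RP G u v) (h' : RP G u v') (a : Fˣ) :
    HasT G u (((a : F) - 1) • (v' - v)) := by
  obtain ⟨h0, hm⟩ := h
  obtain ⟨h0', hm'⟩ := h'
  have hz : (((a : F) - 1) • (v' - v)) ⬝ᵥ u = 0 := by
    rw [smul_dotProduct, sub_dotProduct, h0, h0']; simp
  rw [hasT_iff]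
  refine ⟨hz, ?_⟩
  have : tvec u (((a : F) - 1) • (v' - v)) hz = rf u v' h0' a * rf u v h0 a⁻¹ := by
    apply gl_ext; intro x
    have ha : (a : F) * ((a⁻¹ : Fˣ) : F) = 1 := a.mul_inv
    rw [gl_mul_mulVec, rf_mulVec, rf_mulVec, tvec_mulVec, dotProduct_add, dotProduct_smul, h0', smul_dotProduct,
      sub_dotProduct]
    simp only [smul_eq_mul, mul_one]
    ext i
    simp only [Pi.add_apply, Pi.smul_apply, smul_eq_mul]
    linear_combination (v ⬝ᵥ x) * (u i) * (-1 : F) * ha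
  rw [this]
  exact G.mul_mem (hm' a) (hm _)

/-- `G` contains a non-trivial root element -/
def Root (G : Subgroup (GL κ F)) : Prop :=
  ∃ i j : κ, i ≠ j ∧ ∃ c : F, c ≠ 0 ∧ HasT G (Pi.single i 1) (c • Pi.single j 1)

/-- one non-trivial diagonal entry -/
def sd (j : κ) (b : Fˣ) : κ → Fˣ := Function.update 1 j b

lemma dg_sd_mulVec (j : κ) (b : Fˣ) (x : κ → F) :
    ((dg (sd j b) : GL κ F) : Matrix κ κ F) *ᵥ x = x + (((b : F) - 1) * x j) • Pi.single j 1 := by
  rw [dg_mulVec]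
  ext i
  by_cases h : i = j
  · subst h; simp [sd]; ring
  · simp [sd, h]

lemma vecMul_dg_sd_inv (j : κ) (b : Fˣ) (x : κ → F) :
    x ᵥ* (((dg (sd j b) : GL κ F)⁻¹ : GL κ F) : Matrix κ κ F) =
      x + ((((b⁻¹ : Fˣ) : F) - 1) * x j) • Pi.single j 1 := by
  rw [vecMul_dg_inv]
  ext i
  by_cases h : i = j
  · subst h; simp [sd]; ring
  · simp [sd, h]

section

variable (hD : ∀ d : κ → Fˣ, dg d ∈ G) (hb : ∃ b : Fˣ, b ≠ 1)

lemma unit_sub_ne {b : Fˣ} (h : b ≠ 1) : (b : F) - 1 ≠ 0 := by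
  intro h0
  exact h (Units.ext (by rw [Units.val_one]; linear_combination h0))

lemma unit_inv_sub_ne {b : Fˣ} (h : b ≠ 1) : ((b⁻¹ : Fˣ) : F) - 1 ≠ 0 :=
  unit_sub_ne (inv_ne_one.2 h)

include hD hb in
lemma root_of_right {j : κ} {v : κ → F} (hv : v ≠ 0) (h : HasT G (Pi.single j 1) v) : Root G := by
  obtain ⟨i, hi⟩ := Function.ne_iff.1 hv
  have hij : i ≠ j := by
    rintro rfl
    apply hi
    have := h.1
    simpa using this
  obtain ⟨b, hb⟩ := hb
  have h1 := h.conj (hD (sd i b))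
  rw [dg_sd_mulVec, vecMul_dg_sd_inv] at h1
  simp only [Pi.single_eq_of_ne hij, mul_zero, zero_smul, add_zero] at h1
  have h2 := h1.sub_right h
  rw [add_sub_cancel_left] at h2
  exact ⟨j, i, hij.symm, _, mul_ne_zero (unit_inv_sub_ne hb) hi, h2⟩

include hD hb in
lemma root_of_left {j : κ} {u : κ → F} {c : F} (hc : c ≠ 0) (hu : u ≠ 0) (h : HasT G u (c • Pi.single j 1)) :
    Root G := by
  obtain ⟨i, hi⟩ := Function.ne_iff.1 hu
  have hij : i ≠ j := by
    rintro rfl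
    apply hi
    have := h.1
    simp at this
    exact this.resolve_left hc
  obtain ⟨b, hb⟩ := hb
  have h1 := h.conj (hD (sd i b))
  rw [dg_sd_mulVec, vecMul_dg_sd_inv] at h1
  simp only [Pi.smul_apply, Pi.single_eq_of_ne hij, smul_zero, mul_zero, zero_smul, add_zero] at h1
  have h2 := sub_left h1 h
  have hne := mul_ne_zero (unit_sub_ne hb) hi
  rw [add_sub_cancel_left, hasT_smul_left_iff hne, smul_smul] at h2
  exact ⟨i, j, hij, _, mul_ne_zero hne hc, h2⟩

include hD hb in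
lemma root_of_supp {u v : κ → F} (h : RP G u v) {j : κ} (hj : (v j = 0 ∧ u j ≠ 0) ∨ (u j = 0 ∧ v j ≠ 0)) :
    Root G := by
  have hb' := hb
  obtain ⟨b, hb⟩ := hb
  have h1 := h.conj (hD (sd j b))
  rw [dg_sd_mulVec, vecMul_dg_sd_inv] at h1
  have hv0 : v ≠ 0 := by
    rintro rfl
    have := h.1
    simp at this
  have hu0 : u ≠ 0 := by
    rintro rfl
    have := h.1
    simp at this
  rcases hj with ⟨h0, h0'⟩ | ⟨h0, h0'⟩
  · rw [h0, mul_zero, zero_smul, add_zero] at h1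
    have h2 := h.sub_left h1 b
    have hne := mul_ne_zero (unit_sub_ne hb) h0'
    rw [add_sub_cancel_left, hasT_smul_left_iff hne, smul_smul] at h2
    refine root_of_right hD hb' (smul_ne_zero (mul_ne_zero hne ?_) hv0) h2
    have := unit_inv_sub_ne hb
    intro h; apply this; linear_combination -h
  · rw [h0, mul_zero, zero_smul, add_zero] at h1
    have h2 := h.sub_right h1 b
    rw [add_sub_cancel_left, smul_smul] at h2
    exact root_of_left hD hb' (mul_ne_zero (unit_sub_ne hb) (mul_ne_zero (unit_inv_sub_ne hb) h0')) hu0 h2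

include hD in
lemma step {u v : κ → F} (h : RP G u v) (J : Finset κ) {i₀ : κ} (hi₀ : i₀ ∉ J) (hv : v i₀ ≠ 0) (a b : Fˣ)
    (h1 : 1 + ((a : F) - 1) * (1 + (((b⁻¹ : Fˣ) : F) - 1) * ∑ i ∈ J, u i * v i) = 0)
    (h2 : 1 + (((a⁻¹ : Fˣ) : F) - 1) * (1 + ((b : F) - 1) * ∑ i ∈ J, u i * v i) ≠ 0) :
    ∃ u' v' : κ → F, RP G u' v' ∧ u' i₀ = 0 ∧ v' i₀ ≠ 0 := by
  let d : κ → Fˣ := fun i => if i ∈ J then b else 1
  obtain ⟨h3, hm⟩ := h.conj (hD d)
  have h4 := h.conj (hm a)
  have hd : d i₀ = 1 := by simp [d, hi₀]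
  have hsum : ∀ c : Fˣ, ∑ i, (if i ∈ J then (c : F) else 1) * (u i * v i) = 1 + ((c : F) - 1) * ∑ i ∈ J, u i * v i := by
    intro c
    have e1 : ∀ i, (if i ∈ J then (c : F) else 1) * (u i * v i) =
        u i * v i + (if i ∈ J then ((c : F) - 1) * (u i * v i) else 0) := by
      intro i; split_ifs <;> ring
    simp_rw [e1]
    rw [Finset.sum_add_distrib, ← Finset.sum_filter, Finset.filter_mem_eq_inter, Finset.univ_inter, ← Finset.mul_sum]
    have e2 : ∑ i, u i * v i = 1 := by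
      have := h.1
      rw [dotProduct_comm] at this
      exact this
    rw [e2]
  refine ⟨_, _, h4, ?_, ?_⟩
  · rw [rf_mulVec]
    have e1 : (v ᵥ* (((dg d : GL κ F)⁻¹ : GL κ F) : Matrix κ κ F)) ⬝ᵥ u = 1 + (((b⁻¹ : Fˣ) : F) - 1) * ∑ i ∈ J, u i * v i := by
      rw [vecMul_dg_inv, ← hsum b⁻¹]
      simp only [dotProduct]
      refine Finset.sum_congr rfl fun i _ => ?_
      by_cases hi : i ∈ J
      · simp [d, hi]; ring
      · simp [d, hi]; ring
    rw [e1, dg_mulVec]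
    simp only [Pi.add_apply, Pi.smul_apply, smul_eq_mul, hd, Units.val_one, one_mul]
    linear_combination (u i₀) * h1
  · rw [vecMul_rf_inv]
    have e1 : v ⬝ᵥ (((dg d : GL κ F) : Matrix κ κ F) *ᵥ u) = 1 + ((b : F) - 1) * ∑ i ∈ J, u i * v i := by
      rw [dg_mulVec, ← hsum b]
      simp only [dotProduct]
      refine Finset.sum_congr rfl fun i _ => ?_
      by_cases hi : i ∈ J
      · simp [d, hi]; ring
      · simp [d, hi]; ring
    rw [e1, vecMul_dg_inv]
    simp only [Pi.add_apply, Pi.smul_apply, smul_eq_mul, hd, inv_one, Units.val_one, one_mul]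
    intro h0
    have : v i₀ * (1 + (((a⁻¹ : Fˣ) : F) - 1) * (1 + ((b : F) - 1) * ∑ i ∈ J, u i * v i)) = 0 := by
      linear_combination h0
    rcases mul_eq_zero.1 this with h5 | h5
    · exact hv h5
    · exact h2 h5

end

/-! ### the numerical lemma -/

lemma key5 : ∀ w : ZMod 5, w ≠ 0 → w ≠ 3 → ∃ y : ZMod 5, y ≠ 0 ∧ y ≠ -1 ∧ y ≠ -w ∧ y ^ 2 + y + w ≠ 0 := by
  decide

lemma exists_y [Fintype F] (h5 : 5 ≤ Fintype.card F) {w : F} (hw : w ≠ 0)
    (hex : ¬ (Fintype.card F = 5 ∧ w = 3)) :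
    ∃ y : F, y ≠ 0 ∧ y ≠ -1 ∧ y ≠ -w ∧ y ^ 2 + y + w ≠ 0 := by
  classical
  by_cases hc : Fintype.card F = 5
  · have : Fact (Nat.Prime 5) := ⟨by norm_num⟩
    let e : F ≃+* ZMod 5 := FiniteField.ringEquivOfCardEq (K := F) (K' := ZMod 5) (by rw [hc, ZMod.card])
    obtain ⟨y, h1, h2, h3, h4⟩ := key5 (e w) (by simpa using hw) (by
      intro h
      apply hex
      refine ⟨hc, ?_⟩
      apply e.injective
      rw [h]; exact (map_ofNat e 3).symm)
    refine ⟨e.symm y, by simpa using h1, ?_, ?_, ?_⟩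
    · intro h; apply h2; rw [← e.apply_symm_apply y, h]; simp
    · intro h; apply h3; rw [← e.apply_symm_apply y, h]; simp
    · intro h
      apply h4
      have := congrArg e h
      simpa using this
  · have h6 : 6 ≤ Fintype.card F := by omega
    by_contra hcon
    push Not at hcon
    by_cases hr : ∃ y₁ : F, y₁ ^ 2 + y₁ + w = 0
    · obtain ⟨y₁, hy₁⟩ := hr
      have hall : (Finset.univ : Finset F) ⊆ {0, -1, -w, y₁, -1 - y₁} := by
        intro y _
        by_cases i1 : y = 0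
        · simp [i1]
        by_cases i2 : y = -1
        · simp [i2]
        by_cases i3 : y = -w
        · simp [i3]
        have h0 := hcon y i1 i2 i3
        have : (y - y₁) * (y - (-1 - y₁)) = 0 := by linear_combination h0 - hy₁
        rcases mul_eq_zero.1 this with h7 | h7
        · simp [sub_eq_zero.1 h7]
        · simp [sub_eq_zero.1 h7]
      have := Finset.card_le_card hall
      have h8 := Finset.card_le_five (a := (0 : F)) (b := -1) (c := -w) (d := y₁) (e := -1 - y₁)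
      rw [Finset.card_univ] at this
      omega
    · push Not at hr
      have hall : (Finset.univ : Finset F) ⊆ {0, -1, -w} := by
        intro y _
        by_cases i1 : y = 0
        · simp [i1]
        by_cases i2 : y = -1
        · simp [i2]
        by_cases i3 : y = -w
        · simp [i3]
        exact absurd (hcon y i1 i2 i3) (hr y)
      have := Finset.card_le_card hall
      have h8 := Finset.card_le_three (a := (0 : F)) (b := -1) (c := -w)
      rw [Finset.card_univ] at this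
      omega

lemma num [Fintype F] (h5 : 5 ≤ Fintype.card F) {w : F} (hw : w ≠ 0)
    (hex : ¬ (Fintype.card F = 5 ∧ w = 3)) :
    ∃ a b : Fˣ, 1 + ((a : F) - 1) * (1 + (((b⁻¹ : Fˣ) : F) - 1) * w) = 0 ∧
      1 + (((a⁻¹ : Fˣ) : F) - 1) * (1 + ((b : F) - 1) * w) ≠ 0 := by
  obtain ⟨y, h1, h2, h3, h4⟩ := exists_y h5 hw hex
  have h2' : 1 + y ≠ 0 := fun h => h2 (by linear_combination h)
  have h3' : y + w ≠ 0 := fun h => h3 (by linear_combination h)
  refine ⟨Units.mk0 (y / (1 + y)) (div_ne_zero h1 h2'), Units.mk0 (w / (y + w)) (div_ne_zero hw h3'), ?_, ?_⟩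
  · simp only [Units.val_inv_eq_inv_val, Units.val_mk0]
    field_simp
    ring
  · simp only [Units.val_inv_eq_inv_val, Units.val_mk0]
    intro h
    apply h4
    field_simp at h
    linear_combination h

/-! ### the theorem for `GL` -/

theorem root_of_nonmono [Fintype F] (h5 : 5 ≤ Fintype.card F) (h3 : 3 ≤ Fintype.card κ)
    (hD : ∀ d : κ → Fˣ, dg d ∈ G) (hP : ∀ σ : Equiv.Perm κ, pm σ ∈ G)
    {g : GL κ F} (hg : g ∈ G) {j i₁ i₂ : κ} (hi : i₁ ≠ i₂)
    (h₁ : ((g : Matrix κ κ F) *ᵥ Pi.single j 1) i₁ ≠ 0) (h₂ : ((g : Matrix κ κ F) *ᵥ Pi.single j 1) i₂ ≠ 0) :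
    Root G := by
  classical
  have hb : ∃ b : Fˣ, b ≠ 1 := by
    have : 1 < Fintype.card Fˣ := by rw [Fintype.card_units]; omega
    have := Fintype.one_lt_card_iff_nontrivial.1 this
    exact exists_ne 1
  by_contra hno
  -- supports of reflection pairs agree
  have hsupp : ∀ u v : κ → F, RP G u v → ∀ i, (v i ≠ 0 ↔ u i ≠ 0) := by
    intro u v h i
    constructor
    · intro hv hu
      exact hno (root_of_supp hD hb h (Or.inr ⟨hu, hv⟩))
    · intro hu hv
      exact hno (root_of_supp hD hb h (Or.inl ⟨hv, hu⟩))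
  -- no admissible set J
  have hJ : ∀ u v : κ → F, RP G u v → ∀ (J : Finset κ) (i₀ : κ), i₀ ∉ J → u i₀ ≠ 0 → ∑ i ∈ J, u i * v i ≠ 0 →
      Fintype.card F = 5 ∧ ∑ i ∈ J, u i * v i = 3 := by
    intro u v h J i₀ hi₀ hu hw
    by_contra hcon
    obtain ⟨a, b, e1, e2⟩ := num h5 hw hcon
    obtain ⟨u', v', h', e3, e4⟩ := step hD h J hi₀ ((hsupp u v h i₀).2 hu) a b e1 e2
    exact (hsupp u' v' h' i₀).1 e4 e3
  have hpair : ∀ u v : κ → F, RP G u v → ∀ i₁ i₂, i₁ ≠ i₂ → u i₁ ≠ 0 → u i₂ ≠ 0 →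
      Fintype.card F = 5 ∧ u i₁ * v i₁ = 3 ∧ ∀ i₃, i₃ ≠ i₁ → i₃ ≠ i₂ → u i₃ = 0 := by
    intro u v h i₁ i₂ hi h₁ h₂
    have e1 := hJ u v h {i₁} i₂ (by simpa using hi.symm) h₂
      (by rw [Finset.sum_singleton]; exact mul_ne_zero h₁ ((hsupp u v h i₁).2 h₁))
    have e2 := hJ u v h {i₂} i₁ (by simpa using hi) h₁
      (by rw [Finset.sum_singleton]; exact mul_ne_zero h₂ ((hsupp u v h i₂).2 h₂))
    rw [Finset.sum_singleton] at e1 e2
    refine ⟨e1.1, e1.2, ?_⟩
    intro i₃ h31 h32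
    by_contra h₃
    have h50 : (5 : F) = 0 := by
      have := Nat.cast_card_eq_zero F
      rw [e1.1] at this
      exact_mod_cast this
    have hs : ∑ i ∈ ({i₁, i₂} : Finset κ), u i * v i = 1 := by
      rw [Finset.sum_pair hi, e1.2, e2.2]
      linear_combination h50
    have h10 : (1 : F) ≠ 0 := one_ne_zero
    have e3 := hJ u v h {i₁, i₂} i₃ (by simp [h31, h32]) h₃ (by rw [hs]; exact h10)
    rw [hs] at e3
    have h20 : (2 : F) = 0 := by linear_combination -e3.2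
    exact h10 (by linear_combination h50 - 2 * h20)
  have hbase : RP G (Pi.single j (1 : F)) (Pi.single j 1) := by
    refine ⟨by simp, fun a => ?_⟩
    have : rf (Pi.single j (1 : F)) (Pi.single j 1) (by simp) a = dg (sd j a) := by
      apply gl_ext; intro x
      rw [rf_mulVec, dg_sd_mulVec]
      simp
    rw [this]; exact hD _
  have hRP := hbase.conj hg
  set u : κ → F := (g : Matrix κ κ F) *ᵥ Pi.single j 1 with hu
  set v : κ → F := (Pi.single j 1 : κ → F) ᵥ* ((g⁻¹ : GL κ F) : Matrix κ κ F) with hv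
  obtain ⟨hcard, hw1, hz⟩ := hpair u v hRP i₁ i₂ hi h₁ h₂
  obtain ⟨-, hw2, -⟩ := hpair u v hRP i₂ i₁ hi.symm h₂ h₁
  have h50 : (5 : F) = 0 := by
    have := Nat.cast_card_eq_zero F
    rw [hcard] at this
    exact_mod_cast this
  have h20 : (2 : F) ≠ 0 := by
    intro h
    exact one_ne_zero (α := F) (by linear_combination h50 - 2 * h)
  have h30 : (3 : F) ≠ 0 := by
    intro h
    exact one_ne_zero (α := F) (by linear_combination 2 * h - h50)
  obtain ⟨i₃, h31, h32⟩ : ∃ i₃, i₃ ≠ i₁ ∧ i₃ ≠ i₂ := by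
    have : ({i₁, i₂} : Finset κ).card < (Finset.univ : Finset κ).card := by
      have := Finset.card_le_two (a := i₁) (b := i₂)
      rw [Finset.card_univ]; omega
    obtain ⟨c, -, hc⟩ := Finset.exists_mem_notMem_of_card_lt_card this
    simp at hc
    exact ⟨c, hc.1, hc.2⟩
  have h3z := hz i₃ h31 h32
  -- move the pair
  have hRP' := hRP.conj (hP (Equiv.swap i₁ i₃))
  rw [pm_mulVec, vecMul_pm_inv] at hRP'
  obtain ⟨h0', hm'⟩ := hRP'
  have hRP3 := hRP.conj (hm' (Units.mk0 2 h20))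
  rw [rf_mulVec] at hRP3
  have hdot : (v ∘ (Equiv.swap i₁ i₃).symm) ⬝ᵥ u = 3 := by
    have hz' : ∀ i, i ≠ i₂ → (v ∘ (Equiv.swap i₁ i₃).symm) i * u i = 0 := by
      intro i hi2
      by_cases hi1 : i = i₁
      · subst hi1
        have : v i₃ = 0 := by
          by_contra hne
          exact (hsupp u v hRP i₃).1 hne h3z
        simp [this]
      · rw [hz i hi1 hi2, mul_zero]
    simp only [dotProduct]
    rw [Finset.sum_eq_single i₂ (fun i _ h => hz' i h) (fun h => absurd (Finset.mem_univ _) h)]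
    have : (Equiv.swap i₁ i₃).symm i₂ = i₂ := by
      rw [Equiv.symm_swap]; exact Equiv.swap_apply_of_ne_of_ne hi.symm h32.symm
    simp only [Function.comp, this]
    rw [mul_comm]; exact hw2
  rw [hdot] at hRP3
  have h7 := (hpair _ _ hRP3 i₁ i₂ hi (by
    simp only [Units.val_mk0, Pi.add_apply, Pi.smul_apply, smul_eq_mul, Function.comp, Equiv.symm_swap,
      Equiv.swap_apply_left, h3z, mul_zero, add_zero]
    exact h₁) (by
    have : (Equiv.swap i₁ i₃) i₂ = i₂ := Equiv.swap_apply_of_ne_of_ne hi.symm h32.symm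
    simp only [Units.val_mk0, Pi.add_apply, Pi.smul_apply, smul_eq_mul, Function.comp, Equiv.symm_swap, this]
    intro h8
    have h9 : (4 : F) * u i₂ = 0 := by linear_combination h8
    rcases mul_eq_zero.1 h9 with h10 | h10
    · exact one_ne_zero (α := F) (by linear_combination h50 - h10)
    · exact h₂ h10)).2.2
  have h8 := h7 i₃ h31 h32
  simp only [Units.val_mk0, Pi.add_apply, Pi.smul_apply, smul_eq_mul, h3z, Function.comp, Equiv.symm_swap,
    Equiv.swap_apply_right, zero_add, mul_eq_zero] at h8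
  rcases h8 with h8 | h8
  · rcases h8 with h8 | h8
    · exact one_ne_zero (α := F) (by linear_combination h8)
    · exact h30 h8
  · exact h₁ h8

end Cfsg.Agent.H98.Mono
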