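import Cfsg.Agent.H98.ExtC

set_option autoImplicit false
set_option linter.unusedSectionVars false
set_option linter.style.haveILetI false
set_option linter.unusedSimpArgs false

/-!
Extension fields in orthogonal groups, part A: the model `K × X × K` with the trace form of
`(a, x, b), (a', x', b') ↦ a b' + b a' + β(x, x')`.
-/

namespace Cfsg.Agent.H98.Or

open Module Cfsg.Agent.H98.Ext

section tr

variable (F K : Type*) [Field F] [Field K] [Algebra F K] [Finite K]

lemma fin_dim : FiniteDimensional F K := Module.Finite.of_finite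

include K in
lemma fin_F : Finite F := Finite.of_injective _ (algebraMap F K).injective

variable {K}

/-- The trace form is non-degenerate. -/
lemma tr_nd {a : K} (h : ∀ k : K, Algebra.trace F K (a * k) = 0) : a = 0 := by
  have := fin_dim F K
  have := fin_F F K
  have h1 := (traceForm_nondegenerate F K).1 a
  apply h1
  intro k
  exact h k

lemma tr_ext {a b : K} (h : ∀ k : K, Algebra.trace F K (a * k) = Algebra.trace F K (b * k)) : a = b := by
  rw [← sub_eq_zero]
  apply tr_nd F
  intro k
  rw [sub_mul, map_sub, h, sub_self]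

/-- Every functional is a trace. -/
lemma tr_exists (l : K →ₗ[F] F) : ∃ c : K, ∀ k, l k = Algebra.trace F K (c * k) := by
  have := fin_dim F K
  have := fin_F F K
  obtain ⟨c, hc⟩ := ((Algebra.traceForm F K).toDual (traceForm_nondegenerate F K)).surjective l
  refine ⟨c, fun k => ?_⟩
  rw [← hc]
  rfl

end tr

/-- The set-up: a symmetric non-degenerate `K`-bilinear form on `X`. -/
structure Bt (K X : Type*) [Field K] [AddCommGroup X] [Module K X] where
  b : X →ₗ[K] X →ₗ[K] K
  symm : ∀ x y, b x y = b y x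
  nd : ∀ x, (∀ y, b x y = 0) → x = 0

section model

variable {F K X : Type*} [Field F] [Field K] [Algebra F K] [AddCommGroup X] [Module F X] [Module K X]
  [IsScalarTower F K X]

/-- The `K`-bilinear form on `K × X × K`. -/
def be (β : Bt K X) (v w : K × X × K) : K := v.1 * w.2.2 + v.2.2 * w.1 + β.b v.2.1 w.2.1

variable {β : Bt K X}

lemma be_symm (v w : K × X × K) : be β v w = be β w v := by
  unfold be; rw [β.symm]; ring

lemma be_add_left (u v w : K × X × K) : be β (u + v) w = be β u w + be β v w := by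
  unfold be; simp; ring

lemma be_add_right (u v w : K × X × K) : be β w (u + v) = be β w u + be β w v := by
  unfold be; simp; ring

lemma be_smul_left (k : K) (v w : K × X × K) : be β (k • v) w = k * be β v w := by
  unfold be; simp; ring

lemma be_smul_right (k : K) (v w : K × X × K) : be β w (k • v) = k * be β w v := by
  unfold be; simp; ring

lemma be_neg_left (v w : K × X × K) : be β (-v) w = - be β v w := by
  unfold be; simp; ring

lemma be_sub_left (u v w : K × X × K) : be β (u - v) w = be β u w - be β v w := by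
  unfold be; simp; ring

lemma be_sub_right (u v w : K × X × K) : be β w (u - v) = be β w u - be β w v := by
  unfold be; simp; ring

lemma be_fsmul_left (c : F) (v w : K × X × K) : be β (c • v) w = c • be β v w := by
  rw [← algebraMap_smul K c v, be_smul_left, Algebra.smul_def]

lemma be_nd {v : K × X × K} (h : ∀ w, be β v w = 0) : v = 0 := by
  have h1 := h (0, 0, 1)
  have h2 := h (1, 0, 0)
  have h3 : ∀ y, β.b v.2.1 y = 0 := by
    intro y
    have := h (0, y, 0)
    simpa [be] using this
  have h4 := β.nd _ h3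
  simp [be] at h1 h2
  ext
  · exact h1
  · exact h4
  · exact h2

/-- The `F`-bilinear form on `K × X × K`. -/
noncomputable def tf (F : Type*) [Field F] [Algebra F K] (β : Bt K X) (v w : K × X × K) : F := Algebra.trace F K (be β v w)

lemma tf_symm (v w : K × X × K) : tf F β v w = tf F β w v := by
  unfold tf; rw [be_symm]

lemma tf_add_left (u v w : K × X × K) : tf F β (u + v) w = tf F β u w + tf F β v w := by
  unfold tf; rw [be_add_left, map_add]

lemma tf_add_right (u v w : K × X × K) : tf F β w (u + v) = tf F β w u + tf F β w v := by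
  unfold tf; rw [be_add_right, map_add]

lemma tf_sub_left (u v w : K × X × K) : tf F β (u - v) w = tf F β u w - tf F β v w := by
  unfold tf; rw [be_sub_left, map_sub]

lemma tf_sub_right (u v w : K × X × K) : tf F β w (u - v) = tf F β w u - tf F β w v := by
  unfold tf; rw [be_sub_right, map_sub]

lemma tf_smul_left (c : F) (v w : K × X × K) : tf F β (c • v) w = c * tf F β v w := by
  unfold tf; rw [be_fsmul_left, map_smul, smul_eq_mul]

lemma tf_smul_right (c : F) (v w : K × X × K) : tf F β w (c • v) = c * tf F β w v := by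
  rw [tf_symm, tf_smul_left, tf_symm]

lemma tf_ksmul (k : K) (v w : K × X × K) : tf F β (k • v) w = tf F β v (k • w) := by
  unfold tf; rw [be_smul_left, be_smul_right]

lemma be_of_tf [Finite K] {v w : K × X × K} (h : ∀ k : K, tf F β (k • v) w = 0) : be β v w = 0 := by
  apply tr_nd F
  intro k
  have := h k
  unfold tf at this
  rwa [be_smul_left, mul_comm] at this

lemma tf_nd [Finite K] {v : K × X × K} (h : ∀ w, tf F β v w = 0) : v = 0 := by
  apply be_nd (β := β)
  intro w
  apply be_of_tf (F := F)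
  intro k
  rw [tf_ksmul]
  exact h _

variable (F) in
/-- The isometry group of the `F`-form. -/
def iso (β : Bt K X) : Subgroup ((K × X × K) ≃ₗ[F] (K × X × K)) where
  carrier := {g | ∀ v w, tf F β (g v) (g w) = tf F β v w}
  mul_mem' {a b} ha hb := by
    intro v w
    exact (ha (b v) (b w)).trans (hb v w)
  one_mem' := fun v w => rfl
  inv_mem' {a} ha := by
    intro v w
    have h := ha (a⁻¹ v) (a⁻¹ w)
    have h2 : ∀ v, a (a⁻¹ v) = v := fun v => LinearEquiv.apply_symm_apply a v
    rw [h2, h2] at h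
    exact h.symm

lemma mem_iso {g : (K × X × K) ≃ₗ[F] (K × X × K)} :
    g ∈ iso F β ↔ ∀ v w, tf F β (g v) (g w) = tf F β v w := Iff.rfl

lemma iso_inv {g : (K × X × K) ≃ₗ[F] (K × X × K)} (hg : g ∈ iso F β) (v w : K × X × K) :
    tf F β (g v) w = tf F β v (g⁻¹ w) := by
  have h := (mem_iso.1 hg) v (g⁻¹ w)
  have h2 : g (g⁻¹ w) = w := LinearEquiv.apply_symm_apply g w
  rw [h2] at h
  exact h

lemma iso_of_klin {g : (K × X × K) ≃ₗ[K] (K × X × K)} (hg : ∀ v w, be β (g v) (g w) = be β v w) :
    g.restrictScalars F ∈ iso F β := by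
  intro v w
  unfold tf
  exact congrArg _ (hg v w)

/-! ### Siegel elements -/

/-- The map `(a, x, b) ↦ (a + f x + S b, x - g b, b)`. -/
def R (f : X →ₗ[F] K) (g : K →ₗ[F] X) (S : K →ₗ[F] K) : (K × X × K) ≃ₗ[F] (K × X × K) where
  toFun v := (v.1 + f v.2.1 + S v.2.2, v.2.1 - g v.2.2, v.2.2)
  map_add' v w := by
    ext
    · simp; ring
    · simp; abel
    · simp
  map_smul' c v := by
    ext
    · simp [smul_add]
    · simp [smul_sub]
    · simp
  invFun v := (v.1 - f (v.2.1 + g v.2.2) - S v.2.2, v.2.1 + g v.2.2, v.2.2)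
  left_inv v := by
    ext
    · simp; ring
    · simp
    · simp
  right_inv v := by
    ext
    · simp; ring
    · simp
    · simp

lemma R_apply (f : X →ₗ[F] K) (g : K →ₗ[F] X) (S : K →ₗ[F] K) (v : K × X × K) :
    R f g S v = (v.1 + f v.2.1 + S v.2.2, v.2.1 - g v.2.2, v.2.2) := rfl

lemma R_mul (f f' : X →ₗ[F] K) (g g' : K →ₗ[F] X) (S S' : K →ₗ[F] K) :
    R f g S * R f' g' S' = R (f + f') (g + g') (S + S' - f ∘ₗ g') := by
  apply LinearEquiv.ext
  intro v
  rw [LinearEquiv.mul_apply, R_apply, R_apply, R_apply]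
  ext
  · simp; ring
  · simp; abel
  · simp

lemma R_zero : R (0 : X →ₗ[F] K) 0 0 = 1 := by
  apply LinearEquiv.ext
  intro v
  rw [R_apply]
  ext <;> simp

lemma R_inj {f f' : X →ₗ[F] K} {g g' : K →ₗ[F] X} {S S' : K →ₗ[F] K} (h : R f g S = R f' g' S') :
    f = f' ∧ g = g' ∧ S = S' := by
  have h1 : ∀ v, R f g S v = R f' g' S' v := fun v => by rw [h]
  refine ⟨?_, ?_, ?_⟩
  · ext x
    have := congrArg Prod.fst (h1 (0, x, 0))
    simpa [R_apply] using this
  · ext k
    have := congrArg (fun t => t.2.1) (h1 (0, 0, k))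
    simpa [R_apply] using this
  · ext k
    have := congrArg Prod.fst (h1 (0, 0, k))
    simpa [R_apply] using this

/-- `(f, g, S)` gives an isometry. -/
def Rc (β : Bt K X) (f : X →ₗ[F] K) (g : K →ₗ[F] X) (S : K →ₗ[F] K) : Prop :=
  (∀ k x, Algebra.trace F K (k * f x) = Algebra.trace F K (β.b (g k) x)) ∧
    ∀ k l, Algebra.trace F K (k * S l + l * S k + β.b (g k) (g l)) = 0

lemma R_mem_iso {f : X →ₗ[F] K} {g : K →ₗ[F] X} {S : K →ₗ[F] K} (h : Rc β f g S) : R f g S ∈ iso F β := by
  intro v w
  obtain ⟨h1, h2⟩ := h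
  unfold tf be
  rw [R_apply, R_apply]
  simp only [map_sub, LinearMap.sub_apply, add_mul, mul_add, map_add]
  have e1 := h1 v.2.2 w.2.1
  have e2 := h1 w.2.2 v.2.1
  have e3 := h2 v.2.2 w.2.2
  rw [β.symm (g w.2.2)] at e2
  simp only [map_add] at e3
  rw [mul_comm (f v.2.1), e2, e1, mul_comm (S v.2.2)]
  linear_combination e3

lemma Rc_of_mem {f : X →ₗ[F] K} {g : K →ₗ[F] X} {S : K →ₗ[F] K} (h : R f g S ∈ iso F β) : Rc β f g S := by
  constructor
  · intro k x
    have := (mem_iso.1 h) (0, 0, k) (0, x, 0)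
    unfold tf be at this
    rw [R_apply, R_apply] at this
    simp at this
    linear_combination this
  · intro k l
    have := (mem_iso.1 h) (0, 0, k) (0, 0, l)
    unfold tf be at this
    rw [R_apply, R_apply] at this
    simp at this
    simp only [map_add]
    rw [mul_comm (S k)] at this
    linear_combination this

/-- An isometry fixing `W = K × 0 × 0` pointwise and acting trivially on `W^⊥/W` is a Siegel element. -/
lemma exists_R [Finite K] {g : (K × X × K) ≃ₗ[F] (K × X × K)} (hg : g ∈ iso F β)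
    (h1 : ∀ a : K, g (a, 0, 0) = (a, 0, 0)) (h2 : ∀ x : X, (g (0, x, 0)).2 = (x, 0)) :
    ∃ (f : X →ₗ[F] K) (g' : K →ₗ[F] X) (S : K →ₗ[F] K), g = R f g' S := by
  have h3 : ∀ b : K, (g (0, 0, b)).2.2 = b := by
    intro b
    apply tr_ext F
    intro k
    have := (mem_iso.1 hg) (0, 0, b) (k, 0, 0)
    rw [h1] at this
    unfold tf be at this
    simpa using this
  refine ⟨LinearMap.fst F K (X × K) ∘ₗ (g : (K × X × K) →ₗ[F] (K × X × K)) ∘ₗ LinearMap.inr F K (X × K) ∘ₗ
    LinearMap.inl F X K, - (LinearMap.fst F X K ∘ₗ LinearMap.snd F K (X × K) ∘ₗ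
      (g : (K × X × K) →ₗ[F] (K × X × K)) ∘ₗ LinearMap.inr F K (X × K) ∘ₗ LinearMap.inr F X K),
    LinearMap.fst F K (X × K) ∘ₗ (g : (K × X × K) →ₗ[F] (K × X × K)) ∘ₗ LinearMap.inr F K (X × K) ∘ₗ
    LinearMap.inr F X K, ?_⟩
  apply LinearEquiv.ext
  rintro ⟨a, x, b⟩
  have e : ((a, x, b) : K × X × K) = (a, 0, 0) + (0, x, 0) + (0, 0, b) := by ext <;> simp
  have e2 : g (a, x, b) = (a, 0, 0) + g (0, x, 0) + g (0, 0, b) := by rw [e, map_add, map_add, h1]
  rw [R_apply, e2]
  ext
  · simp
  · simp [h2]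
  · simp [h2, h3]

end model

end Cfsg.Agent.H98.Or
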