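import Cfsg.Agent.H98.OrA

set_option autoImplicit false
set_option linter.unusedSectionVars false
set_option linter.style.haveILetI false
set_option linter.unusedSimpArgs false

/-!
Extension fields in orthogonal groups, part B: `K`-linear Siegel elements, transitivity on singular `K`-lines.
-/

namespace Cfsg.Agent.H98.Or

open Module Cfsg.Agent.H98.Ext

section

variable {F K X : Type*} [Field F] [Field K] [Algebra F K] [AddCommGroup X] [Module F X] [Module K X]
  [IsScalarTower F K X]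

/-- The `K`-linear Siegel element `(a, x, b) ↦ (a - β(x,u) - b β(u,u)/2, x + b u, b)`. -/
def tK (β : Bt K X) (u : X) : (K × X × K) ≃ₗ[K] (K × X × K) where
  toFun v := (v.1 - β.b v.2.1 u - v.2.2 * (β.b u u / 2), v.2.1 + v.2.2 • u, v.2.2)
  map_add' v w := by
    ext
    · simp; ring
    · simp [add_smul]; abel
    · simp
  map_smul' c v := by
    ext
    · simp; ring
    · simp [mul_smul]
    · simp
  invFun v := (v.1 + β.b (v.2.1 - v.2.2 • u) u + v.2.2 * (β.b u u / 2), v.2.1 - v.2.2 • u, v.2.2)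
  left_inv v := by
    ext
    · simp; ring
    · simp
    · simp
  right_inv v := by
    ext
    · simp; ring
    · simp
    · simp

/-- The opposite Siegel element. -/
def tK' (β : Bt K X) (u : X) : (K × X × K) ≃ₗ[K] (K × X × K) where
  toFun v := (v.1, v.2.1 + v.1 • u, v.2.2 - β.b v.2.1 u - v.1 * (β.b u u / 2))
  map_add' v w := by
    ext
    · simp
    · simp [add_smul]; abel
    · simp; ring
  map_smul' c v := by
    ext
    · simp
    · simp [mul_smul]
    · simp; ring
  invFun v := (v.1, v.2.1 - v.1 • u, v.2.2 + β.b (v.2.1 - v.1 • u) u + v.1 * (β.b u u / 2))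
  left_inv v := by
    ext
    · simp
    · simp
    · simp; ring
  right_inv v := by
    ext
    · simp
    · simp
    · simp; ring

/-- The torus. -/
def dK (X : Type*) [AddCommGroup X] [Module K X] (c : Kˣ) : (K × X × K) ≃ₗ[K] (K × X × K) where
  toFun v := (c * v.1, v.2.1, ((c⁻¹ : Kˣ) : K) * v.2.2)
  map_add' v w := by
    ext
    · simp; ring
    · simp
    · simp; ring
  map_smul' c v := by
    ext
    · simp; ring
    · simp
    · simp; ring
  invFun v := (((c⁻¹ : Kˣ) : K) * v.1, v.2.1, c * v.2.2)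
  left_inv v := by
    ext <;> simp
  right_inv v := by
    ext <;> simp

variable {β : Bt K X}

lemma tK_apply (u : X) (v : K × X × K) :
    tK β u v = (v.1 - β.b v.2.1 u - v.2.2 * (β.b u u / 2), v.2.1 + v.2.2 • u, v.2.2) := rfl

lemma tK'_apply (u : X) (v : K × X × K) :
    tK' β u v = (v.1, v.2.1 + v.1 • u, v.2.2 - β.b v.2.1 u - v.1 * (β.b u u / 2)) := rfl

lemma dK_apply (c : Kˣ) (v : K × X × K) : dK X c v = (c * v.1, v.2.1, ((c⁻¹ : Kˣ) : K) * v.2.2) := rfl

lemma tK_be (h2 : (2 : K) ≠ 0) (u : X) (v w : K × X × K) : be β (tK β u v) (tK β u w) = be β v w := by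
  unfold be
  rw [tK_apply, tK_apply]
  simp
  rw [β.symm u w.2.1]
  field_simp
  ring

lemma tK'_be (h2 : (2 : K) ≠ 0) (u : X) (v w : K × X × K) : be β (tK' β u v) (tK' β u w) = be β v w := by
  unfold be
  rw [tK'_apply, tK'_apply]
  simp
  rw [β.symm u w.2.1]
  field_simp
  ring

lemma dK_be (c : Kˣ) (v w : K × X × K) : be β (dK X c v) (dK X c w) = be β v w := by
  unfold be
  rw [dK_apply, dK_apply]
  simp
  field_simp

lemma tK_mul (h2 : (2 : K) ≠ 0) (u u' : X) : tK β u * tK β u' = tK β (u + u') := by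
  apply LinearEquiv.ext
  intro v
  rw [LinearEquiv.mul_apply, tK_apply, tK_apply, tK_apply]
  ext
  · simp
    rw [β.symm u u']
    field_simp
    ring
  · simp [smul_add]; abel
  · simp

lemma tK'_mul (h2 : (2 : K) ≠ 0) (u u' : X) : tK' β u * tK' β u' = tK' β (u + u') := by
  apply LinearEquiv.ext
  intro v
  rw [LinearEquiv.mul_apply, tK'_apply, tK'_apply, tK'_apply]
  ext
  · simp
  · simp [smul_add]; abel
  · simp
    rw [β.symm u u']
    field_simp
    ring

lemma dK_mul (c d : Kˣ) : dK X c * dK X d = dK X (c * d) := by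
  apply LinearEquiv.ext
  intro v
  rw [LinearEquiv.mul_apply, dK_apply, dK_apply, dK_apply]
  ext
  · simp; ring
  · simp
  · simp; ring

variable (F) in
/-- `tK` as an `F`-linear map. -/
abbrev tF (β : Bt K X) (u : X) : (K × X × K) ≃ₗ[F] (K × X × K) := (tK β u).restrictScalars F

variable (F) in
/-- `tK'` as an `F`-linear map. -/
abbrev tF' (β : Bt K X) (u : X) : (K × X × K) ≃ₗ[F] (K × X × K) := (tK' β u).restrictScalars F

variable (F) in
/-- `dK` as an `F`-linear map. -/
abbrev dF (X : Type*) [AddCommGroup X] [Module F X] [Module K X] [IsScalarTower F K X] (c : Kˣ) :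
    (K × X × K) ≃ₗ[F] (K × X × K) := (dK X c).restrictScalars F

lemma tF_apply (u : X) (v : K × X × K) :
    tF F β u v = (v.1 - β.b v.2.1 u - v.2.2 * (β.b u u / 2), v.2.1 + v.2.2 • u, v.2.2) := rfl

lemma tF'_apply (u : X) (v : K × X × K) :
    tF' F β u v = (v.1, v.2.1 + v.1 • u, v.2.2 - β.b v.2.1 u - v.1 * (β.b u u / 2)) := rfl

lemma dF_apply (c : Kˣ) (v : K × X × K) : dF F X c v = (c * v.1, v.2.1, ((c⁻¹ : Kˣ) : K) * v.2.2) := rfl

lemma tF_mul (h2 : (2 : K) ≠ 0) (u u' : X) : tF F β u * tF F β u' = tF F β (u + u') := by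
  rw [tF, tF, tF, ← tK_mul h2]; rfl

lemma tF'_mul (h2 : (2 : K) ≠ 0) (u u' : X) : tF' F β u * tF' F β u' = tF' F β (u + u') := by
  rw [tF', tF', tF', ← tK'_mul h2]; rfl

lemma dF_mul (c d : Kˣ) : dF F X c * dF F X d = dF F X (c * d) := by
  rw [dF, dF, dF, ← dK_mul]; rfl

lemma tF_zero : tF F β (0 : X) = 1 := by
  apply LinearEquiv.ext
  intro v
  rw [tF_apply]
  ext <;> simp

lemma tF_neg (h2 : (2 : K) ≠ 0) (u : X) : tF F β (-u) = (tF F β u)⁻¹ := by
  rw [eq_inv_iff_mul_eq_one, tF_mul h2, neg_add_cancel, tF_zero]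

lemma tF_iso (h2 : (2 : K) ≠ 0) (u : X) : tF F β u ∈ iso F β := iso_of_klin (tK_be h2 u)

lemma tF'_iso (h2 : (2 : K) ≠ 0) (u : X) : tF' F β u ∈ iso F β := iso_of_klin (tK'_be h2 u)

lemma dF_iso (c : Kˣ) : dF F X c ∈ iso F β := iso_of_klin (dK_be c)

end

/-- The hypotheses on the overgroup `H`: it lies in a group `Om` of isometries containing all squares of
isometries, and contains all semilinear elements of `Om`. -/
structure Hyp {F K X : Type*} [Field F] [Field K] [Algebra F K] [AddCommGroup X] [Module F X] [Module K X]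
    [IsScalarTower F K X] (β : Bt K X) (Om H : Subgroup ((K × X × K) ≃ₗ[F] (K × X × K))) : Prop where
  two : (2 : K) ≠ 0
  om_iso : Om ≤ iso F β
  sq : ∀ g ∈ iso F β, g * g ∈ Om
  le : H ≤ Om
  semi : ∀ g ∈ Om, Semi K g → g ∈ H

section

variable {F K X : Type*} [Field F] [Field K] [Algebra F K] [AddCommGroup X] [Module F X] [Module K X]
  [IsScalarTower F K X] {β : Bt K X} {Om H : Subgroup ((K × X × K) ≃ₗ[F] (K × X × K))}

lemma Hyp.iso (h : Hyp β Om H) {g : (K × X × K) ≃ₗ[F] (K × X × K)} (hg : g ∈ H) : g ∈ Or.iso F β :=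
  h.om_iso (h.le hg)

lemma Hyp.sq_lin (h : Hyp β Om H) (g : (K × X × K) ≃ₗ[K] (K × X × K)) (hg : g.restrictScalars F ∈ Or.iso F β) :
    g.restrictScalars F * g.restrictScalars F ∈ H := by
  refine h.semi _ (h.sq _ hg) ?_
  exact semi_of_lin (g * g)

lemma Hyp.t_mem (h : Hyp β Om H) (u : X) : tF F β u ∈ H := by
  have h1 := h.sq_lin (tK β ((2⁻¹ : K) • u)) (tF_iso h.two _)
  have h3 : ((2⁻¹ : K) • u) + ((2⁻¹ : K) • u) = u := by
    rw [← add_smul, ← two_mul, mul_inv_cancel₀ h.two, one_smul]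
  have h4 := tF_mul (F := F) (β := β) h.two ((2⁻¹ : K) • u) ((2⁻¹ : K) • u)
  rw [h3] at h4
  rw [← h4]
  exact h1

lemma Hyp.t'_mem (h : Hyp β Om H) (u : X) : tF' F β u ∈ H := by
  have h1 := h.sq_lin (tK' β ((2⁻¹ : K) • u)) (tF'_iso h.two _)
  have h3 : ((2⁻¹ : K) • u) + ((2⁻¹ : K) • u) = u := by
    rw [← add_smul, ← two_mul, mul_inv_cancel₀ h.two, one_smul]
  have h4 := tF'_mul (F := F) (β := β) h.two ((2⁻¹ : K) • u) ((2⁻¹ : K) • u)
  rw [h3] at h4
  rw [← h4]
  exact h1

lemma Hyp.d_mem (h : Hyp β Om H) (c : Kˣ) : dF F X (c * c) ∈ H := by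
  have h1 := h.sq_lin (dK X c) (dF_iso c)
  rw [← dF_mul]
  exact h1

lemma be_of_tf0 [Finite K] {v w : K × X × K} (h : ∀ k : K, tf F β (k • v) w = 0) : be β v w = 0 := be_of_tf h

/-- `K`-linear element of `H` moving one singular `K`-line to another. -/
theorem Hyp.exists_move (h : Hyp β Om H) [Nontrivial X] {v : K × X × K} (hv : v ≠ 0) (hs : be β v v = 0) :
    ∃ (g : (K × X × K) ≃ₗ[K] (K × X × K)), g.restrictScalars F ∈ H ∧ (∀ v w, be β (g v) (g w) = be β v w) ∧
      (g v).2 = 0 := by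
  have h2 := h.two
  -- third coordinate non-zero
  have key : ∀ v : K × X × K, be β v v = 0 → v.2.2 ≠ 0 →
      ∃ (g : (K × X × K) ≃ₗ[K] (K × X × K)), g.restrictScalars F ∈ H ∧ (∀ v w, be β (g v) (g w) = be β v w) ∧
      (g v).2 = 0 := by
    intro v hs hb
    -- move to a multiple of `(0, 0, b)`
    have h3 : tK β (-(v.2.2⁻¹ • v.2.1)) v = (0, 0, v.2.2) := by
      rw [tK_apply]
      unfold be at hs
      ext
      · simp
        field_simp
        linear_combination hs
      · simp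
        rw [smul_smul, mul_inv_cancel₀ hb, one_smul, add_neg_cancel]
      · simp
    -- a non-singular vector in `X`
    obtain ⟨x₀, hx₀⟩ : ∃ x : X, β.b x x ≠ 0 := by
      by_contra hcon
      push Not at hcon
      obtain ⟨x, hx⟩ := exists_ne (0 : X)
      apply hx
      apply β.nd
      intro y
      have e1 := hcon (x + y)
      simp only [map_add, LinearMap.add_apply, hcon, zero_add, add_zero] at e1
      rw [β.symm y x] at e1
      have : 2 * β.b x y = 0 := by linear_combination e1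
      exact (mul_eq_zero.1 this).resolve_left h2
    obtain ⟨q, hq⟩ : ∃ q, q = β.b x₀ x₀ / 2 := ⟨_, rfl⟩
    have hq0 : q ≠ 0 := by rw [hq]; exact div_ne_zero hx₀ h2
    have hq2 : β.b x₀ x₀ = 2 * q := by rw [hq]; field_simp
    have h4 : tK' β (q⁻¹ • x₀) (tK β x₀ (0, 0, v.2.2)) = (-(v.2.2 * q), 0, 0) := by
      rw [tK_apply, tK'_apply]
      have e1 : (0 : K) - β.b (0 : X) x₀ - v.2.2 * (β.b x₀ x₀ / 2) = -(v.2.2 * q) := by
        rw [hq2, map_zero, LinearMap.zero_apply, mul_div_cancel_left₀ _ h2]; ring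
      ext
      · exact e1
      · change (0 : X) + v.2.2 • x₀ + ((0 : K) - β.b (0 : X) x₀ - v.2.2 * (β.b x₀ x₀ / 2)) • q⁻¹ • x₀ = 0
        rw [e1, zero_add, smul_smul, ← add_smul]
        have : v.2.2 + -(v.2.2 * q) * q⁻¹ = 0 := by field_simp; ring
        rw [this, zero_smul]
      · change v.2.2 - β.b ((0 : X) + v.2.2 • x₀) (q⁻¹ • x₀) -
          ((0 : K) - β.b (0 : X) x₀ - v.2.2 * (β.b x₀ x₀ / 2)) * (β.b (q⁻¹ • x₀) (q⁻¹ • x₀) / 2) = 0
        rw [e1]
        simp only [zero_add, map_smul, LinearMap.smul_apply, smul_eq_mul, hq2]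
        field_simp
        ring
    refine ⟨tK' β (q⁻¹ • x₀) * (tK β x₀ * tK β (-(v.2.2⁻¹ • v.2.1))), ?_, ?_, ?_⟩
    · exact H.mul_mem (h.t'_mem _) (H.mul_mem (h.t_mem _) (h.t_mem _))
    · intro v w
      rw [LinearEquiv.mul_apply, LinearEquiv.mul_apply, LinearEquiv.mul_apply, LinearEquiv.mul_apply,
        tK'_be h2, tK_be h2, tK_be h2]
    · rw [LinearEquiv.mul_apply, LinearEquiv.mul_apply, h3, h4]
      rfl
  by_cases hb : v.2.2 = 0
  · by_cases hx : v.2.1 = 0
    · refine ⟨1, H.one_mem, fun v w => rfl, ?_⟩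
      change v.2 = 0
      ext
      · exact hx
      · exact hb
    · -- make the third coordinate non-zero
      obtain ⟨y, hy⟩ : ∃ y, β.b v.2.1 y ≠ 0 := by
        by_contra hcon
        push Not at hcon
        exact hx (β.nd _ hcon)
      obtain ⟨y', hy'⟩ : ∃ y', β.b v.2.1 y' + v.1 * (β.b y' y' / 2) ≠ 0 := by
        by_contra hcon
        push Not at hcon
        have e1 := hcon y
        have e2 := hcon (-y)
        simp at e2
        have : 2 * β.b v.2.1 y = 0 := by linear_combination e1 - e2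
        exact hy ((mul_eq_zero.1 this).resolve_left h2)
      obtain ⟨g, hg1, hg2, hg3⟩ := key (tK' β y' v) (by rw [tK'_be h2, hs]) (by
        rw [tK'_apply]
        change v.2.2 - β.b v.2.1 y' - v.1 * (β.b y' y' / 2) ≠ 0
        rw [hb]
        intro h0
        apply hy'
        linear_combination -h0)
      refine ⟨g * tK' β y', H.mul_mem hg1 (h.t'_mem _), ?_, hg3⟩
      intro v w
      rw [LinearEquiv.mul_apply, LinearEquiv.mul_apply, hg2, tK'_be h2]
  · exact key v hs hb

end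

end Cfsg.Agent.H98.Or
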