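import Cfsg.Agent.H98.OrB

set_option autoImplicit false
set_option linter.unusedSectionVars false
set_option linter.style.haveILetI false
set_option linter.unusedSimpArgs false

/-!
Extension fields in orthogonal groups, part C: the Siegel radical, the idealiser, stabiliser of `W = K × 0 × 0`.
-/

namespace Cfsg.Agent.H98.Or

open Module Cfsg.Agent.H98.Ext

section

variable {F K X : Type*} [Field F] [Field K] [Algebra F K] [AddCommGroup X] [Module F X] [Module K X]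
  [IsScalarTower F K X] {β : Bt K X} {Om H : Subgroup ((K × X × K) ≃ₗ[F] (K × X × K))}

/-- The functionals `f` occurring in Siegel elements of `H`. -/
def RR (H : Subgroup ((K × X × K) ≃ₗ[F] (K × X × K))) : AddSubgroup (X →ₗ[F] K) where
  carrier := {f | ∃ (g : K →ₗ[F] X) (S : K →ₗ[F] K), R f g S ∈ H}
  add_mem' {a b} ha hb := by
    obtain ⟨g, S, h⟩ := ha
    obtain ⟨g', S', h'⟩ := hb
    exact ⟨_, _, by rw [← R_mul]; exact H.mul_mem h h'⟩
  zero_mem' := ⟨0, 0, by rw [R_zero]; exact H.one_mem⟩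
  neg_mem' {a} ha := by
    obtain ⟨g, S, h⟩ := ha
    refine ⟨-g, -S - a ∘ₗ g, ?_⟩
    have : R (-a) (-g) (-S - a ∘ₗ g) = (R a g S)⁻¹ := by
      rw [eq_inv_iff_mul_eq_one, R_mul, ← R_zero]
      congr 1
      · abel
      · abel
      · ext k
        simp
        ring
    rw [this]
    exact H.inv_mem h

/-- The maps `S` with `(a, x, b) ↦ (a + S b, x, b)` in `H`. -/
def ZZ (H : Subgroup ((K × X × K) ≃ₗ[F] (K × X × K))) : AddSubgroup (K →ₗ[F] K) where
  carrier := {S | R (0 : X →ₗ[F] K) 0 S ∈ H}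
  add_mem' {a b} ha hb := by
    have : R (0 : X →ₗ[F] K) 0 (a + b) = R 0 0 a * R 0 0 b := by
      rw [R_mul]; congr 1 <;> simp
    change R (0 : X →ₗ[F] K) 0 (a + b) ∈ H
    rw [this]
    exact H.mul_mem ha hb
  zero_mem' := by
    change R (0 : X →ₗ[F] K) 0 0 ∈ H
    rw [R_zero]; exact H.one_mem
  neg_mem' {a} ha := by
    have : R (0 : X →ₗ[F] K) 0 (-a) = (R 0 0 a)⁻¹ := by
      rw [eq_inv_iff_mul_eq_one, R_mul, ← R_zero]; congr 1 <;> simp
    change R (0 : X →ₗ[F] K) 0 (-a) ∈ H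
    rw [this]
    exact H.inv_mem ha

lemma mem_ZZ {S : K →ₗ[F] K} : S ∈ ZZ H ↔ R (0 : X →ₗ[F] K) 0 S ∈ H := Iff.rfl

lemma mem_RR {f : X →ₗ[F] K} : f ∈ RR H ↔ ∃ (g : K →ₗ[F] X) (S : K →ₗ[F] K), R f g S ∈ H := Iff.rfl

/-- The left idealiser of `RR H`. -/
def II (H : Subgroup ((K × X × K) ≃ₗ[F] (K × X × K))) : Subring (Module.End F K) where
  carrier := {y | ∀ f ∈ RR H, y ∘ₗ f ∈ RR H}
  mul_mem' {a b} ha hb := fun f hf => ha _ (hb f hf)
  one_mem' := fun f hf => hf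
  add_mem' {a b} ha hb := fun f hf => by
    rw [LinearMap.add_comp]
    exact (RR H).add_mem (ha f hf) (hb f hf)
  zero_mem' := fun f _ => by
    rw [LinearMap.zero_comp]
    exact (RR H).zero_mem
  neg_mem' {a} ha := fun f hf => by
    rw [LinearMap.neg_comp]
    exact (RR H).neg_mem (ha f hf)

/-- Multiplication by `c` on `K`. -/
abbrev mu (F : Type*) {K : Type*} [Field F] [Field K] [Algebra F K] (c : K) : K →ₗ[F] K := LinearMap.mulLeft F c

lemma d_conj (c : Kˣ) (f : X →ₗ[F] K) (g : K →ₗ[F] X) (S : K →ₗ[F] K) :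
    dF F X c * R f g S * (dF F X c)⁻¹ = R (mu F (c : K) ∘ₗ f) (g ∘ₗ mu F (c : K)) (mu F (c : K) ∘ₗ S ∘ₗ mu F (c : K)) := by
  rw [mul_inv_eq_iff_eq_mul]
  apply LinearEquiv.ext
  intro v
  rw [LinearEquiv.mul_apply, LinearEquiv.mul_apply, R_apply, R_apply, dF_apply, dF_apply]
  ext
  · simp [mul_add]
  · simp
  · simp

lemma sq_sub {c : K} (h2 : (2 : K) ≠ 0) : c = ((c + 1) / 2) * ((c + 1) / 2) - ((c - 1) / 2) * ((c - 1) / 2) := by
  field_simp
  ring

lemma Hyp.sq_smul_RR (h : Hyp β Om H) (c : K) {f : X →ₗ[F] K} (hf : f ∈ RR H) : mu F (c * c) ∘ₗ f ∈ RR H := by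
  by_cases hc : c = 0
  · have : mu F (c * c) ∘ₗ f = 0 := by
      ext x; simp [hc]
    rw [this]; exact (RR H).zero_mem
  · obtain ⟨g, S, hg⟩ := hf
    have h1 := h.d_mem (Units.mk0 c hc)
    have h3 := d_conj (F := F) (Units.mk0 c hc * Units.mk0 c hc) f g S
    exact ⟨_, _, by
      have := H.mul_mem (H.mul_mem h1 hg) (H.inv_mem h1)
      rw [h3] at this
      exact this⟩

lemma Hyp.smul_RR (h : Hyp β Om H) (c : K) {f : X →ₗ[F] K} (hf : f ∈ RR H) : mu F c ∘ₗ f ∈ RR H := by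
  have e : mu F c ∘ₗ f = mu F (((c + 1) / 2) * ((c + 1) / 2)) ∘ₗ f - mu F (((c - 1) / 2) * ((c - 1) / 2)) ∘ₗ f := by
    ext x
    simp only [LinearMap.comp_apply, LinearMap.mulLeft_apply, LinearMap.sub_apply]
    rw [← sub_mul, ← sq_sub h.two]
  rw [e]
  exact (RR H).sub_mem (h.sq_smul_RR _ hf) (h.sq_smul_RR _ hf)

lemma Hyp.sq_ZZ (h : Hyp β Om H) (c : K) {S : K →ₗ[F] K} (hS : S ∈ ZZ H) :
    mu F (c * c) ∘ₗ S ∘ₗ mu F (c * c) ∈ ZZ H := by
  by_cases hc : c = 0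
  · have : mu F (c * c) ∘ₗ S ∘ₗ mu F (c * c) = 0 := by
      ext x; simp [hc]
    rw [this]; exact (ZZ H).zero_mem
  · have h1 := h.d_mem (Units.mk0 c hc)
    have h3 := d_conj (F := F) (Units.mk0 c hc * Units.mk0 c hc) (0 : X →ₗ[F] K) 0 S
    have h4 := H.mul_mem (H.mul_mem h1 (mem_ZZ.1 hS)) (H.inv_mem h1)
    rw [h3, LinearMap.comp_zero, LinearMap.zero_comp] at h4
    exact h4

/-- commutators of Siegel elements -/
lemma comm_ZZ {f f' : X →ₗ[F] K} {g g' : K →ₗ[F] X} {S S' : K →ₗ[F] K} (h : R f g S ∈ H) (h' : R f' g' S' ∈ H) :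
    f' ∘ₗ g - f ∘ₗ g' ∈ ZZ H := by
  rw [mem_ZZ]
  have e : R (0 : X →ₗ[F] K) 0 (f' ∘ₗ g - f ∘ₗ g') = (R f g S * R f' g' S') * (R f' g' S' * R f g S)⁻¹ := by
    rw [eq_mul_inv_iff_mul_eq, R_mul, R_mul, R_mul]
    congr 1
    · simp; abel
    · simp; abel
    · simp; abel
  rw [e]
  exact H.mul_mem (H.mul_mem h h') (H.inv_mem (H.mul_mem h' h))

/-- `β(·, u)` as an `F`-linear map. -/
def bu (F : Type*) [Field F] [Algebra F K] [Module F X] [IsScalarTower F K X] (β : Bt K X) (u : X) : X →ₗ[F] K :=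
  (β.b.flip u).restrictScalars F

lemma bu_apply (u x : X) : bu F β u x = β.b x u := rfl

/-- `b ↦ b u`. -/
def ku (F : Type*) [Field F] [Algebra F K] [Module F X] [IsScalarTower F K X] (u : X) : K →ₗ[F] X :=
  (LinearMap.toSpanSingleton K X u).restrictScalars F

lemma ku_apply (u : X) (k : K) : ku F u k = k • u := rfl

lemma tF_eq_R (u : X) : tF F β u = R (-bu F β u) (-ku F u) (-mu F (β.b u u / 2)) := by
  apply LinearEquiv.ext
  intro v
  rw [tF_apply, R_apply]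
  ext
  · simp [bu_apply]
    ring
  · simp [ku_apply]
  · simp

lemma Hyp.bu_mem_RR (h : Hyp β Om H) (u : X) : bu F β u ∈ RR H := by
  have h1 := h.t_mem (-u)
  rw [tF_eq_R] at h1
  have e : -bu F β (-u) = bu F β u := by
    ext x; simp [bu_apply]
  rw [e] at h1
  exact ⟨_, _, h1⟩

/-- the stabiliser of `W` acts on `W` -/
lemma surj_W [Finite K] {h : (K × X × K) ≃ₗ[F] (K × X × K)} (hW : ∀ a : K, (h (a, 0, 0)).2 = 0) (a : K) :
    ∃ a' : K, h (a', 0, 0) = (a, 0, 0) := by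
  let A : K →ₗ[F] K := LinearMap.fst F K (X × K) ∘ₗ (h : (K × X × K) →ₗ[F] (K × X × K)) ∘ₗ LinearMap.inl F K (X × K)
  have hA : ∀ k : K, h (k, 0, 0) = (A k, 0, 0) := fun k => Prod.ext rfl (hW k)
  have hinj : Function.Injective A := by
    intro k k' hkk
    have h1 : h (k, 0, 0) = h (k', 0, 0) := by rw [hA, hA, hkk]
    exact congrArg Prod.fst (h.injective h1)
  obtain ⟨a', ha'⟩ := (Finite.injective_iff_surjective.1 hinj) a
  exact ⟨a', by rw [hA, ha']⟩

lemma inv_W [Finite K] {h : (K × X × K) ≃ₗ[F] (K × X × K)} (hW : ∀ a : K, (h (a, 0, 0)).2 = 0) (a : K) :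
    (h⁻¹ (a, 0, 0)).2 = 0 := by
  obtain ⟨a', ha'⟩ := surj_W hW a
  have : h⁻¹ (a, 0, 0) = (a', 0, 0) := by
    rw [← ha']
    exact LinearEquiv.symm_apply_apply h _
  rw [this]; rfl

/-- third coordinate of the image of `W^⊥` -/
lemma third_W [Finite K] {h : (K × X × K) ≃ₗ[F] (K × X × K)} (hi : h ∈ iso F β) (hW : ∀ a : K, (h (a, 0, 0)).2 = 0)
    (x : X) : (h (0, x, 0)).2.2 = 0 := by
  apply tr_nd F
  intro k
  obtain ⟨a', ha'⟩ := surj_W hW k
  have h1 := (mem_iso.1 hi) (0, x, 0) (a', 0, 0)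
  rw [ha'] at h1
  unfold tf be at h1
  simpa using h1

lemma conj_RR [Finite K] (hy : Hyp β Om H) {h : (K × X × K) ≃ₗ[F] (K × X × K)} (hh : h ∈ H)
    (hW : ∀ a : K, (h (a, 0, 0)).2 = 0) {f₂ : X →ₗ[F] K} (hf₂ : f₂ ∈ RR H) :
    ∃ f ∈ RR H, ∀ x, f₂ (h (0, x, 0)).2.1 = (h (f x, 0, 0)).1 := by
  obtain ⟨g₂, S₂, hR⟩ := hf₂
  have hr : h⁻¹ * R f₂ g₂ S₂ * h ∈ H := H.mul_mem (H.mul_mem (H.inv_mem hh) hR) hh
  have e1 : ∀ a : K, (h⁻¹ * R f₂ g₂ S₂ * h) (a, 0, 0) = (a, 0, 0) := by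
    intro a
    rw [LinearEquiv.mul_apply, LinearEquiv.mul_apply]
    have : R f₂ g₂ S₂ (h (a, 0, 0)) = h (a, 0, 0) := by
      rw [R_apply, hW]
      ext <;> simp [hW]
    rw [this]
    exact LinearEquiv.symm_apply_apply h _
  have e2 : ∀ x : X, ∃ y : K, h (y, 0, 0) = (f₂ (h (0, x, 0)).2.1, 0, 0) ∧
      (h⁻¹ * R f₂ g₂ S₂ * h) (0, x, 0) = (y, x, 0) := by
    intro x
    obtain ⟨y, hy'⟩ := surj_W hW (f₂ (h (0, x, 0)).2.1)
    refine ⟨y, hy', ?_⟩
    rw [LinearEquiv.mul_apply, LinearEquiv.mul_apply]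
    have : R f₂ g₂ S₂ (h (0, x, 0)) = h (y, x, 0) := by
      have e3 : ((y, x, 0) : K × X × K) = (y, 0, 0) + (0, x, 0) := by ext <;> simp
      rw [e3, map_add, hy', R_apply]
      have e4 := third_W (hy.iso hh) hW x
      ext
      · simp [e4]; ring
      · simp [e4]
      · simp
    rw [this]
    exact LinearEquiv.symm_apply_apply h _
  obtain ⟨f, g, S, hfgS⟩ := exists_R (hy.iso hr) e1 (fun x => by
    obtain ⟨y, -, h2⟩ := e2 x
    rw [h2])
  refine ⟨f, ⟨g, S, by rw [← hfgS]; exact hr⟩, fun x => ?_⟩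
  obtain ⟨y, h1, h2⟩ := e2 x
  rw [hfgS, R_apply] at h2
  have h3 := congrArg Prod.fst h2
  simp at h3
  rw [h3, h1]

lemma inv_X [Finite K] {h : (K × X × K) ≃ₗ[F] (K × X × K)} (hi : h ∈ iso F β)
    (hW : ∀ a : K, (h (a, 0, 0)).2 = 0) (x : X) : (h⁻¹ (0, (h (0, x, 0)).2.1, 0)).2.1 = x := by
  have e4 := third_W hi hW x
  have e1 : h (0, x, 0) = ((h (0, x, 0)).1, 0, 0) + (0, (h (0, x, 0)).2.1, 0) := by
    ext
    · simp
    · simp
    · simp [e4]
  have e2 : ((0, x, 0) : K × X × K) = h⁻¹ ((h (0, x, 0)).1, 0, 0) + h⁻¹ (0, (h (0, x, 0)).2.1, 0) := by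
    rw [← map_add, ← e1]
    exact (LinearEquiv.symm_apply_apply h _).symm
  have e3 := congrArg (fun t => t.2.1) e2
  simp only [Prod.snd_add, Prod.fst_add, inv_W hW] at e3
  have e5 : (0 : X × K).1 = 0 := rfl
  rw [e5, zero_add] at e3
  exact e3.symm

lemma conj_RR' [Finite K] (hy : Hyp β Om H) {h : (K × X × K) ≃ₗ[F] (K × X × K)} (hh : h ∈ H)
    (hW : ∀ a : K, (h (a, 0, 0)).2 = 0) {f : X →ₗ[F] K} (hf : f ∈ RR H) :
    ∃ f₂ ∈ RR H, ∀ x, f₂ (h (0, x, 0)).2.1 = (h (f x, 0, 0)).1 := by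
  obtain ⟨f₂, h1, h2⟩ := conj_RR hy (H.inv_mem hh) (inv_W hW) hf
  refine ⟨f₂, h1, fun x => ?_⟩
  have h3 := h2 (h (0, x, 0)).2.1
  rw [inv_X (hy.iso hh) hW] at h3
  have h4 : h⁻¹ (f₂ (h (0, x, 0)).2.1, 0, 0) = (f x, 0, 0) := Prod.ext h3.symm (inv_W hW _)
  have h5 : h (f x, 0, 0) = (f₂ (h (0, x, 0)).2.1, 0, 0) := by
    rw [← h4]
    exact LinearEquiv.apply_symm_apply h _
  rw [h5]

/-- `h ∈ H` preserving `W` acts on it semilinearly. -/
lemma semi_on_W [Finite K] [Nontrivial X] (hy : Hyp β Om H)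
    (hB : ∀ y ∈ II H, ∀ k l : K, y (k * l) = k * y l)
    {h : (K × X × K) ≃ₗ[F] (K × X × K)} (hh : h ∈ H) (hW : ∀ a : K, (h (a, 0, 0)).2 = 0) :
    ∃ σ : K →ₐ[F] K, ∀ k l : K, (h (k * l, 0, 0)).1 = σ k * (h (l, 0, 0)).1 := by
  obtain ⟨a, ha⟩ : ∃ a : K →ₗ[F] K, ∀ k, a k = (h (k, 0, 0)).1 :=
    ⟨LinearMap.fst F K (X × K) ∘ₗ (h : (K × X × K) →ₗ[F] (K × X × K)) ∘ₗ LinearMap.inl F K (X × K), fun k => rfl⟩
  have hak : ∀ k, h (k, 0, 0) = (a k, 0, 0) := by
    intro k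
    rw [ha]
    exact Prod.ext rfl (hW k)
  have hinj : Function.Injective a := by
    intro k k' hkk
    have h1 : h (k, 0, 0) = h (k', 0, 0) := by rw [hak, hak, hkk]
    exact congrArg Prod.fst (h.injective h1)
  have : FiniteDimensional F K := Module.Finite.of_finite
  let e := LinearEquiv.ofInjectiveEndo a hinj
  have he : ∀ k, e k = a k := fun k => rfl
  let y : K → Module.End F K := fun k => (e : K →ₗ[F] K) ∘ₗ (LinearMap.mulLeft F k) ∘ₗ (e.symm : K →ₗ[F] K)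
  have hyk : ∀ k l, y k (a l) = a (k * l) := by
    intro k l
    change e (k * e.symm (a l)) = a (k * l)
    rw [← he, LinearEquiv.symm_apply_apply, he]
  have hyI : ∀ k, y k ∈ II H := by
    intro k f₂ hf₂
    obtain ⟨f, hf, hff⟩ := conj_RR hy hh hW hf₂
    obtain ⟨f₃, hf₃, hff₃⟩ := conj_RR' hy hh hW (hy.smul_RR k hf)
    have : y k ∘ₗ f₂ = f₃ := by
      ext x'
      obtain ⟨x, hx⟩ : ∃ x, (h (0, x, 0)).2.1 = x' := by
        refine ⟨(h⁻¹ (0, x', 0)).2.1, ?_⟩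
        have := inv_X (hy.iso (H.inv_mem hh)) (inv_W hW) x'
        rwa [inv_inv] at this
      rw [← hx, LinearMap.comp_apply, hff, hff₃, ← ha, ← ha, hyk]
      rfl
    rw [this]
    exact hf₃
  have h7 : ∀ k l, a (k * l) = a l * y k 1 := by
    intro k l
    rw [← hyk, ← hB _ (hyI k), mul_one]
  have h1 : a 1 ≠ 0 := by
    intro h0
    have : a 0 = a 1 := by rw [map_zero, h0]
    exact zero_ne_one (hinj this)
  have hy1 : ∀ k, y k 1 = a k / a 1 := by
    intro k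
    have h8 := h7 k 1
    rw [mul_one] at h8
    rw [h8]
    field_simp
  refine ⟨{ toFun := fun k => a k / a 1
            map_one' := div_self h1
            map_mul' := ?_
            map_zero' := by rw [map_zero, zero_div]
            map_add' := fun k l => by rw [map_add, add_div]
            commutes' := ?_ }, fun k l => ?_⟩
  · intro k l
    rw [h7 k l, hy1]
    ring
  · intro c
    change a (algebraMap F K c) / a 1 = algebraMap F K c
    rw [Algebra.algebraMap_eq_smul_one, map_smul, Algebra.smul_def, Algebra.smul_def]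
    field_simp
  · change (h (k * l, 0, 0)).1 = a k / a 1 * (h (l, 0, 0)).1
    rw [← ha, ← ha, h7, hy1]
    ring

/-- a non-zero functional -/
lemma exists_bu [Finite X] (f : X →ₗ[K] K) : ∃ u, ∀ x, f x = β.b x u := by
  have : FiniteDimensional K X := Module.Finite.of_finite
  have h1 : Function.Injective (β.b.flip) := by
    rw [← LinearMap.ker_eq_bot, LinearMap.ker_eq_bot']
    intro u hu
    apply β.nd
    intro y
    rw [β.symm]
    exact LinearMap.congr_fun hu y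
  have h2 : Function.Surjective (β.b.flip) := by
    have h3 : finrank K X = finrank K (Module.Dual K X) := (Subspace.dual_finrank_eq (K := K) (V := X)).symm
    exact (LinearMap.injective_iff_surjective_of_finrank_eq_finrank h3).1 h1
  obtain ⟨u, hu⟩ := h2 f
  exact ⟨u, fun x => by rw [← hu]; rfl⟩

lemma Hyp.lin_mem_RR [Finite X] (h : Hyp β Om H) (f : X →ₗ[K] K) : f.restrictScalars F ∈ RR H := by
  obtain ⟨u, hu⟩ := exists_bu (β := β) f
  have : f.restrictScalars F = bu F β u := by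
    ext x
    exact hu x
  rw [this]
  exact h.bu_mem_RR u

lemma RR_top_of_II [Finite X] (hy : Hyp β Om H) (h : II H = ⊤) (f : X →ₗ[F] K) : f ∈ RR H := by
  have : FiniteDimensional K X := Module.Finite.of_finite
  let b := Module.finBasis K X
  let y : Fin (finrank K X) → (K →ₗ[F] K) := fun j =>
    f ∘ₗ ((LinearMap.toSpanSingleton K X (b j)).restrictScalars F)
  have h1 : f = ∑ j, (y j) ∘ₗ ((b.coord j).restrictScalars F) := by
    ext x
    simp only [LinearMap.sum_apply, LinearMap.comp_apply, LinearMap.restrictScalars_apply, y,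
      LinearMap.toSpanSingleton_apply, Module.Basis.coord_apply]
    rw [← map_sum, b.sum_repr]
  rw [h1]
  apply AddSubgroup.sum_mem
  intro j _
  have h2 : y j ∈ II H := by rw [h]; trivial
  exact h2 _ (hy.lin_mem_RR _)

lemma dich [Finite K] [Finite X] (hy : Hyp β Om H) (hr : (finrank F K).Prime) :
    (∀ f : X →ₗ[F] K, f ∈ RR H) ∨ ∀ y ∈ II H, ∀ k l : K, y (k * l) = k * y l := by
  by_cases h : ∀ y ∈ II H, ∀ k l : K, y (k * l) = k * y l
  · exact Or.inr h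
  · left
    push Not at h
    obtain ⟨y, hyI, hy'⟩ := h
    apply RR_top_of_II hy
    refine density (K := K) hr (II H) ?_ hyI ?_
    · intro z f hf
      have e : ((z.restrictScalars F : K ≃ₗ[F] K) : K →ₗ[F] K) ∘ₗ f = mu F (z 1) ∘ₗ f := by
        ext x
        simp only [LinearMap.comp_apply, LinearEquiv.coe_coe, LinearEquiv.restrictScalars_apply,
          LinearMap.mulLeft_apply]
        have : z (f x) = z (f x • (1 : K)) := by simp
        rw [this, map_smul, smul_eq_mul, mul_comm]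
      rw [e]
      exact hy.smul_RR _ hf
    · intro hcon
      obtain ⟨k, l, hkl⟩ := hy'
      exact hkl (hcon k l)

end

end Cfsg.Agent.H98.Or
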