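import Cfsg.Agent.H98.OrC

set_option autoImplicit false
set_option linter.unusedSectionVars false
set_option linter.style.haveILetI false
set_option linter.unusedSimpArgs false

/-!
Extension fields in orthogonal groups, part D: when `ZZ H = 0`, the stabiliser of `W` in `H` is semilinear.
-/

namespace Cfsg.Agent.H98.Or

open Module Cfsg.Agent.H98.Ext

section

variable {F K X : Type*} [Field F] [Field K] [Algebra F K] [AddCommGroup X] [Module F X] [Module K X]
  [IsScalarTower F K X] {β : Bt K X} {Om H : Subgroup ((K × X × K) ≃ₗ[F] (K × X × K))}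

lemma two_F (h2 : (2 : K) ≠ 0) : (2 : F) ≠ 0 := by
  intro h
  apply h2
  have := congrArg (algebraMap F K) h
  rw [map_ofNat, map_zero] at this
  exact this

/-- All Siegel elements are in `Om`. -/
lemma Hyp.R_mem_Om (h : Hyp β Om H) {f : X →ₗ[F] K} {g : K →ₗ[F] X} {S : K →ₗ[F] K}
    (hR : R f g S ∈ Or.iso F β) : R f g S ∈ Om := by
  have h2 := two_F (F := F) h.two
  have hc := Rc_of_mem hR
  obtain ⟨f', hf'⟩ : ∃ f' : X →ₗ[F] K, f' = (2⁻¹ : F) • f := ⟨_, rfl⟩
  obtain ⟨g', hg'⟩ : ∃ g' : K →ₗ[F] X, g' = (2⁻¹ : F) • g := ⟨_, rfl⟩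
  obtain ⟨S', hS'⟩ : ∃ S' : K →ₗ[F] K, S' = (2⁻¹ : F) • (S + f' ∘ₗ g') := ⟨_, rfl⟩
  have hff : f' + f' = f := by
    rw [hf', ← add_smul, ← two_mul, mul_inv_cancel₀ h2, one_smul]
  have hgg : g' + g' = g := by
    rw [hg', ← add_smul, ← two_mul, mul_inv_cancel₀ h2, one_smul]
  have hSS : S' + S' - f' ∘ₗ g' = S := by
    rw [hS', ← add_smul, ← two_mul, mul_inv_cancel₀ h2, one_smul, add_sub_cancel_right]
  have e : R f g S = R f' g' S' * R f' g' S' := by
    rw [R_mul, hff, hgg, hSS]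
  rw [e]
  apply h.sq
  apply R_mem_iso
  have e1 : ∀ k x, Algebra.trace F K (k * f' x) = Algebra.trace F K (β.b (g' k) x) := by
    intro k x
    have := hc.1 k x
    rw [hf', hg']
    simp only [LinearMap.smul_apply]
    rw [← algebraMap_smul K (2⁻¹ : F) (g k), map_smul, LinearMap.smul_apply, algebraMap_smul, mul_smul_comm, map_smul,
      map_smul, this]
  refine ⟨e1, ?_⟩
  intro k l
  have e2 := hc.2 k l
  have e3 := e1 k (g' l)
  have e4 := e1 l (g' k)
  rw [β.symm] at e4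
  rw [hS']
  simp only [LinearMap.smul_apply, LinearMap.add_apply, LinearMap.comp_apply, smul_add, mul_add, mul_smul_comm,
    map_add, map_smul] at e2 ⊢
  have e5 : β.b (g k) (g l) = (4 : F) • β.b (g' k) (g' l) := by
    rw [← hgg]
    simp only [LinearMap.add_apply, map_add]
    have : (4 : F) = 1 + 1 + 1 + 1 := by norm_num
    rw [this, add_smul, add_smul, add_smul, one_smul]
    abel
  rw [e5, map_smul] at e2
  rw [e3, e4]
  simp only [smul_eq_mul] at e2 ⊢
  have h4 : (2⁻¹ : F) * 2 = 1 := inv_mul_cancel₀ h2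
  linear_combination (2⁻¹ : F) * e2 - (Algebra.trace F K (β.b (g' k) (g' l))) * h4

/-- `ZZ H = 0`: elements of `RR H` are `K`-linear. -/
lemma lin_of_ZZ (h : Hyp β Om H) (hZ : ∀ S ∈ ZZ H, S = 0) {f : X →ₗ[F] K} (hf : f ∈ RR H) (k : K) (x : X) :
    f (k • x) = k * f x := by
  obtain ⟨g, S, hR⟩ := hf
  have key : ∀ (k : K) (u : X), f (k • u) = β.b (g k) u := by
    intro k u
    have h1 := h.t_mem u
    rw [tF_eq_R] at h1
    have h2 := hZ _ (comm_ZZ hR h1)
    have h3 := LinearMap.congr_fun h2 k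
    simp [bu_apply, ku_apply] at h3
    linear_combination h3
  have h1 := key 1 (k • x)
  have h2 := key 1 x
  rw [one_smul] at h1 h2
  rw [(β.b (g 1)).map_smul, ← h2, smul_eq_mul] at h1
  exact h1

lemma R_eq_t [Finite K] [Finite X] (h : Hyp β Om H) (hZ : ∀ S ∈ ZZ H, S = 0) {f : X →ₗ[F] K} {g : K →ₗ[F] X} {S : K →ₗ[F] K}
    (hR : R f g S ∈ H) : ∃ u, R f g S = tF F β u := by
  have hlin := lin_of_ZZ h hZ (mem_RR.2 ⟨g, S, hR⟩)
  obtain ⟨u, hu⟩ := exists_bu (β := β) { toFun := f, map_add' := f.map_add, map_smul' := hlin }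
  have hu' : f = bu F β u := by
    ext x
    exact hu x
  refine ⟨-u, ?_⟩
  have h1 := h.t_mem (-u)
  have h2 := Rc_of_mem (h.iso hR)
  rw [tF_eq_R] at h1 ⊢
  have h3 := Rc_of_mem (h.iso h1)
  have e1 : -bu F β (-u) = f := by
    rw [hu']; ext x; simp [bu_apply]
  rw [e1] at h1 h3 ⊢
  have e2 : g = -ku F (-u) := by
    ext k
    rw [← sub_eq_zero]
    apply β.nd
    intro y
    apply tr_nd F
    intro c
    have h4 := h2.1 k (c • y)
    have h5 := h3.1 k (c • y)
    rw [h4] at h5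
    simp only [map_sub, LinearMap.sub_apply, sub_mul]
    simp only [map_smul, smul_eq_mul] at h5
    rw [mul_comm _ c, mul_comm _ c]
    rw [h5, sub_self]
  rw [← e2] at h1 ⊢
  have h4 : S - -mu F (β.b (-u) (-u) / 2) ∈ ZZ H := by
    rw [mem_ZZ]
    have e3 : R (0 : X →ₗ[F] K) 0 (S - -mu F (β.b (-u) (-u) / 2)) =
        R f g S * (R f g (-mu F (β.b (-u) (-u) / 2)))⁻¹ := by
      rw [eq_mul_inv_iff_mul_eq, R_mul]
      congr 1 <;> simp
    rw [e3]
    exact H.mul_mem hR (H.inv_mem h1)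
  have h5 := hZ _ h4
  rw [sub_eq_zero] at h5
  rw [h5]

lemma hB_of_ZZ [Finite X] [Nontrivial X] (h : Hyp β Om H) (hZ : ∀ S ∈ ZZ H, S = 0) :
    ∀ y ∈ II H, ∀ k l : K, y (k * l) = k * y l := by
  intro y hy k l
  obtain ⟨x, hx⟩ := exists_ne (0 : X)
  obtain ⟨φ, hφ⟩ := exists_dual_one K hx
  have h1 := hy _ (h.lin_mem_RR φ)
  have h2 := lin_of_ZZ h hZ h1 k (l • x)
  simp only [LinearMap.comp_apply, LinearMap.restrictScalars_apply, map_smul, hφ, smul_eq_mul, mul_one] at h2
  exact h2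

/-- The block diagonal part. -/
lemma exists_diag [Finite K] [Finite X] {h : (K × X × K) ≃ₗ[F] (K × X × K)} (hi : h ∈ iso F β)
    (hW : ∀ a : K, (h (a, 0, 0)).2 = 0) :
    ∃ D : (K × X × K) ≃ₗ[F] (K × X × K), (∀ v, D v = ((h (v.1, 0, 0)).1, (h (0, v.2.1, 0)).2.1, (h (0, 0, v.2.2)).2.2)) ∧
      D ∈ iso F β := by
  have e2 := third_W hi hW
  let D₀ : (K × X × K) →ₗ[F] (K × X × K) :=
    { toFun := fun v => ((h (v.1, 0, 0)).1, (h (0, v.2.1, 0)).2.1, (h (0, 0, v.2.2)).2.2)
      map_add' := by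
        intro v w
        have e1 : ∀ a b : K, ((a + b, 0, 0) : K × X × K) = (a, 0, 0) + (b, 0, 0) := by intro a b; ext <;> simp
        have e2 : ∀ a b : X, ((0, a + b, 0) : K × X × K) = (0, a, 0) + (0, b, 0) := by intro a b; ext <;> simp
        have e3 : ∀ a b : K, ((0, 0, a + b) : K × X × K) = (0, 0, a) + (0, 0, b) := by intro a b; ext <;> simp
        ext
        · simp only [Prod.fst_add, e1, map_add]
        · simp only [Prod.fst_add, Prod.snd_add, e2, map_add]
        · simp only [Prod.fst_add, Prod.snd_add, e3, map_add]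
      map_smul' := by
        intro c v
        have e1 : ∀ a : K, ((c • a, 0, 0) : K × X × K) = c • (a, 0, 0) := by intro a; ext <;> simp
        have e2 : ∀ a : X, ((0, c • a, 0) : K × X × K) = c • (0, a, 0) := by intro a; ext <;> simp
        have e3 : ∀ a : K, ((0, 0, c • a) : K × X × K) = c • (0, 0, a) := by intro a; ext <;> simp
        ext
        · simp only [Prod.smul_fst, e1, map_smul, RingHom.id_apply]
        · simp only [Prod.smul_fst, Prod.smul_snd, e2, map_smul, RingHom.id_apply]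
        · simp only [Prod.smul_fst, Prod.smul_snd, e3, map_smul, RingHom.id_apply] }
  have hD₀ : ∀ v, D₀ v = ((h (v.1, 0, 0)).1, (h (0, v.2.1, 0)).2.1, (h (0, 0, v.2.2)).2.2) := fun v => rfl
  have hiso : ∀ v w, tf F β (D₀ v) (D₀ w) = tf F β v w := by
    intro v w
    have t1 := (mem_iso.1 hi) (v.1, 0, 0) (0, 0, w.2.2)
    have t2 := (mem_iso.1 hi) (w.1, 0, 0) (0, 0, v.2.2)
    have t3 := (mem_iso.1 hi) (0, v.2.1, 0) (0, w.2.1, 0)
    have s1 : ∀ a, (h (a, 0, 0)).2.1 = 0 := fun a => congrArg Prod.fst (hW a)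
    have s2 : ∀ a, (h (a, 0, 0)).2.2 = 0 := fun a => congrArg Prod.snd (hW a)
    rw [hD₀, hD₀]
    unfold tf be at *
    simp only [s1, s2, e2, map_zero, LinearMap.zero_apply, mul_zero, zero_mul, add_zero, zero_add, map_add] at t1 t2 t3 ⊢
    rw [mul_comm (h (0, 0, v.2.2)).2.2, mul_comm v.2.2, t1, t2, t3]
  have hinj : Function.Injective D₀ := by
    rw [← LinearMap.ker_eq_bot, LinearMap.ker_eq_bot']
    intro v hv
    apply tf_nd (F := F) (β := β)
    intro w
    rw [← hiso, hv]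
    unfold tf be
    simp
  have : FiniteDimensional F (K × X × K) := Module.Finite.of_finite
  exact ⟨LinearEquiv.ofInjectiveEndo D₀ hinj, hD₀, hiso⟩

theorem stab_semi [Finite K] [Finite X] [Nontrivial X] (hy : Hyp β Om H) (hZ : ∀ S ∈ ZZ H, S = 0)
    {h : (K × X × K) ≃ₗ[F] (K × X × K)} (hh : h ∈ H) (hW : ∀ a : K, (h (a, 0, 0)).2 = 0) : Semi K h := by
  obtain ⟨σ, hσ⟩ := semi_on_W hy (hB_of_ZZ hy hZ) hh hW
  have hi := hy.iso hh
  -- on X
  have hC : ∀ k x, (h (0, k • x, 0)).2.1 = σ k • (h (0, x, 0)).2.1 := by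
    intro k x
    rw [← sub_eq_zero]
    apply β.nd
    intro u
    rw [β.symm]
    have h1 := hy.bu_mem_RR (F := F) u
    obtain ⟨f, hf, hff⟩ := conj_RR hy hh hW h1
    have h2 := lin_of_ZZ hy hZ hf
    have h3 := hff (k • x)
    have h4 := hff x
    rw [h2, hσ, ← h4, bu_apply, bu_apply] at h3
    rw [map_sub, map_smul, β.symm, h3, β.symm u, smul_eq_mul, sub_self]
  -- on W'
  have hA' : ∀ k b, (h (0, 0, k * b)).2.2 = σ k * (h (0, 0, b)).2.2 := by
    intro k b
    apply tr_ext F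
    intro c
    obtain ⟨a, ha⟩ := surj_W hW c
    have t1 := (mem_iso.1 hi) (a, 0, 0) (0, 0, k * b)
    have t2 := (mem_iso.1 hi) (k * a, 0, 0) (0, 0, b)
    have s : h (k * a, 0, 0) = (σ k * c, 0, 0) := by
      refine Prod.ext ?_ (hW _)
      rw [hσ, ha]
    rw [ha] at t1
    rw [s] at t2
    unfold tf be at t1 t2
    simp only [map_zero, LinearMap.zero_apply, mul_zero, zero_mul, add_zero, zero_add] at t1 t2
    rw [mul_comm, t1, mul_right_comm, t2]
    congr 1
    ring
  obtain ⟨D, hD, hDi⟩ := exists_diag hi hW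
  have hDs : Semi K D := by
    intro k
    refine ⟨σ k, fun v => ?_⟩
    rw [hD, hD]
    ext
    · change (h (k * v.1, 0, 0)).1 = σ k * _
      exact hσ _ _
    · exact hC _ _
    · change (h (0, 0, k * v.2.2)).2.2 = σ k * _
      exact hA' _ _
  have hr : D⁻¹ * h ∈ iso F β := (iso F β).mul_mem ((iso F β).inv_mem hDi) hi
  have e2 := third_W hi hW
  have s1 : ∀ a, (h (a, 0, 0)).2.1 = 0 := fun a => congrArg Prod.fst (hW a)
  have s2 : ∀ a, (h (a, 0, 0)).2.2 = 0 := fun a => congrArg Prod.snd (hW a)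
  obtain ⟨f, g, S, hR⟩ := exists_R hr (by
    intro a
    rw [LinearEquiv.mul_apply]
    have : h (a, 0, 0) = D (a, 0, 0) := by
      rw [hD]
      ext
      · rfl
      · rw [s1]
        change _ = (h (0, 0, 0)).2.1
        rw [show ((0, 0, 0) : K × X × K) = 0 from rfl, map_zero]
        rfl
      · rw [s2]
        change _ = (h (0, 0, 0)).2.2
        rw [show ((0, 0, 0) : K × X × K) = 0 from rfl, map_zero]
        rfl
    rw [this]
    exact LinearEquiv.symm_apply_apply D _) (by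
    intro x
    rw [LinearEquiv.mul_apply]
    obtain ⟨y, hy'⟩ := surj_W hW (h (0, x, 0)).1
    have : h (0, x, 0) = D (y, x, 0) := by
      rw [hD]
      ext
      · change _ = (h (y, 0, 0)).1
        rw [hy']
      · rfl
      · rw [e2]
        change _ = (h (0, 0, 0)).2.2
        rw [show ((0, 0, 0) : K × X × K) = 0 from rfl, map_zero]
        rfl
    rw [this]
    have e3 : D⁻¹ (D (y, x, 0)) = (y, x, 0) := LinearEquiv.symm_apply_apply D _
    rw [e3])
  rw [hR] at hr
  have h1 := hy.R_mem_Om hr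
  have h3 : D ∈ Om := by
    have : D = h * (D⁻¹ * h)⁻¹ := by group
    rw [this, hR]
    exact Om.mul_mem (hy.le hh) (Om.inv_mem h1)
  have h4 := hy.semi _ h3 hDs
  have h5 : R f g S ∈ H := by
    rw [← hR]
    exact H.mul_mem (H.inv_mem h4) hh
  obtain ⟨u, hu⟩ := R_eq_t hy hZ h5
  have h6 : h = D * tF F β u := by
    rw [← hu, ← hR]
    group
  intro k
  obtain ⟨k', hk'⟩ := hDs k
  refine ⟨k', fun v => ?_⟩
  rw [h6, LinearEquiv.mul_apply, LinearEquiv.mul_apply]
  have : tF F β u (k • v) = k • tF F β u v := map_smul (tK β u) k v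
  rw [this, hk']

end

end Cfsg.Agent.H98.Or
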