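import Cfsg.Agent.H98.OrD

set_option autoImplicit false
set_option linter.unusedSectionVars false
set_option linter.style.haveILetI false
set_option linter.unusedSimpArgs false

/-!
Extension fields in orthogonal groups, part E: an alternating biadditive map vanishing on the singular `K`-lines is
`K`-balanced.
-/

namespace Cfsg.Agent.H98.Or

open Module Cfsg.Agent.H98.Ext

section

variable {K X M : Type*} [Field K] [AddCommGroup X] [Module K X] [AddCommGroup M] {β : Bt K X}

/-- the defect `φ x (k y) - φ (k x) y` -/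
def ps (φ : (K × X × K) →+ (K × X × K) →+ M) (k : K) : (K × X × K) →+ (K × X × K) →+ M :=
  AddMonoidHom.mk' (fun x => AddMonoidHom.mk' (fun y => φ x (k • y) - φ (k • x) y) (by
    intro a b
    simp only [smul_add, map_add]
    abel)) (by
    intro a b
    ext y
    simp only [smul_add, map_add, AddMonoidHom.mk'_apply, AddMonoidHom.add_apply]
    abel)

variable {φ : (K × X × K) →+ (K × X × K) →+ M}

lemma ps_apply (k : K) (x y : K × X × K) : ps φ k x y = φ x (k • y) - φ (k • x) y := rfl

lemma ps_mul (k l : K) (x y : K × X × K) : ps φ (k * l) x y = ps φ k x (l • y) + ps φ l (k • x) y := by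
  rw [ps_apply, ps_apply, ps_apply, mul_smul]
  have : (k * l) • x = l • k • x := by rw [mul_comm, mul_smul]
  rw [this]
  abel

lemma ps_symm (h : ∀ x y, φ x y = - φ y x) (k : K) (x y : K × X × K) : ps φ k x y = ps φ k y x := by
  rw [ps_apply, ps_apply, h x, h (k • x)]
  abel

end

section

variable {K X M : Type*} [Field K] [Finite K] [AddCommGroup X] [Module K X] [AddCommGroup M] {β : Bt K X}
  {φ : (K × X × K) →+ (K × X × K) →+ M}

lemma exists_nonsing (h2 : (2 : K) ≠ 0) [Nontrivial X] (β : Bt K X) : ∃ x : X, β.b x x ≠ 0 := by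
  by_contra hcon
  push Not at hcon
  obtain ⟨x, hx⟩ := exists_ne (0 : X)
  apply hx
  apply β.nd
  intro y
  have e1 := hcon (x + y)
  simp only [map_add, LinearMap.add_apply, hcon, zero_add, add_zero] at e1
  rw [β.symm y x] at e1
  have : 2 * β.b x y = 0 := by linear_combination e1
  exact (mul_eq_zero.1 this).resolve_left h2

theorem balanced {p : ℕ} [hp : Fact p.Prime] [CharP K p] (hp2 : p ≠ 2) (hM : ∀ m : M, p • m = 0) [Nontrivial X]
    (h9 : ∃ α : K, α ≠ 0 ∧ α ≠ 1 ∧ α ≠ -1)
    (hanti : ∀ x y, φ x y = - φ y x) (hs : ∀ u, be β u u = 0 → ∀ k l : K, φ (k • u) (l • u) = 0) (k : K)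
    (x y : K × X × K) : φ (k • x) y = φ x (k • y) := by
  have h2 : (2 : K) ≠ 0 := by
    intro h
    have h4 : ((2 : ℕ) : K) = 0 := by exact_mod_cast h
    rw [CharP.cast_eq_zero_iff K p] at h4
    have h5 := (Nat.prime_dvd_prime_iff_eq hp.out Nat.prime_two).1 h4
    exact hp2 h5
  -- torsion
  have htor : ∀ (n : ℕ), ¬ p ∣ n → ∀ m : M, n • m = 0 → m = 0 := by
    intro n hn m hm
    have h3 : Nat.Coprime p n := (Nat.Prime.coprime_iff_not_dvd hp.out).2 hn
    have h4 : addOrderOf m ∣ p := addOrderOf_dvd_of_nsmul_eq_zero (hM m)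
    have h5 : addOrderOf m ∣ n := addOrderOf_dvd_of_nsmul_eq_zero hm
    have h6 : addOrderOf m ∣ 1 := by rw [← h3]; exact Nat.dvd_gcd h4 h5
    rw [← AddMonoid.addOrderOf_eq_one_iff]
    exact Nat.dvd_one.1 h6
  have t2 : ∀ m : M, m + m = 0 → m = 0 := by
    intro m hm
    apply htor 2 _ m
    · rw [two_nsmul, hm]
    · intro h
      exact hp2 ((Nat.prime_dvd_prime_iff_eq hp.out Nat.prime_two).1 h)
  obtain ⟨E, hE⟩ : ∃ E : K →+ K × X × K, ∀ s, E s = (s, 0, 0) :=
    ⟨AddMonoidHom.mk' (fun s => (s, 0, 0)) (by intro a b; ext <;> simp), fun s => rfl⟩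
  obtain ⟨E', hE'⟩ : ∃ E' : K →+ K × X × K, ∀ s, E' s = (0, 0, s) :=
    ⟨AddMonoidHom.mk' (fun s => (0, 0, s)) (by intro a b; ext <;> simp), fun s => rfl⟩
  obtain ⟨I, hI⟩ : ∃ I : X →+ K × X × K, ∀ s, I s = (0, s, 0) :=
    ⟨AddMonoidHom.mk' (fun s => (0, s, 0)) (by intro a b; ext <;> simp), fun s => rfl⟩
  have kE : ∀ k s : K, k • E s = E (k * s) := by intro k s; rw [hE, hE]; ext <;> simp
  have kE' : ∀ k s : K, k • E' s = E' (k * s) := by intro k s; rw [hE', hE']; ext <;> simp
  have kI : ∀ (k : K) (s : X), k • I s = I (k • s) := by intro k s; rw [hI, hI]; ext <;> simp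
  have hWW : ∀ a b : K, φ (E a) (E b) = 0 := by
    intro a b
    have := hs (E 1) (by rw [hE]; simp [be]) a b
    rw [kE, kE, mul_one, mul_one] at this
    exact this
  have hWW' : ∀ a b : K, φ (E' a) (E' b) = 0 := by
    intro a b
    have := hs (E' 1) (by rw [hE']; simp [be]) a b
    rw [kE', kE', mul_one, mul_one] at this
    exact this
  have hφ0 : ∀ u, be β u u = 0 → ∀ k : K, φ u (k • u) = 0 := by
    intro u hu k
    have := hs u hu 1 k
    rwa [one_smul] at this
  obtain ⟨Q, hQ⟩ : ∃ Q : X → K, ∀ x, Q x = β.b x x / 2 := ⟨_, fun x => rfl⟩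
  have hQ2 : ∀ x, β.b x x = 2 * Q x := by intro x; rw [hQ]; field_simp
  have hQs : ∀ (c : K) x, Q (c • x) = c * c * Q x := by
    intro c x
    rw [hQ, hQ]
    simp only [map_smul, LinearMap.smul_apply, smul_eq_mul]
    ring
  -- the basic relations
  have rel : ∀ (k s : K) (x : X), s ≠ 0 → ps φ k (E s) (I x) + ps φ k (I x) (E' (-(Q x / s))) = 0 ∧
      ps φ k (E s) (E' (-(Q x / s))) + φ (I x) (k • I x) = 0 := by
    intro k s x hs0
    have key : ∀ x : X, ps φ k (E s) (I x) + ps φ k (I x) (E' (-(Q x / s))) + (ps φ k (E s) (E' (-(Q x / s))) +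
        φ (I x) (k • I x)) = 0 := by
      intro x
      have h3 := hφ0 (E s + I x + E' (-(Q x / s))) (by
        rw [hE, hI, hE']
        unfold be
        simp only [Prod.fst_add, Prod.snd_add, add_zero, zero_add, hQ2]
        field_simp
        ring) k
      simp only [smul_add, map_add, AddMonoidHom.add_apply] at h3
      rw [kE k s, kE' k, hWW, hWW'] at h3
      simp only [ps_apply]
      rw [kE k s, kE' k]
      rw [hanti (I x) (E (k * s)), hanti (E' (-(Q x / s))) (k • I x), hanti (E' (-(Q x / s))) (E (k * s))] at h3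
      rw [← h3]
      abel
    have h3 := key x
    have h4 := key (-x)
    have hQn : Q (-x) = Q x := by rw [hQ, hQ]; simp
    rw [hQn] at h4
    simp only [map_neg, AddMonoidHom.neg_apply, smul_neg, neg_neg] at h4
    simp only [map_neg] at h3
    have h5 : (ps φ k (E s) (E' (-(Q x / s))) + φ (I x) (k • I x)) = 0 := by
      apply t2
      simp only [map_neg]
      have e := congrArg₂ (· + ·) h3 h4
      simp only [add_zero] at e
      rw [← e]
      abel
    refine ⟨?_, h5⟩
    simp only [map_neg] at h5 ⊢
    rw [h5, add_zero] at h3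
    exact h3
  -- `X` against `W'`
  have hX' : ∀ (k d : K) (x : X), ps φ k (I x) (E' d) = 0 := by
    intro k d x
    by_cases hx : Q x = 0
    · have h3 := hφ0 (I x + E' d) (by
        rw [hI, hE']
        unfold be
        simp [hQ2, hx]) k
      have h4 := hφ0 (I x) (by
        rw [hI]
        unfold be
        simp [hQ2, hx]) k
      simp only [smul_add, map_add, AddMonoidHom.add_apply] at h3
      rw [h4, kE' k, hWW', hanti (E' d) (k • I x)] at h3
      rw [ps_apply, kE']
      rw [← h3]
      abel
    · obtain ⟨g, hg⟩ : ∃ g : K →+ K →+ M, ∀ c d, g c d = ps φ k (I (c • x)) (E' (d * Q x)) :=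
        ⟨AddMonoidHom.mk' (fun c => AddMonoidHom.mk' (fun d => ps φ k (I (c • x)) (E' (d * Q x))) (by
          intro a b; rw [add_mul, map_add, map_add])) (by
          intro a b; ext d; simp [add_smul, map_add]), fun c d => rfl⟩
      have hL : ∀ (s c : K), s ≠ 0 → ps φ k (E s) (I (c • x)) = g c (c * c / s) := by
        intro s c hs0
        have h3 := (rel k s (c • x) hs0).1
        rw [hQs, map_neg, map_neg, add_neg_eq_zero] at h3
        rw [h3, hg]
        congr 2
        field_simp
      have hT : ∀ j c c' : K, j ≠ 0 → g c (j * (c' * c')) + g c' (2 * j * c * c') = 0 := by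
        intro j c c' hj
        have h1 : ∀ c c' : K, g c (2 * j * c * c') + g c (j * (c' * c')) + g c' (j * (c * c)) +
            g c' (2 * j * c * c') = 0 := by
          intro c c'
          have e1 := hL j⁻¹ (c + c') (inv_ne_zero hj)
          have e2 := hL j⁻¹ c (inv_ne_zero hj)
          have e3 := hL j⁻¹ c' (inv_ne_zero hj)
          rw [add_smul, map_add, map_add, e2, e3] at e1
          have e4 : (c + c') * (c + c') / j⁻¹ = j * (c * c) + 2 * j * c * c' + j * (c' * c') := by
            field_simp; ring
          have e5 : c * c / j⁻¹ = j * (c * c) := by field_simp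
          have e6 : c' * c' / j⁻¹ = j * (c' * c') := by field_simp
          rw [e4, e5, e6] at e1
          simp only [map_add, AddMonoidHom.add_apply] at e1
          rw [← sub_eq_zero] at e1
          rw [← neg_eq_zero, ← e1]
          abel
        have h3 := h1 c c'
        have h4 := h1 c (-c')
        have e1 : 2 * j * c * -c' = -(2 * j * c * c') := by ring
        have e2 : j * (-c' * -c') = j * (c' * c') := by ring
        rw [e1, e2] at h4
        simp only [map_neg, AddMonoidHom.neg_apply, neg_neg] at h4
        apply t2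
        have e := congrArg₂ (· + ·) h3 h4
        simp only [add_zero] at e
        rw [← e]
        abel
      have hg1 : ∀ c j : K, g c j = - g 1 (2 * j * c) := by
        intro c j
        by_cases hj : j = 0
        · rw [hj]; simp
        · have := hT j c 1 hj
          rw [mul_one, mul_one, mul_one] at this
          exact eq_neg_of_add_eq_zero_left this
      have hg0 : ∀ c j : K, g c j = 0 := by
        by_cases hp3 : p = 3
        · have h3 : (3 : K) = 0 := by
            have := CharP.cast_eq_zero K p
            rw [hp3] at this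
            exact_mod_cast this
          have hh : ∀ c j : K, g c j = g 1 (j * c) := by
            intro c j
            rw [hg1, ← map_neg]
            congr 1
            linear_combination -(j * c) * h3
          obtain ⟨α, hα0, hα1, hα2⟩ := h9
          have hα3 : 1 + α ≠ 0 := by
            intro h
            apply hα2
            linear_combination h
          have hα4 : (α - 1) ≠ 0 := sub_ne_zero.2 hα1
          have hfr : ∀ y : K, ∃ c : K, c * c * c = y := by
            intro y
            have hch : CharP K 3 := by rw [← hp3]; infer_instance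
            have := Fact.mk Nat.prime_three
            obtain ⟨c, hc⟩ := surjective_frobenius K 3 y
            exact ⟨c, by rw [← hc, frobenius_def]; ring⟩
          have hy0 : ∀ y : K, g 1 y = 0 := by
            intro y
            obtain ⟨c, hc⟩ := hfr (-(y * (α * (1 + α)) / ((α - 1) * (α - 1))))
            have e1 := hL 1 c one_ne_zero
            have e2 := hL α c hα0
            have e3 := hL (1 + α) c hα3
            rw [map_add, map_add, AddMonoidHom.add_apply, e1, e2, hh c (c * c / 1), hh c (c * c / α),
              hh c (c * c / (1 + α))] at e3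
            have e4 : g 1 (c * c / (1 + α) * c) - g 1 (c * c / 1 * c) - g 1 (c * c / α * c) = 0 := by
              rw [← e3]; abel
            rw [← map_sub, ← map_sub] at e4
            have e5 : c * c / (1 + α) * c - c * c / 1 * c - c * c / α * c = y := by
              have e6 : c * c / (1 + α) * c - c * c / 1 * c - c * c / α * c =
                  (c * c * c) * (1 / (1 + α) - 1 - 1 / α) := by ring
              rw [e6, hc]
              field_simp
              linear_combination (y * α) * h3
            rw [e5] at e4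
            exact e4
          intro c j
          rw [hh, hy0]
        · have h3 : (6 : K) ≠ 0 := by
            intro h
            have h4 : ((6 : ℕ) : K) = 0 := by exact_mod_cast h
            rw [CharP.cast_eq_zero_iff K p] at h4
            have h5 : p ∣ 2 * 3 := h4
            rcases (Nat.Prime.dvd_mul hp.out).1 h5 with h6 | h6
            · exact hp2 ((Nat.prime_dvd_prime_iff_eq hp.out Nat.prime_two).1 h6)
            · exact hp3 ((Nat.prime_dvd_prime_iff_eq hp.out Nat.prime_three).1 h6)
          have hy0 : ∀ y : K, g 1 y = 0 := by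
            intro y
            by_cases hy : y = 0
            · rw [hy, map_zero]
            have e1 := hT (y / 6) 1 1 (div_ne_zero hy h3)
            have e2 := hg1 1 (2 * (y / 6) * 1 * 1)
            rw [e2] at e1
            have e3 : g 1 (y / 6 * (1 * 1)) - g 1 (2 * (2 * (y / 6) * 1 * 1) * 1) = 0 := by
              rw [← e1]; abel
            have e4 := hg1 1 (y / 6 * (1 * 1))
            rw [e4] at e3
            rw [← map_neg, ← map_sub] at e3
            have e5 : -(2 * (y / 6 * (1 * 1)) * 1) - 2 * (2 * (y / 6) * 1 * 1) * 1 = -y := by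
              field_simp; ring
            rw [e5, map_neg, neg_eq_zero] at e3
            exact e3
          intro c j
          rw [hg1, hy0, neg_zero]
      have := hg0 1 (d / Q x)
      rw [hg, one_smul, div_mul_cancel₀ _ hx] at this
      exact this
  have hX : ∀ (k s : K) (x : X), ps φ k (E s) (I x) = 0 := by
    intro k s x
    by_cases hs0 : s = 0
    · rw [hs0]; simp
    · have := (rel k s x hs0).1
      rwa [hX', add_zero] at this
  -- `W` against `W'`
  obtain ⟨x₀, hx₀⟩ := exists_nonsing h2 β
  have hQ0 : Q x₀ ≠ 0 := by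
    rw [hQ]
    exact div_ne_zero hx₀ h2
  have hm : ∀ (k s d : K), ps φ k (E s) (E' d) = ps φ k (E 1) (E' (s * d)) := by
    intro k s d
    by_cases hs0 : s = 0
    · rw [hs0, zero_mul]; simp
    have h3 : ∀ c : K, ps φ k (E s) (E' (c * c * Q x₀ / s)) = ps φ k (E 1) (E' (c * c * Q x₀)) := by
      intro c
      have e1 := (rel k s (c • x₀) hs0).2
      have e2 := (rel k 1 (c • x₀) one_ne_zero).2
      rw [hQs] at e1 e2
      rw [← e2] at e1
      have e3 := add_right_cancel e1
      rw [map_neg, map_neg, map_neg, map_neg, neg_inj, div_one] at e3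
      exact e3
    have h4 : ∀ y : K, ps φ k (E s) (E' (y * Q x₀ / s)) = ps φ k (E 1) (E' (y * Q x₀)) := by
      intro y
      have e1 := sq_sub (c := y) h2
      obtain ⟨a, ha⟩ : ∃ a, a = (y + 1) / 2 := ⟨_, rfl⟩
      obtain ⟨b, hb⟩ : ∃ b, b = (y - 1) / 2 := ⟨_, rfl⟩
      rw [← ha, ← hb] at e1
      rw [e1]
      have e2 : (a * a - b * b) * Q x₀ / s = a * a * Q x₀ / s - b * b * Q x₀ / s := by ring
      have e3 : (a * a - b * b) * Q x₀ = a * a * Q x₀ - b * b * Q x₀ := by ring
      rw [e2, e3, map_sub, map_sub, map_sub, map_sub, h3, h3]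
    have h5 := h4 (s * d / Q x₀)
    rw [div_mul_cancel₀ _ hQ0, mul_comm s d, mul_div_cancel_right₀ _ hs0] at h5
    rw [h5, mul_comm s d]
  have hder : ∀ (n : ℕ) (l y : K), ps φ (l ^ (n + 1)) (E 1) (E' y) = (n + 1) • ps φ l (E 1) (E' (l ^ n * y)) := by
    intro n
    induction n with
    | zero =>
      intro l y
      rw [zero_add, pow_one, pow_zero, one_mul, one_nsmul]
    | succ n ih =>
      intro l y
      have e1 : l ^ n * (l * y) = l ^ (n + 1) * y := by ring
      rw [pow_succ, ps_mul, kE', kE, ih, hm l (l ^ (n + 1) * 1) y, mul_one, add_smul (n + 1) 1, one_nsmul, e1]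
  have hmu : ∀ (k y : K), ps φ k (E 1) (E' y) = 0 := by
    intro k y
    obtain ⟨l, hl⟩ := surjective_frobenius K p k
    rw [frobenius_def] at hl
    obtain ⟨n, hn⟩ : ∃ n, p = n + 1 := ⟨p - 1, by have := hp.out.pos; omega⟩
    rw [← hl, hn, hder, ← hn, hM]
  have hWW2 : ∀ (k s d : K), ps φ k (E s) (E' d) = 0 := by
    intro k s d
    rw [hm, hmu]
  have hII1 : ∀ (k : K) (x : X), ps φ k (I x) (I x) = 0 := by
    intro k x
    have h3 := (rel k 1 x one_ne_zero).2
    rw [hWW2, zero_add] at h3
    rw [ps_apply, h3, hanti, h3]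
    simp
  have hsymm := ps_symm hanti
  have hII2 : ∀ (k : K) (x y : X), ps φ k (I x) (I y) = 0 := by
    intro k x y
    have h3 := hII1 k (x + y)
    simp only [map_add, AddMonoidHom.add_apply] at h3
    rw [hII1, hII1, hsymm k (I y) (I x)] at h3
    apply t2
    rw [← h3]
    abel
  have hWW3 : ∀ (k a b : K), ps φ k (E a) (E b) = 0 := by
    intro k a b
    rw [ps_apply, kE, kE, hWW, hWW, sub_zero]
  have hWW4 : ∀ (k a b : K), ps φ k (E' a) (E' b) = 0 := by
    intro k a b
    rw [ps_apply, kE', kE', hWW', hWW', sub_zero]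
  have hdec : ∀ v : K × X × K, v = E v.1 + I v.2.1 + E' v.2.2 := by
    intro v
    rw [hE, hI, hE']
    ext <;> simp
  have hfin : ps φ k x y = 0 := by
    rw [hdec x, hdec y]
    simp only [map_add, AddMonoidHom.add_apply]
    rw [hWW3, hX, hWW2, hsymm k (I x.2.1) (E y.1), hX, hII2, hX', hsymm k (E' x.2.2) (E y.1), hWW2,
      hsymm k (E' x.2.2) (I y.2.1), hX', hWW4]
    simp
  rw [ps_apply, sub_eq_zero] at hfin
  exact hfin.symm

end

end Cfsg.Agent.H98.Or
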