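import Mathlib

set_option autoImplicit false
set_option linter.unusedSectionVars false
set_option linter.style.haveILetI false

/-!
Sums over sets permuted by an elementary abelian `p`-group acting unipotently (`p` odd).
-/

namespace Cfsg.Agent.H98.Tr

/-- Sum over an invariant set with free action. -/
lemma sum_free {Y S M : Type*} [AddCommGroup Y] [Fintype Y] [DecidableEq S] [AddCommGroup M] (act : Y → S → S)
    (act0 : ∀ s, act 0 s = s) (acta : ∀ a b s, act (a + b) s = act a (act b s)) (c : S → M) :
    ∀ U : Finset S, (∀ y, ∀ s ∈ U, act y s ∈ U) → (∀ s ∈ U, ∑ y : Y, c (act y s) = 0) →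
      (∀ s ∈ U, ∀ y, act y s = s → y = 0) → ∑ s ∈ U, c s = 0 := by
  intro U
  induction U using Finset.strongInduction with
  | H U ih =>
    intro hinv hz hfree
    rcases U.eq_empty_or_nonempty with h0 | ⟨s, hs⟩
    · rw [h0, Finset.sum_empty]
    · obtain ⟨O, hO⟩ : ∃ O, O = (Finset.univ : Finset Y).image (fun y => act y s) := ⟨_, rfl⟩
      have hinj : Function.Injective (fun y => act y s) := by
        intro y y' hyy
        have h1 : act (-y' + y) s = s := by
          rw [acta]
          change act (-y') (act y s) = s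
          rw [show act y s = act y' s from hyy, ← acta, neg_add_cancel, act0]
        have h2 := hfree s hs _ h1
        rw [neg_add_eq_zero] at h2
        exact h2.symm
      have hOU : O ⊆ U := by
        rw [hO]
        intro t ht
        obtain ⟨y, -, rfl⟩ := Finset.mem_image.1 ht
        exact hinv y s hs
      have h1 : ∑ t ∈ O, c t = 0 := by
        rw [hO, Finset.sum_image (fun a _ b _ h => hinj h)]
        exact hz s hs
      have hmem : ∀ y, ∀ t, act y t ∈ O → t ∈ O := by
        intro y t ht
        rw [hO, Finset.mem_image] at ht ⊢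
        obtain ⟨z, -, hz'⟩ := ht
        refine ⟨-y + z, Finset.mem_univ _, ?_⟩
        rw [acta, hz', ← acta, neg_add_cancel, act0]
      have h2 : ∑ t ∈ U \ O, c t = 0 := by
        apply ih
        · apply Finset.sdiff_ssubset hOU
          exact ⟨s, by rw [hO]; exact Finset.mem_image.2 ⟨0, Finset.mem_univ _, act0 s⟩⟩
        · intro y t ht
          rw [Finset.mem_sdiff] at ht ⊢
          exact ⟨hinv y t ht.1, fun h => ht.2 (hmem y t h)⟩
        · intro t ht
          exact hz t (Finset.mem_sdiff.1 ht).1
        · intro t ht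
          exact hfree t (Finset.mem_sdiff.1 ht).1
      rw [← Finset.sum_sdiff hOU, h1, h2, add_zero]

section

variable {F M A : Type*} [Field F] [AddCommGroup M] [Module F M] [AddCommGroup A] {p : ℕ} [Fact p.Prime]
  [CharP F p] [Module (ZMod p) A]

lemma sum_zmod (hp : 2 < p) : ∑ n : ZMod p, n = 0 := by
  have h1 : ∑ n : ZMod p, n = ∑ n : ZMod p, -n := by
    exact (Fintype.sum_equiv (Equiv.neg _) _ _ (fun x => by simp))
  rw [Finset.sum_neg_distrib] at h1
  have h2 : (2 : ZMod p) * ∑ n : ZMod p, n = 0 := by linear_combination h1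
  have h3 : (2 : ZMod p) ≠ 0 := by
    intro h
    have h4 : ((2 : ℕ) : ZMod p) = 0 := by exact_mod_cast h
    rw [ZMod.natCast_eq_zero_iff] at h4
    exact absurd (Nat.le_of_dvd (by norm_num) h4) (by omega)
  exact (mul_eq_zero.1 h2).resolve_left h3

/-- the norm of one element raises the level by two -/
lemma norm_one (hp : 2 < p) (ρ : A → Module.End F M) (ρ0 : ρ 0 = 1) (ρa : ∀ a b, ρ (a + b) = ρ a * ρ b)
    (L : ℕ → Submodule F M) (hL : ∀ a i m, m ∈ L i → ρ a m - m ∈ L (i + 1)) (y : A) {l : ℕ} {m : M}
    (hm : m ∈ L l) : ∑ n : ZMod p, ρ (n • y) m ∈ L (l + 2) := by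
  let q := (L (l + 2)).mkQ
  let φ : ZMod p →+ (M ⧸ L (l + 2)) :=
    { toFun := fun n => q (ρ (n • y) m - m)
      map_zero' := by rw [zero_smul, ρ0]; simp
      map_add' := by
        intro a b
        rw [add_smul, ρa]
        have h1 : ρ (b • y) m - m ∈ L (l + 1) := hL _ _ _ hm
        have h2 := hL (a • y) _ _ h1
        have h3 : q (ρ (a • y) (ρ (b • y) m - m) - (ρ (b • y) m - m)) = 0 := by
          exact (Submodule.Quotient.mk_eq_zero _).2 h2
        rw [← map_add, ← sub_eq_zero, ← map_sub]
        rw [← h3]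
        congr 1
        rw [Module.End.mul_apply, map_sub]
        abel }
  have h1 : ∑ n : ZMod p, φ n = 0 := by
    rw [← map_sum, sum_zmod hp, map_zero]
  have h2 : ∑ n : ZMod p, φ n = q (∑ n : ZMod p, ρ (n • y) m) := by
    change ∑ n : ZMod p, q (ρ (n • y) m - m) = _
    rw [← map_sum, Finset.sum_sub_distrib, Finset.sum_const, Finset.card_univ, ZMod.card,
      ← Nat.cast_smul_eq_nsmul F, CharP.cast_eq_zero, zero_smul, sub_zero]
  rw [h2] at h1
  exact (Submodule.Quotient.mk_eq_zero _).1 h1

/-- the norm of a `k`-generated group raises the level by `2k` -/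
lemma norm_mem (hp : 2 < p) (ρ : A → Module.End F M) (ρ0 : ρ 0 = 1) (ρa : ∀ a b, ρ (a + b) = ρ a * ρ b)
    (L : ℕ → Submodule F M) (hL : ∀ a i m, m ∈ L i → ρ a m - m ∈ L (i + 1)) :
    ∀ (k : ℕ) (y : Fin k → A) {l : ℕ} {m : M}, m ∈ L l → ∑ n : Fin k → ZMod p, ρ (∑ j, n j • y j) m ∈ L (l + 2 * k) := by
  intro k
  induction k with
  | zero =>
    intro y l m hm
    have : (∑ n : Fin 0 → ZMod p, ρ (∑ j, n j • y j) m) = m := by
      rw [Fintype.sum_unique]
      simp [ρ0]
    rw [this]
    exact hm
  | succ k ih =>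
    intro y l m hm
    have h1 := ih (fun j => y j.succ) hm
    have h2 := norm_one hp ρ ρ0 ρa L hL (y 0) h1
    have h3 : ∑ n : Fin (k + 1) → ZMod p, ρ (∑ j, n j • y j) m =
        ∑ a : ZMod p, ρ (a • y 0) (∑ n : Fin k → ZMod p, ρ (∑ j, n j • y j.succ) m) := by
      rw [← Fintype.sum_equiv (Fin.consEquiv (fun _ => ZMod p))
        (fun x : ZMod p × (Fin k → ZMod p) => ρ (x.1 • y 0 + ∑ j, x.2 j • y j.succ) m) _ ?_]
      · rw [Fintype.sum_prod_type]
        refine Finset.sum_congr rfl (fun a _ => ?_)
        rw [map_sum]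
        refine Finset.sum_congr rfl (fun n _ => ?_)
        rw [ρa, Module.End.mul_apply]
      · rintro ⟨a, n⟩
        rw [Fin.sum_univ_succ]
        simp [Fin.consEquiv]
    rw [h3]
    have h4 : l + 2 * (k + 1) = l + 2 * k + 2 := by ring
    rw [h4]
    exact h2

/-- The orbit sum lemma: only the fixed point contributes. -/
theorem trace_sum (hp : 2 < p) {S : Type*} [Fintype S] [DecidableEq S] (act : A → S → S) (act0 : ∀ s, act 0 s = s)
    (acta : ∀ a b s, act (a + b) s = act a (act b s)) (ρ : A → Module.End F M) (ρ0 : ρ 0 = 1)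
    (ρa : ∀ a b, ρ (a + b) = ρ a * ρ b) (L : ℕ → Submodule F M)
    (hL : ∀ a i m, m ∈ L i → ρ a m - m ∈ L (i + 1)) (hanti : ∀ i, L (i + 1) ≤ L i) (D : ℕ) (hD : L D = ⊥)
    (c : S → M) (hc : ∀ a s, c (act a s) = ρ a (c s)) (s₀ : S) (hs₀ : ∀ a, act a s₀ = s₀)
    (h : ∀ s ≠ s₀, ∃ (k i : ℕ) (y : Fin k → A), (∀ n : Fin k → ZMod p, act (∑ j, n j • y j) s = s → n = 0) ∧
      D ≤ i + 2 * k ∧ ∀ s', (∀ a, act a s' = s' ↔ act a s = s) → c s' ∈ L i) :
    ∑ s, c s = c s₀ := by
  have hanti' : ∀ i j, i ≤ j → L j ≤ L i := by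
    intro i j hij
    induction j, hij using Nat.le_induction with
    | base => exact le_rfl
    | succ j _ ih => exact (hanti j).trans ih
  have key : ∀ U : Finset S, (∀ a, ∀ s ∈ U, act a s ∈ U) → s₀ ∉ U → ∑ s ∈ U, c s = 0 := by
    intro U
    induction U using Finset.strongInduction with
    | H U ih =>
      intro hinv h0
      rcases U.eq_empty_or_nonempty with h1 | ⟨s, hs⟩
      · rw [h1, Finset.sum_empty]
      · classical
        have hne : s ≠ s₀ := by
          rintro rfl
          exact h0 hs
        obtain ⟨k, i, y, hy1, hy2, hy3⟩ := h s hne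
        obtain ⟨O, hO⟩ : ∃ O, O = U.filter (fun s' => ∀ a, act a s' = s' ↔ act a s = s) := ⟨_, rfl⟩
        have hst : ∀ b s', (∀ a, act a (act b s') = act b s' ↔ act a s' = s') := by
          intro b s' a
          have e1 : act a (act b s') = act b (act a s') := by rw [← acta, ← acta, add_comm]
          rw [e1]
          constructor
          · intro h2
            have h3 := congrArg (act (-b)) h2
            rwa [← acta (-b) b (act a s'), ← acta (-b) b s', neg_add_cancel, act0, act0] at h3
          · intro h2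
            rw [h2]
        have hOinv : ∀ a, ∀ s' ∈ O, act a s' ∈ O := by
          intro a s' hs'
          rw [hO, Finset.mem_filter] at hs' ⊢
          exact ⟨hinv a s' hs'.1, fun b => (hst a s' b).trans (hs'.2 b)⟩
        have hsO : s ∈ O := by
          rw [hO, Finset.mem_filter]
          exact ⟨hs, fun a => Iff.rfl⟩
        have hOU : O ⊆ U := by rw [hO]; exact Finset.filter_subset _ _
        have h1 : ∑ t ∈ O, c t = 0 := by
          refine sum_free (Y := Fin k → ZMod p) (fun n t => act (∑ j, n j • y j) t) ?_ ?_ c O ?_ ?_ ?_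
          · intro t
            simp [act0]
          · intro a b t
            rw [← acta]
            congr 1
            simp [add_smul, Finset.sum_add_distrib]
          · intro n t ht
            exact hOinv _ t ht
          · intro t ht
            have ht' : c t ∈ L i := by
              rw [hO, Finset.mem_filter] at ht
              exact hy3 t ht.2
            have h2 := norm_mem hp ρ ρ0 ρa L hL k y ht'
            have h3 := hanti' _ _ hy2 h2
            rw [hD, Submodule.mem_bot] at h3
            rw [← h3]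
            exact Finset.sum_congr rfl (fun n _ => hc _ _)
          · intro t ht n hn
            rw [hO, Finset.mem_filter] at ht
            exact hy1 n ((ht.2 _).1 hn)
        have h2 : ∑ t ∈ U \ O, c t = 0 := by
          apply ih
          · exact Finset.sdiff_ssubset hOU ⟨s, hsO⟩
          · intro a t ht
            rw [Finset.mem_sdiff] at ht ⊢
            refine ⟨hinv a t ht.1, fun h3 => ht.2 ?_⟩
            have h4 := hOinv (-a) _ h3
            rwa [← acta, neg_add_cancel, act0] at h4
          · intro h3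
            exact h0 (Finset.mem_sdiff.1 h3).1
        rw [← Finset.sum_sdiff hOU, h1, h2, add_zero]
  have h1 := key (Finset.univ.erase s₀) (by
    intro a s hs
    rw [Finset.mem_erase] at hs ⊢
    refine ⟨fun h2 => hs.1 ?_, Finset.mem_univ _⟩
    have h3 := congrArg (act (-a)) h2
    rwa [← acta, neg_add_cancel, act0, hs₀] at h3) (by simp)
  rw [← Finset.add_sum_erase _ _ (Finset.mem_univ s₀), h1, add_zero]

end

end Cfsg.Agent.H98.Tr
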