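import Cfsg.Agent.H98.ExtC
import Cfsg.Agent.H98.TrA

set_option autoImplicit false
set_option linter.unusedSectionVars false
set_option linter.style.haveILetI false
set_option linter.unusedSimpArgs false

/-!
The conjugates of the multiplicative group of `K` and the averaging operators attached to them.
-/

namespace Cfsg.Agent.H98.Tr

open Module Cfsg.Agent.H98.Ext

section

variable {F K V : Type*} [Field F] [Field K] [Algebra F K] [AddCommGroup V] [Module F V] [Module K V]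
  [IsScalarTower F K V]

/-- conjugation of an endomorphism -/
def cj (g : V ≃ₗ[F] V) (A : Module.End F V) : Module.End F V :=
  (g : V →ₗ[F] V) ∘ₗ A ∘ₗ ((g⁻¹ : V ≃ₗ[F] V) : V →ₗ[F] V)

lemma cj_apply (g : V ≃ₗ[F] V) (A : Module.End F V) (v : V) : cj g A v = g (A (g⁻¹ v)) := rfl

lemma cj_mul (g h : V ≃ₗ[F] V) (A : Module.End F V) : cj (g * h) A = cj g (cj h A) := by
  ext v
  rw [cj_apply, cj_apply, cj_apply, mul_inv_rev]
  rfl

lemma cj_one (A : Module.End F V) : cj 1 A = A := by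
  ext v
  rw [cj_apply, inv_one]
  rfl

lemma cj_add (g : V ≃ₗ[F] V) (A B : Module.End F V) : cj g (A + B) = cj g A + cj g B := by
  ext v
  simp [cj_apply]

lemma cj_smul (g : V ≃ₗ[F] V) (c : F) (A : Module.End F V) : cj g (c • A) = c • cj g A := by
  ext v
  simp [cj_apply]

lemma cj_neg (g : V ≃ₗ[F] V) (A : Module.End F V) : cj g (-A) = -cj g A := by
  ext v
  simp [cj_apply]

lemma cj_sub (g : V ≃ₗ[F] V) (A B : Module.End F V) : cj g (A - B) = cj g A - cj g B := by
  ext v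
  simp [cj_apply]

lemma cj_sum {ι : Type*} (s : Finset ι) (g : V ≃ₗ[F] V) (A : ι → Module.End F V) :
    cj g (∑ i ∈ s, A i) = ∑ i ∈ s, cj g (A i) := by
  ext v
  rw [cj_apply, LinearMap.sum_apply, LinearMap.sum_apply, map_sum]
  rfl

lemma inv_ap (g : V ≃ₗ[F] V) (v : V) : g⁻¹ (g v) = v := LinearEquiv.symm_apply_apply g v

lemma ap_inv (g : V ≃ₗ[F] V) (v : V) : g (g⁻¹ v) = v := LinearEquiv.apply_symm_apply g v

lemma cj_cancel (g : V ≃ₗ[F] V) (A : Module.End F V) : cj g⁻¹ (cj g A) = A := by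
  rw [← cj_mul, inv_mul_cancel, cj_one]

lemma cj_eq_iff (g : V ≃ₗ[F] V) (A : Module.End F V) : cj g A = A ↔ ∀ v, g (A v) = A (g v) := by
  constructor
  · intro h v
    conv_rhs => rw [← h]
    rw [cj_apply, inv_ap]
  · intro h
    ext v
    rw [cj_apply, h, ap_inv]

variable (F V) in
/-- the scalars of `K` -/
def sK (c : Kˣ) : V ≃ₗ[F] V := (LinearEquiv.smulOfUnit (M := V) c : V ≃ₗ[K] V).restrictScalars F

lemma sK_apply (c : Kˣ) (v : V) : sK F V c v = (c : K) • v := rfl

lemma sK_mul (c d : Kˣ) : sK F V (c * d) = sK F V c * sK F V d := by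
  ext v
  rw [LinearEquiv.mul_apply, sK_apply, sK_apply, sK_apply, Units.val_mul, mul_smul]

lemma sK_one : sK F V (1 : Kˣ) = 1 := by
  ext v
  rw [sK_apply, Units.val_one, one_smul]
  rfl

lemma sK_inv (c : Kˣ) : sK F V c⁻¹ = (sK F V c)⁻¹ := by
  rw [eq_inv_iff_mul_eq_one, ← sK_mul, inv_mul_cancel, sK_one]

variable (F K V) in
/-- The image of `Kˣ`. -/
def KU : Subgroup (V ≃ₗ[F] V) where
  carrier := Set.range (fun c : Kˣ => sK F V c)
  mul_mem' := by
    rintro _ _ ⟨c, rfl⟩ ⟨d, rfl⟩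
    exact ⟨c * d, sK_mul c d⟩
  one_mem' := ⟨1, sK_one⟩
  inv_mem' := by
    rintro _ ⟨c, rfl⟩
    exact ⟨c⁻¹, sK_inv c⟩

lemma mem_KU {g : V ≃ₗ[F] V} : g ∈ KU F K V ↔ ∃ c : Kˣ, sK F V c = g := Iff.rfl

/-- conjugate of a subgroup -/
def cs (g : V ≃ₗ[F] V) (S : Subgroup (V ≃ₗ[F] V)) : Subgroup (V ≃ₗ[F] V) where
  carrier := {x | g⁻¹ * x * g ∈ S}
  mul_mem' := by
    intro a b ha hb
    have : g⁻¹ * (a * b) * g = (g⁻¹ * a * g) * (g⁻¹ * b * g) := by group
    change g⁻¹ * (a * b) * g ∈ S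
    rw [this]
    exact S.mul_mem ha hb
  one_mem' := by
    change g⁻¹ * 1 * g ∈ S
    rw [mul_one, inv_mul_cancel]
    exact S.one_mem
  inv_mem' := by
    intro a ha
    have : g⁻¹ * a⁻¹ * g = (g⁻¹ * a * g)⁻¹ := by group
    change g⁻¹ * a⁻¹ * g ∈ S
    rw [this]
    exact S.inv_mem ha

lemma mem_cs {g x : V ≃ₗ[F] V} {S : Subgroup (V ≃ₗ[F] V)} : x ∈ cs g S ↔ g⁻¹ * x * g ∈ S := Iff.rfl

lemma cs_mul (g h : V ≃ₗ[F] V) (S : Subgroup (V ≃ₗ[F] V)) : cs (g * h) S = cs g (cs h S) := by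
  ext x
  rw [mem_cs, mem_cs, mem_cs]
  have : (g * h)⁻¹ * x * (g * h) = h⁻¹ * (g⁻¹ * x * g) * h := by group
  rw [this]

lemma cs_one (S : Subgroup (V ≃ₗ[F] V)) : cs 1 S = S := by
  ext x
  rw [mem_cs]
  simp

lemma cs_cancel (g : V ≃ₗ[F] V) (S : Subgroup (V ≃ₗ[F] V)) : cs g⁻¹ (cs g S) = S := by
  rw [← cs_mul, inv_mul_cancel, cs_one]

/-- the equivalence of `S` with its conjugate -/
def csEquiv (g : V ≃ₗ[F] V) (S : Subgroup (V ≃ₗ[F] V)) : S ≃ cs g S where
  toFun s := ⟨g * s * g⁻¹, by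
    rw [mem_cs]
    have : g⁻¹ * (g * s * g⁻¹) * g = s := by group
    rw [this]
    exact s.2⟩
  invFun s := ⟨g⁻¹ * s * g, s.2⟩
  left_inv s := by
    apply Subtype.ext
    change g⁻¹ * (g * s * g⁻¹) * g = s
    group
  right_inv s := by
    apply Subtype.ext
    change g * (g⁻¹ * s * g) * g⁻¹ = s
    group

instance finG [Finite V] : Finite (V ≃ₗ[F] V) :=
  Finite.of_injective (fun g : V ≃ₗ[F] V => (g : V → V)) DFunLike.coe_injective

/-- The averaging operator of a finite subgroup. -/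
noncomputable def PS [Finite V] (S : Subgroup (V ≃ₗ[F] V)) (A : Module.End F V) : Module.End F V :=
  - ∑ᶠ a : S, cj (a : V ≃ₗ[F] V) A

lemma PS_eq [Finite V] (S : Subgroup (V ≃ₗ[F] V)) [Fintype S] (A : Module.End F V) :
    PS S A = - ∑ a : S, cj (a : V ≃ₗ[F] V) A := by
  rw [PS, finsum_eq_sum_of_fintype]

lemma PS_add [Finite V] (S : Subgroup (V ≃ₗ[F] V)) (A B : Module.End F V) : PS S (A + B) = PS S A + PS S B := by
  have := Fintype.ofFinite S
  rw [PS_eq, PS_eq, PS_eq, ← neg_add, ← Finset.sum_add_distrib]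
  congr 1
  exact Finset.sum_congr rfl (fun a _ => cj_add _ _ _)

lemma PS_smul [Finite V] (S : Subgroup (V ≃ₗ[F] V)) (c : F) (A : Module.End F V) : PS S (c • A) = c • PS S A := by
  have := Fintype.ofFinite S
  rw [PS_eq, PS_eq, smul_neg, Finset.smul_sum]
  congr 1
  exact Finset.sum_congr rfl (fun a _ => cj_smul _ _ _)

lemma PS_cs [Finite V] (g : V ≃ₗ[F] V) (S : Subgroup (V ≃ₗ[F] V)) (A : Module.End F V) :
    PS (cs g S) (cj g A) = cj g (PS S A) := by
  have := Fintype.ofFinite S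
  have := Fintype.ofFinite (cs g S)
  rw [PS_eq, PS_eq, cj_neg, cj_sum]
  congr 1
  refine (Fintype.sum_equiv (csEquiv g S) _ _ (fun a => ?_)).symm
  rw [← cj_mul, ← cj_mul]
  congr 1
  change g * a = g * a * g⁻¹ * g
  group

/-- the conjugates of `KU` -/
def XX (K : Type*) [Field K] [Algebra F K] [Module K V] [IsScalarTower F K V] (H : Subgroup (V ≃ₗ[F] V)) : Type _ :=
  {S : Subgroup (V ≃ₗ[F] V) // ∃ h ∈ H, S = cs h (KU F K V)}

variable (K) in
instance finXX [Finite V] (H : Subgroup (V ≃ₗ[F] V)) : Finite (XX K H) := Subtype.finite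

/-- The action on the conjugates. -/
def actX {H : Subgroup (V ≃ₗ[F] V)} (g : V ≃ₗ[F] V) (hg : g ∈ H) (S : XX K H) : XX K H :=
  ⟨cs g S.1, by
    obtain ⟨h, hh, e⟩ := S.2
    exact ⟨g * h, H.mul_mem hg hh, by rw [e, cs_mul]⟩⟩

/-- The sum of the averaging operators over all conjugates. -/
noncomputable def PH (K : Type*) [Field K] [Algebra F K] [Module K V] [IsScalarTower F K V] [Finite V]
    (H : Subgroup (V ≃ₗ[F] V)) (A : Module.End F V) : Module.End F V :=
  ∑ᶠ S : XX K H, PS S.1 A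

lemma PH_eq [Finite V] (H : Subgroup (V ≃ₗ[F] V)) [Fintype (XX K H)] (A : Module.End F V) :
    PH K H A = ∑ S : XX K H, PS S.1 A := by
  rw [PH, finsum_eq_sum_of_fintype]

lemma PH_add [Finite V] (H : Subgroup (V ≃ₗ[F] V)) (A B : Module.End F V) : PH K H (A + B) = PH K H A + PH K H B := by
  have := Fintype.ofFinite (XX K H)
  rw [PH_eq, PH_eq, PH_eq, ← Finset.sum_add_distrib]
  exact Finset.sum_congr rfl (fun a _ => PS_add _ _ _)

lemma PH_smul [Finite V] (H : Subgroup (V ≃ₗ[F] V)) (c : F) (A : Module.End F V) : PH K H (c • A) = c • PH K H A := by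
  have := Fintype.ofFinite (XX K H)
  rw [PH_eq, PH_eq, Finset.smul_sum]
  exact Finset.sum_congr rfl (fun a _ => PS_smul _ _ _)

lemma PH_cj [Finite V] {H : Subgroup (V ≃ₗ[F] V)} {g : V ≃ₗ[F] V} (hg : g ∈ H) (A : Module.End F V) :
    PH K H (cj g A) = cj g (PH K H A) := by
  have := Fintype.ofFinite (XX K H)
  rw [PH_eq, PH_eq, cj_sum]
  let e : XX K H ≃ XX K H :=
    { toFun := actX g hg
      invFun := actX g⁻¹ (H.inv_mem hg)
      left_inv := fun S => Subtype.ext (cs_cancel g _)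
      right_inv := fun S => by
        apply Subtype.ext
        have := cs_cancel g⁻¹ S.1
        rw [inv_inv] at this
        exact this }
  refine (Fintype.sum_equiv e _ _ (fun S => ?_)).symm
  exact (PS_cs g S.1 A).symm

/-- `PH` as a linear map. -/
noncomputable def PHl (K : Type*) [Field K] [Algebra F K] [Module K V] [IsScalarTower F K V] [Finite V]
    (H : Subgroup (V ≃ₗ[F] V)) : Module.End F V →ₗ[F] Module.End F V where
  toFun := PH K H
  map_add' := PH_add H
  map_smul' := PH_smul H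

/-! ### The averaging operator of `K` -/

section PK

variable [Finite K] [Finite V]

variable (F K V) in
lemma card_units_F : ((Nat.card Kˣ : ℕ) : F) = -1 := by
  have hF : Finite F := Finite.of_injective _ (algebraMap F K).injective
  have hfK := Fintype.ofFinite K
  rw [Nat.card_units, Nat.cast_sub Nat.card_pos]
  apply (algebraMap F K).injective
  rw [map_sub, map_natCast, Nat.card_eq_fintype_card]
  simp

/-- sum over `Kˣ` -/
lemma PK_eq [Fintype Kˣ] (hV : Nontrivial V) (A : Module.End F V) :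
    PS (KU F K V) A = - ∑ c : Kˣ, cj (sK F V c) A := by
  have := Fintype.ofFinite (KU F K V)
  rw [PS_eq]
  congr 1
  symm
  refine Fintype.sum_bijective (fun c : Kˣ => (⟨sK F V c, c, rfl⟩ : KU F K V)) ⟨?_, ?_⟩ _ _ (fun c => rfl)
  · intro c d hcd
    have h1 := congrArg Subtype.val hcd
    obtain ⟨v, hv⟩ := exists_ne (0 : V)
    have h2 := LinearEquiv.congr_fun h1 v
    rw [sK_apply, sK_apply] at h2
    have h3 : ((c : K) - d) • v = 0 := by rw [sub_smul, h2, sub_self]
    rcases smul_eq_zero.1 h3 with h4 | h4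
    · exact Units.ext (sub_eq_zero.1 h4)
    · exact absurd h4 hv
  · rintro ⟨_, c, rfl⟩
    exact ⟨c, rfl⟩

/-- fixed by `K`-linear maps -/
lemma PK_of_lin (hV : Nontrivial V) {A : Module.End F V} (hA : ∀ (k : K) v, A (k • v) = k • A v) :
    PS (KU F K V) A = A := by
  have := Fintype.ofFinite Kˣ
  rw [PK_eq hV]
  have h1 : ∀ c : Kˣ, cj (sK F V c) A = A := by
    intro c
    rw [cj_eq_iff]
    intro v
    rw [sK_apply, sK_apply, hA]
  simp only [h1]
  rw [Finset.sum_const, Finset.card_univ, ← Nat.cast_smul_eq_nsmul F, ← Nat.card_eq_fintype_card, card_units_F,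
    neg_smul, one_smul, neg_neg]

lemma PK_lin (hV : Nontrivial V) (A : Module.End F V) (k : K) (v : V) :
    PS (KU F K V) A (k • v) = k • PS (KU F K V) A v := by
  have := Fintype.ofFinite Kˣ
  by_cases hk : k = 0
  · rw [hk, zero_smul, zero_smul, map_zero]
  have h1 : cj (sK F V (Units.mk0 k hk)) (PS (KU F K V) A) = PS (KU F K V) A := by
    rw [PK_eq hV, cj_neg, cj_sum]
    congr 1
    refine Fintype.sum_equiv (Equiv.mulLeft (Units.mk0 k hk)) _ _ (fun c => ?_)
    rw [← cj_mul, ← sK_mul]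
    rfl
  rw [cj_eq_iff] at h1
  exact (h1 v).symm

lemma PK_comp (hV : Nontrivial V) {B : Module.End F V} (hB : ∀ (k : K) v, B (k • v) = k • B v) (A : Module.End F V) :
    PS (KU F K V) (B ∘ₗ A) = B ∘ₗ PS (KU F K V) A := by
  have := Fintype.ofFinite Kˣ
  rw [PK_eq hV, PK_eq hV]
  ext v
  rw [LinearMap.neg_apply, LinearMap.comp_apply, LinearMap.neg_apply, map_neg, LinearMap.sum_apply,
    LinearMap.sum_apply, map_sum]
  congr 1
  refine Finset.sum_congr rfl (fun c _ => ?_)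
  rw [cj_apply, cj_apply, LinearMap.comp_apply, sK_apply, sK_apply, hB]

lemma trace_cj (g : V ≃ₗ[F] V) (A : Module.End F V) : LinearMap.trace F V (cj g A) = LinearMap.trace F V A :=
  LinearMap.trace_conj' A g

lemma trace_PK (hV : Nontrivial V) (A : Module.End F V) : LinearMap.trace F V (PS (KU F K V) A) = LinearMap.trace F V A := by
  have := Fintype.ofFinite Kˣ
  rw [PK_eq hV, map_neg, map_sum]
  simp only [trace_cj]
  rw [Finset.sum_const, Finset.card_univ, ← Nat.cast_smul_eq_nsmul F, ← Nat.card_eq_fintype_card, card_units_F,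
    neg_smul, one_smul, neg_neg]

end PK

lemma cs_KU_of_semi [Finite V] {h : V ≃ₗ[F] V} (hh : Semi K h) (hV : Nontrivial V) : cs h (KU F K V) = KU F K V := by
  have h1 : ∀ x ∈ KU F K V, h * x * h⁻¹ ∈ KU F K V := by
    rintro _ ⟨c, rfl⟩
    obtain ⟨k', hk'⟩ := hh c
    have hk0 : k' ≠ 0 := by
      rintro rfl
      obtain ⟨v, hv⟩ := exists_ne (0 : V)
      have := hk' v
      rw [zero_smul] at this
      have h2 := (LinearEquiv.map_eq_zero_iff h).1 this
      rcases smul_eq_zero.1 h2 with h3 | h3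
      · exact c.ne_zero h3
      · exact hv h3
    refine ⟨Units.mk0 k' hk0, ?_⟩
    rw [eq_mul_inv_iff_mul_eq]
    ext v
    rw [LinearEquiv.mul_apply, LinearEquiv.mul_apply, sK_apply, sK_apply, hk']
    rfl
  -- a finite group
  apply Subgroup.eq_of_le_of_card_ge
  · intro x hx
    have h2 := h1 _ (mem_cs.1 hx)
    have : h * (h⁻¹ * x * h) * h⁻¹ = x := by group
    rwa [this] at h2
  · exact (Nat.card_congr (csEquiv h (KU F K V))).le

end

end Cfsg.Agent.H98.Tr
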