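import Cfsg.Agent.H98.OrE
import Cfsg.Agent.H98.TrB

set_option autoImplicit false
set_option linter.unusedSectionVars false
set_option linter.style.haveILetI false
set_option linter.unusedSimpArgs false

/-!
Extension fields in orthogonal groups, part F: rank one operators, wedges and the averaging operators.
-/

namespace Cfsg.Agent.H98.Or

open Module Cfsg.Agent.H98.Ext Cfsg.Agent.H98.Tr

section

variable {F K X : Type*} [Field F] [Field K] [Algebra F K] [AddCommGroup X] [Module F X] [Module K X]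
  [IsScalarTower F K X] {β : Bt K X}

variable (F) in
/-- the functional `z ↦ tf z x` -/
noncomputable def tl (β : Bt K X) (x : K × X × K) : (K × X × K) →ₗ[F] F where
  toFun z := tf F β z x
  map_add' a b := tf_add_left a b x
  map_smul' c a := by rw [tf_smul_left]; rfl

lemma tl_apply (x z : K × X × K) : tl F β x z = tf F β z x := rfl

variable (F) in
/-- the operator `z ↦ tf z x • y` -/
noncomputable def rk (β : Bt K X) (x y : K × X × K) : Module.End F (K × X × K) := (tl F β x).smulRight y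

lemma rk_apply (x y z : K × X × K) : rk F β x y z = tf F β z x • y := rfl

lemma rk_add_left (x x' y : K × X × K) : rk F β (x + x') y = rk F β x y + rk F β x' y := by
  apply LinearMap.ext; intro z
  rw [LinearMap.add_apply, rk_apply, rk_apply, rk_apply, tf_add_right, add_smul]

lemma rk_add_right (x y y' : K × X × K) : rk F β x (y + y') = rk F β x y + rk F β x y' := by
  apply LinearMap.ext; intro z
  rw [LinearMap.add_apply, rk_apply, rk_apply, rk_apply, smul_add]

lemma cj_rk {g : (K × X × K) ≃ₗ[F] (K × X × K)} (hg : g ∈ iso F β) (x y : K × X × K) :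
    cj g (rk F β x y) = rk F β (g x) (g y) := by
  apply LinearMap.ext; intro z
  rw [cj_apply, rk_apply, rk_apply, map_smul, tf_symm z, iso_inv hg, tf_symm x]

lemma cj_sK_rk (c : Kˣ) (x y : K × X × K) :
    cj (sK F (K × X × K) c) (rk F β x y) = rk F β (((c⁻¹ : Kˣ) : K) • x) ((c : K) • y) := by
  apply LinearMap.ext; intro z
  rw [cj_apply, rk_apply, rk_apply, ← sK_inv, map_smul, sK_apply, sK_apply, tf_ksmul]

/-- the operator `x ∧ y` -/
noncomputable def wd (F : Type*) [Field F] [Algebra F K] [Module F X] [IsScalarTower F K X] (β : Bt K X)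
    (x y : K × X × K) : Module.End F (K × X × K) := rk F β x y - rk F β y x

lemma cj_wd {g : (K × X × K) ≃ₗ[F] (K × X × K)} (hg : g ∈ iso F β) (x y : K × X × K) :
    cj g (wd F β x y) = wd F β (g x) (g y) := by
  rw [wd, wd, cj_sub, cj_rk hg, cj_rk hg]

lemma wd_anti (x y : K × X × K) : wd F β x y = - wd F β y x := by
  rw [wd, wd]; abel

lemma wd_add_left (x x' y : K × X × K) : wd F β (x + x') y = wd F β x y + wd F β x' y := by
  rw [wd, wd, wd, rk_add_left, rk_add_right]; abel

lemma wd_add_right (x y y' : K × X × K) : wd F β x (y + y') = wd F β x y + wd F β x y' := by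
  rw [wd, wd, wd, rk_add_left, rk_add_right]; abel

variable [Finite K] [Finite X]

instance : Nontrivial (K × X × K) := by
  refine ⟨⟨(1, 0, 0), 0, fun h => one_ne_zero (congrArg Prod.fst h)⟩⟩

lemma PK_rk_bal (k : K) (x y : K × X × K) :
    PS (KU F K (K × X × K)) (rk F β (k • x) y) = PS (KU F K (K × X × K)) (rk F β x (k • y)) := by
  have := Fintype.ofFinite Kˣ
  by_cases hk : k = 0
  · rw [hk, zero_smul, zero_smul]
    congr 1
    apply LinearMap.ext; intro z
    rw [rk_apply, rk_apply, smul_zero]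
    have : tf F β z 0 = 0 := by simp [tf, be]
    rw [this, zero_smul]
  rw [PK_eq inferInstance, PK_eq inferInstance]
  congr 1
  simp only [cj_sK_rk]
  refine Fintype.sum_equiv (Equiv.mulLeft (Units.mk0 k hk)⁻¹) _ _ (fun c => ?_)
  have e1 : ∀ c : Kˣ, (((Equiv.mulLeft (Units.mk0 k hk)⁻¹ c)⁻¹ : Kˣ) : K) • x = ((c⁻¹ : Kˣ) : K) • k • x := by
    intro c
    rw [Equiv.coe_mulLeft, mul_inv_rev, inv_inv, Units.val_mul, mul_smul]
    rfl
  have e2 : ∀ c : Kˣ, ((Equiv.mulLeft (Units.mk0 k hk)⁻¹ c : Kˣ) : K) • k • y = (c : K) • y := by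
    intro c
    rw [Equiv.coe_mulLeft, smul_smul, Units.val_mul, mul_right_comm]
    have : (((Units.mk0 k hk)⁻¹ : Kˣ) : K) * k = 1 := (Units.mk0 k hk).inv_mul
    rw [this, one_mul]
  rw [e1, e2]

lemma PS_sub (S : Subgroup ((K × X × K) ≃ₗ[F] (K × X × K))) (A B : Module.End F (K × X × K)) :
    PS S (A - B) = PS S A - PS S B := by
  have h1 := PS_add S (A - B) B
  rw [sub_add_cancel] at h1
  rw [h1, add_sub_cancel_right]

lemma PK_wd_self (k l : K) (x : K × X × K) : PS (KU F K (K × X × K)) (wd F β (k • x) (l • x)) = 0 := by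
  rw [wd, PS_sub, PK_rk_bal, PK_rk_bal, smul_smul, smul_smul, mul_comm, sub_self]

lemma PK_wd (x y : K × X × K) [Fintype Kˣ] :
    PS (KU F K (K × X × K)) (wd F β x y) = - ∑ c : Kˣ, wd F β (((c⁻¹ : Kˣ) : K) • x) ((c : K) • y) := by
  rw [wd, PS_sub, PK_eq inferInstance, PK_eq inferInstance, neg_sub_neg, ← neg_sub]
  congr 1
  have e1 : ∑ c : Kˣ, cj (sK F (K × X × K) c) (rk F β y x) =
      ∑ c : Kˣ, rk F β ((c : K) • y) (((c⁻¹ : Kˣ) : K) • x) := by
    refine Fintype.sum_equiv (Equiv.inv Kˣ) _ _ (fun c => ?_)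
    rw [cj_sK_rk, Equiv.inv_apply, inv_inv]
  rw [e1, ← Finset.sum_sub_distrib]
  refine Finset.sum_congr rfl (fun c _ => ?_)
  rw [cj_sK_rk]
  rfl

lemma trace_rk (x y : K × X × K) : LinearMap.trace F _ (rk F β x y) = tf F β y x := by
  have : FiniteDimensional F (K × X × K) := Module.Finite.of_finite
  rw [rk, LinearMap.trace_smulRight]
  rfl

lemma mem_of_PK_wd {x y : K × X × K} (hx : x ≠ 0) (h : PS (KU F K (K × X × K)) (wd F β x y) = 0) :
    ∃ k : K, y = k • x := by
  by_contra hcon
  have hy : y ∉ Submodule.span K {x} := by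
    intro h1
    obtain ⟨k, hk⟩ := Submodule.mem_span_singleton.1 h1
    exact hcon ⟨k, hk.symm⟩
  obtain ⟨φ, h1, h2⟩ := exists_dual_zero_one K hy
  apply hx
  apply tf_nd (F := F) (β := β)
  intro w
  obtain ⟨B, hB⟩ : ∃ B : Module.End F (K × X × K), ∀ v, B v = φ v • w :=
    ⟨(φ.smulRight w).restrictScalars F, fun v => rfl⟩
  have hBl : ∀ (k : K) v, B (k • v) = k • B v := by
    intro k v
    rw [hB, hB, map_smul, smul_eq_mul, mul_smul]
  have h3 := PK_comp (F := F) (K := K) (V := K × X × K) inferInstance hBl (wd F β x y)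
  rw [h, LinearMap.comp_zero] at h3
  have h4 := trace_PK (F := F) (K := K) (V := K × X × K) inferInstance (B ∘ₗ wd F β x y)
  rw [h3, map_zero] at h4
  have h5 : B ∘ₗ wd F β x y = rk F β x (B y) - rk F β y (B x) := by
    apply LinearMap.ext; intro z
    rw [LinearMap.comp_apply, wd, LinearMap.sub_apply, LinearMap.sub_apply, rk_apply, rk_apply, rk_apply, rk_apply,
      map_sub, map_smul, map_smul]
  rw [h5, map_sub, trace_rk, trace_rk, hB, hB, h1, h2, zero_smul, one_smul] at h4
  have h6 : tf F β 0 y = 0 := by simp [tf, be]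
  rw [h6, sub_zero] at h4
  rw [tf_symm]
  exact h4.symm

end

end Cfsg.Agent.H98.Or
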