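import Cfsg.Agent.H98.TrB

set_option autoImplicit false
set_option linter.unusedSectionVars false
set_option linter.style.haveILetI false
set_option linter.unusedSimpArgs false

/-!
Filtrations on endomorphism rings; counting for stabilisers of conjugates of `KU`.
-/

namespace Cfsg.Agent.H98.Tr

open Module Cfsg.Agent.H98.Ext

section filt

variable {F V : Type*} [Field F] [AddCommGroup V] [Module F V]

/-- The filtration on `End V` induced by a filtration on `V`. -/
def Lf (Vf : ℕ → Submodule F V) (s i : ℕ) : Submodule F (Module.End F V) where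
  carrier := {A | ∀ j v, v ∈ Vf j → A v ∈ Vf (j + i - s)}
  add_mem' {a b} ha hb := fun j v hv => (Vf (j + i - s)).add_mem (ha j v hv) (hb j v hv)
  zero_mem' := fun j v _ => (Vf (j + i - s)).zero_mem
  smul_mem' c a ha := fun j v hv => (Vf (j + i - s)).smul_mem c (ha j v hv)

lemma mem_Lf {Vf : ℕ → Submodule F V} {s i : ℕ} {A : Module.End F V} :
    A ∈ Lf Vf s i ↔ ∀ j v, v ∈ Vf j → A v ∈ Vf (j + i - s) := Iff.rfl

variable {Vf : ℕ → Submodule F V} (hanti : ∀ i, Vf (i + 1) ≤ Vf i)
include hanti

lemma Vf_anti : ∀ i j, i ≤ j → Vf j ≤ Vf i := by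
  intro i j hij
  induction j, hij using Nat.le_induction with
  | base => exact le_rfl
  | succ j _ ih => exact (hanti j).trans ih

lemma Lf_anti (s i : ℕ) : Lf Vf s (i + 1) ≤ Lf Vf s i := by
  intro A hA j v hv
  exact Vf_anti hanti _ _ (by omega) (hA j v hv)

lemma Lf_cj {t : V ≃ₗ[F] V} (ht : ∀ j v, v ∈ Vf j → t v - v ∈ Vf (j + 1))
    (ht' : ∀ j v, v ∈ Vf j → t⁻¹ v - v ∈ Vf (j + 1)) (s i : ℕ) {A : Module.End F V} (hA : A ∈ Lf Vf s i) :
    cj t A - A ∈ Lf Vf s (i + 1) := by
  intro j v hv
  have h1 : t⁻¹ v ∈ Vf j := by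
    have := (Vf j).add_mem (hanti j (ht' j v hv)) hv
    rwa [sub_add_cancel] at this
  have h2 := ht _ _ (hA j _ h1)
  have h3 := hA _ _ (ht' j v hv)
  have e : (cj t A - A) v = (t (A (t⁻¹ v)) - A (t⁻¹ v)) + A (t⁻¹ v - v) := by
    rw [LinearMap.sub_apply, cj_apply, map_sub]
    abel
  rw [e]
  exact (Vf _).add_mem (Vf_anti hanti _ _ (by omega) h2) (Vf_anti hanti _ _ (by omega) h3)

omit hanti in
lemma Lf_bot {s : ℕ} (h0 : Vf 0 = ⊤) (hs : Vf (s + 1) = ⊥) : Lf Vf s (2 * s + 1) = ⊥ := by
  rw [eq_bot_iff]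
  intro A hA
  rw [Submodule.mem_bot]
  apply LinearMap.ext
  intro v
  have h1 := hA 0 v (by rw [h0]; trivial)
  have h2 : 0 + (2 * s + 1) - s = s + 1 := by omega
  rw [h2, hs, Submodule.mem_bot] at h1
  rw [h1]
  rfl

end filt

section indep

variable {p : ℕ} [hp : Fact p.Prime] {A : Type*} [AddCommGroup A] [Module (ZMod p) A] [Finite A]

/-- independent elements modulo a subgroup -/
lemma exists_indep (B : AddSubgroup A) (k : ℕ) (h : p ^ k * Nat.card B < Nat.card A) :
    ∃ y : Fin (k + 1) → A, ∀ n : Fin (k + 1) → ZMod p, ∑ j, n j • y j ∈ B → n = 0 := by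
  let B' : Submodule (ZMod p) A := AddSubgroup.toZModSubmodule p B
  have hB' : Nat.card B' = Nat.card B := rfl
  have h1 : Nat.card A = Nat.card B' * Nat.card (A ⧸ B') := Submodule.card_eq_card_quotient_mul_card B'
  have h2 : Nat.card (A ⧸ B') = p ^ finrank (ZMod p) (A ⧸ B') := by
    have := Module.natCard_eq_pow_finrank (K := ZMod p) (V := A ⧸ B')
    rwa [Nat.card_zmod] at this
  have h3 : k < finrank (ZMod p) (A ⧸ B') := by
    rw [h1, hB', h2, mul_comm] at h
    have h4 : 0 < Nat.card B := Nat.card_pos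
    have h5 := Nat.lt_of_mul_lt_mul_left h
    exact (Nat.pow_lt_pow_iff_right hp.out.one_lt).1 h5
  have : Finite (A ⧸ B') := Finite.of_surjective _ (Submodule.mkQ_surjective B')
  have : Module.Finite (ZMod p) (A ⧸ B') := Module.Finite.of_finite
  let b := Module.finBasis (ZMod p) (A ⧸ B')
  have hsurj := Submodule.mkQ_surjective B'
  choose y hy using fun j : Fin (k + 1) => hsurj (b (Fin.castLE h3 j))
  refine ⟨y, fun n hn => ?_⟩
  have h5 : B'.mkQ (∑ j, n j • y j) = 0 := by
    rw [Submodule.mkQ_apply, Submodule.Quotient.mk_eq_zero]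
    exact hn
  rw [map_sum] at h5
  simp only [map_smul, hy] at h5
  have h6 : LinearIndependent (ZMod p) (fun j : Fin (k + 1) => b (Fin.castLE h3 j)) :=
    b.linearIndependent.comp _ (Fin.castLE_injective h3)
  rw [Fintype.linearIndependent_iff] at h6
  funext j
  exact h6 n h5 j

end indep

section semi

variable {F K V : Type*} [Field F] [Field K] [Algebra F K] [AddCommGroup V] [Module F V] [Module K V]
  [IsScalarTower F K V]

lemma exists_alg_of_semi [Nontrivial V] {g : V ≃ₗ[F] V} (hg : Semi K g) :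
    ∃ σ : K →ₐ[F] K, ∀ (k : K) (v : V), g (k • v) = σ k • g v := by
  choose σ hσ using hg
  obtain ⟨v, hv⟩ := exists_ne (0 : V)
  have hgv : g v ≠ 0 := by
    intro h
    exact hv ((LinearEquiv.map_eq_zero_iff g).1 h)
  have hinj : ∀ a b : K, a • g v = b • g v → a = b := by
    intro a b hab
    have : (a - b) • g v = 0 := by rw [sub_smul, hab, sub_self]
    exact sub_eq_zero.1 ((smul_eq_zero.1 this).resolve_right hgv)
  refine ⟨{ toFun := σ
            map_one' := ?_
            map_mul' := ?_
            map_zero' := ?_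
            map_add' := ?_
            commutes' := ?_ }, hσ⟩
  · apply hinj
    rw [← hσ, one_smul, one_smul]
  · intro a b
    apply hinj
    rw [← hσ, mul_smul, hσ, hσ, mul_smul]
  · apply hinj
    rw [← hσ, zero_smul, map_zero, zero_smul]
  · intro a b
    apply hinj
    rw [← hσ, add_smul, map_add, hσ, hσ, add_smul]
  · intro c
    apply hinj
    change σ (algebraMap F K c) • g v = _
    rw [← hσ, algebraMap_smul, algebraMap_smul, map_smul]

lemma semi_of_cs {g : V ≃ₗ[F] V} (hg : cs g (KU F K V) = KU F K V) : Semi K g := by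
  intro k
  by_cases hk : k = 0
  · exact ⟨0, fun v => by rw [hk, zero_smul, zero_smul, map_zero]⟩
  have h1 : g * sK F V (Units.mk0 k hk) * g⁻¹ ∈ KU F K V := by
    rw [← hg, mem_cs]
    have : g⁻¹ * (g * sK F V (Units.mk0 k hk) * g⁻¹) * g = sK F V (Units.mk0 k hk) := by group
    rw [this]
    exact ⟨_, rfl⟩
  obtain ⟨c, hc⟩ := h1
  refine ⟨c, fun v => ?_⟩
  have h2 : sK F V c * g = g * sK F V (Units.mk0 k hk) := by
    change sK F V c = _ at hc
    rw [hc]; group
  have h3 := LinearEquiv.congr_fun h2 v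
  rw [LinearEquiv.mul_apply, LinearEquiv.mul_apply, sK_apply, sK_apply] at h3
  exact h3.symm

/-- Counting: the stabiliser of `S` in an additive family versus the centraliser. -/
lemma card_stab_le [Finite K] [Finite V] [Nontrivial V] {A : Type*} [AddCommGroup A] [Finite A] (t : A → (V ≃ₗ[F] V))
    (ht : ∀ a b, t (a + b) = t a * t b) (ht0 : t 0 = 1) (h : V ≃ₗ[F] V) (B C : AddSubgroup A)
    (hB : ∀ a ∈ B, cs (t a) (cs h (KU F K V)) = cs h (KU F K V))
    (hC : ∀ a, (∀ s ∈ cs h (KU F K V), t a * s = s * t a) → a ∈ C) :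
    Nat.card B ≤ finrank F K * Nat.card C := by
  classical
  have : FiniteDimensional F K := Module.Finite.of_finite
  have hsemi : ∀ a : B, ∃ σ : K →ₐ[F] K, ∀ (k : K) (v : V), (h⁻¹ * t a * h) (k • v) = σ k • (h⁻¹ * t a * h) v := by
    intro a
    apply exists_alg_of_semi
    apply semi_of_cs
    rw [cs_mul, cs_mul, hB a a.2, cs_cancel]
  choose σ hσ using hsemi
  have hfB := Fintype.ofFinite B
  have hfC := Fintype.ofFinite C
  have h1 := Finset.card_le_mul_card_image (f := σ) (Finset.univ : Finset B) (Nat.card C) (by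
    intro τ hτ
    obtain ⟨a₀, -, ha₀⟩ := Finset.mem_image.1 hτ
    have hinj : (Finset.univ.filter (fun x : B => σ x = τ)).card ≤ (Finset.univ : Finset C).card := by
      have hmem : ∀ x : B, σ x = τ → (x : A) - a₀ ∈ C := by
        intro x hx
        apply hC
        intro s hs
        obtain ⟨c, hc⟩ := hs
        change sK F V c = h⁻¹ * s * h at hc
        -- x' = h⁻¹ t x h, a' = h⁻¹ t a₀ h
        have hneg : t (-(a₀ : A)) = (t a₀)⁻¹ := by
          rw [eq_inv_iff_mul_eq_one, ← ht, neg_add_cancel, ht0]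
        have e0 : t ((x : A) - a₀) = t x * (t a₀)⁻¹ := by rw [sub_eq_add_neg, ht, hneg]
        obtain ⟨x', hx'⟩ : ∃ x', x' = h⁻¹ * t x * h := ⟨_, rfl⟩
        obtain ⟨a', ha'⟩ : ∃ a', a' = h⁻¹ * t a₀ * h := ⟨_, rfl⟩
        have e1 : ∀ (k : K) v, x' (k • v) = τ k • x' v := by
          intro k v; rw [hx', ← hx]; exact hσ x k v
        have e2 : ∀ (k : K) v, a' (k • v) = τ k • a' v := by
          intro k v; rw [ha', ← ha₀]; exact hσ a₀ k v
        have e3 : (x' * a'⁻¹) * sK F V c = sK F V c * (x' * a'⁻¹) := by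
          have hτ0 : (τ (c : K)) ≠ 0 := by
            intro h0
            exact c.ne_zero ((map_eq_zero_iff τ τ.toRingHom.injective).1 h0)
          have e4 : ∀ g : V ≃ₗ[F] V, (∀ (k : K) v, g (k • v) = τ k • g v) →
              g * sK F V c = sK F V (Units.mk0 _ hτ0) * g := by
            intro g hg
            ext v
            rw [LinearEquiv.mul_apply, LinearEquiv.mul_apply, sK_apply, sK_apply, hg]
            rfl
          have e5 := e4 x' e1
          have e6 := e4 a' e2
          -- need commuting with `c`: use surjectivity of τ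
          obtain ⟨d, hd⟩ : ∃ d : K, τ d = c := by
            have hs : Function.Surjective τ := Finite.injective_iff_surjective.1 τ.toRingHom.injective
            exact hs c
          have hd0 : d ≠ 0 := by
            rintro rfl
            rw [map_zero] at hd
            exact c.ne_zero hd.symm
          have e7 : ∀ g : V ≃ₗ[F] V, (∀ (k : K) v, g (k • v) = τ k • g v) →
              g * sK F V (Units.mk0 d hd0) = sK F V c * g := by
            intro g hg
            ext v
            rw [LinearEquiv.mul_apply, LinearEquiv.mul_apply, sK_apply, sK_apply, hg]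
            change τ d • g v = _
            rw [hd]
          have e8 := e7 x' e1
          have e9 := e7 a' e2
          have e10 : a'⁻¹ * sK F V c = sK F V (Units.mk0 d hd0) * a'⁻¹ := by
            rw [inv_mul_eq_iff_eq_mul, ← mul_assoc, e9, mul_assoc, mul_inv_cancel, mul_one]
          rw [mul_assoc, e10, ← mul_assoc, e8, mul_assoc]
        rw [e0]
        have e4 : t x * (t a₀)⁻¹ = h * (x' * a'⁻¹) * h⁻¹ := by rw [hx', ha']; group
        have e5 : s = h * sK F V c * h⁻¹ := by rw [hc]; group
        rw [e4, e5]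
        calc h * (x' * a'⁻¹) * h⁻¹ * (h * sK F V c * h⁻¹) = h * ((x' * a'⁻¹) * sK F V c) * h⁻¹ := by group
          _ = h * (sK F V c * (x' * a'⁻¹)) * h⁻¹ := by rw [e3]
          _ = _ := by group
      refine Finset.card_le_card_of_injOn (fun x => if hx : σ x = τ then ⟨(x : A) - a₀, hmem x hx⟩ else 0) ?_ ?_
      · intro x _; exact Finset.mem_univ _
      · intro x hx y hy hxy
        have hx' : σ x = τ := (Finset.mem_filter.1 hx).2
        have hy' : σ y = τ := (Finset.mem_filter.1 hy).2
        simp only [hx', hy', dif_pos] at hxy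
        have := congrArg Subtype.val hxy
        apply Subtype.ext
        exact sub_left_injective this
    rw [Finset.card_univ, ← Nat.card_eq_fintype_card (α := C)] at hinj
    exact hinj)
  have h2 : (Finset.univ.image σ).card ≤ finrank F K :=
    (Finset.card_le_univ _).trans AlgHom.card_le
  rw [Finset.card_univ, ← Nat.card_eq_fintype_card] at h1
  calc Nat.card B ≤ Nat.card C * (Finset.univ.image σ).card := h1
    _ ≤ Nat.card C * finrank F K := Nat.mul_le_mul le_rfl h2
    _ = _ := mul_comm _ _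

end semi

end Cfsg.Agent.H98.Tr
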