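import Cfsg.Agent.H98.OrF
import Cfsg.Agent.H98.TrC

set_option autoImplicit false
set_option linter.unusedSectionVars false
set_option linter.style.haveILetI false
set_option linter.unusedSimpArgs false

/-!
Extension fields in orthogonal groups, part G: when `ZZ H = 0` the group `H` is semilinear.
-/

namespace Cfsg.Agent.H98.Or

open Module Cfsg.Agent.H98.Ext Cfsg.Agent.H98.Tr

section

variable {F K X : Type*} [Field F] [Field K] [Algebra F K] [AddCommGroup X] [Module F X] [Module K X]
  [IsScalarTower F K X] {β : Bt K X} {Om H : Subgroup ((K × X × K) ≃ₗ[F] (K × X × K))}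

variable (F K X) in
/-- The filtration of `V`. -/
def Vf : ℕ → Submodule F (K × X × K)
  | 0 => ⊤
  | 1 => { carrier := {v | v.2.2 = 0}
           add_mem' := fun {a b} ha hb => by
             change a.2.2 + b.2.2 = 0
             rw [show a.2.2 = 0 from ha, show b.2.2 = 0 from hb, add_zero]
           zero_mem' := rfl
           smul_mem' := fun c a ha => by
             change c • a.2.2 = 0
             rw [show a.2.2 = 0 from ha, smul_zero] }
  | 2 => { carrier := {v | v.2 = 0}
           add_mem' := fun {a b} ha hb => by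
             change a.2 + b.2 = 0
             rw [show a.2 = 0 from ha, show b.2 = 0 from hb, add_zero]
           zero_mem' := rfl
           smul_mem' := fun c a ha => by
             change c • a.2 = 0
             rw [show a.2 = 0 from ha, smul_zero] }
  | _ + 3 => ⊥

lemma Vf_anti' (i : ℕ) : Vf F K X (i + 1) ≤ Vf F K X i := by
  match i with
  | 0 => exact le_top
  | 1 =>
    intro v hv
    change v.2.2 = 0
    rw [show v.2 = 0 from hv]
    rfl
  | 2 => exact bot_le
  | n + 3 => exact bot_le

lemma tF_Vf (u : X) (j : ℕ) (v : K × X × K) (hv : v ∈ Vf F K X j) : tF F β u v - v ∈ Vf F K X (j + 1) := by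
  match j with
  | 0 =>
    change (tF F β u v - v).2.2 = 0
    rw [tF_apply]
    simp
  | 1 =>
    change (tF F β u v - v).2 = 0
    have h : v.2.2 = 0 := hv
    rw [tF_apply]
    ext
    · simp [h]
    · simp
  | 2 =>
    have h : v.2 = 0 := hv
    change _ ∈ (⊥ : Submodule F (K × X × K))
    rw [Submodule.mem_bot, tF_apply]
    ext
    · simp [h]
    · simp [h]
    · simp
  | n + 3 =>
    have h : v ∈ (⊥ : Submodule F (K × X × K)) := hv
    rw [Submodule.mem_bot] at h
    change _ ∈ (⊥ : Submodule F (K × X × K))
    rw [h, map_zero, sub_zero]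
    exact Submodule.zero_mem _

variable [Finite K] [Finite X] [Nontrivial X]

/-- an element of `H` mapping `W` into a `K`-line is semilinear -/
lemma semi_of_line (hy : Hyp β Om H) (hZ : ∀ S ∈ ZZ H, S = 0) {h : (K × X × K) ≃ₗ[F] (K × X × K)} (hh : h ∈ H)
    (hl : ∀ k : K, ∃ c : K, h (k, 0, 0) = c • h (1, 0, 0)) : Semi K h := by
  obtain ⟨v₀, hv₀⟩ : ∃ v₀, v₀ = h (1, 0, 0) := ⟨_, rfl⟩
  rw [← hv₀] at hl
  have hv0 : v₀ ≠ 0 := by
    rw [hv₀]
    intro h0
    have := (LinearEquiv.map_eq_zero_iff h).1 h0
    exact one_ne_zero (congrArg Prod.fst this)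
  choose c hc using hl
  have hinj : Function.Injective c := by
    intro a b hab
    have h1 := hc a
    rw [hab, ← hc b] at h1
    exact congrArg Prod.fst (h.injective h1)
  have hsurj := Finite.injective_iff_surjective.1 hinj
  have hs : be β v₀ v₀ = 0 := by
    apply be_of_tf (F := F)
    intro k
    obtain ⟨a, ha⟩ := hsurj k
    rw [← ha, ← hc a, hv₀, (mem_iso.1 (hy.iso hh))]
    simp [tf, be]
  obtain ⟨g, hg1, hg2, hg3⟩ := hy.exists_move hv0 hs
  have h1 : Semi K (g.restrictScalars F * h) := by
    apply stab_semi hy hZ (H.mul_mem hg1 hh)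
    intro a
    rw [LinearEquiv.mul_apply, hc a]
    change (g (c a • v₀)).2 = 0
    rw [map_smul, Prod.smul_snd, hg3, smul_zero]
  intro k
  obtain ⟨k', hk'⟩ := h1 k
  refine ⟨k', fun v => ?_⟩
  apply g.injective
  have h2 := hk' v
  rw [LinearEquiv.mul_apply, LinearEquiv.mul_apply] at h2
  change g (h (k • v)) = k' • g (h v) at h2
  rw [h2, map_smul]

/-- if a large part of the radical centralises a conjugate of `KU`, the conjugate is `KU` -/
lemma eq_KU_of_span (hy : Hyp β Om H) (hZ : ∀ S ∈ ZZ H, S = 0) {h : (K × X × K) ≃ₗ[F] (K × X × K)} (hh : h ∈ H)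
    {C : Set X} (hC : ∀ u ∈ C, ∀ s ∈ cs h (KU F K (K × X × K)), tF F β u * s = s * tF F β u)
    (hspan : Submodule.span K C = ⊤) : cs h (KU F K (K × X × K)) = KU F K (K × X × K) := by
  -- the fixed space of `C` is `W`
  have hfix : ∀ v : K × X × K, (∀ u ∈ C, tF F β u v = v) → v.2 = 0 := by
    intro v hv
    have h1 : v.2.2 = 0 := by
      by_contra hne
      have h2 : ∀ u ∈ C, u = 0 := by
        intro u hu
        have h3 := congrArg (fun t => t.2.1) (hv u hu)
        rw [tF_apply] at h3
        simp at h3
        exact h3.resolve_left hne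
      have h3 : Submodule.span K C = ⊥ := by
        rw [Submodule.span_eq_bot]
        exact h2
      rw [h3] at hspan
      exact bot_ne_top hspan
    have h2 : v.2.1 = 0 := by
      apply β.nd
      intro y
      have h3 : y ∈ Submodule.span K C := by rw [hspan]; trivial
      induction h3 using Submodule.span_induction with
      | mem u hu =>
        have h3 := congrArg Prod.fst (hv u hu)
        rw [tF_apply] at h3
        simp [h1] at h3
        exact h3
      | zero => rw [map_zero]
      | add a b _ _ ha hb => rw [map_add, ha, hb, add_zero]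
      | smul c a _ ha => rw [map_smul, ha, smul_zero]
    exact Prod.ext h2 h1
  have hW : ∀ s ∈ cs h (KU F K (K × X × K)), ∀ a : K, (s (a, 0, 0)).2 = 0 := by
    intro s hs a
    apply hfix
    intro u hu
    have h1 := LinearEquiv.congr_fun (hC u hu s hs) (a, 0, 0)
    rw [LinearEquiv.mul_apply, LinearEquiv.mul_apply] at h1
    rw [h1]
    congr 1
    rw [tF_apply]
    ext <;> simp
  have h3 : Semi K h⁻¹ := by
    apply semi_of_line hy hZ (H.inv_mem hh)
    -- `h⁻¹ W` is a `K`-subspace
    have h4 : ∀ (c : Kˣ) (a : K), ∃ a' : K, (c : K) • h⁻¹ (a, 0, 0) = h⁻¹ (a', 0, 0) := by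
      intro c a
      have h5 := hW (h * sK F (K × X × K) c * h⁻¹) (by
        rw [mem_cs]
        have : h⁻¹ * (h * sK F (K × X × K) c * h⁻¹) * h = sK F (K × X × K) c := by group
        rw [this]
        exact ⟨c, rfl⟩) a
      refine ⟨((h * sK F (K × X × K) c * h⁻¹) (a, 0, 0)).1, ?_⟩
      have h6 : (((h * sK F (K × X × K) c * h⁻¹) (a, 0, 0)).1, 0, 0) = (h * sK F (K × X × K) c * h⁻¹) (a, 0, 0) :=
        Prod.ext rfl h5.symm
      rw [h6, LinearEquiv.mul_apply, LinearEquiv.mul_apply, inv_ap, sK_apply]
    have h5 : ∀ c : K, ∃ a' : K, c • h⁻¹ (1, 0, 0) = h⁻¹ (a', 0, 0) := by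
      intro c
      by_cases hc : c = 0
      · exact ⟨0, by rw [hc, zero_smul, show ((0, 0, 0) : K × X × K) = 0 from rfl, map_zero]⟩
      · exact h4 (Units.mk0 c hc) 1
    choose a ha using h5
    have hv0 : h⁻¹ ((1, 0, 0) : K × X × K) ≠ 0 := by
      intro h0
      have := (LinearEquiv.map_eq_zero_iff h⁻¹).1 h0
      exact one_ne_zero (congrArg Prod.fst this)
    have hinj : Function.Injective a := by
      intro c d hcd
      have h1 := ha c
      rw [hcd, ← ha d] at h1
      have h2 : (c - d) • h⁻¹ ((1, 0, 0) : K × X × K) = 0 := by rw [sub_smul, h1, sub_self]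
      exact sub_eq_zero.1 ((smul_eq_zero.1 h2).resolve_right hv0)
    have hsurj := Finite.injective_iff_surjective.1 hinj
    intro k
    obtain ⟨c, hc⟩ := hsurj k
    exact ⟨c, by rw [ha, hc]⟩
  have h4 : cs h⁻¹ (KU F K (K × X × K)) = KU F K (K × X × K) := cs_KU_of_semi h3 inferInstance
  have h5 := cs_cancel h⁻¹ (KU F K (K × X × K))
  rw [inv_inv, h4] at h5
  exact h5

/-- The trace lemma. -/
theorem PH_fixed (hy : Hyp β Om H) (hZ : ∀ S ∈ ZZ H, S = 0) {p : ℕ} [hp : Fact p.Prime] [CharP F p]
    (hp2 : 2 < p) (hr : 2 ≤ finrank F K) (hX : p ^ 2 < Nat.card X) {A : Module.End F (K × X × K)}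
    (hA : ∀ u, cj (tF F β u) A = A) : PH K H A = PS (KU F K (K × X × K)) A := by
  classical
  have h2 := hy.two
  have hpX : ∀ x : X, p • x = 0 := by
    intro x
    rw [← Nat.cast_smul_eq_nsmul F, CharP.cast_eq_zero, zero_smul]
  letI : Module (ZMod p) X := AddCommGroup.zmodModule hpX
  have hfX := Fintype.ofFinite (XX K H)
  have : FiniteDimensional F K := Module.Finite.of_finite
  have hfF : Finite F := Finite.of_injective _ (algebraMap F K).injective
  rw [PH_eq]
  let s₀ : XX K H := ⟨KU F K (K × X × K), 1, H.one_mem, (cs_one _).symm⟩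
  have hcomm : ∀ u, ∀ s ∈ KU F K (K × X × K), tF F β u * s = s * tF F β u := by
    rintro u _ ⟨c, rfl⟩
    apply LinearEquiv.ext
    intro v
    rw [LinearEquiv.mul_apply, LinearEquiv.mul_apply, sK_apply, sK_apply]
    exact map_smul (tK β u) _ v
  let ρ : X → Module.End F (Module.End F (K × X × K)) := fun u =>
    { toFun := fun B => cj (tF F β u) B
      map_add' := cj_add _
      map_smul' := cj_smul _ }
  have hρ : ∀ u B, ρ u B = cj (tF F β u) B := fun u B => rfl
  have main := trace_sum (F := F) (M := Module.End F (K × X × K)) (A := X) (p := p) hp2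
    (act := fun u S => actX (tF F β u) (hy.t_mem u) S)
    (act0 := fun S => Subtype.ext (by change cs (tF F β 0) S.1 = S.1; rw [tF_zero, cs_one]))
    (acta := fun a b S => Subtype.ext (by
      change cs (tF F β (a + b)) S.1 = cs (tF F β a) (cs (tF F β b) S.1)
      rw [← tF_mul h2, cs_mul]))
    ρ (by ext B : 1; rw [hρ, tF_zero, cj_one]; rfl)
    (by intro a b; ext B : 1; rw [hρ, ← tF_mul h2, cj_mul]; rfl)
    (Lf (Vf F K X) 2) (by
      intro a i B hB
      rw [hρ]
      refine Lf_cj Vf_anti' (tF_Vf a) (fun j v hv => ?_) 2 i hB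
      rw [← tF_neg h2]
      exact tF_Vf (-a) j v hv) (fun i => Lf_anti Vf_anti' 2 i) 5 (Lf_bot (s := 2) rfl rfl)
    (fun S => PS S.1 A) (by
      intro a S
      change PS (cs (tF F β a) S.1) A = cj (tF F β a) (PS S.1 A)
      rw [← PS_cs, hA]) s₀ (by
      intro a
      apply Subtype.ext
      change cs (tF F β a) (KU F K (K × X × K)) = KU F K (K × X × K)
      exact cs_KU_of_semi (semi_of_lin (tK β a)) inferInstance) ?_
  · exact main
  · intro S hS
    obtain ⟨S, h, hh, rfl⟩ := S
    -- the stabiliser
    let B : AddSubgroup X :=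
      { carrier := {u | cs (tF F β u) (cs h (KU F K (K × X × K))) = cs h (KU F K (K × X × K))}
        add_mem' := by
          intro a b ha hb
          change cs (tF F β (a + b)) _ = _
          rw [← tF_mul h2, cs_mul, show cs (tF F β b) _ = _ from hb, show cs (tF F β a) _ = _ from ha]
        zero_mem' := by
          change cs (tF F β 0) _ = _
          rw [tF_zero, cs_one]
        neg_mem' := by
          intro a ha
          change cs (tF F β (-a)) _ = _
          rw [tF_neg h2]
          conv_lhs => rw [← show cs (tF F β a) _ = _ from ha]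
          rw [cs_cancel] }
    let C : AddSubgroup X :=
      { carrier := {u | ∀ s ∈ cs h (KU F K (K × X × K)), tF F β u * s = s * tF F β u}
        add_mem' := by
          intro a b ha hb s hs
          rw [← tF_mul h2, mul_assoc, hb s hs, ← mul_assoc, ha s hs, mul_assoc]
        zero_mem' := by
          intro s hs
          rw [tF_zero, one_mul, mul_one]
        neg_mem' := by
          intro a ha s hs
          rw [tF_neg h2, inv_mul_eq_iff_eq_mul, ← mul_assoc, ha s hs, mul_assoc, mul_inv_cancel, mul_one] }
    have hC : Nat.card C * Nat.card K ≤ Nat.card X := by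
      have hlt : Submodule.span K (C : Set X) < ⊤ := by
        rw [lt_top_iff_ne_top]
        intro htop
        apply hS
        apply Subtype.ext
        exact eq_KU_of_span hy hZ hh (C := (C : Set X)) (fun u hu => hu) htop
      obtain ⟨φ, hφ, hle⟩ := Submodule.exists_le_ker_of_lt_top _ hlt
      have h3 : Nat.card X = Nat.card (LinearMap.ker φ) * Nat.card (X ⧸ LinearMap.ker φ) :=
        Submodule.card_eq_card_quotient_mul_card _
      have h4 : Nat.card (X ⧸ LinearMap.ker φ) = Nat.card K := by
        apply Nat.card_congr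
        exact (φ.quotKerEquivOfSurjective (LinearMap.surjective hφ)).toEquiv
      have h5 : Nat.card C ≤ Nat.card (LinearMap.ker φ) := by
        refine Nat.card_le_card_of_injective (fun u : C => (⟨u, hle (Submodule.subset_span u.2)⟩ : LinearMap.ker φ)) ?_
        intro u v huv
        exact Subtype.ext (congrArg (fun t : LinearMap.ker φ => (t : X)) huv)
      rw [h3, h4]
      exact Nat.mul_le_mul h5 le_rfl
    have hBC := card_stab_le (F := F) (K := K) (V := K × X × K) (A := X) (fun u => tF F β u)
      (fun a b => (tF_mul h2 a b).symm) tF_zero h B C (fun a ha => ha) (fun a ha => ha)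
    have hstab : ∀ u, actX (tF F β u) (hy.t_mem u) (⟨cs h (KU F K (K × X × K)), h, hh, rfl⟩ : XX K H) =
        ⟨cs h (KU F K (K × X × K)), h, hh, rfl⟩ ↔ u ∈ B := by
      intro u
      constructor
      · intro h3
        exact congrArg Subtype.val h3
      · intro h3
        exact Subtype.ext h3
    -- the index of `B` is larger than `p`
    have hindex : p ^ 1 * Nat.card B < Nat.card X := by
      have hq : Nat.card K = Nat.card F ^ finrank F K := Module.natCard_eq_pow_finrank
      have hpF : p ≤ Nat.card F := by
        have hfF' := Fintype.ofFinite F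
        rw [Nat.card_eq_fintype_card]
        obtain ⟨n, -, hn⟩ := FiniteField.card F p
        rw [hn]
        exact Nat.le_self_pow n.ne_zero p
      have hKp : p * finrank F K < Nat.card K := by
        rw [hq]
        obtain ⟨r, hr'⟩ : ∃ r, finrank F K = r + 1 := ⟨finrank F K - 1, by omega⟩
        rw [hr', pow_succ, mul_comm]
        have h3 : r + 1 < Nat.card F ^ r := by
          have h4 : 3 ≤ Nat.card F := by omega
          have h5 : 1 ≤ r := by omega
          calc r + 1 < 3 ^ r := by
                clear * - h5
                induction r, h5 using Nat.le_induction with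
                | base => norm_num
                | succ n hn ih => rw [pow_succ]; omega
            _ ≤ Nat.card F ^ r := Nat.pow_le_pow_left h4 r
        calc (r + 1) * p < Nat.card F ^ r * p := Nat.mul_lt_mul_of_pos_right h3 hp.out.pos
          _ ≤ Nat.card F ^ r * Nat.card F := Nat.mul_le_mul le_rfl hpF
      have hCpos : 0 < Nat.card C := Nat.card_pos
      calc p ^ 1 * Nat.card B = p * Nat.card B := by rw [pow_one]
        _ ≤ p * (finrank F K * Nat.card C) := Nat.mul_le_mul le_rfl hBC
        _ = (p * finrank F K) * Nat.card C := by ring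
        _ < Nat.card K * Nat.card C := Nat.mul_lt_mul_of_pos_right hKp hCpos
        _ = Nat.card C * Nat.card K := mul_comm _ _
        _ ≤ Nat.card X := hC
    by_cases hB0 : ∃ u ∈ B, u ≠ 0
    · obtain ⟨u, hu, hu0⟩ := hB0
      obtain ⟨y, hy'⟩ := exists_indep (p := p) B 1 hindex
      refine ⟨2, 1, y, ?_, by norm_num, ?_⟩
      · intro n hn
        exact hy' n ((hstab _).1 hn)
      · intro S' hS'
        -- `PS S' A` commutes with `tF u`
        have h3 : cs (tF F β u) S'.1 = S'.1 := by
          have := (hS' u).2 ((hstab u).2 hu)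
          exact congrArg Subtype.val this
        have h4 : cj (tF F β u) (PS S'.1 A) = PS S'.1 A := by
          rw [← PS_cs, h3, hA]
        rw [cj_eq_iff] at h4
        rw [mem_Lf]
        intro j v hv
        match j with
        | 0 => exact Submodule.mem_top
        | 1 => exact Submodule.mem_top
        | 2 =>
          change (PS S'.1 A v).2.2 = 0
          have h5 : tF F β u v = v := by
            have := tF_Vf (F := F) (β := β) u 2 v hv
            rw [← sub_eq_zero]
            exact (Submodule.mem_bot F).1 this
          have h6 := h4 v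
          rw [h5, tF_apply] at h6
          have h7 := congrArg (fun t => t.2.1) h6
          simp only [add_eq_left] at h7
          exact (smul_eq_zero.1 h7).resolve_right hu0
        | n + 3 =>
          have h5 : v = 0 := (Submodule.mem_bot F).1 hv
          rw [h5, map_zero]
          exact Submodule.zero_mem _
    · push Not at hB0
      have hB1 : Nat.card B = 1 := by
        rw [Nat.card_eq_one_iff_unique]
        refine ⟨⟨fun a b => Subtype.ext ?_⟩, ⟨0⟩⟩
        rw [hB0 a a.2, hB0 b b.2]
      obtain ⟨y, hy'⟩ := exists_indep (p := p) B 2 (by rw [hB1, mul_one]; exact hX)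
      refine ⟨3, 0, y, ?_, by norm_num, ?_⟩
      · intro n hn
        exact hy' n ((hstab _).1 hn)
      · intro S' _
        rw [mem_Lf]
        intro j v hv
        match j with
        | 0 => exact Submodule.mem_top
        | 1 => exact Submodule.mem_top
        | 2 => exact Submodule.mem_top
        | n + 3 =>
          have h5 : v = 0 := (Submodule.mem_bot F).1 hv
          rw [h5, map_zero]
          exact Submodule.zero_mem _

end

end Cfsg.Agent.H98.Or
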