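import Cfsg.Agent.H98.OrG

set_option autoImplicit false
set_option linter.unusedSectionVars false
set_option linter.style.haveILetI false
set_option linter.unusedSimpArgs false

/-!
Extension fields in orthogonal groups, part H: conclusion of the case `ZZ H = 0`.
-/

namespace Cfsg.Agent.H98.Or

open Module Cfsg.Agent.H98.Ext Cfsg.Agent.H98.Tr

section

variable {F K X : Type*} [Field F] [Field K] [Algebra F K] [AddCommGroup X] [Module F X] [Module K X]
  [IsScalarTower F K X] {β : Bt K X} {Om H : Subgroup ((K × X × K) ≃ₗ[F] (K × X × K))}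
  [Finite K] [Finite X] [Nontrivial X]

theorem cj_zero (g : (K × X × K) ≃ₗ[F] (K × X × K)) : cj g (0 : Module.End F (K × X × K)) = 0 := by
  apply LinearMap.ext
  intro v
  rw [cj_apply, LinearMap.zero_apply, map_zero, LinearMap.zero_apply]

theorem semi_of_ZZ (hy : Hyp β Om H) (hZ : ∀ S ∈ ZZ H, S = 0) {p : ℕ} [hp : Fact p.Prime] [CharP F p]
    (hp2 : 2 < p) (hr : 2 ≤ finrank F K) (hX : p ^ 2 < Nat.card X) {h : (K × X × K) ≃ₗ[F] (K × X × K)}
    (hh : h ∈ H) : Semi K h := by
  have h2 := hy.two
  have hchK : CharP K p := charP_of_injective_algebraMap (algebraMap F K).injective p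
  have : FiniteDimensional F K := Module.Finite.of_finite
  have hfF : Finite F := Finite.of_injective _ (algebraMap F K).injective
  have hfix := fun {A : Module.End F (K × X × K)} (hA : ∀ u, cj (tF F β u) A = A) =>
    PH_fixed hy hZ hp2 hr hX hA
  -- a large enough field
  have h9 : ∃ α : K, α ≠ 0 ∧ α ≠ 1 ∧ α ≠ -1 := by
    have hq : Nat.card K = Nat.card F ^ finrank F K := Module.natCard_eq_pow_finrank
    have hpF : p ≤ Nat.card F := by
      have hfF' := Fintype.ofFinite F
      rw [Nat.card_eq_fintype_card]
      obtain ⟨n, -, hn⟩ := FiniteField.card F p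
      rw [hn]
      exact Nat.le_self_pow n.ne_zero p
    have h3 : 3 < Nat.card K := by
      rw [hq]
      calc 3 < 3 ^ 2 := by norm_num
        _ ≤ Nat.card F ^ 2 := Nat.pow_le_pow_left (by omega) 2
        _ ≤ Nat.card F ^ finrank F K := Nat.pow_le_pow_right (by omega) hr
    by_contra hcon
    push Not at hcon
    classical
    have hfK := Fintype.ofFinite K
    have h4 : (Finset.univ : Finset K) ⊆ {0, 1, -1} := by
      intro α _
      by_cases h0 : α = 0
      · simp [h0]
      · by_cases h1 : α = 1
        · simp [h1]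
        · simp [hcon α h0 h1]
    have h5 := Finset.card_le_card h4
    rw [Finset.card_univ, ← Nat.card_eq_fintype_card] at h5
    have h6 : ({0, 1, -1} : Finset K).card ≤ 3 := Finset.card_le_three
    omega
  -- the map φ
  let φ : (K × X × K) →+ (K × X × K) →+ Module.End F (K × X × K) :=
    AddMonoidHom.mk' (fun x => AddMonoidHom.mk' (fun y => PHl K H (wd F β x y)) (by
      intro a b
      rw [wd_add_right, map_add])) (by
      intro a b
      ext y : 1
      change PHl K H (wd F β (a + b) y) = PHl K H (wd F β a y) + PHl K H (wd F β b y)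
      rw [wd_add_left, map_add])
  have hφ : ∀ x y, φ x y = PH K H (wd F β x y) := fun x y => rfl
  have hanti : ∀ x y, φ x y = - φ y x := by
    intro x y
    change PHl K H (wd F β x y) = - PHl K H (wd F β y x)
    rw [wd_anti, map_neg]
  have hW : ∀ a b : K, PH K H (wd F β (a, 0, 0) (b, 0, 0)) = 0 := by
    intro a b
    rw [hfix (fun u => by
      rw [cj_wd (tF_iso h2 u)]
      congr 1
      · rw [tF_apply]; ext <;> simp
      · rw [tF_apply]; ext <;> simp)]
    have := PK_wd_self (F := F) (β := β) a b (1, 0, 0)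
    have e1 : ∀ a : K, a • ((1, 0, 0) : K × X × K) = (a, 0, 0) := by intro a; ext <;> simp
    rw [e1, e1] at this
    exact this
  have hs : ∀ u, be β u u = 0 → ∀ k l : K, φ (k • u) (l • u) = 0 := by
    intro u hu k l
    by_cases hu0 : u = 0
    · rw [hu0, smul_zero, map_zero]; rfl
    obtain ⟨g, hg1, hg2, hg3⟩ := hy.exists_move hu0 hu
    have h3 := PH_cj (K := K) hg1 (wd F β (k • u) (l • u))
    rw [cj_wd (iso_of_klin hg2)] at h3
    have e1 : ∀ k : K, (g.restrictScalars F) (k • u) = (k * (g u).1, 0, 0) := by
      intro k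
      change g (k • u) = _
      rw [map_smul]
      ext
      · simp
      · simp [hg3]
      · simp [hg3]
    rw [e1, e1, hW] at h3
    have h4 := congrArg (cj (g.restrictScalars F)⁻¹) h3
    rw [cj_cancel] at h4
    rw [hφ, ← h4]
    exact cj_zero _
  have hM : ∀ m : Module.End F (K × X × K), p • m = 0 := by
    intro m
    rw [← Nat.cast_smul_eq_nsmul F, CharP.cast_eq_zero, zero_smul]
  have hbal := fun k x y => balanced (β := β) (φ := φ) (p := p) (by omega) hM h9 hanti hs k x y
  have hfKu := Fintype.ofFinite Kˣ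
  have hPKw : ∀ x y, PH K H (PS (KU F K (K × X × K)) (wd F β x y)) = PH K H (wd F β x y) := by
    intro x y
    rw [PK_wd]
    change PHl K H (-∑ c : Kˣ, wd F β (((c⁻¹ : Kˣ) : K) • x) ((c : K) • y)) = _
    rw [map_neg, map_sum]
    have h3 : ∀ c : Kˣ, PHl K H (wd F β (((c⁻¹ : Kˣ) : K) • x) ((c : K) • y)) = PH K H (wd F β x y) := by
      intro c
      have := hbal ((c⁻¹ : Kˣ) : K) x ((c : K) • y)
      rw [hφ, hφ, smul_smul, Units.inv_mul, one_smul] at this
      exact this
    simp only [h3]
    rw [Finset.sum_const, Finset.card_univ, ← Nat.cast_smul_eq_nsmul F, ← Nat.card_eq_fintype_card, card_units_F,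
      neg_smul, one_smul, neg_neg]
  obtain ⟨So, hSo⟩ : ∃ So : Submodule F (Module.End F (K × X × K)),
      So = Submodule.span F {A | ∃ x y, A = wd F β x y} := ⟨_, rfl⟩
  have hwSo : ∀ x y, wd F β x y ∈ So := by
    intro x y
    rw [hSo]
    exact Submodule.subset_span ⟨x, y, rfl⟩
  have hSocj : ∀ g ∈ iso F β, ∀ A ∈ So, cj g A ∈ So := by
    intro g hg A hA
    rw [hSo] at hA
    induction hA using Submodule.span_induction with
    | mem A hA =>
      obtain ⟨x, y, rfl⟩ := hA
      rw [cj_wd hg]
      exact hwSo _ _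
    | zero =>
      rw [cj_zero]
      exact So.zero_mem
    | add A B _ _ hA hB => rw [cj_add]; exact So.add_mem hA hB
    | smul c A _ hA => rw [cj_smul]; exact So.smul_mem c hA
  have hSoPK : ∀ A ∈ So, PS (KU F K (K × X × K)) A ∈ So ∧ PH K H (PS (KU F K (K × X × K)) A) = PH K H A := by
    intro A hA
    rw [hSo] at hA
    induction hA using Submodule.span_induction with
    | mem A hA =>
      obtain ⟨x, y, rfl⟩ := hA
      refine ⟨?_, hPKw x y⟩
      rw [PK_wd]
      exact So.neg_mem (So.sum_mem (fun c _ => hwSo _ _))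
    | zero =>
      have : PS (KU F K (K × X × K)) (0 : Module.End F (K × X × K)) = 0 := by
        have := PS_smul (KU F K (K × X × K)) (0 : F) (0 : Module.End F (K × X × K))
        rwa [zero_smul, zero_smul] at this
      rw [this]
      exact ⟨So.zero_mem, rfl⟩
    | add A B _ _ hA hB =>
      rw [PS_add, PH_add, PH_add, hA.2, hB.2]
      exact ⟨So.add_mem hA.1 hB.1, rfl⟩
    | smul c A _ hA =>
      rw [PS_smul, PH_smul, PH_smul, hA.2]
      exact ⟨So.smul_mem c hA.1, rfl⟩
  -- the kernel
  have hker0 : ∀ j : ℕ, ∀ A ∈ So, PH K H A = 0 → PS (KU F K (K × X × K)) A = A → A ∈ Lf (Vf F K X) 2 (5 - j) →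
      A = 0 := by
    intro j
    induction j with
    | zero =>
      intro A _ _ _ hA
      have h3 : Lf (Vf F K X) 2 5 = ⊥ := Lf_bot (s := 2) rfl rfl
      rw [Nat.sub_zero, h3] at hA
      exact (Submodule.mem_bot F).1 hA
    | succ j ih =>
      intro A hA1 hA2 hA3 hA4
      have h3 : ∀ u, cj (tF F β u) A = A := by
        intro u
        rw [← sub_eq_zero]
        apply ih
        · exact So.sub_mem (hSocj _ (tF_iso h2 u) A hA1) hA1
        · have h4 : PHl K H (cj (tF F β u) A - A) = 0 := by
            rw [map_sub]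
            change PH K H (cj (tF F β u) A) - PH K H A = 0
            rw [PH_cj (hy.t_mem u), hA2, cj_zero, sub_zero]
          exact h4
        · rw [PS_sub, hA3]
          congr 1
          have h4 := PS_cs (tF F β u) (KU F K (K × X × K)) A
          rw [cs_KU_of_semi (semi_of_lin (tK β u)) inferInstance, hA3] at h4
          exact h4
        · rcases Nat.lt_or_ge j 5 with h5 | h5
          · have h6 : 5 - j = (5 - (j + 1)) + 1 := by omega
            rw [h6]
            refine Lf_cj Vf_anti' (tF_Vf u) (fun j v hv => ?_) 2 _ hA4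
            rw [← tF_neg h2]
            exact tF_Vf (-u) j v hv
          · have h6 : 5 - j = 0 := by omega
            rw [h6]
            intro i v hv
            have h7 : ∀ i, i ≤ 2 → Vf F K X (i + 0 - 2) = ⊤ := by
              intro i hi
              have : i + 0 - 2 = 0 := by omega
              rw [this]
              rfl
            rcases Nat.lt_or_ge 2 i with h8 | h8
            · obtain ⟨n, rfl⟩ : ∃ n, i = n + 3 := ⟨i - 3, by omega⟩
              have h9 : v = 0 := (Submodule.mem_bot F).1 hv
              rw [h9, map_zero]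
              exact Submodule.zero_mem _
            · rw [h7 i h8]
              trivial
      rw [← hA3, ← hfix h3, hA2]
  have hker : ∀ A ∈ So, PH K H A = 0 → PS (KU F K (K × X × K)) A = 0 := by
    intro A hA1 hA2
    obtain ⟨h3, h4⟩ := hSoPK A hA1
    apply hker0 5 _ h3 (by rw [h4, hA2])
    · apply PK_of_lin inferInstance
      intro k v
      exact PK_lin inferInstance A k v
    · intro i v hv
      rcases Nat.lt_or_ge 2 i with h8 | h8
      · obtain ⟨n, rfl⟩ : ∃ n, i = n + 3 := ⟨i - 3, by omega⟩
        have h9 : v = 0 := (Submodule.mem_bot F).1 hv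
        rw [h9, map_zero]
        exact Submodule.zero_mem _
      · have : i + (5 - 5) - 2 = 0 := by omega
        rw [this]
        trivial
  -- conclusion
  apply semi_of_line hy hZ hh
  intro k
  have h3 := PH_cj (K := K) hh (wd F β (1, 0, 0) (k, 0, 0))
  rw [hW, cj_wd (hy.iso hh)] at h3
  rw [cj_zero] at h3
  have h5 := hker _ (hwSo _ _) h3
  exact mem_of_PK_wd (by
    intro h0
    have := (LinearEquiv.map_eq_zero_iff h).1 h0
    exact one_ne_zero (congrArg Prod.fst this)) h5

end

end Cfsg.Agent.H98.Or
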