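import Cfsg.Agent.H98.OrD
import Cfsg.Agent.GeoMax.OPar

set_option autoImplicit false
set_option linter.unusedSectionVars false
set_option linter.style.haveILetI false
set_option linter.unusedSimpArgs false

/-!
Extension fields in orthogonal groups, part I: if `RR H` is everything then `H` contains the commutator subgroup.
-/

namespace Cfsg.Agent.H98.Or

open Module QuadraticMap Cfsg.Agent.H98.Ext Cfsg.Agent.Orth Cfsg.Agent.GeoMax.Ort

section

variable {F K X : Type*} [Field F] [Field K] [Algebra F K] [AddCommGroup X] [Module F X] [Module K X]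
  [IsScalarTower F K X] {β : Bt K X} {Om H : Subgroup ((K × X × K) ≃ₗ[F] (K × X × K))}

/-- `l ↦ Tr(l a) b - Tr(l b) a`. -/
noncomputable def wm (F : Type*) {K : Type*} [Field F] [Field K] [Algebra F K] (a b : K) : K →ₗ[F] K :=
  (LinearMap.toSpanSingleton F K b) ∘ₗ (Algebra.trace F K) ∘ₗ (LinearMap.mulLeft F a) -
    (LinearMap.toSpanSingleton F K a) ∘ₗ (Algebra.trace F K) ∘ₗ (LinearMap.mulLeft F b)

lemma wm_apply (a b l : K) : wm F a b l = Algebra.trace F K (a * l) • b - Algebra.trace F K (b * l) • a := rfl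

/-- skew maps -/
def Skew (S : K →ₗ[F] K) : Prop := ∀ k l, Algebra.trace F K (k * S l + l * S k) = 0

lemma skew_wm (a b : K) : Skew (wm F a b) := by
  intro k l
  simp only [wm_apply, mul_sub, map_add, map_sub, mul_smul_comm, map_smul, smul_eq_mul]
  rw [mul_comm k b, mul_comm k a, mul_comm l b, mul_comm l a]
  ring

lemma skew_mem [Finite K] (h2 : (2 : K) ≠ 0) (Z : AddSubgroup (K →ₗ[F] K)) (hZ : ∀ a b : K, wm F a b ∈ Z)
    {S : K →ₗ[F] K} (hS : Skew S) : S ∈ Z := by
  classical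
  have := fin_dim F K
  have := fin_F F K
  have h2F := two_F (F := F) h2
  let e := Module.finBasis F K
  have hnd := traceForm_nondegenerate F K
  let e' := (Algebra.traceForm F K).dualBasis hnd e
  have he' : ∀ i j, Algebra.trace F K (e' i * e j) = if j = i then 1 else 0 := by
    intro i j
    have := LinearMap.BilinForm.apply_dualBasis_left (B := Algebra.traceForm F K) hnd e i j
    rw [Algebra.traceForm_apply] at this
    exact this
  have hr : ∀ l : K, ∑ i, Algebra.trace F K (e' i * l) • e i = l := by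
    intro l
    have : ∀ i, Algebra.trace F K (e' i * l) = e.repr l i := by
      intro i
      conv_lhs => rw [← e.sum_repr l]
      rw [Finset.mul_sum, map_sum]
      simp only [mul_smul_comm, map_smul, he', smul_eq_mul, mul_ite, mul_one, mul_zero]
      simp
    simp only [this]
    exact e.sum_repr l
  have hr' : ∀ l : K, ∑ i, Algebra.trace F K (e i * l) • e' i = l := by
    intro l
    apply tr_ext F
    intro k
    rw [Finset.sum_mul, map_sum]
    have h5 : Algebra.trace F K (l * k) = Algebra.trace F K (l * ∑ i, Algebra.trace F K (e' i * k) • e i) := by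
      rw [hr k]
    rw [h5, Finset.mul_sum, map_sum]
    apply Finset.sum_congr rfl
    intro i _
    rw [smul_mul_assoc, map_smul, mul_smul_comm, map_smul, smul_eq_mul, smul_eq_mul, mul_comm (e i) l, mul_comm]
  have h3 : S = ∑ i, wm F ((2⁻¹ : F) • e' i) (S (e i)) := by
    apply LinearMap.ext
    intro l
    rw [LinearMap.sum_apply]
    simp only [wm_apply, Finset.sum_sub_distrib]
    have e1 : ∑ i, Algebra.trace F K ((2⁻¹ : F) • e' i * l) • S (e i) = (2⁻¹ : F) • S l := by
      conv_rhs => rw [← hr l, map_sum, Finset.smul_sum]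
      apply Finset.sum_congr rfl
      intro i _
      rw [smul_mul_assoc, map_smul, map_smul, smul_eq_mul, mul_smul]
    have e2 : ∑ i, Algebra.trace F K (S (e i) * l) • (2⁻¹ : F) • e' i = - (2⁻¹ : F) • S l := by
      conv_rhs => rw [← hr' (S l), Finset.smul_sum]
      apply Finset.sum_congr rfl
      intro i _
      have h5 := hS (e i) l
      rw [map_add] at h5
      have h6 : Algebra.trace F K (S (e i) * l) = - Algebra.trace F K (e i * S l) := by
        rw [mul_comm (S (e i)) l]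
        linear_combination h5
      rw [h6, smul_smul, smul_smul]
      congr 1
      ring
    rw [e1, e2, ← sub_smul, sub_neg_eq_add]
    have : (2⁻¹ : F) + 2⁻¹ = 1 := by field_simp; norm_num
    rw [this, one_smul]
  rw [h3]
  exact Z.sum_mem (fun i _ => hZ _ _)

lemma b_fsmul (c : F) (x y : X) : β.b (c • x) y = c • β.b x y := by
  rw [← algebraMap_smul K c x, map_smul, LinearMap.smul_apply, algebraMap_smul]

lemma Rc_g_ext [Finite K] {f : X →ₗ[F] K} {g g' : K →ₗ[F] X} {S S' : K →ₗ[F] K} (h : Rc β f g S)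
    (h' : Rc β f g' S') : g = g' := by
  apply LinearMap.ext
  intro k
  rw [← sub_eq_zero]
  apply β.nd
  intro y
  apply tr_nd F
  intro c
  have h4 := h.1 k (c • y)
  have h5 := h'.1 k (c • y)
  rw [h4] at h5
  simp only [map_sub, LinearMap.sub_apply, sub_mul]
  simp only [map_smul, smul_eq_mul] at h5
  rw [mul_comm _ c, mul_comm _ c]
  rw [h5, sub_self]

/-- If every functional is in `RR H`, then every skew map is in `ZZ H`. -/
lemma skew_of_RR [Finite K] [Nontrivial X] (hy : Hyp β Om H) (hRR : ∀ f : X →ₗ[F] K, f ∈ RR H) {S : K →ₗ[F] K}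
    (hS : Skew S) : S ∈ ZZ H := by
  have h2 := hy.two
  have := fin_dim F K
  have := fin_F F K
  obtain ⟨x, hx⟩ : ∃ x : X, Algebra.trace F K (β.b x x) ≠ 0 := by
    by_contra hcon
    push Not at hcon
    obtain ⟨x, hx⟩ := exists_ne (0 : X)
    apply hx
    apply β.nd
    intro y
    apply tr_nd F
    intro k
    have e1 := hcon (x + k • y)
    simp only [map_add, LinearMap.add_apply, hcon, zero_add, add_zero] at e1
    rw [β.symm (k • y) x, map_smul, smul_eq_mul, mul_comm] at e1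
    have h3 : 2 * Algebra.trace F K (β.b x y * k) = 0 := by linear_combination e1
    exact (mul_eq_zero.1 h3).resolve_left (two_F (F := F) h2)
  obtain ⟨t, ht⟩ : ∃ t, t = Algebra.trace F K (β.b x x) := ⟨_, rfl⟩
  rw [← ht] at hx
  refine skew_mem h2 (ZZ H) (fun a b => ?_) hS
  -- the functional `x' ↦ Tr(β(x', x)) a`
  obtain ⟨fa, hfa⟩ : ∃ fa : K → (X →ₗ[F] K), ∀ a x', fa a x' = Algebra.trace F K (β.b x' x) • a :=
    ⟨fun a => (LinearMap.toSpanSingleton F K a) ∘ₗ (Algebra.trace F K) ∘ₗ (bu F β x), fun a x' => rfl⟩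
  obtain ⟨ga, hga⟩ : ∃ ga : K → (K →ₗ[F] X), ∀ a k, ga a k = Algebra.trace F K (a * k) • x :=
    ⟨fun a => (LinearMap.toSpanSingleton F X x) ∘ₗ (Algebra.trace F K) ∘ₗ (LinearMap.mulLeft F a), fun a k => rfl⟩
  have hga' : ∀ (a : K) (g : K →ₗ[F] X) (S : K →ₗ[F] K), R (fa a) g S ∈ H → g = ga a := by
    intro a g S hg
    have h3 := Rc_of_mem (hy.iso hg)
    apply LinearMap.ext
    intro k
    rw [← sub_eq_zero]
    apply β.nd
    intro y
    apply tr_nd F
    intro c
    have h4 := h3.1 k (c • y)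
    rw [hfa, mul_smul_comm, map_smul, smul_eq_mul] at h4
    rw [hga]
    simp only [map_sub, LinearMap.sub_apply, sub_mul]
    rw [← algebraMap_smul K _ x, map_smul, LinearMap.smul_apply, algebraMap_smul, smul_mul_assoc, map_smul, smul_eq_mul]
    simp only [map_smul, smul_eq_mul, LinearMap.smul_apply] at h4
    rw [mul_comm (β.b (g k) y), ← h4, mul_comm k a, β.symm x y, mul_comm (β.b y x) c, mul_comm, sub_self]
  have key : ∀ a b : K, t • wm F a b ∈ ZZ H := by
    intro a b
    obtain ⟨g, S, h3⟩ := hRR (fa a)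
    obtain ⟨g', S', h3'⟩ := hRR (fa b)
    have e := hga' _ _ _ h3
    have e' := hga' _ _ _ h3'
    have h4 := comm_ZZ h3 h3'
    convert h4 using 1
    apply LinearMap.ext
    intro l
    rw [LinearMap.sub_apply, LinearMap.comp_apply, LinearMap.comp_apply, e, e', hfa, hfa, hga, hga,
      LinearMap.smul_apply, wm_apply]
    rw [b_fsmul, b_fsmul, map_smul, map_smul, ← ht, smul_sub, smul_smul,
      smul_smul, smul_eq_mul, smul_eq_mul, mul_comm t, mul_comm t]
  have h3 := key (t⁻¹ • a) b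
  convert h3 using 1
  apply LinearMap.ext
  intro l
  rw [LinearMap.smul_apply, wm_apply, wm_apply, smul_mul_assoc, map_smul, smul_sub, smul_smul, smul_smul, smul_smul,
    smul_eq_mul]
  congr 2
  · field_simp
  · field_simp

lemma R_mem_of_RR [Finite K] [Nontrivial X] (hy : Hyp β Om H) (hRR : ∀ f : X →ₗ[F] K, f ∈ RR H)
    {f : X →ₗ[F] K} {g : K →ₗ[F] X} {S : K →ₗ[F] K} (hR : R f g S ∈ iso F β) : R f g S ∈ H := by
  obtain ⟨g', S', h3⟩ := hRR f
  have h4 := Rc_of_mem hR
  have h5 := Rc_of_mem (hy.iso h3)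
  have h6 := Rc_g_ext h4 h5
  subst h6
  have h7 : S - S' ∈ ZZ H := by
    apply skew_of_RR hy hRR
    intro k l
    have e1 := h4.2 k l
    have e2 := h5.2 k l
    simp only [LinearMap.sub_apply, mul_sub, map_add, map_sub] at *
    linear_combination e1 - e2
  have e : R f g S = R 0 0 (S - S') * R f g S' := by
    rw [R_mul]
    congr 1 <;> simp
  rw [e]
  exact H.mul_mem h7 h3

/-! ### The commutator subgroup -/

variable {Q : QuadraticForm F (K × X × K)}

lemma iso_of_OGrp (hp : ∀ v w, polar Q v w = tf F β v w) {g : (K × X × K) ≃ₗ[F] (K × X × K)} (hg : g ∈ OGrp Q) :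
    g ∈ iso F β := by
  intro v w
  rw [← hp, ← hp]
  exact OGrp_polar ⟨g, hg⟩ v w

lemma nd_of_hp [Finite K] (hp : ∀ v w, polar Q v w = tf F β v w) : (polarBilin Q).Nondegenerate := by
  constructor
  · intro v hv
    apply tf_nd (F := F) (β := β)
    intro w
    rw [← hp]
    exact hv w
  · intro v hv
    apply tf_nd (F := F) (β := β)
    intro w
    rw [← hp, pc]
    exact hv w

/-- the subgroup of `OGrp Q` -/
def MH (Q : QuadraticForm F (K × X × K)) (H : Subgroup ((K × X × K) ≃ₗ[F] (K × X × K))) : Subgroup (OGrp Q) :=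
  H.comap (OGrp Q).subtype

lemma mem_MH {g : OGrp Q} : g ∈ MH Q H ↔ (g : (K × X × K) ≃ₗ[F] (K × X × K)) ∈ H := Iff.rfl

/-- Eichler elements for `w ∈ W`, `b ∈ W^⊥`. -/
lemma hasE_W [Finite K] [Nontrivial X] (hp : ∀ v w, polar Q v w = tf F β v w) (hy : Hyp β Om H)
    (hRR : ∀ f : X →ₗ[F] K, f ∈ RR H) (a : K) (b : K × X × K) (hb : b.2.2 = 0) : HasE (MH Q H) (a, 0, 0) b := by
  have h2 := two_F (F := F) hy.two
  have hQ : ∀ v, 2 * Q v = tf F β v v := fun v => by rw [← pself, hp]
  have hW : ∀ a b : K, tf F β (a, 0, 0) (b, 0, 0) = 0 := by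
    intro a b; unfold tf be; simp
  have ha : Q (a, 0, 0) = 0 := by
    have := hQ (a, 0, 0)
    rw [hW] at this
    exact (mul_eq_zero.1 this).resolve_left h2
  have hWb : ∀ a : K, tf F β (a, 0, 0) b = 0 := by
    intro a; unfold tf be; simp [hb]
  have hab : polar Q (a, 0, 0) b = 0 := by rw [hp, hWb]
  refine ⟨ha, hab, ?_⟩
  rw [mem_MH]
  have hi := iso_of_OGrp hp (eich Q (a, 0, 0) b ha hab).2
  obtain ⟨f, g, S, hR⟩ := exists_R hi (by
    intro c
    rw [eich_apply, hp, hp, hW, tf_symm, tf_symm, hWb]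
    simp) (by
    intro x
    have e1 : tf F β (0, x, 0) (a, 0, 0) = 0 := by unfold tf be; simp
    rw [eich_apply, hp, hp, e1]
    simp)
  rw [hR]
  apply R_mem_of_RR hy hRR
  rw [← hR]
  exact hi

lemma hasE_K [Finite K] [Nontrivial X] (hp : ∀ v w, polar Q v w = tf F β v w) (hH : H ≤ OGrp Q) (hy : Hyp β Om H)
    (hRR : ∀ f : X →ₗ[F] K, f ∈ RR H) {v b : K × X × K} (hv : be β v v = 0) (hvb : be β v b = 0) :
    HasE (MH Q H) v b := by
  by_cases hv0 : v = 0
  · rw [hv0]; exact HasE.zero_left b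
  obtain ⟨g, hg1, hg2, hg3⟩ := hy.exists_move hv0 hv
  obtain ⟨g', hg'⟩ : ∃ g' : OGrp Q, (g' : (K × X × K) ≃ₗ[F] (K × X × K)) = g.restrictScalars F := ⟨⟨_, hH hg1⟩, rfl⟩
  have hgv : g v = ((g v).1, 0, 0) := Prod.ext rfl hg3
  have hgv1 : (g v).1 ≠ 0 := by
    intro h0
    rw [h0] at hgv
    exact hv0 ((LinearEquiv.map_eq_zero_iff g).1 hgv)
  have h1 : (g b).2.2 = 0 := by
    have h3 := hg2 v b
    rw [hvb, hgv] at h3
    unfold be at h3
    simp at h3
    exact h3.resolve_left hgv1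
  have h3 := hasE_W hp hy hRR (g v).1 (g b) h1
  rw [← hgv] at h3
  have h4 := h3.conj (g := g'⁻¹) (by
    rw [inv_mem_iff, mem_MH, hg']
    exact hg1)
  have h5 : ∀ u, ((g'⁻¹ : OGrp Q) : (K × X × K) ≃ₗ[F] (K × X × K)) (g u) = u := by
    intro u
    have : g u = (g' : (K × X × K) ≃ₗ[F] (K × X × K)) u := by rw [hg']; rfl
    rw [this, coe_inv_apply_self]
  rwa [h5, h5] at h4

lemma fullR_W [Finite K] [Nontrivial X] (hp : ∀ v w, polar Q v w = tf F β v w) (hH : H ≤ OGrp Q) (hy : Hyp β Om H)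
    (hRR : ∀ f : X →ₗ[F] K, f ∈ RR H) (a : K) : FullR (MH Q H) (a, 0, 0) := by
  have hW : tf F β (a, 0, 0) (a, 0, 0) = 0 := by unfold tf be; simp
  intro b hb
  have e : b = (b.1, b.2.1, 0) + (0, 0, b.2.2) := by ext <;> simp
  have h1 : HasE (MH Q H) (a, 0, 0) (b.1, b.2.1, 0) := hasE_W hp hy hRR a _ rfl
  rw [e]
  refine h1.add ?_
  have hc : tf F β (a, 0, 0) (0, 0, b.2.2) = 0 := by
    rw [← hp]
    have h3 := hb
    rw [e, par, h1.ortho, zero_add] at h3
    exact h3
  obtain ⟨c, hc'⟩ : ∃ c, c = b.2.2 := ⟨_, rfl⟩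
  rw [← hc'] at hc ⊢
  -- `x`, `x'` with `Tr β(x, x') = 1`
  obtain ⟨x, x', hxx⟩ : ∃ x x' : X, tf F β (0, x, 0) (0, x', 0) = 1 := by
    obtain ⟨x, hx⟩ := exists_ne (0 : X)
    have : ∃ x', tf F β (0, x, 0) (0, x', 0) ≠ 0 := by
      by_contra hcon
      push Not at hcon
      apply hx
      apply β.nd
      intro y
      apply tr_nd F
      intro k
      have := hcon (k • y)
      unfold tf be at this
      simp at this
      rw [mul_comm]
      exact this
    obtain ⟨x', hx'⟩ := this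
    refine ⟨x, (tf F β (0, x, 0) (0, x', 0))⁻¹ • x', ?_⟩
    have e3 : ((0, (tf F β (0, x, 0) (0, x', 0))⁻¹ • x', 0) : K × X × K) =
      (tf F β (0, x, 0) (0, x', 0))⁻¹ • (0, x', 0) := by ext <;> simp
    rw [e3, tf_smul_right, inv_mul_cancel₀ hx']
  have h3 : HasE (MH Q H) (0, 0, c) (0, x', 0) := by
    apply hasE_K hp hH hy hRR
    · unfold be; simp
    · unfold be; simp
  obtain ⟨hs, ho, hm⟩ := h3
  have h4 : HasE (MH Q H) (a, 0, 0) (0, x, 0) := hasE_W hp hy hRR a _ rfl
  have h5 := h4.conj hm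
  have z1 : tf F β (a, 0, 0) (0, x', 0) = 0 := by unfold tf be; simp
  have z2 : tf F β (0, x, 0) (0, 0, c) = 0 := by unfold tf be; simp
  rw [eich_apply, eich_apply, hp, hp, hp, hp, z1, hc, z2, hxx, one_smul, zero_smul, zero_smul, mul_zero, zero_smul,
    add_zero, sub_zero, sub_zero, sub_zero, sub_zero] at h5
  have h6 := h5.sub h4
  rwa [add_sub_cancel_left] at h6

theorem caseA [Finite K] [Finite X] [Nontrivial X] (hp : ∀ v w, polar Q v w = tf F β v w) (hH : H ≤ OGrp Q)
    (hy : Hyp β Om H)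
    (hRR : ∀ f : X →ₗ[F] K, f ∈ RR H) (hn : 7 ≤ finrank F (K × X × K)) :
    (commutator (OGrp Q)).map (OGrp Q).subtype ≤ H := by
  have := fin_F F K
  have : FiniteDimensional F (K × X × K) := Module.Finite.of_finite
  rw [Subgroup.map_le_iff_le_comap]
  -- two full radicals
  obtain ⟨g, hg1, hg2, hg3⟩ := hy.exists_move (v := (0, 0, 1)) (by
    intro h0
    exact one_ne_zero (congrArg (fun t => t.2.2) h0)) (by unfold be; simp)
  obtain ⟨g', hg'⟩ : ∃ g' : OGrp Q, (g' : (K × X × K) ≃ₗ[F] (K × X × K)) = g.restrictScalars F := ⟨⟨_, hH hg1⟩, rfl⟩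
  have hgv : g (0, 0, 1) = ((g (0, 0, 1)).1, 0, 0) := Prod.ext rfl hg3
  have h3 := (fullR_W hp hH hy hRR (g (0, 0, 1)).1).conj (g := g'⁻¹) (by
    rw [inv_mem_iff, mem_MH, hg']
    exact hg1)
  have h5 : ((g'⁻¹ : OGrp Q) : (K × X × K) ≃ₗ[F] (K × X × K)) ((g (0, 0, 1)).1, 0, 0) = (0, 0, 1) := by
    rw [← hgv]
    have : g (0, 0, 1) = (g' : (K × X × K) ≃ₗ[F] (K × X × K)) (0, 0, 1) := by rw [hg']; rfl
    rw [this, coe_inv_apply_self]
  rw [h5] at h3
  obtain ⟨a, ha⟩ : ∃ a : K, Algebra.trace F K a ≠ 0 := by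
    by_contra hcon
    push Not at hcon
    have : (1 : K) = 0 := by
      apply tr_nd F
      intro k
      rw [one_mul]; exact hcon k
    exact one_ne_zero this
  refine commutator_le_of_FullR (nd_of_hp hp) hn (fullR_W hp hH hy hRR a) h3 ?_
  rw [hp]
  unfold tf be
  simpa using ha

end

end Cfsg.Agent.H98.Or
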