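import Cfsg.Agent.H98.OrI

set_option autoImplicit false
set_option linter.unusedSectionVars false
set_option linter.style.haveILetI false
set_option linter.unusedSimpArgs false

/-!
Extension fields in orthogonal groups, part J: quadratic extensions, `ZZ H ≠ 0`.
-/

namespace Cfsg.Agent.H98.Or

open Module QuadraticMap Cfsg.Agent.H98.Ext Cfsg.Agent.Orth Cfsg.Agent.GeoMax.Ort

section

variable {F K X : Type*} [Field F] [Field K] [Algebra F K] [AddCommGroup X] [Module F X] [Module K X]
  [IsScalarTower F K X] {β : Bt K X} {Om H : Subgroup ((K × X × K) ≃ₗ[F] (K × X × K))}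

lemma skew_of_ZZ (hy : Hyp β Om H) {S : K →ₗ[F] K} (hS : S ∈ ZZ H) : Skew S := by
  have h := (Rc_of_mem (hy.iso (mem_ZZ.1 hS))).2
  intro k l
  have := h k l
  simpa using this

lemma skew_nonlin [Finite K] (h2 : (2 : K) ≠ 0) {S : K →ₗ[F] K} (hS : Skew S) (h0 : S ≠ 0) {c : K} :
    ∃ k, S k ≠ c * k := by
  by_contra hcon
  push Not at hcon
  have hc : 2 * c = 0 := by
    apply tr_nd F
    intro k
    have := hS k 1
    rw [hcon, hcon] at this
    rw [← this]
    congr 1
    ring
  have hc0 := (mul_eq_zero.1 hc).resolve_left h2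
  apply h0
  apply LinearMap.ext
  intro k
  rw [hcon, hc0, zero_mul, LinearMap.zero_apply]

/-- every endomorphism of a quadratic extension is `c + d S` -/
lemma exists_cd [Finite K] (h2 : (2 : K) ≠ 0) (hr : finrank F K = 2) {S : K →ₗ[F] K} (hS : Skew S) (h0 : S ≠ 0)
    (y : K →ₗ[F] K) : ∃ c d : K, ∀ k, y k = c * k + d * S k := by
  have := fin_dim F K
  let T : (K × K) →ₗ[F] (K →ₗ[F] K) :=
    { toFun := fun p => mu F p.1 + mu F p.2 ∘ₗ S
      map_add' := by
        intro p p'
        apply LinearMap.ext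
        intro k
        simp
        ring
      map_smul' := by
        intro c p
        apply LinearMap.ext
        intro k
        simp }
  have hT : ∀ p k, T p k = p.1 * k + p.2 * S k := fun p k => rfl
  have hinj : Function.Injective T := by
    rw [← LinearMap.ker_eq_bot, LinearMap.ker_eq_bot']
    rintro ⟨c, d⟩ hcd
    have h1 : ∀ k, c * k + d * S k = 0 := by
      intro k
      have := LinearMap.congr_fun hcd k
      rw [hT] at this
      exact this
    by_cases hd : d = 0
    · have := h1 1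
      rw [hd, zero_mul, add_zero, mul_one] at this
      rw [hd, this]
      rfl
    · exfalso
      obtain ⟨k, hk⟩ := skew_nonlin h2 hS h0 (c := -c / d)
      apply hk
      field_simp
      linear_combination h1 k
  have hdim : finrank F (K × K) = finrank F (K →ₗ[F] K) := by
    rw [finrank_prod, finrank_linearMap, hr]
  obtain ⟨⟨c, d⟩, h⟩ := (LinearMap.injective_iff_surjective_of_finrank_eq_finrank hdim).1 hinj y
  exact ⟨c, d, fun k => by rw [← h, hT]⟩

/-- long root elements at singular vectors -/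
lemma exists_L (hy : Hyp β Om H) [Nontrivial X] {S : K →ₗ[F] K} (hS : S ∈ ZZ H) {z : K × X × K} (hz : z ≠ 0)
    (hzs : be β z z = 0) : ∃ a : K, a ≠ 0 ∧ ∀ c : K, c ≠ 0 → ∃ L ∈ H, ∀ v : K × X × K,
      L v = v + S (be β v ((c * c * a) • z)) • ((c * c * a) • z) := by
  obtain ⟨g, hg1, hg2, hg3⟩ := hy.exists_move hz hzs
  have hgz : g z = ((g z).1, 0, 0) := Prod.ext rfl hg3
  have hgz1 : (g z).1 ≠ 0 := by
    intro h0
    rw [h0] at hgz
    exact hz ((LinearEquiv.map_eq_zero_iff g).1 hgz)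
  refine ⟨(g z).1⁻¹, inv_ne_zero hgz1, fun c hc => ?_⟩
  obtain ⟨C, hC⟩ : ∃ C : Kˣ, (C : K) = c := ⟨Units.mk0 c hc, rfl⟩
  obtain ⟨G, hG⟩ : ∃ G : (K × X × K) ≃ₗ[K] (K × X × K), G = dK X (C⁻¹ * C⁻¹) * g := ⟨_, rfl⟩
  have hGv : ∀ v, G v = dK X (C⁻¹ * C⁻¹) (g v) := fun v => by rw [hG]; rfl
  have hGH : G.restrictScalars F ∈ H := by
    have : G.restrictScalars F = dF F X (C⁻¹ * C⁻¹) * g.restrictScalars F := by rw [hG]; rfl
    rw [this]
    exact H.mul_mem (hy.d_mem C⁻¹) hg1
  have hGbe : ∀ v w, be β (G v) (G w) = be β v w := by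
    intro v w
    rw [hGv, hGv, dK_be, hg2]
  obtain ⟨z', hz'⟩ : ∃ z', z' = (c * c * (g z).1⁻¹) • z := ⟨_, rfl⟩
  have hGz : G z' = (1, 0, 0) := by
    rw [hz', map_smul, hGv, hgz, dK_apply]
    ext
    · simp
      rw [← hC]
      have := C.ne_zero
      field_simp
    · simp
    · simp
  rw [← hz']
  refine ⟨(G.restrictScalars F)⁻¹ * R 0 0 S * G.restrictScalars F,
    H.mul_mem (H.mul_mem (H.inv_mem hGH) (mem_ZZ.1 hS)) hGH, fun v => ?_⟩
  have h1 : (G v).2.2 = be β v z' := by
    rw [← hGbe, hGz]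
    unfold be
    simp
  have h3 : R 0 0 S (G v) = G (v + S (be β v z') • z') := by
    rw [R_apply, map_add, map_smul, hGz, h1]
    ext
    · simp
    · simp
    · simp [h1]
  rw [LinearEquiv.mul_apply, LinearEquiv.mul_apply]
  change (G.restrictScalars F)⁻¹ (R 0 0 S (G v)) = _
  rw [h3]
  exact LinearEquiv.symm_apply_apply (G.restrictScalars F) _

lemma short_mem (hy : Hyp β Om H) {S : K →ₗ[F] K} (hS : S ∈ ZZ H) {u : X} (hu : β.b u u = 0)
    {L : (K × X × K) ≃ₗ[F] (K × X × K)} (hL : L ∈ H)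
    (hLv : ∀ v, L v = v + S (be β v (0, u, 0)) • ((0, u, 0) : K × X × K)) : S ∘ₗ bu F β u ∈ RR H := by
  have h1 := mem_ZZ.1 hS
  have h2 := hy.t'_mem u
  refine ⟨-(ku F u ∘ₗ S), 0, ?_⟩
  have e : R (S ∘ₗ bu F β u) (-(ku F u ∘ₗ S)) 0 =
      (tF' F β u * R 0 0 S * (tF' F β u)⁻¹) * (R 0 0 S * L)⁻¹ := by
    rw [eq_mul_inv_iff_mul_eq, eq_mul_inv_iff_mul_eq]
    apply LinearEquiv.ext
    rintro ⟨a, x, b⟩
    rw [LinearEquiv.mul_apply, LinearEquiv.mul_apply, LinearEquiv.mul_apply, LinearEquiv.mul_apply, hLv, tF'_apply,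
      tF'_apply]
    have e1 : be β (a, x + a • u, b - β.b x u - a * (β.b u u / 2)) (0, u, 0) = β.b x u := by
      unfold be
      simp [hu]
    simp only at e1 ⊢
    rw [e1, R_apply, R_apply, R_apply]
    simp only [bu_apply, ku_apply, hu, LinearMap.comp_apply, LinearMap.neg_apply, LinearMap.zero_apply,
      zero_div, mul_zero, sub_zero, Prod.smul_mk, smul_zero, Prod.mk_add_mk, add_zero, zero_add, sub_neg_eq_add,
      map_add, map_sub, map_smul, LinearMap.add_apply, LinearMap.smul_apply, smul_eq_mul]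
    ext
    · simp
      ring
    · simp [add_smul, sub_smul]
      abel
    · simp
  rw [e]
  exact H.mul_mem (H.mul_mem (H.mul_mem h2 h1) (H.inv_mem h2)) (H.inv_mem (H.mul_mem h1 hL))

lemma span_sing [Finite K] [Finite X] (h2 : (2 : K) ≠ 0) (β : Bt K X) (hd : 5 ≤ finrank K X)
    (P : Submodule K X) (hP : ∀ u, β.b u u = 0 → u ∈ P) : P = ⊤ := by
  have : FiniteDimensional K X := Module.Finite.of_finite
  by_contra hne
  obtain ⟨f, hf, hfP⟩ := Submodule.exists_le_ker_of_lt_top P (lt_top_iff_ne_top.2 hne)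
  obtain ⟨u₀, hu₀⟩ := exists_bu (β := β) f
  have hu₀' : ∀ x ∈ P, β.b x u₀ = 0 := by
    intro x hx
    rw [← hu₀]
    exact LinearMap.mem_ker.1 (hfP hx)
  obtain ⟨y, hy⟩ : ∃ y, f y ≠ 0 := by
    by_contra hcon
    push Not at hcon
    exact hf (LinearMap.ext hcon)
  let QX : QuadraticForm K X := LinearMap.BilinMap.toQuadraticMap ((2⁻¹ : K) • β.b)
  have hpol : ∀ x y, polar QX x y = β.b x y := by
    intro x y
    rw [LinearMap.BilinMap.polar_toQuadraticMap]
    simp only [LinearMap.smul_apply, smul_eq_mul]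
    rw [β.symm y x]
    field_simp
    ring
  have hQX : ∀ x, QX x = 2⁻¹ * β.b x x := fun x => rfl
  have hnd : (polarBilin QX).Nondegenerate := by
    constructor
    · intro x hx
      apply β.nd
      intro y
      rw [← hpol]
      exact hx y
    · intro x hx
      apply β.nd
      intro y
      rw [← hpol, pc]
      exact hx y
  obtain ⟨x, hx1, hx2⟩ := repV hnd [u₀] (by simpa using hd) y 0
  have h3 := hx2 u₀ (by simp)
  rw [hpol, hpol] at h3
  rw [hQX] at hx1
  have h4 := (mul_eq_zero.1 hx1).resolve_left (inv_ne_zero h2)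
  rw [hu₀' x (hP x h4), ← hu₀] at h3
  exact hy h3.symm

theorem RR_of_two [Finite K] [Finite X] [Nontrivial X] (hy : Hyp β Om H) (hr : finrank F K = 2)
    (hd : 5 ≤ finrank K X) {S : K →ₗ[F] K} (hS : S ∈ ZZ H) (hS0 : S ≠ 0) (f : X →ₗ[F] K) : f ∈ RR H := by
  have h2 := hy.two
  have hsk := skew_of_ZZ hy hS
  -- `S ∘ bu u`
  have hadd : ∀ u u' : X, S ∘ₗ bu F β (u + u') = S ∘ₗ bu F β u + S ∘ₗ bu F β u' := by
    intro u u'
    apply LinearMap.ext
    intro x
    simp [bu_apply]
  have hzero : S ∘ₗ bu F β (0 : X) = 0 := by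
    apply LinearMap.ext
    intro x
    simp [bu_apply]
  have hsub : ∀ u u' : X, S ∘ₗ bu F β (u - u') = S ∘ₗ bu F β u - S ∘ₗ bu F β u' := by
    intro u u'
    apply LinearMap.ext
    intro x
    simp [bu_apply]
  let P : Submodule K X :=
    { carrier := {u | ∀ c : K, S ∘ₗ bu F β (c • u) ∈ RR H}
      add_mem' := by
        intro u u' hu hu' c
        rw [smul_add, hadd]
        exact (RR H).add_mem (hu c) (hu' c)
      zero_mem' := by
        intro c
        rw [smul_zero, hzero]
        exact (RR H).zero_mem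
      smul_mem' := by
        intro k u hu c
        rw [smul_smul]
        exact hu _ }
  have hP : P = ⊤ := by
    apply span_sing h2 β hd
    intro u hu
    by_cases hu0 : u = 0
    · rw [hu0]; exact P.zero_mem
    obtain ⟨a, ha, hL⟩ := exists_L hy hS (z := (0, u, 0)) (by
      intro h0
      exact hu0 (congrArg (fun t => t.2.1) h0)) (by unfold be; simp [hu])
    have h3 : ∀ c : K, S ∘ₗ bu F β ((c * c * a) • u) ∈ RR H := by
      intro c
      by_cases hc : c = 0
      · rw [hc, zero_mul, zero_mul, zero_smul, hzero]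
        exact (RR H).zero_mem
      obtain ⟨L, hL1, hL2⟩ := hL c hc
      refine short_mem hy hS (by simp [hu]) hL1 ?_
      intro v
      rw [hL2]
      have : (c * c * a) • ((0, u, 0) : K × X × K) = (0, (c * c * a) • u, 0) := by ext <;> simp
      rw [this]
    intro c
    have h4 : c • u = ((((c / a) + 1) / 2) * (((c / a) + 1) / 2) * a) • u -
        ((((c / a) - 1) / 2) * (((c / a) - 1) / 2) * a) • u := by
      rw [← sub_smul]
      congr 1
      have := sq_sub (c := c / a) h2
      rw [← sub_mul, ← this]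
      field_simp
    rw [h4, hsub]
    exact (RR H).sub_mem (h3 _) (h3 _)
  have h3 : ∀ u, S ∘ₗ bu F β u ∈ RR H := by
    intro u
    have : u ∈ P := by rw [hP]; trivial
    have h4 := this 1
    rwa [one_smul] at h4
  -- conclusion
  have : FiniteDimensional K X := Module.Finite.of_finite
  let b := Module.finBasis K X
  let y : Fin (finrank K X) → (K →ₗ[F] K) := fun j =>
    f ∘ₗ ((LinearMap.toSpanSingleton K X (b j)).restrictScalars F)
  have h1 : f = ∑ j, (y j) ∘ₗ ((b.coord j).restrictScalars F) := by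
    ext x
    simp only [LinearMap.sum_apply, LinearMap.comp_apply, LinearMap.restrictScalars_apply, y,
      LinearMap.toSpanSingleton_apply, Module.Basis.coord_apply]
    rw [← map_sum, b.sum_repr]
  rw [h1]
  apply AddSubgroup.sum_mem
  intro j _
  obtain ⟨c, d, hcd⟩ := exists_cd h2 hr hsk hS0 (y j)
  obtain ⟨u, hu⟩ := exists_bu (β := β) (b.coord j)
  have e : (y j) ∘ₗ ((b.coord j).restrictScalars F) = mu F c ∘ₗ bu F β u + mu F d ∘ₗ (S ∘ₗ bu F β u) := by
    apply LinearMap.ext
    intro x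
    rw [LinearMap.comp_apply, LinearMap.restrictScalars_apply, hu, hcd]
    rfl
  rw [e]
  exact (RR H).add_mem (hy.smul_RR c (hy.bu_mem_RR u)) (hy.smul_RR d (h3 u))

end

end Cfsg.Agent.H98.Or
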