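import Mathlib

set_option autoImplicit false
set_option linter.unusedSectionVars false
set_option linter.style.haveILetI false
set_option linter.unusedSimpArgs false

/-!
A linear group in odd characteristic `p` with an abelian self-normalising `p`-subgroup containing a quadratic
element whose conjugates only meet the subgroup trivially is a `p`-group.
-/

namespace Cfsg.Agent.H98.Tr

open Subgroup

lemma exists_compl {G : Type*} [Group G] [Finite G] {p : ℕ} [hp : Fact p.Prime] {U : Subgroup G} (hU : IsPGroup p U)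
    (hab : ∀ a ∈ U, ∀ b ∈ U, a * b = b * a) (hN : ∀ h, (∀ u ∈ U, h * u * h⁻¹ ∈ U) → h ∈ U) :
    ∃ N : Subgroup G, N.Normal ∧ Disjoint N U ∧ N ⊔ U = ⊤ ∧ ¬ p ∣ Nat.card N := by
  have hnorm : normalizer (U : Set G) = U := by
    apply le_antisymm
    · intro h hh
      apply hN
      intro u hu
      exact (mem_normalizer_iff.1 hh u).1 hu
    · exact le_normalizer
  have hidx : ¬ p ∣ U.index := by
    obtain ⟨n, hn⟩ := (IsPGroup.iff_card).1 hU
    have h1 := Sylow.card_quotient_normalizer_modEq_card_quotient hn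
    have h2 : Nat.card (normalizer (U : Set G) ⧸ U.comap (normalizer (U : Set G)).subtype) = 1 := by
      have : U.comap (normalizer (U : Set G)).subtype = ⊤ := by
        rw [eq_top_iff]
        rintro ⟨x, hx⟩ -
        rw [hnorm] at hx
        exact hx
      rw [this]
      exact Subgroup.index_top
    rw [h2] at h1
    intro h3
    have h4 : Nat.card (G ⧸ U) = U.index := rfl
    rw [h4] at h1
    have h5 : U.index % p = 0 := Nat.mod_eq_zero_of_dvd h3
    have h6 : 1 % p = U.index % p := h1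
    rw [h5, Nat.mod_eq_of_lt hp.out.one_lt] at h6
    exact one_ne_zero h6
  obtain ⟨P, hP⟩ : ∃ P : Sylow p G, (P : Subgroup G) = U := ⟨hU.toSylow hidx, rfl⟩
  have hPc : normalizer ((P : Subgroup G) : Set G) ≤ centralizer ((P : Subgroup G) : Set G) := by
    rw [hP, hnorm]
    intro a ha
    rw [mem_centralizer_iff]
    intro b hb
    exact hab b hb a ha
  have h1 := MonoidHom.ker_transferSylow_isComplement' P hPc
  refine ⟨(MonoidHom.transferSylow P hPc).ker, inferInstance, ?_, ?_, MonoidHom.not_dvd_card_ker_transferSylow P hPc⟩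
  · rw [← hP]; exact h1.disjoint
  · rw [← hP]; exact h1.sup_eq_top

/-- The sum over the normal complement. -/
lemma sum_eq {G A : Type*} [Group G] [Ring A] (f : G →* A) (N : Subgroup G) [Fintype N]
    (hN : N.Normal) {u : G} (hu : ∀ n ∈ N, n * u = u * n → n = 1) :
    ∑ n : N, f ((n : G) * u * (n : G)⁻¹) = (∑ n : N, f n) * f u := by
  have h1 : ∀ n : N, (n : G) * (u * (n : G)⁻¹ * u⁻¹) ∈ N := fun n =>
    N.mul_mem n.2 (hN.conj_mem _ (N.inv_mem n.2) u)
  let φ : N → N := fun n => ⟨(n : G) * (u * (n : G)⁻¹ * u⁻¹), h1 n⟩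
  have hinj : Function.Injective φ := by
    intro n m hnm
    have h2 : (n : G) * (u * (n : G)⁻¹ * u⁻¹) = (m : G) * (u * (m : G)⁻¹ * u⁻¹) := congrArg Subtype.val hnm
    have h3 : (m : G)⁻¹ * n * u = u * ((m : G)⁻¹ * n) := by
      have h4 : (n : G) * u * (n : G)⁻¹ = m * u * (m : G)⁻¹ := by
        have := congrArg (fun x => x * u) h2
        simpa [mul_assoc] using this
      have h5 := congrArg (fun x => (m : G)⁻¹ * x * n) h4
      simpa [mul_assoc] using h5
    have h4 := hu _ (N.mul_mem (N.inv_mem m.2) n.2) h3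
    apply Subtype.ext
    exact (inv_mul_eq_one.1 h4).symm
  have hbij : Function.Bijective φ := Finite.injective_iff_bijective.1 hinj
  rw [Finset.sum_mul]
  have h2 : ∀ n : N, f ((n : G) * u * (n : G)⁻¹) = f (φ n) * f u := by
    intro n
    rw [← map_mul]
    congr 1
    change (n : G) * u * (n : G)⁻¹ = (n : G) * (u * (n : G)⁻¹ * u⁻¹) * u
    group
  simp only [h2]
  exact hbij.sum_comp (fun n : N => f n * f u)

theorem burnside_frob {G A : Type*} [Group G] [Finite G] [Ring A] (f : G →* A) (hf : Function.Injective f)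
    {p : ℕ} [hp : Fact p.Prime] (hpA : ∀ m : ℕ, ¬ p ∣ m → ∀ a b : A, (m : A) * a = m * b → a = b)
    {U : Subgroup G} (hU : IsPGroup p U)
    (hab : ∀ a ∈ U, ∀ b ∈ U, a * b = b * a) {u : G} (huU : u ∈ U)
    (h1 : ∀ h, h * u * h⁻¹ ∈ U → h ∈ U) (h2 : ∀ h, h * (u * u) * h⁻¹ ∈ U → h ∈ U)
    (hquad : (f u - 1) * (f u - 1) = 0) : U = ⊤ := by
  classical
  obtain ⟨N, hNn, hNd, hNt, hNp⟩ := exists_compl hU hab (fun h hh => h1 h (hh u huU))
  have hfN : Fintype N := Fintype.ofFinite N
  have huu : u * u ∈ U := U.mul_mem huU huU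
  have hc : ∀ v ∈ U, (∀ h, h * v * h⁻¹ ∈ U → h ∈ U) → ∀ n ∈ N, n * v = v * n → n = 1 := by
    intro v hv hv' n hn hnv
    have h3 : n ∈ U := by
      apply hv'
      rw [hnv, mul_inv_cancel_right]
      exact hv
    have h4 : n ∈ N ⊓ U := ⟨hn, h3⟩
    rw [hNd.eq_bot] at h4
    exact Subgroup.mem_bot.1 h4
  obtain ⟨s, hs⟩ : ∃ s, s = ∑ n : N, f n := ⟨_, rfl⟩
  obtain ⟨ε, hε⟩ : ∃ ε, ε = f u - 1 := ⟨_, rfl⟩
  have hfu : f u = 1 + ε := by rw [hε]; abel
  have hfuu : f (u * u) = 1 + (ε + ε) := by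
    rw [map_mul, hfu]
    have : ε * ε = 0 := by rw [hε]; exact hquad
    rw [mul_add, add_mul, add_mul, this]
    simp
    abel
  have e1 := sum_eq f N hNn (hc u huU h1)
  have e2 := sum_eq f N hNn (hc (u * u) huu h2)
  obtain ⟨T, hT⟩ : ∃ T, T = ∑ n : N, f n * ε * f (n : G)⁻¹ := ⟨_, rfl⟩
  have hinv : ∀ n : N, f (n : G) * f (n : G)⁻¹ = 1 := fun n => by rw [← map_mul, mul_inv_cancel, map_one]
  have hcard : ∑ n : N, (1 : A) = (Nat.card N : A) := by
    rw [Finset.sum_const, Finset.card_univ, Nat.card_eq_fintype_card, nsmul_eq_mul, mul_one]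
  have hsum : ∀ (v : G) (δ : A), f v = 1 + δ →
      ∑ n : N, f ((n : G) * v * (n : G)⁻¹) = Nat.card N + ∑ n : N, f n * δ * f (n : G)⁻¹ := by
    intro v δ hv
    rw [← hcard, ← Finset.sum_add_distrib]
    apply Finset.sum_congr rfl
    intro n _
    rw [map_mul, map_mul, hv, mul_add, add_mul, mul_one, hinv]
  rw [← hs, hsum u ε hfu, hfu, ← hT, mul_add, mul_one] at e1
  have hT2 : ∑ n : N, f n * (ε + ε) * f (n : G)⁻¹ = T + T := by
    rw [hT, ← Finset.sum_add_distrib]
    apply Finset.sum_congr rfl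
    intro n _
    rw [mul_add, add_mul]
  rw [← hs, hsum (u * u) (ε + ε) hfuu, hfuu, hT2, mul_add, mul_one, mul_add] at e2
  have e3 : T = s * ε := by
    have : (Nat.card N + (T + T)) - (Nat.card N + T) = (s + (s * ε + s * ε)) - (s + s * ε) := by rw [e1, e2]
    have e4 : (Nat.card N + (T + T)) - (Nat.card N + T) = T := by abel
    have e5 : (s + (s * ε + s * ε)) - (s + s * ε) = s * ε := by abel
    rwa [e4, e5] at this
  rw [e3] at e1
  have e4 : (Nat.card N : A) = s := add_right_cancel e1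
  have hN1 : ∀ n ∈ N, n = 1 := by
    intro n hn
    apply hf
    apply hpA _ hNp
    rw [e4, map_one, mul_one, hs, Finset.sum_mul]
    have h5 : ∀ m : N, f m * f n = f ((m * ⟨n, hn⟩ : N) : G) := fun m => by rw [← map_mul]; rfl
    simp only [h5]
    exact Equiv.sum_comp (Equiv.mulRight (⟨n, hn⟩ : N)) (fun m : N => f (m : G))
  have hNb : N = ⊥ := by
    rw [eq_bot_iff]
    intro n hn
    exact Subgroup.mem_bot.2 (hN1 n hn)
  rw [hNb, bot_sup_eq] at hNt
  exact hNt

end Cfsg.Agent.H98.Tr
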