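import Cfsg.Agent.H98.OrJ
import Cfsg.Agent.H98.TrD

set_option autoImplicit false
set_option linter.unusedSectionVars false
set_option linter.style.haveILetI false
set_option linter.unusedSimpArgs false

/-!
Extension fields in orthogonal groups, part K: odd degree, arithmetic lemmas on skew maps.
-/

namespace Cfsg.Agent.H98.Or

open Module QuadraticMap Cfsg.Agent.H98.Ext Cfsg.Agent.Orth Cfsg.Agent.GeoMax.Ort

section

variable {F K : Type*} [Field F] [Field K] [Algebra F K] [Finite K]

lemma ker_of_skew (h2 : (2 : K) ≠ 0) (hr : Odd (finrank F K)) {S : K →ₗ[F] K} (hS : Skew S) : ∃ x, x ≠ 0 ∧ S x = 0 := by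
  have := fin_dim F K
  have := fin_F F K
  have h2F := two_F (F := F) h2
  let e := Module.finBasis F K
  have hnd := traceForm_nondegenerate F K
  have h1 : LinearMap.BilinForm.compRight (Algebra.traceForm F K) S =
      -(LinearMap.BilinForm.compLeft (Algebra.traceForm F K) S) := by
    apply LinearMap.ext
    intro k
    apply LinearMap.ext
    intro l
    have h := hS k l
    rw [map_add, mul_comm l] at h
    change Algebra.trace F K (k * S l) = - Algebra.trace F K (S k * l)
    linear_combination h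
  have h3 : LinearMap.BilinForm.toMatrix e (Algebra.traceForm F K) * LinearMap.toMatrix e e S =
      -((LinearMap.toMatrix e e S).transpose * LinearMap.BilinForm.toMatrix e (Algebra.traceForm F K)) := by
    rw [← LinearMap.BilinForm.toMatrix_compLeft, ← LinearMap.BilinForm.toMatrix_compRight, h1]
    ext i j
    rw [Matrix.neg_apply, LinearMap.BilinForm.toMatrix_apply, LinearMap.BilinForm.toMatrix_apply]
    rfl
  have h4 := congrArg Matrix.det h3
  rw [Matrix.det_neg, Matrix.det_mul, Matrix.det_mul, Matrix.det_transpose, Fintype.card_fin, hr.neg_one_pow] at h4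
  have h5 := (LinearMap.BilinForm.nondegenerate_iff_det_ne_zero e).1 hnd
  have h6 : (LinearMap.toMatrix e e S).det = 0 := by
    have h7 : 2 * ((LinearMap.BilinForm.toMatrix e (Algebra.traceForm F K)).det * (LinearMap.toMatrix e e S).det) = 0 := by
      linear_combination h4
    exact (mul_eq_zero.1 ((mul_eq_zero.1 h7).resolve_left h2F)).resolve_left h5
  rw [LinearMap.det_toMatrix] at h6
  have h7 := LinearMap.bot_lt_ker_of_det_eq_zero h6
  obtain ⟨x, hx, hx0⟩ := Submodule.exists_mem_ne_zero_of_ne_bot h7.ne'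
  exact ⟨x, hx0, hx⟩

lemma mem_F_of_sq (hr : Odd (finrank F K)) {y : K} {a : F} (h : y * y = algebraMap F K a) :
    y ∈ Set.range (algebraMap F K) := by
  have := fin_dim F K
  by_cases ha : a = 0
  · rw [ha, map_zero] at h
    exact ⟨0, by rw [map_zero, mul_self_eq_zero.1 h]⟩
  obtain ⟨m, hm⟩ := hr
  have h1 := congrArg (Algebra.norm F) h
  rw [map_mul, Algebra.norm_algebraMap, hm] at h1
  have h3 : a = (Algebra.norm F y / a ^ m) * (Algebra.norm F y / a ^ m) := by
    field_simp
    rw [pow_two (Algebra.norm F y), h1]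
    ring
  obtain ⟨b, hb⟩ : ∃ b, b = Algebra.norm F y / a ^ m := ⟨_, rfl⟩
  rw [← hb] at h3
  rw [h3, map_mul] at h
  rcases mul_self_eq_mul_self_iff.1 h with h4 | h4
  · exact ⟨b, h4.symm⟩
  · exact ⟨-b, by rw [map_neg, h4]⟩

/-- counting -/
lemma exists_good (h2 : (2 : K) ≠ 0) (E I : Submodule F K) (hc : Nat.card E * Nat.card I = Nat.card K)
    (hE : E ≠ ⊥) (hI : I ≠ ⊥) {δ : K} (hδ : δ ≠ 0) :
    ∃ c : K, c ≠ 0 ∧ ∀ x ∈ E, δ * (c * c) * x ∈ I → x = 0 := by
  classical
  by_contra hcon
  push Not at hcon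
  have h1 : ∀ s : K, (∃ c, c ≠ 0 ∧ c * c = s) → ∃ x ∈ E, δ * s * x ∈ I ∧ x ≠ 0 := by
    rintro s ⟨c, hc0, rfl⟩
    exact hcon c hc0
  choose! X hX using h1
  let ρ : K → K := fun s => if h : ∃ c, c ≠ 0 ∧ c * c = s then h.choose else 0
  have hρ : ∀ c, c ≠ 0 → ρ (c * c) * ρ (c * c) = c * c := by
    intro c hc0
    have h : ∃ d, d ≠ 0 ∧ d * d = c * c := ⟨c, hc0, rfl⟩
    have : ρ (c * c) = h.choose := dif_pos h
    rw [this]
    exact h.choose_spec.2
  have hX' : ∀ c : K, c ≠ 0 → X (c * c) ∈ E ∧ δ * (c * c) * X (c * c) ∈ I ∧ X (c * c) ≠ 0 :=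
    fun c hc0 => hX _ ⟨c, hc0, rfl⟩
  let sg : K → K := fun c => if c = ρ (c * c) then 1 else -1
  have hsg : ∀ c, sg c = 1 ∨ sg c = -1 := by
    intro c
    by_cases h : c = ρ (c * c)
    · left; exact if_pos h
    · right; exact if_neg h
  have hsgE : ∀ (P : Submodule F K) c y, y ∈ P → sg c * y ∈ P := by
    intro P c y hy
    rcases hsg c with h | h
    · rw [h, one_mul]; exact hy
    · rw [h, neg_one_mul]; exact P.neg_mem hy
  have hsg0 : ∀ c, sg c ≠ 0 := by
    intro c
    rcases hsg c with h | h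
    · rw [h]; exact one_ne_zero
    · rw [h]; exact neg_ne_zero.2 one_ne_zero
  let φ : Kˣ → {x : E // x ≠ 0} × {y : I // y ≠ 0} := fun c =>
    (⟨⟨sg c * X (c * c), hsgE E _ _ (hX' c c.ne_zero).1⟩, fun h0 => by
      have := congrArg Subtype.val h0
      exact (mul_ne_zero (hsg0 _) (hX' c c.ne_zero).2.2) this⟩,
     ⟨⟨sg c * (δ * (c * c) * X (c * c)), hsgE I _ _ (hX' c c.ne_zero).2.1⟩, fun h0 => by
      have := congrArg Subtype.val h0
      exact (mul_ne_zero (hsg0 _) (mul_ne_zero (mul_ne_zero hδ (mul_ne_zero c.ne_zero c.ne_zero))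
        (hX' c c.ne_zero).2.2)) this⟩)
  have hinj : Function.Injective φ := by
    intro c d hcd
    have e1 : sg c * X (c * c) = sg d * X (d * d) := congrArg (fun t => ((t.1 : E) : K)) hcd
    have e2 : sg c * (δ * (c * c) * X (c * c)) = sg d * (δ * (d * d) * X (d * d)) :=
      congrArg (fun t => ((t.2 : I) : K)) hcd
    have e3 : ((c : K) * c) = d * d := by
      have h3 : (δ * (c * c)) * (sg c * X (c * c)) = (δ * (d * d)) * (sg c * X (c * c)) := by
        calc (δ * (c * c)) * (sg c * X (c * c)) = sg c * (δ * (c * c) * X (c * c)) := by ring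
          _ = sg d * (δ * (d * d) * X (d * d)) := e2
          _ = (δ * (d * d)) * (sg d * X (d * d)) := by ring
          _ = (δ * (d * d)) * (sg c * X (c * c)) := by rw [e1]
      have h4 := mul_right_cancel₀ (mul_ne_zero (hsg0 _) (hX' c c.ne_zero).2.2) h3
      exact mul_left_cancel₀ hδ h4
    rw [e3] at e1
    have e4 : sg c = sg d := mul_right_cancel₀ (hX' d d.ne_zero).2.2 e1
    apply Units.ext
    have hρc := hρ c c.ne_zero
    have hρd := hρ d d.ne_zero
    have h11 : (1 : K) ≠ -1 := by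
      intro h
      apply h2
      linear_combination h
    by_cases hc1 : (c : K) = ρ (c * c)
    · by_cases hd1 : (d : K) = ρ (d * d)
      · rw [hc1, hd1, e3]
      · exfalso
        have s1 : sg c = 1 := if_pos hc1
        have s2 : sg d = -1 := if_neg hd1
        rw [s1, s2] at e4
        exact h11 e4
    · by_cases hd1 : (d : K) = ρ (d * d)
      · exfalso
        have s1 : sg c = -1 := if_neg hc1
        have s2 : sg d = 1 := if_pos hd1
        rw [s1, s2] at e4
        exact h11 e4.symm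
      · have t1 : (c : K) = -ρ (c * c) := (mul_self_eq_mul_self_iff.1 hρc.symm).resolve_left hc1
        have t2 : (d : K) = -ρ (d * d) := (mul_self_eq_mul_self_iff.1 hρd.symm).resolve_left hd1
        rw [t1, t2, e3]
  have hcard := Nat.card_le_card_of_injective φ hinj
  rw [Nat.card_prod, Nat.card_units] at hcard
  have hne : ∀ P : Submodule F K, Nat.card {x : P // x ≠ 0} = Nat.card P - 1 := by
    intro P
    have hf : Fintype P := Fintype.ofFinite P
    rw [Nat.card_eq_fintype_card, Nat.card_eq_fintype_card, Fintype.card_subtype_compl, Fintype.card_subtype_eq]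
  rw [hne, hne] at hcard
  have h3 : ∀ P : Submodule F K, P ≠ ⊥ → 2 ≤ Nat.card P := by
    intro P hP
    obtain ⟨x, hx, hx0⟩ := Submodule.exists_mem_ne_zero_of_ne_bot hP
    have : Nontrivial P := ⟨⟨⟨x, hx⟩, 0, fun h => hx0 (congrArg Subtype.val h)⟩⟩
    exact Finite.one_lt_card
  have hE2 := h3 E hE
  have hI2 := h3 I hI
  obtain ⟨a, ha⟩ : ∃ a, Nat.card E = a + 2 := ⟨Nat.card E - 2, by omega⟩
  obtain ⟨b, hb⟩ : ∃ b, Nat.card I = b + 2 := ⟨Nat.card I - 2, by omega⟩
  rw [← hc, ha, hb] at hcard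
  have e1 : a + 2 - 1 = a + 1 := by omega
  have e2 : b + 2 - 1 = b + 1 := by omega
  rw [e1, e2] at hcard
  have e3 : (a + 2) * (b + 2) = (a + 1) * (b + 1) + (a + b + 3) := by ring
  omega

/-- dimension one -/
lemma exists_one (h2 : (2 : K) ≠ 0) (hr : Odd (finrank F K)) (hr1 : finrank F K ≠ 1) {δ : K} (hδ : δ ≠ 0) :
    ∃ c : K, Algebra.trace F K (δ * (c * c)) ≠ 0 ∧ δ * (c * c) ∉ Set.range (algebraMap F K) := by
  have := fin_dim F K
  have := fin_F F K
  have h2F := two_F (F := F) h2
  obtain ⟨c₀, hc₀⟩ : ∃ c : K, Algebra.trace F K (δ * (c * c)) ≠ 0 := by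
    by_contra hcon
    push Not at hcon
    apply hδ
    apply tr_nd F
    intro k
    have e1 := hcon (k + 1)
    have e2 := hcon k
    have e3 := hcon 1
    have e4 : δ * ((k + 1) * (k + 1)) = δ * (k * k) + δ * (1 * 1) + (δ * k + δ * k) := by ring
    rw [e4, map_add, map_add, map_add, e2, e3, zero_add, zero_add] at e1
    have h3 : 2 * Algebra.trace F K (δ * k) = 0 := by linear_combination e1
    exact (mul_eq_zero.1 h3).resolve_left h2F
  by_cases hs : δ * (c₀ * c₀) ∈ Set.range (algebraMap F K)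
  swap
  · exact ⟨c₀, hc₀, hs⟩
  obtain ⟨s, hs⟩ := hs
  have hs0 : s ≠ 0 := by
    rintro rfl
    rw [← hs, map_zero, map_zero] at hc₀
    exact hc₀ rfl
  have hrF : ((finrank F K : ℕ) : F) ≠ 0 := by
    intro h0
    rw [← hs, Algebra.trace_algebraMap, nsmul_eq_mul, h0, zero_mul] at hc₀
    exact hc₀ rfl
  obtain ⟨x, hx⟩ : ∃ x : K, x ∉ Set.range (algebraMap F K) := by
    by_contra hcon
    push Not at hcon
    apply hr1
    have : Function.Surjective (algebraMap F K) := fun x => hcon x
    rw [finrank_eq_one_iff_of_nonzero' (1 : K) one_ne_zero]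
    intro w
    obtain ⟨c, hc⟩ := this w
    exact ⟨c, by rw [← hc, Algebra.algebraMap_eq_smul_one]⟩
  have hgood : ∀ f : F, Algebra.trace F K ((x + algebraMap F K f) * (x + algebraMap F K f)) ≠ 0 →
      ∃ c : K, Algebra.trace F K (δ * (c * c)) ≠ 0 ∧ δ * (c * c) ∉ Set.range (algebraMap F K) := by
    intro f hf
    refine ⟨c₀ * (x + algebraMap F K f), ?_, ?_⟩
    · have e : δ * (c₀ * (x + algebraMap F K f) * (c₀ * (x + algebraMap F K f))) =
        s • ((x + algebraMap F K f) * (x + algebraMap F K f)) := by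
        rw [Algebra.smul_def, hs]; ring
      rw [e, map_smul, smul_eq_mul]
      exact mul_ne_zero hs0 hf
    · rintro ⟨t, ht⟩
      have e : (x + algebraMap F K f) * (x + algebraMap F K f) = algebraMap F K (t / s) := by
        rw [map_div₀, ht, hs]
        have : δ * (c₀ * c₀) ≠ 0 := by rw [← hs]; exact (map_ne_zero _).2 hs0
        rw [eq_div_iff this]
        ring
      obtain ⟨w, hw⟩ := mem_F_of_sq hr e
      exact hx ⟨w - f, by rw [map_sub, hw]; ring⟩
  by_contra hcon
  have k1 : ∀ f : F, Algebra.trace F K ((x + algebraMap F K f) * (x + algebraMap F K f)) = 0 := by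
    intro f
    by_contra h
    exact hcon (hgood f h)
  have a1 := k1 0
  have a2 := k1 1
  have a3 := k1 (-1)
  rw [map_zero, add_zero] at a1
  have e2 : (x + algebraMap F K 1) * (x + algebraMap F K 1) = x * x + (x + x) + algebraMap F K 1 := by
    rw [map_one]; ring
  have e3 : (x + algebraMap F K (-1)) * (x + algebraMap F K (-1)) = x * x - (x + x) + algebraMap F K 1 := by
    rw [map_neg, map_one]; ring
  rw [e2, map_add, map_add, a1, Algebra.trace_algebraMap, nsmul_eq_mul, mul_one, zero_add] at a2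
  rw [e3, map_add, map_sub, a1, Algebra.trace_algebraMap, nsmul_eq_mul, mul_one, zero_sub] at a3
  have : 2 * ((finrank F K : ℕ) : F) = 0 := by linear_combination a2 + a3
  exact hrF ((mul_eq_zero.1 this).resolve_left h2F)

/-- the choice of `γ = δ c²` -/
lemma exists_gamma (h2 : (2 : K) ≠ 0) (hr : Odd (finrank F K)) (hr1 : finrank F K ≠ 1) {S : K →ₗ[F] K} (hS : Skew S)
    (hS0 : S ≠ 0) {δ : K} (hδ : δ ≠ 0) :
    ∃ c : K, c ≠ 0 ∧ (∀ x, S x = 0 → ∀ y, δ * (c * c) * x = S y → x = 0) ∧
      ∃ x y, S x = 0 ∧ S y = 0 ∧ δ * (c * c) * (x * y) ∉ Set.range (algebraMap F K) := by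
  have := fin_dim F K
  have := fin_F F K
  obtain ⟨x₀, hx₀, hSx₀⟩ := ker_of_skew h2 hr hS
  have hE : LinearMap.ker S ≠ ⊥ := by
    intro h
    have : x₀ ∈ LinearMap.ker S := hSx₀
    rw [h] at this
    exact hx₀ ((Submodule.mem_bot F).1 this)
  have hI : LinearMap.range S ≠ ⊥ := by
    intro h
    exact hS0 (LinearMap.range_eq_bot.1 h)
  by_cases hcase : ∃ x, S x = 0 ∧ x / x₀ ∉ Set.range (algebraMap F K)
  · obtain ⟨x, hx, hxF⟩ := hcase
    have hc : Nat.card (LinearMap.ker S) * Nat.card (LinearMap.range S) = Nat.card K := by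
      rw [Module.natCard_eq_pow_finrank (K := F) (V := LinearMap.ker S), Module.natCard_eq_pow_finrank (K := F)
        (V := LinearMap.range S), Module.natCard_eq_pow_finrank (K := F) (V := K), ← pow_add, add_comm,
        LinearMap.finrank_range_add_finrank_ker]
    obtain ⟨c, hc0, hc1⟩ := exists_good h2 _ _ hc hE hI hδ
    refine ⟨c, hc0, fun x hx y hy => hc1 x hx (by rw [hy]; exact ⟨y, rfl⟩), ?_⟩
    by_contra hcon
    push Not at hcon
    obtain ⟨s, hs⟩ := hcon x₀ x hSx₀ hx
    obtain ⟨t, ht⟩ := hcon x₀ x₀ hSx₀ hSx₀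
    apply hxF
    have hγ : δ * (c * c) ≠ 0 := mul_ne_zero hδ (mul_ne_zero hc0 hc0)
    have ht0 : algebraMap F K t ≠ 0 := by
      rw [ht]
      exact mul_ne_zero hγ (mul_ne_zero hx₀ hx₀)
    refine ⟨s / t, ?_⟩
    rw [map_div₀, hs, ht]
    field_simp
  · push Not at hcase
    obtain ⟨c, hc1, hc2⟩ := exists_one h2 hr hr1 hδ
    have e : δ * (c / x₀ * (c / x₀)) * (x₀ * x₀) = δ * (c * c) := by field_simp
    refine ⟨c / x₀, ?_, ?_, x₀, x₀, hSx₀, hSx₀, ?_⟩
    · intro h0
      rw [h0] at e
      rw [← e, mul_zero, mul_zero, zero_mul, map_zero] at hc1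
      exact hc1 rfl
    · intro x hx y hy
      obtain ⟨f, hf⟩ := hcase x hx
      have hxf : x = f • x₀ := by
        rw [Algebra.smul_def, hf]; field_simp
      have h3 : Algebra.trace F K (x₀ * (δ * (c / x₀ * (c / x₀)) * x)) = 0 := by
        rw [hy]
        have := hS x₀ y
        rw [hSx₀, mul_zero, add_zero] at this
        exact this
      have h4 : x₀ * (δ * (c / x₀ * (c / x₀)) * x) = f • (δ * (c * c)) := by
        rw [← e, hxf, mul_smul_comm, mul_smul_comm]
        congr 1
        ring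
      rw [h4, map_smul, smul_eq_mul] at h3
      have h5 := (mul_eq_zero.1 h3).resolve_right hc1
      rw [hxf, h5, zero_smul]
    · rw [e]; exact hc2

end

end Cfsg.Agent.H98.Or
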