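import Cfsg.Agent.H98.OrK

set_option autoImplicit false
set_option linter.unusedSectionVars false
set_option linter.style.haveILetI false
set_option linter.unusedSimpArgs false

/-!
Extension fields in orthogonal groups, part L: odd degree, `II H = K` implies `ZZ H = 0`.
-/

namespace Cfsg.Agent.H98.Or

open Module QuadraticMap Cfsg.Agent.H98.Ext Cfsg.Agent.Orth Cfsg.Agent.GeoMax.Ort

section

variable {F K X : Type*} [Field F] [Field K] [Algebra F K] [AddCommGroup X] [Module F X] [Module K X]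
  [IsScalarTower F K X] {β : Bt K X} {Om H : Subgroup ((K × X × K) ≃ₗ[F] (K × X × K))} [Finite K]

variable (F X) in
/-- the group of the `R 0 0 S` -/
def ZG : Subgroup ((K × X × K) ≃ₗ[F] (K × X × K)) where
  carrier := {g | ∃ S : K →ₗ[F] K, g = R 0 0 S}
  mul_mem' := by
    rintro _ _ ⟨S, rfl⟩ ⟨T, rfl⟩
    exact ⟨S + T, by rw [R_mul]; congr 1 <;> simp⟩
  one_mem' := ⟨0, by rw [R_zero]⟩
  inv_mem' := by
    rintro _ ⟨S, rfl⟩
    refine ⟨-S, ?_⟩
    rw [inv_eq_iff_mul_eq_one, R_mul, ← R_zero]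
    congr 1 <;> simp

lemma mem_ZG {g : (K × X × K) ≃ₗ[F] (K × X × K)} : g ∈ ZG F X ↔ ∃ S : K →ₗ[F] K, g = R 0 0 S := Iff.rfl

lemma R00_mul (S T : K →ₗ[F] K) : R (0 : X →ₗ[F] K) 0 S * R 0 0 T = R 0 0 (S + T) := by
  rw [R_mul]; congr 1 <;> simp

lemma R00_pow (S : K →ₗ[F] K) (n : ℕ) : R (0 : X →ₗ[F] K) 0 S ^ n = R 0 0 (n • S) := by
  induction n with
  | zero => rw [pow_zero, zero_smul, R_zero]
  | succ n ih => rw [pow_succ, ih, R00_mul, succ_nsmul]

/-- the pointwise stabiliser of `γE × X × E` in `H` -/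
def LG (H : Subgroup ((K × X × K) ≃ₗ[F] (K × X × K))) (S : K →ₗ[F] K) (γ : K) :
    Subgroup ((K × X × K) ≃ₗ[F] (K × X × K)) where
  carrier := {g | g ∈ H ∧ (∀ x, S x = 0 → g (γ * x, 0, 0) = (γ * x, 0, 0)) ∧ (∀ x, S x = 0 → g (0, 0, x) = (0, 0, x)) ∧
    ∀ x : X, g (0, x, 0) = (0, x, 0)}
  mul_mem' := by
    rintro a b ⟨a1, a2, a3, a4⟩ ⟨b1, b2, b3, b4⟩
    refine ⟨H.mul_mem a1 b1, ?_, ?_, ?_⟩
    · intro x hx; rw [LinearEquiv.mul_apply, b2 x hx, a2 x hx]
    · intro x hx; rw [LinearEquiv.mul_apply, b3 x hx, a3 x hx]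
    · intro x; rw [LinearEquiv.mul_apply, b4 x, a4 x]
  one_mem' := ⟨H.one_mem, fun _ _ => rfl, fun _ _ => rfl, fun _ => rfl⟩
  inv_mem' := by
    rintro a ⟨a1, a2, a3, a4⟩
    have key : ∀ v, a v = v → a⁻¹ v = v := by
      intro v hv
      have : a⁻¹ (a v) = v := LinearEquiv.symm_apply_apply a v
      rwa [hv] at this
    exact ⟨H.inv_mem a1, fun x hx => key _ (a2 x hx), fun x hx => key _ (a3 x hx), fun x => key _ (a4 x)⟩

lemma LG_of_stab [Nontrivial X] (hy : Hyp β Om H) (hr : (finrank F K).Prime)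
    (hB : ∀ y ∈ II H, ∀ k l : K, y (k * l) = k * y l) {S : K →ₗ[F] K} {γ : K}
    (hF : ∃ x y, S x = 0 ∧ S y = 0 ∧ γ * (x * y) ∉ Set.range (algebraMap F K))
    {h : (K × X × K) ≃ₗ[F] (K × X × K)} (hh : h ∈ LG H S γ) (hW : ∀ a : K, (h (a, 0, 0)).2 = 0) : h ∈ ZG F X := by
  have := fin_dim F K
  obtain ⟨h1, h2, h3, h4⟩ := hh
  obtain ⟨σ, hσ⟩ := semi_on_W hy hB h1 hW
  have hi := hy.iso h1
  have hσb : Function.Bijective σ := Finite.injective_iff_bijective.1 σ.toRingHom.injective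
  obtain ⟨τ, hτ⟩ : ∃ τ : K ≃ₐ[F] K, ∀ k, τ k = σ k := ⟨AlgEquiv.ofBijective σ hσb, fun k => rfl⟩
  have htr : ∀ k, Algebra.trace F K (σ k) = Algebra.trace F K k := by
    intro k
    rw [← hτ]
    exact Algebra.trace_eq_of_algEquiv τ k
  obtain ⟨α, hα⟩ : ∃ α, α = (h (1, 0, 0)).1 := ⟨_, rfl⟩
  have hA : ∀ k, (h (k, 0, 0)).1 = σ k * α := by
    intro k
    have := hσ k 1
    rw [mul_one] at this
    rw [this, hα]
  have hA' : ∀ b, α * (h (0, 0, b)).2.2 = σ b := by
    intro b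
    apply tr_ext F
    intro c
    obtain ⟨a, rfl⟩ := hσb.2 c
    have t1 := (mem_iso.1 hi) (a, 0, 0) (0, 0, b)
    unfold tf be at t1
    rw [hA, hW a] at t1
    simp only [Prod.snd_zero, Prod.fst_zero, map_zero, LinearMap.zero_apply, mul_zero, zero_mul, add_zero] at t1
    rw [← map_mul, htr, mul_comm b, ← t1]
    congr 1
    ring
  obtain ⟨x, y, hx, hy', hxy⟩ := hF
  have e1 : σ (γ * x) * α = γ * x := by
    rw [← hA, h2 x hx]
  have e2 : α * y = σ y := by
    rw [← hA', h3 y hy']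
  have e3 : σ (γ * (x * y)) = γ * (x * y) := by
    have : γ * (x * y) = (γ * x) * y := by ring
    rw [this, map_mul, ← e2, ← mul_assoc, e1]
  have hid := eq_id_of_fix hr σ hxy e3
  have hα1 : α = 1 := by
    rw [hid] at e2
    have hy0 : y ≠ 0 := by
      rintro rfl
      apply hxy
      exact ⟨0, by rw [map_zero, mul_zero, mul_zero]⟩
    exact mul_right_cancel₀ hy0 (by rw [e2, one_mul])
  obtain ⟨f, g, T, hR⟩ := exists_R hi (by
    intro a
    refine Prod.ext ?_ (hW a)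
    rw [hA, hid, hα1, mul_one]) (by
    intro x
    rw [h4])
  have hf : f = 0 := by
    apply LinearMap.ext
    intro x
    have h5 := h4 x
    rw [hR, R_apply] at h5
    have := congrArg Prod.fst h5
    simpa using this
  subst hf
  have hg : g = 0 := by
    have h5 := Rc_of_mem (hR ▸ hi)
    apply LinearMap.ext
    intro k
    apply β.nd
    intro y
    apply tr_nd F
    intro c
    have h6 := h5.1 k (c • y)
    rw [LinearMap.zero_apply, mul_zero, map_zero, map_smul, smul_eq_mul, mul_comm] at h6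
    exact h6.symm
  subst hg
  exact ⟨T, hR⟩

/-- conjugates of `R 0 0 S'` -/
lemma stab_of_conj {S' T : K →ₗ[F] K} {h : (K × X × K) ≃ₗ[F] (K × X × K)} (hh : h * R 0 0 S' * h⁻¹ = R 0 0 T) (b : K) :
    (h (S' b, 0, 0)).2 = 0 := by
  rw [mul_inv_eq_iff_eq_mul] at hh
  have h1 := LinearEquiv.congr_fun hh (0, 0, b)
  rw [LinearEquiv.mul_apply, LinearEquiv.mul_apply, R_apply] at h1
  have e : ((0 + (0 : X →ₗ[F] K) (0 : X) + S' b, (0 : X) - (0 : K →ₗ[F] X) b, b) : K × X × K) =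
    (S' b, 0, 0) + (0, 0, b) := by
    ext <;> simp
  simp only at h1
  rw [e, map_add, R_apply] at h1
  have h3 := congrArg Prod.snd h1
  have e2 : ((h (0, 0, b)).2.1 - (0 : K →ₗ[F] X) (h (0, 0, b)).2.2, (h (0, 0, b)).2.2) = (h (0, 0, b)).2 := by
    rw [LinearMap.zero_apply, sub_zero]
  rw [Prod.snd_add] at h3
  change (h (S' b, 0, 0)).2 + (h (0, 0, b)).2 = _ at h3
  change _ = ((h (0, 0, b)).2.1 - (0 : K →ₗ[F] X) (h (0, 0, b)).2.2, (h (0, 0, b)).2.2) at h3
  rw [e2] at h3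
  exact add_eq_right.1 h3

theorem ZZ_zero [Nontrivial X] [Finite X] (hy : Hyp β Om H) {p : ℕ} [hp : Fact p.Prime] [CharP F p]
    (hp2 : 2 < p) (hr : (finrank F K).Prime) (hodd : Odd (finrank F K))
    (hB : ∀ y ∈ II H, ∀ k l : K, y (k * l) = k * y l) : ∀ S ∈ ZZ H, S = 0 := by
  intro S hS
  by_contra hS0
  have h2 := hy.two
  have h2F := two_F (F := F) h2
  have := fin_dim F K
  have := fin_F F K
  have hsk := skew_of_ZZ hy hS
  -- opposite elements
  obtain ⟨a, ha, hL⟩ := exists_L hy hS (z := (0, 0, 1)) (by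
    intro h0
    exact one_ne_zero (congrArg (fun t => t.2.2) h0)) (by unfold be; simp)
  obtain ⟨c, hc, hc1, hc2⟩ := exists_gamma h2 hodd hr.ne_one hsk hS0 (inv_ne_zero ha)
  obtain ⟨L, hL1, hL2⟩ := hL c⁻¹ (inv_ne_zero hc)
  obtain ⟨ζ, hζ⟩ : ∃ ζ, ζ = c⁻¹ * c⁻¹ * a := ⟨_, rfl⟩
  obtain ⟨γ, hγ⟩ : ∃ γ, γ = a⁻¹ * (c * c) := ⟨_, rfl⟩
  have hγ0 : γ ≠ 0 := by rw [hγ]; exact mul_ne_zero (inv_ne_zero ha) (mul_ne_zero hc hc)
  have hζγ : ζ * γ = 1 := by rw [hζ, hγ]; field_simp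
  rw [← hγ] at hc1 hc2
  rw [← hζ] at hL2
  have hL3 : ∀ v, L v = (v.1, v.2.1, v.2.2 + S (v.1 * ζ) * ζ) := by
    intro v
    rw [hL2]
    have : be β v (ζ • (0, 0, 1)) = v.1 * ζ := by unfold be; simp
    rw [this]
    ext <;> simp
  -- the group
  obtain ⟨G, hG⟩ : ∃ G, G = LG H S γ := ⟨_, rfl⟩
  obtain ⟨u, hu⟩ : ∃ u : (K × X × K) ≃ₗ[F] (K × X × K), u = R 0 0 S := ⟨_, rfl⟩
  have huG : u ∈ G := by
    rw [hG, hu]
    refine ⟨mem_ZZ.1 hS, ?_, ?_, ?_⟩
    · intro x hx; rw [R_apply]; ext <;> simp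
    · intro x hx; rw [R_apply]; ext <;> simp [hx]
    · intro x; rw [R_apply]; ext <;> simp
  have hLG : L ∈ G := by
    rw [hG]
    refine ⟨hL1, ?_, ?_, ?_⟩
    · intro x hx
      rw [hL3]
      have : γ * x * ζ = x := by linear_combination x * hζγ
      ext
      · simp
      · simp
      · simp [this, hx]
    · intro x hx; rw [hL3]; ext <;> simp
    · intro x; rw [hL3]; ext <;> simp
  -- conjugates
  have hspan : LinearMap.range S ⊔ (LinearMap.ker S).map (LinearMap.mulLeft F γ) = ⊤ := by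
    apply Submodule.eq_top_of_disjoint
    · have h1 : finrank F ((LinearMap.ker S).map (LinearMap.mulLeft F γ)) = finrank F (LinearMap.ker S) := by
        refine (Submodule.equivMapOfInjective (LinearMap.mulLeft F γ) ?_ _).finrank_eq.symm
        intro x y hxy
        exact mul_left_cancel₀ hγ0 hxy
      rw [h1, LinearMap.finrank_range_add_finrank_ker]
    · rw [Submodule.disjoint_def]
      rintro _ ⟨y, rfl⟩ ⟨x, hx, hxy⟩
      have h1 := hc1 x hx y hxy
      rw [← hxy, h1]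
      simp
  have hconj : ∀ h ∈ G, ∀ S' : K →ₗ[F] K, (∀ b, ∃ b', S' b' = S b) → h * R 0 0 S' * h⁻¹ ∈ ZG F X → h ∈ ZG F X := by
    intro h hh S' hS' hc
    obtain ⟨T, hT⟩ := hc
    rw [hG] at hh
    apply LG_of_stab hy hr hB hc2 hh
    intro k
    have hk : k ∈ LinearMap.range S ⊔ (LinearMap.ker S).map (LinearMap.mulLeft F γ) := by rw [hspan]; trivial
    obtain ⟨_, ⟨b, rfl⟩, _, ⟨x, hx, rfl⟩, rfl⟩ := Submodule.mem_sup.1 hk
    obtain ⟨b', hb'⟩ := hS' b
    have e : ((S b + LinearMap.mulLeft F γ x, 0, 0) : K × X × K) = (S' b', 0, 0) + (γ * x, 0, 0) := by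
      ext
      · simp [hb']
      · simp
      · simp
    rw [e, map_add, Prod.snd_add, stab_of_conj hT, hh.2.1 x hx, zero_add]
    rfl
  -- apply the Burnside–Frobenius lemma
  have hfin : Finite ((K × X × K) ≃ₗ[F] (K × X × K)) :=
    Finite.of_injective (fun g : (K × X × K) ≃ₗ[F] (K × X × K) => (g : (K × X × K) → (K × X × K)))
      (fun a b h => LinearEquiv.ext (fun v => congrFun h v))
  let f : G →* Module.End F (K × X × K) :=
    { toFun := fun g => ((g : (K × X × K) ≃ₗ[F] (K × X × K)) : (K × X × K) →ₗ[F] (K × X × K))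
      map_one' := rfl
      map_mul' := fun _ _ => rfl }
  have hf : Function.Injective f := by
    intro g g' hgg
    apply Subtype.ext
    apply LinearEquiv.ext
    intro v
    exact LinearMap.congr_fun hgg v
  have hpS : ∀ S : K →ₗ[F] K, p • S = 0 := by
    intro S
    apply LinearMap.ext
    intro k
    rw [LinearMap.smul_apply, ← Nat.cast_smul_eq_nsmul F, CharP.cast_eq_zero, zero_smul, LinearMap.zero_apply]
  have key := Tr.burnside_frob (p := p) f hf (by
      intro m hm A B hAB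
      have hmF : (m : F) ≠ 0 := by
        intro h0
        exact hm ((CharP.cast_eq_zero_iff F p m).1 h0)
      have h1 : (m : F) • A = (m : F) • B := by
        rw [← nsmul_eq_mul, ← nsmul_eq_mul] at hAB
        rw [Nat.cast_smul_eq_nsmul, Nat.cast_smul_eq_nsmul]
        exact hAB
      exact smul_right_injective _ hmF h1)
    (U := (ZG F X).subgroupOf G) (by
      rintro ⟨g, hg⟩
      obtain ⟨T, hT⟩ := hg
      refine ⟨1, ?_⟩
      apply Subtype.ext
      apply Subtype.ext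
      change (g : (K × X × K) ≃ₗ[F] (K × X × K)) ^ p ^ 1 = 1
      change (g : (K × X × K) ≃ₗ[F] (K × X × K)) = R 0 0 T at hT
      rw [hT, pow_one, R00_pow, hpS, R_zero]) (by
      rintro ⟨a, ha⟩ ⟨A, hA⟩ ⟨b, hb⟩ ⟨B, hB⟩
      apply Subtype.ext
      change a * b = b * a
      change a = R 0 0 A at hA
      change b = R 0 0 B at hB
      rw [hA, hB, R00_mul, R00_mul, add_comm]) (u := ⟨u, huG⟩) ⟨S, hu⟩ (by
      rintro ⟨h, hh⟩ hc
      refine hconj h hh S (fun b => ⟨b, rfl⟩) ?_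
      have : h * u * h⁻¹ ∈ ZG F X := hc
      rwa [hu] at this) (by
      rintro ⟨h, hh⟩ hc
      refine hconj h hh (S + S) (fun b => ⟨(2⁻¹ : F) • b, ?_⟩) ?_
      · rw [LinearMap.add_apply, map_smul, ← two_smul F ((2⁻¹ : F) • S b), smul_smul, mul_inv_cancel₀ h2F, one_smul]
      · have : h * (u * u) * h⁻¹ ∈ ZG F X := hc
        rwa [hu, R00_mul] at this) (by
      apply LinearMap.ext
      intro v
      have e : ∀ w, (f ⟨u, huG⟩ - 1) w = (S w.2.2, 0, 0) := by
        intro w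
        change u w - w = _
        rw [hu, R_apply]
        ext <;> simp
      rw [Module.End.mul_apply, e, e]
      simp)
  have h1 : (⟨L, hLG⟩ : G) ∈ (ZG F X).subgroupOf G := by rw [key]; trivial
  obtain ⟨T, hT⟩ : L ∈ ZG F X := h1
  -- contradiction
  apply hS0
  apply LinearMap.ext
  intro k
  have h3 : L (γ * k, 0, 0) = R 0 0 T (γ * k, 0, 0) := by rw [hT]
  rw [hL3, R_apply] at h3
  have h4 := congrArg (fun t => t.2.2) h3
  simp only at h4
  have h5 : γ * k * ζ = k := by linear_combination k * hζγ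
  rw [h5, zero_add] at h4
  have hζ0 : ζ ≠ 0 := left_ne_zero_of_mul_eq_one hζγ
  exact (mul_eq_zero.1 h4).resolve_right hζ0

end

end Cfsg.Agent.H98.Or
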