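import Cfsg.Agent.H98.OrH
import Cfsg.Agent.H98.OrL
import Cfsg.Agent.H98.ExtG

set_option autoImplicit false
set_option linter.unusedSectionVars false
set_option linter.style.haveILetI false
set_option linter.unusedSimpArgs false

/-!
Extension fields in orthogonal groups, part M: the main theorem in the model.
-/

namespace Cfsg.Agent.H98.Or

open Module QuadraticMap Cfsg.Agent.H98.Ext Cfsg.Agent.Orth Cfsg.Agent.GeoMax.Ort

/-- the conclusion: overgroups of the semilinear part of `Om` -/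
def Concl (K : Type*) {F V : Type*} [Field F] [Field K] [AddCommGroup V] [Module F V] [Module K V]
    (Om : Subgroup (V ≃ₗ[F] V)) : Prop :=
  (∀ H ≤ Om, (∀ g ∈ Om, Semi K g → g ∈ H) → (∀ h ∈ H, Semi K h) ∨ Om ≤ H) ∧ ∃ g ∈ Om, ¬ Semi K g

section

variable {F K X : Type*} [Field F] [Field K] [Algebra F K] [AddCommGroup X] [Module F X] [Module K X]
  [IsScalarTower F K X] {β : Bt K X} {Q : QuadraticForm F (K × X × K)}

lemma exists_skew [Finite K] (hr : finrank F K ≠ 1) : ∃ a b : K, wm F a b ≠ 0 := by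
  obtain ⟨x, hx⟩ : ∃ x : K, x ∉ Set.range (algebraMap F K) := by
    by_contra hcon
    push Not at hcon
    apply hr
    have : Function.Surjective (algebraMap F K) := fun x => hcon x
    rw [finrank_eq_one_iff_of_nonzero' (1 : K) one_ne_zero]
    intro w
    obtain ⟨c, hc⟩ := this w
    exact ⟨c, by rw [← hc, Algebra.algebraMap_eq_smul_one]⟩
  refine ⟨1, x, fun h0 => ?_⟩
  obtain ⟨l, hl⟩ : ∃ l : K, Algebra.trace F K l ≠ 0 := by
    by_contra hcon
    push Not at hcon
    have : (1 : K) = 0 := by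
      apply tr_nd F
      intro k
      rw [one_mul]; exact hcon k
    exact one_ne_zero this
  have h1 := LinearMap.congr_fun h0 l
  rw [wm_apply, one_mul, LinearMap.zero_apply, sub_eq_zero] at h1
  apply hx
  refine ⟨(Algebra.trace F K l)⁻¹ * Algebra.trace F K (x * l), ?_⟩
  rw [Algebra.algebraMap_eq_smul_one, mul_smul, ← h1, smul_smul, inv_mul_cancel₀ hl, one_smul]

theorem model_main [Finite K] [Finite X] [Nontrivial X] (hp : ∀ v w, polar Q v w = tf F β v w) (h2 : (2 : K) ≠ 0)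
    (hr : (finrank F K).Prime) (hd : 13 ≤ finrank F (K × X × K)) (hX : 5 ≤ finrank F X)
    (h5 : finrank F K = 2 → 5 ≤ finrank K X) : Concl K ⁅OGrp Q, OGrp Q⁆ := by
  have := fin_F F K
  have := fin_dim F K
  have : FiniteDimensional F (K × X × K) := Module.Finite.of_finite
  have h2F := two_F (F := F) h2
  have hnd := nd_of_hp hp
  obtain ⟨p, hpp, hpc⟩ : ∃ p : ℕ, Nat.Prime p ∧ CharP F p := by
    obtain ⟨p, hp⟩ := CharP.exists F
    exact ⟨p, (CharP.char_is_prime_or_zero F p).resolve_right (CharP.char_ne_zero_of_finite F p), hp⟩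
  have hpf : Fact p.Prime := ⟨hpp⟩
  have hp2 : 2 < p := by
    refine lt_of_le_of_ne hpp.two_le ?_
    rintro rfl
    exact h2F (CharP.cast_eq_zero F 2)
  have hpF : p ≤ Nat.card F := by
    have hfF' := Fintype.ofFinite F
    rw [Nat.card_eq_fintype_card]
    obtain ⟨n, -, hn⟩ := FiniteField.card F p
    rw [hn]
    exact Nat.le_self_pow n.ne_zero p
  have hXc : p ^ 2 < Nat.card X := by
    have : FiniteDimensional F X := Module.Finite.of_finite
    rw [Module.natCard_eq_pow_finrank (K := F) (V := X)]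
    calc p ^ 2 < p ^ 5 := Nat.pow_lt_pow_right hpp.one_lt (by norm_num)
      _ ≤ Nat.card F ^ 5 := Nat.pow_le_pow_left hpF 5
      _ ≤ Nat.card F ^ finrank F X := Nat.pow_le_pow_right Nat.card_pos hX
  have hle : ⁅OGrp Q, OGrp Q⁆ ≤ OGrp Q := Subgroup.commutator_le_self _
  have hsq : ∀ g ∈ iso F β, g * g ∈ ⁅OGrp Q, OGrp Q⁆ := by
    intro g hg
    have hgO : g ∈ OGrp Q := by
      intro v
      have h1 : ∀ v, 2 * Q v = tf F β v v := fun v => by rw [← pself, hp]
      have h3 : 2 * Q (g v) = 2 * Q v := by rw [h1, h1, (mem_iso.1 hg) v v]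
      exact mul_left_cancel₀ h2F h3
    have h1 := mul_self_mem_commutator hnd ⟨g, hgO⟩
    rw [← Subgroup.map_subtype_commutator]
    exact ⟨_, h1, rfl⟩
  have hhyp : ∀ H ≤ ⁅OGrp Q, OGrp Q⁆, (∀ g ∈ ⁅OGrp Q, OGrp Q⁆, Semi K g → g ∈ H) → Hyp β ⁅OGrp Q, OGrp Q⁆ H := by
    intro H hH1 hH2
    exact ⟨h2, fun g hg => iso_of_OGrp hp (hle hg), hsq, hH1, hH2⟩
  constructor
  · intro H hH1 hH2
    have hy := hhyp H hH1 hH2
    have hA : (∀ f : X →ₗ[F] K, f ∈ RR H) → ⁅OGrp Q, OGrp Q⁆ ≤ H := by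
      intro hRR
      have := caseA hp (hH1.trans hle) hy hRR (by omega)
      rwa [Subgroup.map_subtype_commutator] at this
    by_cases hZ : ∀ S ∈ ZZ H, S = 0
    · left
      intro h hh
      exact semi_of_ZZ hy hZ hp2 hr.two_le hXc hh
    · right
      push Not at hZ
      obtain ⟨S, hS, hS0⟩ := hZ
      rcases hr.eq_two_or_odd' with h | h
      · exact hA (RR_of_two hy h (h5 h) hS hS0)
      · rcases dich hy hr with h3 | h3
        · exact hA h3
        · exact absurd (ZZ_zero hy hp2 hr h h3 S hS) hS0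
  · have hy := hhyp _ le_rfl (fun g hg _ => hg)
    obtain ⟨a, b, hab⟩ := exists_skew (F := F) (K := K) hr.ne_one
    have hsk : Skew (wm F a b) := skew_wm a b
    refine ⟨R 0 0 (wm F a b), hy.R_mem_Om (R_mem_iso ⟨?_, ?_⟩), ?_⟩
    · intro k x; simp
    · intro k l
      have := hsk k l
      simpa using this
    · intro hs
      obtain ⟨k, hk⟩ := skew_nonlin h2 hsk hab (c := wm F a b 1)
      apply hk
      obtain ⟨k', hk'⟩ := hs k
      have e1 := hk' (1, 0, 0)
      rw [R_apply, R_apply] at e1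
      have e1' := congrArg Prod.fst e1
      simp at e1'
      have e2 := hk' (0, 0, 1)
      rw [R_apply, R_apply] at e2
      have e2' := congrArg Prod.fst e2
      simp at e2'
      rw [e2', e1', mul_comm]

end

section transport

variable {F K V Y : Type*} [Field F] [Field K] [Algebra F K] [AddCommGroup V] [Module F V] [Module K V]
  [IsScalarTower F K V] [AddCommGroup Y] [Module F Y] [Module K Y] [IsScalarTower F K Y] [Finite K]

lemma semi_cj (e : V ≃ₗ[K] Y) {g : Y ≃ₗ[F] Y} (hg : Semi K g) : Semi K (cj e g) := by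
  intro k
  obtain ⟨k', hk'⟩ := hg k
  exact ⟨k', fun v => by rw [Ext.cj_apply, Ext.cj_apply, map_smul e, hk', map_smul e.symm]⟩

lemma cj_symm' (e : V ≃ₗ[K] Y) (g : Y ≃ₗ[F] Y) : Ext.cj e.symm (Ext.cj e g) = g := by
  have := Ext.cj_symm e.symm g
  rwa [LinearEquiv.symm_symm] at this

theorem concl_transport (e : V ≃ₗ[K] Y) {A : Subgroup (V ≃ₗ[F] V)} {B : Subgroup (Y ≃ₗ[F] Y)}
    (hAB : A.map (Ext.cj e.symm) = B) (hB : Concl K ⁅B, B⁆) : Concl K ⁅A, A⁆ := by
  have hBA : B.map (Ext.cj e) = A := by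
    rw [← hAB, Subgroup.map_map]
    have : (Ext.cj (F := F) e).comp (Ext.cj e.symm) = MonoidHom.id _ := by
      apply MonoidHom.ext
      intro g
      exact Ext.cj_symm e g
    rw [this, Subgroup.map_id]
  have h1 : ∀ g ∈ ⁅A, A⁆, Ext.cj e.symm g ∈ ⁅B, B⁆ := by
    intro g hg
    have : Ext.cj e.symm g ∈ ⁅A, A⁆.map (Ext.cj e.symm) := ⟨g, hg, rfl⟩
    rwa [Subgroup.map_commutator, hAB] at this
  have h2 : ∀ g ∈ ⁅B, B⁆, Ext.cj e g ∈ ⁅A, A⁆ := by
    intro g hg
    have : Ext.cj e g ∈ ⁅B, B⁆.map (Ext.cj e) := ⟨g, hg, rfl⟩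
    rwa [Subgroup.map_commutator, hBA] at this
  constructor
  · intro H hH1 hH2
    have key := hB.1 (H.comap (Ext.cj e)) (by
      intro g hg
      have h3 := h1 _ (hH1 hg)
      rwa [cj_symm'] at h3) (by
      intro g hg hs
      exact hH2 _ (h2 g hg) (semi_cj e hs))
    rcases key with h | h
    · left
      intro g hg
      have h3 := h (Ext.cj e.symm g) (by
        rw [Subgroup.mem_comap, Ext.cj_symm]
        exact hg)
      have h4 := semi_cj e h3
      rwa [Ext.cj_symm] at h4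
    · right
      intro g hg
      have h3 := h (h1 g hg)
      rwa [Subgroup.mem_comap, Ext.cj_symm] at h3
  · obtain ⟨g, hg, hs⟩ := hB.2
    refine ⟨Ext.cj e g, h2 g hg, fun h => hs ?_⟩
    have h3 := semi_cj e.symm h
    rwa [cj_symm'] at h3

end transport

end Cfsg.Agent.H98.Or
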