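import Cfsg.Agent.OMax.SubfieldGL

/-!
Subfield subgroups of orthogonal groups in dimension at least seven: hyperbolic pairs in
subspaces of small codimension, transitivity.
-/

set_option autoImplicit false
set_option linter.unusedSectionVars false

namespace Cfsg.Agent.H98.SF

open QuadraticMap Cfsg.Agent.Orth Cfsg.Agent.OMax

section Lin

variable {F V : Type*} [Field F] [AddCommGroup V] [Module F V]

/-- A subspace of codimension at most `c` contains a hyperbolic pair when `2c + 3 ≤ dim V`. -/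
theorem hyp_in [Finite F] [FiniteDimensional F V] {Q : QuadraticForm F V}
    (hQ : (polarBilin Q).Nondegenerate) (U : Submodule F V) (c : ℕ)
    (hU : Module.finrank F V ≤ Module.finrank F U + c) (hc : 2 * c + 3 ≤ Module.finrank F V) :
    ∃ e ∈ U, ∃ f ∈ U, Q e = 0 ∧ Q f = 0 ∧ polar Q e f = 1 := by
  obtain ⟨C, hC⟩ := Submodule.exists_isCompl (U ⊓ perp Q U)
  obtain ⟨W, hW⟩ : ∃ W, W = C ⊓ U := ⟨_, rfl⟩
  have hRW : (U ⊓ perp Q U) ⊔ W = U := by
    rw [hW, ← sup_inf_assoc_of_le C (inf_le_left : U ⊓ perp Q U ≤ U), hC.sup_eq_top, top_inf_eq]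
  have hRW' : (U ⊓ perp Q U) ⊓ W = ⊥ := by
    rw [eq_bot_iff, hW, ← inf_assoc, hC.inf_eq_bot]
    exact inf_le_left
  have hWU : W ≤ U := by rw [hW]; exact inf_le_right
  have hWW : W ⊓ perp Q W = ⊥ := by
    rw [eq_bot_iff]
    rintro x ⟨hx, hx'⟩
    have h1 : x ∈ perp Q U := by
      intro u hu
      change polar Q u x = 0
      rw [← hRW] at hu
      obtain ⟨r, hr, w, hw, rfl⟩ := Submodule.mem_sup.1 hu
      rw [pal, pc Q r x, (show polar Q x r = 0 from hr.2 x (hWU hx)), zero_add]
      exact hx' w hw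
    rw [← hRW']
    exact ⟨⟨hWU hx, h1⟩, hx⟩
  have h1 := Submodule.finrank_sup_add_finrank_inf_eq (U ⊓ perp Q U) W
  rw [hRW, hRW', finrank_bot] at h1
  have h2 := Submodule.finrank_mono (inf_le_right : U ⊓ perp Q U ≤ perp Q U)
  have h3 := finrank_perp hQ U
  have hnd := nondegenerate_restrict hWW
  obtain ⟨e, he0, he⟩ := exists_singular hnd (by omega)
  obtain ⟨f, hf, hef⟩ := exists_partner hnd he he0
  exact ⟨e, hWU e.2, f, hWU f.2, he, hf, hef⟩

theorem trans_aux [Finite F] [FiniteDimensional F V] {Q : QuadraticForm F V}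
    (hQ : (polarBilin Q).Nondegenerate) (hn : 5 ≤ Module.finrank F V) {x y : V}
    (hxy : Q x = Q y) (hind : x ∉ Submodule.span F {x - y}) :
    ∃ g ∈ SGrp Q, (g : V ≃ₗ[F] V) x = y := by
  obtain ⟨e, he, f, hf, hqe, hqf, hef⟩ := hyp_in hQ (perp Q (Submodule.span F {x - y})) 1 (by
    have := finrank_perp hQ (Submodule.span F {x - y})
    have h2 : Module.finrank F (Submodule.span F {x - y}) ≤ 1 := finrank_span_one_le _
    omega) (by omega)
  obtain ⟨b, hb, hbx⟩ := exists_ortho_not hQ _ hind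
  have hbU : b ∈ perp Q (Submodule.span F {x - y}) := by
    intro s hs; change polar Q s b = 0; rw [pc]; exact hb s hs
  obtain ⟨a, haU, hqa, hax⟩ := exists_sing_not_ortho he hf hqe hqf hef hbU
    (w := x) (by rw [hbx]; exact one_ne_zero)
  have h0 : polar Q (x - y) a = 0 := haU _ (Submodule.mem_span_singleton_self _)
  have hxa : polar Q x a = polar Q a x := pc Q x a
  have hya : polar Q y a = polar Q a x := by
    rw [pdl] at h0; rw [← hxa]; exact (sub_eq_zero.1 h0).symm
  obtain ⟨hab, hg⟩ := eich_move (Q := Q) hax hqa hxa hya hxy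
  exact ⟨_, eich_mem_SGrp hqa hab, hg⟩

theorem trans [Finite F] [FiniteDimensional F V] {Q : QuadraticForm F V}
    (hQ : (polarBilin Q).Nondegenerate) (hn : 5 ≤ Module.finrank F V) {x y : V}
    (hx : x ≠ 0) (hy : y ≠ 0) (hxy : Q x = Q y) :
    ∃ g ∈ SGrp Q, (g : V ≃ₗ[F] V) x = y := by
  by_cases hind : x ∉ Submodule.span F {x - y}
  · exact trans_aux hQ hn hxy hind
  rw [not_not] at hind
  obtain ⟨e, he, f, hf, hqe, hqf, hef⟩ := hyp_in hQ (perp Q (Submodule.span F {x})) 1 (by
    have := finrank_perp hQ (Submodule.span F {x})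
    have h2 : Module.finrank F (Submodule.span F {x}) ≤ 1 := finrank_span_one_le _
    omega) (by omega)
  have hxe : polar Q x e = 0 := he x (Submodule.mem_span_singleton_self _)
  have hxf : polar Q x f = 0 := hf x (Submodule.mem_span_singleton_self _)
  obtain ⟨t, ht⟩ := Submodule.mem_span_singleton.1 hind
  have ht0 : t ≠ 0 := by rintro rfl; rw [zero_smul] at ht; exact hx ht.symm
  obtain ⟨s, hs⟩ : ∃ s : F, y = s • x := by
    refine ⟨1 - t⁻¹, ?_⟩
    have : x - y = t⁻¹ • x := by rw [← ht, smul_smul, inv_mul_cancel₀ ht0, one_smul, ht]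
    rw [sub_smul, one_smul, ← this]; abel
  have hs0 : s ≠ 0 := by rintro rfl; rw [zero_smul] at hs; exact hy hs
  have he0 : e ≠ 0 := by
    rintro rfl; rw [polar_zero_left] at hef; exact one_ne_zero hef.symm
  obtain ⟨g₁, hg₁, h1⟩ := trans_aux hQ hn (x := x) (y := x + e)
    (by rw [qadd, hqe, hxe]; ring) (by
      intro hmem
      obtain ⟨r, hr⟩ := Submodule.mem_span_singleton.1 hmem
      have : polar Q x f = - r * 1 := by
        conv_lhs => rw [← hr]
        rw [psl, pdl, pal, hef]; ring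
      rw [hxf] at this
      have hr0 : r = 0 := by linear_combination this
      rw [hr0, zero_smul] at hr; exact hx hr.symm)
  obtain ⟨g₂, hg₂, h2⟩ := trans_aux hQ hn (x := x + e) (y := y)
    (by rw [qadd, hqe, hxe, hxy]; ring) (by
      intro hmem
      obtain ⟨r, hr⟩ := Submodule.mem_span_singleton.1 hmem
      have e1 : polar Q (x + e) f = r * polar Q (x + e) f := by
        conv_lhs => rw [← hr]
        rw [psl, pdl, hs, psl, hxf, mul_zero, sub_zero]
      rw [pal, hxf, hef, zero_add, mul_one] at e1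
      rw [← e1, one_smul] at hr
      apply hy
      have : y = 0 := by
        have h3 : x + e - y - (x + e) = 0 := by rw [hr]; abel
        have h4 : x + e - y - (x + e) = -y := by abel
        rw [h4] at h3
        exact neg_eq_zero.1 h3
      exact this)
  refine ⟨g₂ * g₁, (SGrp Q).mul_mem hg₂ hg₁, ?_⟩
  rw [coe_mul_apply, h1, h2]

end Lin

end Cfsg.Agent.H98.SF
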