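import Cfsg.Agent.H98.SFA

/-!
Overgroups of a rational structure in dimension at least seven, step A.
-/

set_option autoImplicit false
set_option linter.unusedSectionVars false

namespace Cfsg.Agent.H98.SF

open QuadraticMap Cfsg.Agent.Orth Cfsg.Agent.OMax

variable {K F : Type*} [Field K] [Field F] [Algebra K F] {U V : Type*} [AddCommGroup U]
  [Module K U] [AddCommGroup V] [Module F V] {q : QuadraticForm K U} {Q : QuadraticForm F V}
  {j : U → V} {M : Subgroup (OGrp Q)}

theorem scalT_of' [Finite K] (R : RatF q Q j) (hQ : (polarBilin Q).Nondegenerate)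
    (hn : 7 ≤ Module.finrank F V) (hM : RatM q j M) {t : F} {e d : U} (he : q e = 0) (he0 : e ≠ 0)
    (hd : q d = 0) (hed : polar q e d = 0) (hde : d ∉ Submodule.span K {e})
    (h : HasE M (j e) (t • j d)) : ScalT q j M t := by
  intro a b ha hb hab
  have hfd := R.fd
  have hnq := R.nd hQ
  have hfr := R.finrank_eq
  by_cases ha0 : a = 0
  · rw [ha0, R.j0]; exact HasE.zero_left _
  by_cases hba : b ∈ Submodule.span K {a}
  · obtain ⟨l, rfl⟩ := Submodule.mem_span_singleton.1 hba
    rw [R.jsmul, smul_smul]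
    exact HasE.smul_self (by rw [R.jq, ha, map_zero]) _
  obtain ⟨h1, hh1, h1e⟩ := trans hnq (by omega) he0 ha0 (he.trans ha.symm)
  obtain ⟨g1, hg1, hg1j⟩ := lift_top R hM hh1
  have h2 := h.conj hg1
  rw [map_smul, hg1j, hg1j, h1e] at h2
  set d1 := (h1 : U ≃ₗ[K] U) d with hd1
  have hqd1 : q d1 = 0 := by rw [hd1, OGrp_q, hd]
  have had1 : polar q a d1 = 0 := by rw [← h1e, hd1, OGrp_polar, hed]
  have hd1a : d1 ∉ Submodule.span K {a} := by
    intro hmem
    obtain ⟨l, hl⟩ := Submodule.mem_span_singleton.1 hmem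
    apply hde
    rw [Submodule.mem_span_singleton]
    refine ⟨l, (h1 : U ≃ₗ[K] U).injective ?_⟩
    rw [map_smul, h1e, hl]
  obtain ⟨a', ha', haa⟩ := exists_partner hnq ha ha0
  obtain ⟨W, hW, hWd, hWm⟩ := hyp_perp hnq ha ha' haa
  have hpa : polar q a a = 0 := by rw [pself, ha, mul_zero]
  have key : ∀ x : U, q x = 0 → polar q a x = 0 → x ∉ Submodule.span K {a} →
      ∃ w ∈ W, w ≠ 0 ∧ q w = 0 ∧ ∃ l : K, x = w + l • a := by
    intro x hx hax hxa
    refine ⟨x - polar q a' x • a, ?_, ?_, ?_, polar q a' x, by module⟩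
    · rw [hWm]
      constructor
      · rw [pdr, psr, hax, hpa]; ring
      · rw [pdr, psr, pc q a' a, haa]; ring
    · intro h0
      apply hxa
      rw [Submodule.mem_span_singleton]
      exact ⟨polar q a' x, (sub_eq_zero.1 h0).symm⟩
    · rw [qsub, qsmul, psr, hx, ha, pc q x a, hax]; ring
  obtain ⟨w1, hw1, hw10, hqw1, l1, hl1⟩ := key d1 hqd1 had1 hd1a
  obtain ⟨w2, hw2, hw20, hqw2, l2, hl2⟩ := key b hb hab hba
  obtain ⟨h3, hh3, h3w⟩ := trans (nondegenerate_restrict hW) (by omega)
    (x := (⟨w1, hw1⟩ : W)) (y := (⟨w2, hw2⟩ : W)) (fun h => hw10 (congrArg Subtype.val h))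
    (fun h => hw20 (congrArg Subtype.val h)) (by
      rw [restrict_apply', restrict_apply']; exact hqw1.trans hqw2.symm)
  obtain ⟨g3, hg3, hg3w, hg3a⟩ := lift_sub R hM W hh3
  have h4 : HasE M (j a) (t • j w1) := by
    rw [hl1, R.jadd, R.jsmul, smul_add, smul_smul] at h2
    exact (hasE_add_smul_self _).1 h2
  have h5 := h4.conj hg3
  rw [hg3a a (fun w hw => ((hWm w).1 hw).1), map_smul] at h5
  have h6 := hg3w ⟨w1, hw1⟩
  rw [h3w] at h6
  change (g3 : V ≃ₗ[F] V) (j w1) = j w2 at h6
  rw [h6] at h5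
  rw [hl2, R.jadd, R.jsmul, smul_add, smul_smul]
  exact (hasE_add_smul_self _).2 h5

/-- A hyperbolic pair orthogonal to two given vectors. -/
theorem hypPair [Finite K] [FiniteDimensional K U]
    (hnq : (polarBilin q).Nondegenerate)
    (hn : 7 ≤ Module.finrank K U) (a b : U) : ∃ c c' : U, q c = 0 ∧ q c' = 0 ∧
      polar q c c' = 1 ∧ polar q a c = 0 ∧ polar q b c = 0 ∧ polar q a c' = 0 ∧
      polar q b c' = 0 := by
  obtain ⟨c, hc, c', hc', h1, h2, h3⟩ := hyp_in hnq (perp q (Submodule.span K {a, b})) 2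
    (by
      have h1 := finrank_perp hnq (Submodule.span K {a, b})
      have h2 : Module.finrank K (Submodule.span K {a, b}) ≤ 2 := by
        classical
        have := finrank_span_finset_le_card (R := K) ({a, b} : Finset U)
        rw [Finset.coe_insert, Finset.coe_singleton] at this
        exact this.trans Finset.card_le_two
      omega) (by omega)
  have ha : a ∈ Submodule.span K {a, b} := Submodule.subset_span (by simp)
  have hb : b ∈ Submodule.span K {a, b} := Submodule.subset_span (by simp)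
  exact ⟨c, c', h1, h2, h3, hc a ha, hc b hb, hc' a ha, hc' b hb⟩

/-- Extraction of a multiple of a singular vector. -/
theorem extr [Finite K] (R : RatF q Q j) (hQ : (polarBilin Q).Nondegenerate)
    (hn : 7 ≤ Module.finrank F V) (hM : RatM q j M) {e : U} {x : V}
    (hx : HasE M (j e) x) {d : U} (hd : q d = 0) (hed : polar q e d = 0) :
    HasE M (j e) (polar Q x (j d) • j d) := by
  have hfd := R.fd
  have hnq := R.nd hQ
  have hfr := R.finrank_eq
  obtain ⟨c, c', hc, hc', hcc, hec, hdc, hec', hdc'⟩ := hypPair hnq (by omega) e d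
  obtain ⟨q1, p1, m1⟩ := hM c d hc (by rw [pc, hdc])
  obtain ⟨q2, p2, m2⟩ := hM c' d hc' (by rw [pc, hdc'])
  have f1 : (eich Q (j c) (j d) q1 p1 : V ≃ₗ[F] V) (j e) = j e :=
    eich_fix q1 p1 (by rw [R.jpolar, hec, map_zero]) (by rw [R.jpolar, hed, map_zero])
  have f2 : (eich Q (j c') (j d) q2 p2 : V ≃ₗ[F] V) (j e) = j e :=
    eich_fix q2 p2 (by rw [R.jpolar, hec', map_zero]) (by rw [R.jpolar, hed, map_zero])
  have hQd : Q (j d) = 0 := by rw [R.jq, hd, map_zero]
  have h1 := hx.conj m1
  rw [f1, eich_apply, hQd, zero_mul, zero_smul, sub_zero] at h1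
  have h2 : HasE M (j e) (polar Q x (j d) • j c - polar Q x (j c) • j d) := by
    have := h1.sub hx
    have e1 : x + polar Q x (j d) • j c - polar Q x (j c) • j d - x =
      polar Q x (j d) • j c - polar Q x (j c) • j d := by module
    rwa [e1] at this
  have h3 := h2.conj m2
  have pcd : polar Q (j c) (j d) = 0 := p1
  have pdd : polar Q (j d) (j d) = 0 := by rw [pself, hQd, mul_zero]
  have pcc : polar Q (j c) (j c') = 1 := by rw [R.jpolar, hcc, map_one]
  have pdc : polar Q (j d) (j c') = 0 := by rw [R.jpolar, hdc', map_zero]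
  rw [f2, eich_apply, hQd, zero_mul, zero_smul, sub_zero, pdl, psl, psl, pcd, pdd, pdl, psl, psl,
    pcc, pdc] at h3
  have h4 := h2.sub h3
  have e2 : polar Q x (j d) • j c - polar Q x (j c) • j d -
      (polar Q x (j d) • j c - polar Q x (j c) • j d +
        (polar Q x (j d) * 0 - polar Q x (j c) * 0) • j c' -
        (polar Q x (j d) * 1 - polar Q x (j c) * 0) • j d) = polar Q x (j d) • j d := by module
  rwa [e2] at h4

theorem scalT_mul [Finite K] (R : RatF q Q j) (hQ : (polarBilin Q).Nondegenerate)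
    (hn : 7 ≤ Module.finrank F V) {s t : F} (hs : ScalT q j M s)
    (ht : ScalT q j M t) : ScalT q j M (s * t) := by
  intro a b ha hb hab
  have hfd := R.fd
  have hnq := R.nd hQ
  have hfr := R.finrank_eq
  obtain ⟨c, c', hc, hc', hcc, hac, hbc, hac', hbc'⟩ := hypPair hnq (by omega) a b
  have h1 := hs a c ha hc hac
  obtain ⟨q2, p2, m2⟩ := ht c' b hc' hb (by rw [pc, hbc'])
  have f2 : (eich Q (j c') (t • j b) q2 p2 : V ≃ₗ[F] V) (j a) = j a :=
    eich_fix q2 p2 (by rw [R.jpolar, hac', map_zero])
      (by rw [psr, R.jpolar, hab, map_zero, mul_zero])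
  have h3 := h1.conj m2
  have hQb : Q (t • j b) = 0 := by rw [qsmul, R.jq, hb, map_zero, mul_zero]
  have pcb : polar Q (j c) (j b) = 0 := by rw [R.jpolar, pc, hbc, map_zero]
  have pcc : polar Q (j c) (j c') = 1 := by rw [R.jpolar, hcc, map_one]
  rw [f2, eich_apply, hQb, zero_mul, zero_smul, sub_zero, psl, psr, pcb, psl, pcc] at h3
  have h4 := h1.sub h3
  have e2 : s • j c - (s • j c + (s * (t * 0)) • j c' - (s * 1) • t • j b) = (s * t) • j b := by
    module
  rwa [e2] at h4

/-- If all scalars occur, the centre has its full Siegel group in `M`. -/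
theorem full_of [Finite K] (R : RatF q Q j) (hQ : (polarBilin Q).Nondegenerate)
    (hn : 7 ≤ Module.finrank F V) (hT : ∀ t : F, ScalT q j M t) {a : U}
    (ha : q a = 0) (ha0 : a ≠ 0) (y : V) (hy : polar Q (j a) y = 0) : HasE M (j a) y := by
  have hfd := R.fd
  have hnq := R.nd hQ
  have hfr := R.finrank_eq
  obtain ⟨a', ha', haa⟩ := exists_partner hnq ha ha0
  obtain ⟨p, p', hp, hp', hpp, hap, -, hap', -⟩ := hypPair hnq (by omega) a a
  have hja : Q (j a) = 0 := by rw [R.jq, ha, map_zero]
  have h1 : ∀ (c : F) (u : U), polar q a u = 0 → HasE M (j a) (c • j u) := by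
    intro c u hau
    obtain ⟨x, hx, hqx, α, β, rfl⟩ := sing_sum (E := perp q (Submodule.span K {a})) (q := q)
      (p := p) (p' := p') (w := u)
      (fun s hs => by
        obtain ⟨l, rfl⟩ := Submodule.mem_span_singleton.1 hs
        change polar q (l • a) p = 0
        rw [psl, hap, mul_zero])
      (fun s hs => by
        obtain ⟨l, rfl⟩ := Submodule.mem_span_singleton.1 hs
        change polar q (l • a) p' = 0
        rw [psl, hap', mul_zero]) hp hp' hpp
      (fun s hs => by
        obtain ⟨l, rfl⟩ := Submodule.mem_span_singleton.1 hs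
        change polar q (l • a) u = 0
        rw [psl, hau, mul_zero])
    have hax : polar q a x = 0 := hx a (Submodule.mem_span_singleton_self a)
    rw [R.jadd, R.jadd, R.jsmul, R.jsmul, smul_add, smul_add, smul_smul, smul_smul]
    exact ((hT c a x ha hqx hax).add (hT _ a p ha hp hap)).add (hT _ a p' ha hp' hap')
  have h2 : HasE M (j a) (y - polar Q y (j a) • j a') := by
    refine R.jind (P := fun y => HasE M (j a) (y - polar Q y (j a) • j a')) ?_ ?_ ?_ y
    · rw [polar_zero_left, zero_smul, sub_zero]; exact HasE.zero hja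
    · intro x y hx hy
      have e1 : x + y - polar Q (x + y) (j a) • j a' =
        (x - polar Q x (j a) • j a') + (y - polar Q y (j a) • j a') := by
        rw [pal]; module
      rw [e1]
      exact hx.add hy
    · intro c u
      have e1 : c • j u - polar Q (c • j u) (j a) • j a' = c • j (u - polar q u a • a') := by
        rw [psl, R.jpolar, R.jsub, R.jsmul]; module
      rw [e1]
      refine h1 c _ ?_
      rw [pdr, psr, haa, pc q a u]; ring
  rwa [pc Q y, hy, zero_smul, sub_zero] at h2

/-- **Step A.** -/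
theorem stA [Finite K] [Finite F] (R : RatF q Q j) (hQ : (polarBilin Q).Nondegenerate)
    (hn : 7 ≤ Module.finrank F V) (hM : RatM q j M)
    (hdeg : ∀ S : Subring F, (∀ k, algebraMap K F k ∈ S) →
      (∃ x ∈ S, ∀ k, algebraMap K F k ≠ x) → S = ⊤)
    {e : U} {x : V} (he : q e = 0) (he0 : e ≠ 0) (hx : HasE M (j e) x)
    (hx' : ¬ ∃ (u : U) (s : F), x = j u + s • j e) : commutator (OGrp Q) ≤ M := by
  have hfd := R.fd
  have hfdV := R.fdV
  have hnq := R.nd hQ
  have hfr := R.finrank_eq
  obtain ⟨e', he', hee⟩ := exists_partner hnq he he0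
  have hex : polar Q (j e) x = 0 := hx.pab
  -- find d
  have hd : ∃ d, q d = 0 ∧ polar q e d = 0 ∧ ∀ k, algebraMap K F k ≠ polar Q x (j d) := by
    by_contra hcon
    push Not at hcon
    apply hx'
    obtain ⟨p, p', hp, hp', hpp, hap, -, hap', -⟩ := hypPair hnq (by omega) e e
    have h1 : ∀ u : U, polar q e u = 0 → ∃ k, algebraMap K F k = polar Q x (j u) := by
      intro u hau
      obtain ⟨y, hy, hqy, α, β, rfl⟩ := sing_sum (E := perp q (Submodule.span K {e})) (q := q)
        (p := p) (p' := p') (w := u)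
        (fun s hs => by
          obtain ⟨l, rfl⟩ := Submodule.mem_span_singleton.1 hs
          change polar q (l • e) p = 0
          rw [psl, hap, mul_zero])
        (fun s hs => by
          obtain ⟨l, rfl⟩ := Submodule.mem_span_singleton.1 hs
          change polar q (l • e) p' = 0
          rw [psl, hap', mul_zero]) hp hp' hpp
        (fun s hs => by
          obtain ⟨l, rfl⟩ := Submodule.mem_span_singleton.1 hs
          change polar q (l • e) u = 0
          rw [psl, hau, mul_zero])
      have hax : polar q e y = 0 := hy e (Submodule.mem_span_singleton_self e)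
      obtain ⟨k1, hk1⟩ := hcon y hqy hax
      obtain ⟨k2, hk2⟩ := hcon p hp hap
      obtain ⟨k3, hk3⟩ := hcon p' hp' hap'
      refine ⟨k1 + α * k2 + β * k3, ?_⟩
      rw [R.jadd, R.jadd, R.jsmul, R.jsmul, par, par, psr, psr, ← hk1, ← hk2, ← hk3]
      simp only [map_add, map_mul]
    obtain ⟨u0, hu0⟩ := R.jdual hQ (x := x - polar Q x (j e') • j e) (by
      intro u
      obtain ⟨k, hk⟩ := h1 (u - polar q u e • e') (by
        rw [pdr, psr, hee, pc q e u]; ring)
      refine ⟨k, ?_⟩
      rw [hk, R.jsub, R.jsmul, pdl, psl, pdr, psr, R.jpolar, pc q e u]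
      ring)
    exact ⟨u0, polar Q x (j e'), by rw [← hu0]; module⟩
  obtain ⟨d, hqd, hed, hdK⟩ := hd
  have hde : d ∉ Submodule.span K {e} := by
    intro hmem
    obtain ⟨l, rfl⟩ := Submodule.mem_span_singleton.1 hmem
    apply hdK 0
    rw [R.jsmul, psr, pc, hex, mul_zero, map_zero]
  have hT := scalT_of' R hQ (by omega) hM he he0 hqd hed hde (extr R hQ hn hM hx hqd hed)
  let S : Subring F :=
    { carrier := {t | ScalT q j M t}
      mul_mem' := fun hs ht => scalT_mul R hQ hn hs ht
      one_mem' := by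
        have := scalT_alg R hM (1 : K)
        rwa [map_one] at this
      add_mem' := fun hs ht => hs.add ht
      zero_mem' := by
        have := scalT_alg R hM (0 : K)
        rwa [map_zero] at this
      neg_mem' := fun hs => hs.neg }
  have hS : S = ⊤ := hdeg S (fun k => scalT_alg R hM k) ⟨_, hT, hdK⟩
  have hall : ∀ t : F, ScalT q j M t := by
    intro t
    have : t ∈ S := by rw [hS]; trivial
    exact this
  have he'0 : e' ≠ 0 := by
    rintro rfl
    rw [polar_zero_right] at hee
    exact zero_ne_one hee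
  refine comm_le_of_two hQ (by omega) (a := j e) (a' := j e') ?_ ?_ ?_
    (full_of R hQ hn hall he he0) (full_of R hQ hn hall he' he'0)
  · rw [R.jq, he, map_zero]
  · rw [R.jq, he', map_zero]
  · rw [R.jpolar, hee, map_one]; exact one_ne_zero

end Cfsg.Agent.H98.SF
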