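import Cfsg.Agent.H98.OrK

set_option autoImplicit false
set_option linter.unusedSectionVars false
set_option linter.style.haveILetI false
set_option linter.unusedSimpArgs false

/-!
Extension fields in symplectic groups, part A: the trace form of an alternating `K`-form, long root elements.
-/

namespace Cfsg.Agent.H98.Sp

open Module Cfsg.Agent.H98.Ext Cfsg.Agent.H98.Or

/-- A non-degenerate alternating `K`-bilinear form on `V`. -/
structure Sy (K V : Type*) [Field K] [AddCommGroup V] [Module K V] where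
  b : V →ₗ[K] V →ₗ[K] K
  alt : ∀ x, b x x = 0
  nd : ∀ x, (∀ y, b x y = 0) → x = 0

section basic

variable {F K V : Type*} [Field F] [Field K] [Algebra F K] [AddCommGroup V] [Module F V] [Module K V]
  [IsScalarTower F K V] {B : Sy K V}

lemma skew (x y : V) : B.b x y = - B.b y x := by
  have h := B.alt (x + y)
  simp only [map_add, LinearMap.add_apply, B.alt, zero_add, add_zero] at h
  linear_combination h

lemma b_fsmul (c : F) (x y : V) : B.b (c • x) y = c • B.b x y := by
  rw [← algebraMap_smul K c x, map_smul, LinearMap.smul_apply, algebraMap_smul]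

lemma b_fsmul' (c : F) (x y : V) : B.b x (c • y) = c • B.b x y := by
  rw [← algebraMap_smul K c y, map_smul, algebraMap_smul]

/-- The trace form. -/
noncomputable def tf (F : Type*) [Field F] [Algebra F K] (B : Sy K V) (v w : V) : F := Algebra.trace F K (B.b v w)

lemma tf_skew (v w : V) : tf F B v w = - tf F B w v := by
  unfold tf; rw [skew, map_neg]

lemma tf_self (v : V) : tf F B v v = 0 := by
  unfold tf; rw [B.alt, map_zero]

lemma tf_add_left (u v w : V) : tf F B (u + v) w = tf F B u w + tf F B v w := by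
  unfold tf; rw [map_add, LinearMap.add_apply, map_add]

lemma tf_add_right (u v w : V) : tf F B w (u + v) = tf F B w u + tf F B w v := by
  unfold tf; rw [map_add, map_add]

lemma tf_smul_left (c : F) (v w : V) : tf F B (c • v) w = c * tf F B v w := by
  unfold tf; rw [b_fsmul, map_smul, smul_eq_mul]

lemma tf_smul_right (c : F) (v w : V) : tf F B v (c • w) = c * tf F B v w := by
  unfold tf; rw [b_fsmul', map_smul, smul_eq_mul]

lemma tf_ksmul (k : K) (v w : V) : tf F B (k • v) w = tf F B v (k • w) := by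
  unfold tf; rw [map_smul (B.b), LinearMap.smul_apply, map_smul (B.b v)]

lemma b_of_tf [Finite K] {v w : V} (h : ∀ k : K, tf F B (k • v) w = 0) : B.b v w = 0 := by
  apply tr_nd F
  intro k
  have := h k
  unfold tf at this
  rwa [map_smul, LinearMap.smul_apply, smul_eq_mul, mul_comm] at this

lemma tf_nd [Finite K] {v : V} (h : ∀ w, tf F B v w = 0) : v = 0 := by
  apply B.nd
  intro w
  apply b_of_tf (F := F)
  intro k
  rw [tf_ksmul]
  exact h _

variable (F) in
/-- The isometry group of the trace form. -/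
def iso (B : Sy K V) : Subgroup (V ≃ₗ[F] V) where
  carrier := {g | ∀ v w, tf F B (g v) (g w) = tf F B v w}
  mul_mem' {a b} ha hb := by
    intro v w
    exact (ha (b v) (b w)).trans (hb v w)
  one_mem' := fun v w => rfl
  inv_mem' {a} ha := by
    intro v w
    have h := ha (a⁻¹ v) (a⁻¹ w)
    have h2 : ∀ v, a (a⁻¹ v) = v := fun v => LinearEquiv.apply_symm_apply a v
    rw [h2, h2] at h
    exact h.symm

lemma mem_iso {g : V ≃ₗ[F] V} : g ∈ iso F B ↔ ∀ v w, tf F B (g v) (g w) = tf F B v w := Iff.rfl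

lemma inv_app (g : V ≃ₗ[F] V) (v : V) : g⁻¹ (g v) = v := LinearEquiv.symm_apply_apply g v

lemma app_inv (g : V ≃ₗ[F] V) (v : V) : g (g⁻¹ v) = v := LinearEquiv.apply_symm_apply g v

lemma iso_inv {g : V ≃ₗ[F] V} (hg : g ∈ iso F B) (v w : V) : tf F B (g v) w = tf F B v (g⁻¹ w) := by
  have h := (mem_iso.1 hg) v (g⁻¹ w)
  rw [app_inv] at h
  exact h

lemma iso_of_klin {g : V ≃ₗ[K] V} (hg : ∀ v w, B.b (g v) (g w) = B.b v w) : g.restrictScalars F ∈ iso F B := by
  intro v w
  unfold tf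
  exact congrArg _ (hg v w)

/-- symmetric endomorphisms of `K` -/
def Sm (S : K →ₗ[F] K) : Prop := ∀ k l, Algebra.trace F K (k * S l) = Algebra.trace F K (l * S k)

/-- The long root element `v ↦ v + S (B(v, z)) z`. -/
def LL (B : Sy K V) (z : V) (S : K →ₗ[F] K) : V ≃ₗ[F] V where
  toFun v := v + S (B.b v z) • z
  map_add' v w := by
    simp only [map_add, LinearMap.add_apply, add_smul]
    abel
  map_smul' c v := by
    simp only [b_fsmul, map_smul, smul_add, RingHom.id_apply, smul_assoc]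
  invFun v := v - S (B.b v z) • z
  left_inv v := by
    simp [B.alt]
  right_inv v := by
    simp [B.alt]

lemma LL_apply (z : V) (S : K →ₗ[F] K) (v : V) : LL B z S v = v + S (B.b v z) • z := rfl

lemma LL_mul (z : V) (S T : K →ₗ[F] K) : LL B z S * LL B z T = LL B z (S + T) := by
  apply LinearEquiv.ext
  intro v
  rw [LinearEquiv.mul_apply, LL_apply, LL_apply, LL_apply]
  simp only [map_add, LinearMap.add_apply, map_smul, LinearMap.smul_apply, B.alt, smul_zero, map_zero, add_zero,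
    add_smul]
  abel

lemma LL_zero (z : V) : LL B z (0 : K →ₗ[F] K) = 1 := by
  apply LinearEquiv.ext
  intro v
  rw [LL_apply, LinearMap.zero_apply, zero_smul, add_zero]
  rfl

lemma LL_zero_left (S : K →ₗ[F] K) : LL B (0 : V) S = 1 := by
  apply LinearEquiv.ext
  intro v
  rw [LL_apply, smul_zero, add_zero]
  rfl

lemma LL_neg (z : V) (S : K →ₗ[F] K) : LL B z (-S) = (LL B z S)⁻¹ := by
  rw [eq_inv_iff_mul_eq_one, LL_mul, neg_add_cancel, LL_zero]

lemma LL_iso {S : K →ₗ[F] K} (hS : Sm S) (z : V) : LL B z S ∈ iso F B := by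
  intro v w
  rw [LL_apply, LL_apply]
  unfold tf
  simp only [map_add, LinearMap.add_apply, map_smul, LinearMap.smul_apply, B.alt, smul_eq_mul, mul_zero, add_zero]
  have h := hS (B.b v z) (B.b w z)
  rw [skew z w, mul_comm (S (B.b w z)), h]
  simp only [mul_neg, map_neg]
  rw [mul_comm (S (B.b v z))]
  ring

lemma Sm_of_LL [Finite K] {S : K →ₗ[F] K} {z : V} (hz : z ≠ 0) (h : LL B z S ∈ iso F B) : Sm S := by
  obtain ⟨y, hy⟩ : ∃ y, B.b y z = 1 := by
    have : ∃ y, B.b z y ≠ 0 := by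
      by_contra hcon
      push Not at hcon
      exact hz (B.nd z hcon)
    obtain ⟨y, hy⟩ := this
    refine ⟨(-(B.b z y))⁻¹ • y, ?_⟩
    rw [map_smul, LinearMap.smul_apply, skew y z, smul_eq_mul, inv_mul_cancel₀ (neg_ne_zero.2 hy)]
  intro k l
  have h1 := (mem_iso.1 h) (k • y) (l • y)
  rw [LL_apply, LL_apply] at h1
  unfold tf at h1
  simp only [map_add, LinearMap.add_apply, map_smul, LinearMap.smul_apply, B.alt, smul_eq_mul, mul_zero, add_zero,
    skew z y, hy, mul_one, mul_neg, map_neg, map_zero, zero_add] at h1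
  rw [mul_comm k (S l)]
  linear_combination h1

lemma LL_smul (c : K) (z : V) (S : K →ₗ[F] K) : LL B (c • z) S = LL B z (mu F c ∘ₗ S ∘ₗ mu F c) := by
  apply LinearEquiv.ext
  intro v
  rw [LL_apply, LL_apply, map_smul, smul_eq_mul, smul_smul, LinearMap.comp_apply, LinearMap.comp_apply,
    LinearMap.mulLeft_apply, LinearMap.mulLeft_apply, mul_comm]

lemma LL_conj {g : V ≃ₗ[K] V} (hg : ∀ v w, B.b (g v) (g w) = B.b v w) (z : V) (S : K →ₗ[F] K) :
    g.restrictScalars F * LL B z S * (g.restrictScalars F)⁻¹ = LL B (g z) S := by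
  rw [mul_inv_eq_iff_eq_mul]
  apply LinearEquiv.ext
  intro v
  rw [LinearEquiv.mul_apply, LinearEquiv.mul_apply, LL_apply, LL_apply]
  change g (v + S (B.b v z) • z) = g v + S (B.b (g v) (g z)) • g z
  rw [map_add, map_smul, hg]

/-- the `K`-linear transvection -/
def TK (B : Sy K V) (z : V) (c : K) : V ≃ₗ[K] V where
  toFun v := v + (c * B.b v z) • z
  map_add' v w := by
    simp only [map_add, LinearMap.add_apply, mul_add, add_smul]
    abel
  map_smul' k v := by
    simp only [map_smul, LinearMap.smul_apply, smul_eq_mul, smul_add, RingHom.id_apply, smul_smul]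
    congr 2
    ring
  invFun v := v - (c * B.b v z) • z
  left_inv v := by
    simp [B.alt]
  right_inv v := by
    simp [B.alt]

lemma TK_apply (z : V) (c : K) (v : V) : TK B z c v = v + (c * B.b v z) • z := rfl

lemma TK_b (z : V) (c : K) (v w : V) : B.b (TK B z c v) (TK B z c w) = B.b v w := by
  rw [TK_apply, TK_apply]
  simp only [map_add, LinearMap.add_apply, map_smul, LinearMap.smul_apply, B.alt, smul_eq_mul, skew z w]
  ring

lemma TK_eq (z : V) (c : K) : (TK B z c).restrictScalars F = LL B z (mu F c) := by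
  apply LinearEquiv.ext
  intro v
  rfl

lemma exists_b_ne {v : V} (hv : v ≠ 0) : ∃ y, B.b v y ≠ 0 := by
  by_contra hcon
  push Not at hcon
  exact hv (B.nd v hcon)

lemma exists_b_ne' {v : V} (hv : v ≠ 0) : ∃ y, B.b y v ≠ 0 := by
  obtain ⟨y, hy⟩ := exists_b_ne (B := B) hv
  exact ⟨y, by rw [skew]; exact neg_ne_zero.2 hy⟩

lemma exists_b_ne_ne {v w : V} (hv : v ≠ 0) (hw : w ≠ 0) : ∃ y, B.b v y ≠ 0 ∧ B.b y w ≠ 0 := by
  obtain ⟨y, hy⟩ := exists_b_ne (B := B) hv
  obtain ⟨z, hz⟩ := exists_b_ne' (B := B) hw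
  by_cases h1 : B.b y w = 0
  · by_cases h2 : B.b v z = 0
    · refine ⟨y + z, ?_, ?_⟩
      · rw [map_add, h2, add_zero]; exact hy
      · rw [map_add, LinearMap.add_apply, h1, zero_add]; exact hz
    · exact ⟨z, h2, hz⟩
  · exact ⟨y, hy, h1⟩

/-- `K`-linear isometries are transitive on non-zero vectors. -/
lemma exists_klin {v w : V} (hv : v ≠ 0) (hw : w ≠ 0) :
    ∃ g : V ≃ₗ[K] V, (∀ x y, B.b (g x) (g y) = B.b x y) ∧ g v = w := by
  have key : ∀ v w : V, B.b v w ≠ 0 → ∃ g : V ≃ₗ[K] V, (∀ x y, B.b (g x) (g y) = B.b x y) ∧ g v = w := by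
    intro v w h
    refine ⟨TK B (w - v) (B.b v w)⁻¹, TK_b _ _, ?_⟩
    rw [TK_apply, map_sub, B.alt, sub_zero, inv_mul_cancel₀ h, one_smul]
    abel
  obtain ⟨y, hy1, hy2⟩ := exists_b_ne_ne (B := B) hv hw
  obtain ⟨g, hg1, hg2⟩ := key v y hy1
  obtain ⟨h, hh1, hh2⟩ := key y w hy2
  refine ⟨h * g, fun x x' => ?_, ?_⟩
  · rw [LinearEquiv.mul_apply, LinearEquiv.mul_apply, hh1, hg1]
  · rw [LinearEquiv.mul_apply, hg2, hh2]

/-- a dual vector -/
lemma exists_dual {v : V} (hv : v ≠ 0) : ∃ y, B.b v y = 1 := by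
  obtain ⟨y, hy⟩ := exists_b_ne (B := B) hv
  exact ⟨(B.b v y)⁻¹ • y, by rw [map_smul, smul_eq_mul, inv_mul_cancel₀ hy]⟩

end basic

/-- The hypotheses on the overgroup `H`. -/
structure HypS {F K V : Type*} [Field F] [Field K] [Algebra F K] [AddCommGroup V] [Module F V] [Module K V]
    [IsScalarTower F K V] (B : Sy K V) (H : Subgroup (V ≃ₗ[F] V)) : Prop where
  le : H ≤ iso F B
  semi : ∀ g ∈ iso F B, Semi K g → g ∈ H

section hyp

variable {F K V : Type*} [Field F] [Field K] [Algebra F K] [AddCommGroup V] [Module F V] [Module K V]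
  [IsScalarTower F K V] {B : Sy K V} {H : Subgroup (V ≃ₗ[F] V)}

lemma HypS.lin (hy : HypS B H) {g : V ≃ₗ[K] V} (hg : ∀ v w, B.b (g v) (g w) = B.b v w) : g.restrictScalars F ∈ H :=
  hy.semi _ (iso_of_klin hg) (semi_of_lin g)

/-- The symmetric maps giving long root elements in `H`. -/
def ZS (B : Sy K V) (H : Subgroup (V ≃ₗ[F] V)) : AddSubgroup (K →ₗ[F] K) where
  carrier := {S | ∀ z, LL B z S ∈ H}
  add_mem' {a b} ha hb := by
    intro z
    rw [← LL_mul]
    exact H.mul_mem (ha z) (hb z)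
  zero_mem' := by
    intro z
    rw [LL_zero]; exact H.one_mem
  neg_mem' {a} ha := by
    intro z
    rw [LL_neg]
    exact H.inv_mem (ha z)

lemma mem_ZS {S : K →ₗ[F] K} : S ∈ ZS B H ↔ ∀ z, LL B z S ∈ H := Iff.rfl

lemma HypS.mem_ZS (hy : HypS B H) {S : K →ₗ[F] K} {z : V} (hz : z ≠ 0) (h : LL B z S ∈ H) : S ∈ ZS B H := by
  intro w
  by_cases hw : w = 0
  · rw [hw, LL_zero_left]; exact H.one_mem
  obtain ⟨g, hg1, hg2⟩ := exists_klin (B := B) hz hw
  rw [← hg2, ← LL_conj hg1]
  exact H.mul_mem (H.mul_mem (hy.lin hg1) h) (H.inv_mem (hy.lin hg1))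

lemma HypS.mu_mem (hy : HypS B H) (c : K) : mu F c ∈ ZS B H := by
  intro z
  rw [← TK_eq]
  exact hy.lin (TK_b z c)

lemma smul_ZS (c : K) {S : K →ₗ[F] K} (hS : S ∈ ZS B H) : mu F c ∘ₗ S ∘ₗ mu F c ∈ ZS B H := by
  intro z
  rw [← LL_smul]
  exact hS _

lemma Sm_of_ZS [Finite K] [Nontrivial V] (hy : HypS B H) {S : K →ₗ[F] K} (hS : S ∈ ZS B H) : Sm S := by
  obtain ⟨z, hz⟩ := exists_ne (0 : V)
  exact Sm_of_LL hz (hy.le (hS z))

end hyp

end Cfsg.Agent.H98.Sp
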