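import Cfsg.Agent.H98.SpA

set_option autoImplicit false
set_option linter.unusedSectionVars false
set_option linter.style.haveILetI false
set_option linter.unusedSimpArgs false

/-!
Extension fields in symplectic groups, part B: short root elements; if some long root element of `H` is not
`K`-linear and `dim_K V ≥ 4` then `H` contains all `F`-transvections.
-/

namespace Cfsg.Agent.H98.Sp

open Module Cfsg.Agent.H98.Ext Cfsg.Agent.H98.Or

section adj

variable {F K : Type*} [Field F] [Field K] [Algebra F K]

/-- `y'` is the adjoint of `y` for the trace form. -/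
def Ad (y y' : K →ₗ[F] K) : Prop := ∀ k l, Algebra.trace F K (k * y l) = Algebra.trace F K (l * y' k)

lemma Ad.symm {y y' : K →ₗ[F] K} (h : Ad y y') : Ad y' y := fun k l => (h l k).symm

lemma Ad.add {y y' z z' : K →ₗ[F] K} (h : Ad y y') (h' : Ad z z') : Ad (y + z) (y' + z') := by
  intro k l
  rw [LinearMap.add_apply, LinearMap.add_apply, mul_add, mul_add, map_add, map_add, h, h']

lemma Ad.neg {y y' : K →ₗ[F] K} (h : Ad y y') : Ad (-y) (-y') := by
  intro k l
  rw [LinearMap.neg_apply, LinearMap.neg_apply, mul_neg, mul_neg, map_neg, map_neg, h]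

lemma Ad.comp {y y' z z' : K →ₗ[F] K} (h : Ad y y') (h' : Ad z z') : Ad (y ∘ₗ z) (z' ∘ₗ y') := by
  intro k l
  rw [LinearMap.comp_apply, LinearMap.comp_apply, h k (z l), mul_comm (z l), h' (y' k) l]

lemma Ad_of_Sm {S : K →ₗ[F] K} (hS : Sm S) : Ad S S := hS

lemma Ad_mu (c : K) : Ad (mu F c) (mu F c) := by
  intro k l
  rw [LinearMap.mulLeft_apply, LinearMap.mulLeft_apply]
  congr 1
  ring

lemma exists_adj [Finite K] (y : K →ₗ[F] K) : ∃ y', Ad y y' := by
  have h : ∀ k : K, ∃ c : K, ∀ l, Algebra.trace F K (k * y l) = Algebra.trace F K (c * l) := fun k =>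
    tr_exists F ((Algebra.trace F K) ∘ₗ (LinearMap.mulLeft F k) ∘ₗ y)
  choose c hc using h
  refine ⟨{ toFun := c, map_add' := ?_, map_smul' := ?_ }, ?_⟩
  · intro a b
    apply tr_ext F
    intro l
    rw [← hc, add_mul, add_mul, map_add, map_add, hc, hc]
  · intro a b
    apply tr_ext F
    intro l
    rw [← hc, smul_mul_assoc, map_smul, RingHom.id_apply, smul_mul_assoc, map_smul, hc]
  · intro k l
    rw [hc, mul_comm]
    rfl

/-- `k ↦ c Tr(k)`. -/
noncomputable def S1 (K : Type*) {F : Type*} [Field F] [Field K] [Algebra F K] (c : F) : K →ₗ[F] K :=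
  (LinearMap.toSpanSingleton F K 1) ∘ₗ (c • Algebra.trace F K)

lemma S1_apply (c : F) (k : K) : S1 K c k = (c * Algebra.trace F K k) • (1 : K) := rfl

lemma Ad_S1 (c : F) : Ad (S1 K c) (S1 K c) := by
  intro k l
  rw [S1_apply, S1_apply, mul_smul_comm, mul_smul_comm, mul_one, mul_one, map_smul, map_smul, smul_eq_mul,
    smul_eq_mul]
  ring

/-- The rank one symmetric maps are in every `Z` containing the identity and the `y + y'`. -/
lemma S1_mem [Finite K] (Z : AddSubgroup (K →ₗ[F] K)) (hK : ∀ c : K, mu F c ∈ Z)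
    (hsm : ∀ (c : K) S, S ∈ Z → mu F c ∘ₗ S ∘ₗ mu F c ∈ Z)
    (hZ : ∀ y y' : K →ₗ[F] K, Ad y y' → y + y' ∈ Z) (c : F) : S1 K c ∈ Z := by
  classical
  have := fin_dim F K
  have := fin_F F K
  by_cases h2 : (2 : F) = 0
  · -- characteristic two
    have key : S1 K (1 : F) ∈ Z := by
      let e := Module.finBasis F K
      -- the alternating form
      let A : Fin (finrank F K) → Fin (finrank F K) → F := fun i j =>
        Algebra.trace F K (e i) * Algebra.trace F K (e j) + Algebra.trace F K (e i * e j)
      have hA : ∀ i j, A i j = A j i := by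
        intro i j
        change _ * _ + Algebra.trace F K (e i * e j) = _ * _ + Algebra.trace F K (e j * e i)
        rw [mul_comm (e i) (e j), mul_comm (Algebra.trace F K (e i))]
      have hchar : CharP F 2 := CharTwo.of_one_ne_zero_of_two_eq_zero one_ne_zero h2
      have hcharK : CharP K 2 := charP_of_injective_algebraMap (algebraMap F K).injective 2
      have hfF := Fintype.ofFinite F
      have hfK := Fintype.ofFinite K
      have hsqtr : ∀ k : K, Algebra.trace F K (k * k) = Algebra.trace F K k * Algebra.trace F K k := by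
        intro k
        have h3 : ∀ k : K, algebraMap F K (Algebra.trace F K k) = ∑ σ : K ≃ₐ[F] K, σ k := fun k =>
          trace_eq_sum_automorphisms k
        apply (algebraMap F K).injective
        rw [h3, map_mul, h3]
        have h4 : ∀ s : Finset (K ≃ₐ[F] K), ∑ σ ∈ s, σ (k * k) = (∑ σ ∈ s, σ k) * (∑ σ ∈ s, σ k) := by
          intro s
          induction s using Finset.induction_on with
          | empty => simp
          | insert a s ha ih =>
            rw [Finset.sum_insert ha, Finset.sum_insert ha, ih, map_mul]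
            have : (2 : K) = 0 := by
              have := congrArg (algebraMap F K) h2
              rwa [map_ofNat, map_zero] at this
            linear_combination (-(a k * ∑ σ ∈ s, σ k)) * this
        exact h4 Finset.univ
      have hAd : ∀ i, A i i = 0 := by
        intro i
        change _ * _ + Algebra.trace F K (e i * e i) = 0
        rw [hsqtr]
        linear_combination (Algebra.trace F K (e i) * Algebra.trace F K (e i)) * h2
      -- dual basis
      have hnd := traceForm_nondegenerate F K
      let e' := (Algebra.traceForm F K).dualBasis hnd e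
      have he' : ∀ i j, Algebra.trace F K (e' i * e j) = if j = i then 1 else 0 := by
        intro i j
        have := LinearMap.BilinForm.apply_dualBasis_left (B := Algebra.traceForm F K) hnd e i j
        rw [Algebra.traceForm_apply] at this
        exact this
      -- the map `y`, with `Tr(e_i y(e_j)) = A i j` for `i < j`
      let y : K →ₗ[F] K := e.constr F (fun j => ∑ i, (if i < j then A i j else 0) • e' i)
      have hy : ∀ j, y (e j) = ∑ i, (if i < j then A i j else 0) • e' i := fun j => e.constr_basis F _ j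
      have hyt : ∀ i j, Algebra.trace F K (e i * y (e j)) = if i < j then A i j else 0 := by
        intro i j
        have h8 : ∀ x, Algebra.trace F K (e i * ((if x < j then A x j else 0) • e' x)) =
            (if x < j then A x j else 0) * (if i = x then 1 else 0) := by
          intro x
          rw [mul_smul_comm, map_smul, mul_comm (e i), he', smul_eq_mul]
        rw [hy, Finset.mul_sum, map_sum]
        simp only [h8, mul_ite, mul_one, mul_zero]
        rw [Finset.sum_ite_eq]
        simp
      obtain ⟨y', hy'⟩ := exists_adj y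
      have h5 : S1 K (1 : F) = (y + y') + mu F (1 : K) := by
        apply e.ext
        intro j
        apply tr_ext F
        intro k
        rw [mul_comm, mul_comm _ k]
        -- linear in k
        have h6 : ∀ i, Algebra.trace F K (e i * S1 K (1 : F) (e j)) =
            Algebra.trace F K (e i * ((y + y') + mu F (1 : K) : K →ₗ[F] K) (e j)) := by
          intro i
          rw [S1_apply, mul_smul_comm, map_smul, one_mul, mul_one, smul_eq_mul, LinearMap.add_apply,
            LinearMap.add_apply, LinearMap.mulLeft_apply, one_mul, mul_add, mul_add, map_add, map_add, ← hy', hyt, hyt]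
          have h7 : Algebra.trace F K (e j) * Algebra.trace F K (e i) = A i j + Algebra.trace F K (e i * e j) := by
            change _ = _ * _ + Algebra.trace F K (e i * e j) + Algebra.trace F K (e i * e j)
            linear_combination (-(Algebra.trace F K (e i * e j))) * h2
          rw [h7]
          congr 1
          rcases lt_trichotomy i j with h | h | h
          · rw [if_pos h, if_neg (not_lt.2 h.le), add_zero]
          · subst h
            rw [if_neg (lt_irrefl _), add_zero, hAd]
          · rw [if_neg (not_lt.2 h.le), if_pos h, zero_add, hA]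
        conv_lhs => rw [← e.sum_repr k]
        conv_rhs => rw [← e.sum_repr k]
        rw [Finset.sum_mul, Finset.sum_mul, map_sum, map_sum]
        apply Finset.sum_congr rfl
        intro i _
        rw [smul_mul_assoc, smul_mul_assoc, map_smul, map_smul, h6]
      rw [h5]
      exact Z.add_mem (hZ y y' hy') (hK 1)
    obtain ⟨a, ha⟩ : ∃ a : F, a * a = c := by
      have hchar : CharP F 2 := CharTwo.of_one_ne_zero_of_two_eq_zero one_ne_zero h2
      have hfF := Fintype.ofFinite F
      obtain ⟨a, ha⟩ := FiniteField.isSquare_of_char_two (F := F) (ringChar.eq F 2 ▸ rfl) c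
      exact ⟨a, ha.symm⟩
    have h3 := hsm (algebraMap F K a) _ key
    convert h3 using 1
    apply LinearMap.ext
    intro k
    rw [LinearMap.comp_apply, LinearMap.comp_apply, LinearMap.mulLeft_apply, LinearMap.mulLeft_apply, S1_apply,
      S1_apply, ← Algebra.smul_def, ← Algebra.smul_def, map_smul, smul_smul, ← ha, smul_eq_mul]
    congr 1
    ring
  · have h3 := hZ _ _ (Ad_S1 (K := K) (c / 2))
    convert h3 using 1
    apply LinearMap.ext
    intro k
    rw [LinearMap.add_apply, S1_apply, S1_apply, ← add_smul]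
    congr 1
    field_simp
    ring

end adj

end Cfsg.Agent.H98.Sp

namespace Cfsg.Agent.H98.Sp

open Module Cfsg.Agent.H98.Ext Cfsg.Agent.H98.Or

section short

variable {F K V : Type*} [Field F] [Field K] [Algebra F K] [AddCommGroup V] [Module F V] [Module K V]
  [IsScalarTower F K V] {B : Sy K V} {H : Subgroup (V ≃ₗ[F] V)}

/-- `H` contains `v ↦ v + (y (B(v, u)) + T (B(v, e))) e + y' (B(v, e)) u`. -/
def Has (B : Sy K V) (H : Subgroup (V ≃ₗ[F] V)) (e u : V) (y y' T : K →ₗ[F] K) : Prop :=
  ∃ g ∈ H, ∀ v, g v = v + (y (B.b v u) + T (B.b v e)) • e + y' (B.b v e) • u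

lemma Has.add {e u : V} (heu : B.b e u = 0) {y y' T z z' T' : K →ₗ[F] K} (h : Has B H e u y y' T)
    (h' : Has B H e u z z' T') : Has B H e u (y + z) (y' + z') (T + T') := by
  obtain ⟨g, hg, hgv⟩ := h
  obtain ⟨g', hg', hgv'⟩ := h'
  have hue : B.b u e = 0 := by rw [skew, heu, neg_zero]
  refine ⟨g * g', H.mul_mem hg hg', fun v => ?_⟩
  rw [LinearEquiv.mul_apply, hgv', hgv]
  simp only [map_add, LinearMap.add_apply, map_smul, LinearMap.smul_apply, B.alt, heu, hue, smul_eq_mul, mul_zero,
    add_zero, add_smul]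
  abel

lemma Has.neg {e u : V} (heu : B.b e u = 0) {y y' T : K →ₗ[F] K} (h : Has B H e u y y' T) :
    Has B H e u (-y) (-y') (-T) := by
  obtain ⟨g, hg, hgv⟩ := h
  have hue : B.b u e = 0 := by rw [skew, heu, neg_zero]
  refine ⟨g⁻¹, H.inv_mem hg, fun v => ?_⟩
  apply g.injective
  rw [app_inv, hgv]
  simp only [map_add, LinearMap.add_apply, map_smul, LinearMap.smul_apply, B.alt, heu, hue, smul_eq_mul, mul_zero,
    add_zero, add_smul, LinearMap.neg_apply, neg_smul, map_neg, map_zero, zero_smul, neg_zero]
  abel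

lemma Has_smul (c : K) (e : V) (y y' : K →ₗ[F] K) :
    Has B H e (c • e) y y' (-(y ∘ₗ mu F c + mu F c ∘ₗ y')) := by
  refine ⟨1, H.one_mem, fun v => ?_⟩
  change v = _
  simp only [map_smul, smul_eq_mul, LinearMap.neg_apply, LinearMap.add_apply, LinearMap.comp_apply,
    LinearMap.mulLeft_apply, smul_smul, add_smul, neg_smul, mul_comm (y' _)]
  abel

/-- The set of `y` giving short root elements, modulo long ones. -/
def JR (B : Sy K V) (H : Subgroup (V ≃ₗ[F] V)) : AddSubgroup (K →ₗ[F] K) where
  carrier := {y | ∀ e u : V, B.b e u = 0 → ∃ y' T, Ad y y' ∧ Has B H e u y y' T}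
  add_mem' := by
    intro y z hy hz e u heu
    obtain ⟨y', T, h1, h2⟩ := hy e u heu
    obtain ⟨z', T', h3, h4⟩ := hz e u heu
    exact ⟨_, _, h1.add h3, h2.add heu h4⟩
  zero_mem' := by
    intro e u heu
    refine ⟨0, 0, ?_, 1, H.one_mem, fun v => ?_⟩
    · intro k l; simp
    · change v = _
      simp
  neg_mem' := by
    intro y hy e u heu
    obtain ⟨y', T, h1, h2⟩ := hy e u heu
    exact ⟨_, _, h1.neg, h2.neg heu⟩

lemma ZS_le_JR [Finite K] [Nontrivial V] (hy : HypS B H) : ZS B H ≤ JR B H := by
  intro S hS e u heu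
  have hue : B.b u e = 0 := by rw [skew, heu, neg_zero]
  refine ⟨S, 0, Ad_of_Sm (Sm_of_ZS hy hS), LL B (e + u) S * (LL B e (-S) * LL B u (-S)), ?_, fun v => ?_⟩
  · have hS' : -S ∈ ZS B H := (ZS B H).neg_mem hS
    exact H.mul_mem (hS _) (H.mul_mem (hS' _) (hS' _))
  · rw [LinearEquiv.mul_apply, LinearEquiv.mul_apply, LL_apply, LL_apply, LL_apply]
    simp only [map_add, LinearMap.add_apply, map_smul, LinearMap.smul_apply, B.alt, heu, hue, smul_eq_mul, mul_zero,
      add_zero, add_smul, LinearMap.neg_apply, neg_smul, map_neg, LinearMap.zero_apply, zero_add, smul_add, map_zero,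
      zero_smul, neg_zero]
    abel

lemma exists_sep [Finite V] {e u : V} (hu : u ∉ Submodule.span K {e}) : ∃ u', B.b u' e = 0 ∧ B.b u' u = 1 := by
  have : FiniteDimensional K V := Module.Finite.of_finite
  obtain ⟨φ, h1, h2⟩ := exists_dual_zero_one K hu
  have h3 : Function.Injective B.b := by
    rw [← LinearMap.ker_eq_bot, LinearMap.ker_eq_bot']
    intro x hx
    exact B.nd x (fun y => LinearMap.congr_fun hx y)
  have h4 : Function.Surjective B.b := by
    have h5 : finrank K V = finrank K (Module.Dual K V) := (Subspace.dual_finrank_eq (K := K) (V := V)).symm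
    exact (LinearMap.injective_iff_surjective_of_finrank_eq_finrank h5).1 h3
  obtain ⟨u', hu'⟩ := h4 φ
  exact ⟨u', by rw [hu', h1], by rw [hu', h2]⟩

lemma JR_comp [Finite K] [Finite V] [Nontrivial V] (hy : HypS B H) {y S : K →ₗ[F] K} (hyJ : y ∈ JR B H)
    (hS : S ∈ ZS B H) : y ∘ₗ S ∈ JR B H := by
  intro e u heu
  obtain ⟨y₀, hy₀⟩ := exists_adj y
  have hSm := Sm_of_ZS hy hS
  by_cases hu : u ∈ Submodule.span K {e}
  · obtain ⟨c, rfl⟩ := Submodule.mem_span_singleton.1 hu
    exact ⟨_, _, hy₀.comp (Ad_of_Sm hSm), Has_smul _ _ _ _⟩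
  obtain ⟨u', hu'e, hu'u⟩ := exists_sep (B := B) hu
  have heu' : B.b e u' = 0 := by rw [skew, hu'e, neg_zero]
  have hue : B.b u e = 0 := by rw [skew, heu, neg_zero]
  have huu' : B.b u u' = -1 := by rw [skew, hu'u]
  obtain ⟨y', T, hyy', g, hg, hgv⟩ := hyJ e u' heu'
  refine ⟨S ∘ₗ y', -(y ∘ₗ S ∘ₗ y'), hyy'.comp (Ad_of_Sm hSm), LL B u S * g * (LL B u S)⁻¹ * g⁻¹,
    H.mul_mem (H.mul_mem (H.mul_mem (hS u) hg) (H.inv_mem (hS u))) (H.inv_mem hg), fun w => ?_⟩
  obtain ⟨v, hv⟩ : ∃ v, w = g (LL B u S v) := ⟨(LL B u S)⁻¹ (g⁻¹ w), by rw [app_inv, app_inv]⟩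
  have e1 : (LL B u S * g * (LL B u S)⁻¹ * g⁻¹) w = LL B u S (g v) := by
    rw [hv, LinearEquiv.mul_apply, LinearEquiv.mul_apply, LinearEquiv.mul_apply, inv_app, inv_app]
  rw [e1, hv]
  simp only [LL_apply, hgv, map_add, LinearMap.add_apply, map_smul, LinearMap.smul_apply, B.alt, heu, hue, heu', hu'e,
    hu'u, huu', smul_eq_mul, mul_zero, add_zero, zero_add, mul_one, mul_neg, map_neg, add_smul, LinearMap.neg_apply,
    LinearMap.comp_apply, neg_smul, map_zero, zero_smul, neg_zero]
  abel

/-- If some long root element of `H` is not `K`-linear, then all short root maps occur. -/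
lemma JR_top [Finite K] [Finite V] [Nontrivial V] (hy : HypS B H) (hr : (finrank F K).Prime) {S : K →ₗ[F] K}
    (hS : S ∈ ZS B H) (hS' : ¬ ∀ k l : K, S (k * l) = k * S l) (y : K →ₗ[F] K) : y ∈ JR B H := by
  let A : Subring (Module.End F K) :=
    { carrier := {a | ∀ y ∈ JR B H, y ∘ₗ a ∈ JR B H}
      mul_mem' := by
        intro a b ha hb y hy
        exact hb _ (ha y hy)
      one_mem' := fun y hy => hy
      add_mem' := by
        intro a b ha hb y hy
        rw [LinearMap.comp_add]
        exact (JR B H).add_mem (ha y hy) (hb y hy)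
      zero_mem' := by
        intro y _
        rw [LinearMap.comp_zero]
        exact (JR B H).zero_mem
      neg_mem' := by
        intro a ha y hy
        rw [LinearMap.comp_neg]
        exact (JR B H).neg_mem (ha y hy) }
  have hA : A = ⊤ := by
    refine density (K := K) hr A ?_ (y := S) (fun y hyJ => JR_comp hy hyJ hS) ?_
    · intro z y hyJ
      have e : ((z.restrictScalars F : K ≃ₗ[F] K) : K →ₗ[F] K) = mu F (z 1) := by
        apply LinearMap.ext
        intro x
        simp only [LinearEquiv.coe_coe, LinearEquiv.restrictScalars_apply, LinearMap.mulLeft_apply]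
        have : z x = z (x • (1 : K)) := by simp
        rw [this, map_smul, smul_eq_mul, mul_comm]
      rw [e]
      exact JR_comp hy hyJ (hy.mu_mem _)
    · intro hcon
      exact hS' hcon
  have h1 : y ∈ A := by rw [hA]; trivial
  have h2 := h1 (mu F (1 : K)) (ZS_le_JR hy (hy.mu_mem 1))
  have e : mu F (1 : K) ∘ₗ y = y := by
    apply LinearMap.ext
    intro k
    rw [LinearMap.comp_apply, LinearMap.mulLeft_apply, one_mul]
  rwa [e] at h2

theorem transv_mem_of_JR [Finite K] [Finite V] (hy : HypS B H) (hd : 3 ≤ finrank K V)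
    (hJ : ∀ y : K →ₗ[F] K, y ∈ JR B H) (c : F) : S1 K c ∈ ZS B H := by
  have : FiniteDimensional K V := Module.Finite.of_finite
  have hnt : Nontrivial V := Module.nontrivial_of_finrank_pos (R := K) (by omega)
  -- a triple `e, u, u'`
  obtain ⟨e, he⟩ := exists_ne (0 : V)
  obtain ⟨u, hu1, hu2⟩ : ∃ u, u ∉ Submodule.span K {e} ∧ B.b e u = 0 := by
    by_contra hcon
    push Not at hcon
    have h1 : LinearMap.ker (B.b e) ≤ Submodule.span K {e} := by
      intro u hu
      by_contra h
      exact hcon u h hu
    have h2 := Submodule.finrank_mono h1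
    rw [finrank_span_singleton he] at h2
    have h3 := LinearMap.finrank_range_add_finrank_ker (B.b e)
    have h4 : finrank K (LinearMap.range (B.b e)) ≤ 1 := by
      have := Submodule.finrank_le (LinearMap.range (B.b e))
      rwa [finrank_self] at this
    omega
  obtain ⟨u', hu'e, hu'u⟩ := exists_sep (B := B) hu1
  have heu' : B.b e u' = 0 := by rw [skew, hu'e, neg_zero]
  have hue : B.b u e = 0 := by rw [skew, hu2, neg_zero]
  have huu' : B.b u u' = -1 := by rw [skew, hu'u]
  refine S1_mem (ZS B H) hy.mu_mem (fun c S hS => smul_ZS c hS) ?_ c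
  intro y y' hyy'
  obtain ⟨y₁, T, h1, g, hg, hgv⟩ := hJ y e u hu2
  obtain ⟨z₁, T', h2, h, hh, hhv⟩ := hJ (mu F (1 : K)) e u' heu'
  have e1 : y₁ = y' := by
    apply LinearMap.ext
    intro k
    apply tr_ext F
    intro l
    rw [mul_comm, ← h1, hyy', mul_comm]
  have e2 : z₁ = mu F (1 : K) := by
    apply LinearMap.ext
    intro k
    apply tr_ext F
    intro l
    rw [mul_comm, ← h2, Ad_mu, mul_comm]
  subst e1 e2
  refine hy.mem_ZS he ?_
  have e3 : LL B e (y + y₁) = g * h * (h * g)⁻¹ := by
    rw [eq_mul_inv_iff_mul_eq]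
    apply LinearEquiv.ext
    intro v
    simp only [LinearEquiv.mul_apply, LL_apply, hgv, hhv, map_add, LinearMap.add_apply, map_smul, LinearMap.smul_apply,
      B.alt, hu2, hue, heu', hu'e, hu'u, huu', smul_eq_mul, mul_zero, add_zero, zero_add, mul_one, mul_neg, map_neg,
      add_smul, neg_smul, LinearMap.mulLeft_apply, one_mul, map_zero, zero_smul, neg_zero]
    abel
  rw [e3]
  exact H.mul_mem (H.mul_mem hg hh) (H.inv_mem (H.mul_mem hh hg))

end short

end Cfsg.Agent.H98.Sp
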