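import Cfsg.Agent.H98.SpB

set_option autoImplicit false
set_option linter.unusedSectionVars false
set_option linter.style.haveILetI false
set_option linter.unusedSimpArgs false

/-!
Extension fields in symplectic groups, part C: when all long root elements of `H` are `K`-linear, the stabiliser in `H`
of a `K`-line is semilinear.
-/

namespace Cfsg.Agent.H98.Sp

open Module Cfsg.Agent.H98.Ext Cfsg.Agent.H98.Or

section model

variable {F K X : Type*} [Field F] [Field K] [Algebra F K] [AddCommGroup X] [Module F X] [Module K X]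
  [IsScalarTower F K X]

/-- The form `(a, x, b), (a', x', b') ↦ a b' - b a' + β(x, x')`. -/
def mdl (β : Sy K X) : Sy K (K × X × K) where
  b := LinearMap.mk₂ K (fun v w => v.1 * w.2.2 - v.2.2 * w.1 + β.b v.2.1 w.2.1)
    (by intro u v w; simp; ring) (by intro c v w; simp; ring) (by intro u v w; simp; ring) (by intro c v w; simp; ring)
  alt := by
    intro v
    rw [LinearMap.mk₂_apply, β.alt]
    ring
  nd := by
    intro v h
    have h1 := h (0, 0, 1)
    have h2 := h (1, 0, 0)
    rw [LinearMap.mk₂_apply] at h1 h2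
    simp at h1 h2
    have h3 : v.2.1 = 0 := by
      apply β.nd
      intro y
      have := h (0, y, 0)
      rw [LinearMap.mk₂_apply] at this
      simpa using this
    ext
    · exact h1
    · exact h3
    · exact h2

variable {β : Sy K X}

lemma mdl_b (v w : K × X × K) : (mdl β).b v w = v.1 * w.2.2 - v.2.2 * w.1 + β.b v.2.1 w.2.1 := rfl

/-- The map `(a, x, b) ↦ (a + f x + S b, x + g b, b)`. -/
def RS (f : X →ₗ[F] K) (g : K →ₗ[F] X) (S : K →ₗ[F] K) : (K × X × K) ≃ₗ[F] (K × X × K) where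
  toFun v := (v.1 + f v.2.1 + S v.2.2, v.2.1 + g v.2.2, v.2.2)
  map_add' v w := by
    ext
    · simp; ring
    · simp; abel
    · simp
  map_smul' c v := by
    ext
    · simp [smul_add]
    · simp [smul_add]
    · simp
  invFun v := (v.1 - f (v.2.1 - g v.2.2) - S v.2.2, v.2.1 - g v.2.2, v.2.2)
  left_inv v := by
    ext
    · simp; ring
    · simp
    · simp
  right_inv v := by
    ext
    · simp; ring
    · simp
    · simp

lemma RS_apply (f : X →ₗ[F] K) (g : K →ₗ[F] X) (S : K →ₗ[F] K) (v : K × X × K) :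
    RS f g S v = (v.1 + f v.2.1 + S v.2.2, v.2.1 + g v.2.2, v.2.2) := rfl

lemma RS_mul (f f' : X →ₗ[F] K) (g g' : K →ₗ[F] X) (S S' : K →ₗ[F] K) :
    RS f g S * RS f' g' S' = RS (f + f') (g + g') (S + S' + f ∘ₗ g') := by
  apply LinearEquiv.ext
  intro v
  rw [LinearEquiv.mul_apply, RS_apply, RS_apply, RS_apply]
  ext
  · simp; ring
  · simp; abel
  · simp

lemma RS_zero_eq (S : K →ₗ[F] K) : RS (0 : X →ₗ[F] K) 0 S = LL (mdl β) (1, 0, 0) (-S) := by
  apply LinearEquiv.ext
  intro v
  rw [RS_apply, LL_apply, mdl_b]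
  ext
  · simp
  · simp
  · simp

/-- `(f, g, S)` gives an isometry. -/
def Rcs (β : Sy K X) (f : X →ₗ[F] K) (g : K →ₗ[F] X) (S : K →ₗ[F] K) : Prop :=
  (∀ k x, Algebra.trace F K (k * f x) = Algebra.trace F K (β.b (g k) x)) ∧
    ∀ k l, Algebra.trace F K (S k * l - k * S l + β.b (g k) (g l)) = 0

lemma Rcs_of_mem {f : X →ₗ[F] K} {g : K →ₗ[F] X} {S : K →ₗ[F] K} (h : RS f g S ∈ iso F (mdl β)) : Rcs β f g S := by
  constructor
  · intro k x
    have := (mem_iso.1 h) (0, x, 0) (0, 0, k)
    unfold tf at this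
    rw [RS_apply, RS_apply, mdl_b, mdl_b] at this
    simp at this
    rw [skew (g k) x, map_neg, mul_comm]
    linear_combination this
  · intro k l
    have := (mem_iso.1 h) (0, 0, k) (0, 0, l)
    unfold tf at this
    rw [RS_apply, RS_apply, mdl_b, mdl_b] at this
    simp at this
    simp only [map_add, map_sub]
    linear_combination this

lemma mem_RS {f : X →ₗ[F] K} {g : K →ₗ[F] X} {S : K →ₗ[F] K} (h : Rcs β f g S) : RS f g S ∈ iso F (mdl β) := by
  intro v w
  obtain ⟨h1, h2⟩ := h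
  unfold tf
  rw [RS_apply, RS_apply, mdl_b, mdl_b]
  simp only [map_add, map_sub, LinearMap.add_apply, add_mul, mul_add]
  have e1 := h1 v.2.2 w.2.1
  have e2 := h1 w.2.2 v.2.1
  have e3 := h2 v.2.2 w.2.2
  rw [skew (g w.2.2)] at e2
  simp only [map_add, map_sub, map_neg] at e3 e2
  rw [mul_comm (f v.2.1), e2, e1]
  linear_combination e3

/-- An isometry fixing `W = K × 0 × 0` pointwise and acting trivially on `W^⊥/W` is of the form `RS`. -/
lemma exists_RS [Finite K] {g : (K × X × K) ≃ₗ[F] (K × X × K)} (hg : g ∈ iso F (mdl β))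
    (h1 : ∀ a : K, g (a, 0, 0) = (a, 0, 0)) (h2 : ∀ x : X, (g (0, x, 0)).2 = (x, 0)) :
    ∃ (f : X →ₗ[F] K) (g' : K →ₗ[F] X) (S : K →ₗ[F] K), g = RS f g' S := by
  have h3 : ∀ b : K, (g (0, 0, b)).2.2 = b := by
    intro b
    apply tr_ext F
    intro k
    have := (mem_iso.1 hg) (0, 0, b) (k, 0, 0)
    rw [h1] at this
    unfold tf at this
    rw [mdl_b, mdl_b] at this
    simpa using this
  refine ⟨LinearMap.fst F K (X × K) ∘ₗ (g : (K × X × K) →ₗ[F] (K × X × K)) ∘ₗ LinearMap.inr F K (X × K) ∘ₗ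
    LinearMap.inl F X K, (LinearMap.fst F X K ∘ₗ LinearMap.snd F K (X × K) ∘ₗ
      (g : (K × X × K) →ₗ[F] (K × X × K)) ∘ₗ LinearMap.inr F K (X × K) ∘ₗ LinearMap.inr F X K),
    LinearMap.fst F K (X × K) ∘ₗ (g : (K × X × K) →ₗ[F] (K × X × K)) ∘ₗ LinearMap.inr F K (X × K) ∘ₗ
    LinearMap.inr F X K, ?_⟩
  apply LinearEquiv.ext
  rintro ⟨a, x, b⟩
  have e : ((a, x, b) : K × X × K) = (a, 0, 0) + (0, x, 0) + (0, 0, b) := by ext <;> simp
  have e2 : g (a, x, b) = (a, 0, 0) + g (0, x, 0) + g (0, 0, b) := by rw [e, map_add, map_add, h1]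
  rw [RS_apply, e2]
  ext
  · simp
  · simp [h2]
  · simp [h2, h3]

/-- the `K`-linear Siegel element -/
def tS (β : Sy K X) (u : X) : (K × X × K) ≃ₗ[K] (K × X × K) where
  toFun v := (v.1 + β.b u v.2.1, v.2.1 + v.2.2 • u, v.2.2)
  map_add' v w := by
    ext
    · simp; ring
    · simp [add_smul]; abel
    · simp
  map_smul' c v := by
    ext
    · simp; ring
    · simp [mul_smul]
    · simp
  invFun v := (v.1 - β.b u v.2.1, v.2.1 - v.2.2 • u, v.2.2)
  left_inv v := by
    ext
    · simp [β.alt]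
    · simp
    · simp
  right_inv v := by
    ext
    · simp [β.alt]
    · simp
    · simp

lemma tS_apply (u : X) (v : K × X × K) : tS β u v = (v.1 + β.b u v.2.1, v.2.1 + v.2.2 • u, v.2.2) := rfl

lemma tS_b (u : X) (v w : K × X × K) : (mdl β).b (tS β u v) (tS β u w) = (mdl β).b v w := by
  rw [tS_apply, tS_apply, mdl_b, mdl_b]
  simp [β.alt]
  rw [skew v.2.1 u]
  ring

/-- `β(u, ·)` as an `F`-linear map. -/
def bs (F : Type*) [Field F] [Algebra F K] [Module F X] [IsScalarTower F K X] (β : Sy K X) (u : X) : X →ₗ[F] K :=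
  (β.b u).restrictScalars F

lemma bs_apply (u x : X) : bs F β u x = β.b u x := rfl

lemma tS_eq (u : X) : (tS β u).restrictScalars F = RS (bs F β u) (ku F u) 0 := by
  apply LinearEquiv.ext
  intro v
  change tS β u v = _
  rw [tS_apply, RS_apply]
  ext
  · simp [bs_apply]
  · simp [ku_apply]
  · simp

variable {H : Subgroup ((K × X × K) ≃ₗ[F] (K × X × K))}

/-- all long root maps of `H` are `K`-linear -/
def AllK {V : Type*} [AddCommGroup V] [Module F V] [Module K V] [IsScalarTower F K V] (B : Sy K V)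
    (H : Subgroup (V ≃ₗ[F] V)) : Prop := ∀ S ∈ ZS B H, ∀ k l : K, S (k * l) = k * S l

lemma RS00_lin (hy : HypS (mdl β) H) (hZ : AllK (mdl β) H) {S : K →ₗ[F] K} (h : RS (0 : X →ₗ[F] K) 0 S ∈ H) (k l : K) :
    S (k * l) = k * S l := by
  rw [RS_zero_eq (β := β)] at h
  have h1 := hy.mem_ZS (z := (1, 0, 0)) (by
    intro h0
    exact one_ne_zero (congrArg Prod.fst h0)) h
  have h2 := hZ _ h1 k l
  rw [LinearMap.neg_apply, LinearMap.neg_apply, mul_neg, neg_inj] at h2
  exact h2

/-- derivations of a finite field vanish -/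
lemma deriv_zero [Finite K] {δ : K → X}
    (hmul : ∀ k l, δ (k * l) = k • δ l + l • δ k) (k : K) : δ k = 0 := by
  have hfK := Fintype.ofFinite K
  have h1 : δ 1 = 0 := by
    have := hmul 1 1
    rw [mul_one, one_smul] at this
    exact left_eq_add.1 this
  have hpow : ∀ n : ℕ, δ (k ^ (n + 1)) = ((n + 1 : ℕ) : K) • k ^ n • δ k := by
    intro n
    induction n with
    | zero => simp
    | succ n ih =>
      rw [pow_succ, hmul, ih, smul_smul, smul_smul, ← add_smul, smul_smul]
      congr 1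
      push_cast
      ring
  obtain ⟨n, hn⟩ : ∃ n, Fintype.card K = n + 1 := ⟨Fintype.card K - 1, by have := Fintype.card_pos (α := K); omega⟩
  have h2 := hpow n
  rw [← hn, FiniteField.pow_card, FiniteField.cast_card_eq_zero, zero_smul] at h2
  exact h2

lemma RS_lin [Finite K] (hy : HypS (mdl β) H) (hZ : AllK (mdl β) H) {f : X →ₗ[F] K} {g : K →ₗ[F] X} {S : K →ₗ[F] K}
    (h : RS f g S ∈ H) : (∀ (k : K) x, f (k • x) = k * f x) ∧ ∀ (k : K) v, RS f g S (k • v) = k • RS f g S v := by
  have hc := Rcs_of_mem (hy.le h)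
  have key : ∀ u : X, ∀ k l : K, (f ∘ₗ ku F u - bs F β u ∘ₗ g : K →ₗ[F] K) (k * l) =
      k * (f ∘ₗ ku F u - bs F β u ∘ₗ g : K →ₗ[F] K) l := by
    intro u k l
    have h1 : (tS β u).restrictScalars F ∈ H := hy.lin (tS_b u)
    rw [tS_eq] at h1
    have e : RS (0 : X →ₗ[F] K) 0 (f ∘ₗ ku F u - bs F β u ∘ₗ g) =
        (RS f g S * RS (bs F β u) (ku F u) 0) * (RS (bs F β u) (ku F u) 0 * RS f g S)⁻¹ := by
      rw [eq_mul_inv_iff_mul_eq, RS_mul, RS_mul, RS_mul]
      congr 1
      · simp; abel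
      · simp; abel
      · simp; abel
    apply RS00_lin hy hZ
    rw [e]
    exact H.mul_mem (H.mul_mem h h1) (H.inv_mem (H.mul_mem h1 h))
  have key2 : ∀ u : X, ∀ k : K, f (k • u) - k * f u = β.b u (g k - k • g 1) := by
    intro u k
    have h1 := key u k 1
    rw [mul_one] at h1
    simp only [LinearMap.sub_apply, LinearMap.comp_apply, ku_apply, bs_apply, one_smul] at h1
    rw [map_sub, map_smul (β.b u), smul_eq_mul]
    linear_combination h1
  have hδ : ∀ k : K, g k - k • g 1 = 0 := by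
    apply deriv_zero
    intro k l
    rw [← sub_eq_zero]
    apply β.nd
    intro u
    rw [skew, neg_eq_zero, map_sub, map_add, map_smul, map_smul, ← key2, ← key2, ← key2]
    have h1 := key2 (l • u) k
    rw [map_smul β.b, LinearMap.smul_apply, ← key2, smul_smul, smul_eq_mul] at h1
    rw [smul_eq_mul, smul_eq_mul]
    linear_combination h1
  have hg : ∀ k, g k = k • g 1 := fun k => sub_eq_zero.1 (hδ k)
  have hf : ∀ (k : K) x, f (k • x) = k * f x := by
    intro k x
    have := key2 x k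
    rw [hδ, map_zero] at this
    exact sub_eq_zero.1 this
  have hgk : g = ku F (g 1) := by
    apply LinearMap.ext
    intro k
    rw [hg, ku_apply]
  have hfb : f = bs F β (g 1) := by
    apply LinearMap.ext
    intro x
    apply tr_ext F
    intro k
    have := hc.1 k x
    rw [hg, map_smul, LinearMap.smul_apply, smul_eq_mul] at this
    rw [mul_comm, this, mul_comm, bs_apply]
  have hS : ∀ k l, S (k * l) = k * S l := by
    apply RS00_lin hy hZ
    have h1 : (tS β (g 1)).restrictScalars F ∈ H := hy.lin (tS_b _)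
    have e : RS 0 0 S = ((tS β (g 1)).restrictScalars F)⁻¹ * RS f g S := by
      rw [eq_inv_mul_iff_mul_eq, tS_eq, RS_mul, ← hgk, ← hfb]
      congr 1
      · simp
      · simp
      · simp
    rw [e]
    exact H.mul_mem (H.inv_mem h1) h
  refine ⟨hf, ?_⟩
  intro k v
  rw [RS_apply, RS_apply]
  ext
  · simp only [Prod.smul_fst, Prod.smul_snd, hf, smul_eq_mul, hS]
    ring
  · simp only [Prod.smul_fst, Prod.smul_snd, smul_eq_mul]
    rw [hg (k * v.2.2), hg v.2.2, smul_add, mul_smul]
  · rfl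

end model

end Cfsg.Agent.H98.Sp
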