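import Cfsg.Agent.H98.SpC

set_option autoImplicit false
set_option linter.unusedSectionVars false
set_option linter.style.haveILetI false
set_option linter.unusedSimpArgs false

/-!
Extension fields in symplectic groups, part D: the stabiliser of a `K`-line.
-/

namespace Cfsg.Agent.H98.Sp

open Module Cfsg.Agent.H98.Ext

section model

variable {F K X : Type*} [Field F] [Field K] [Algebra F K] [AddCommGroup X] [Module F X] [Module K X]
  [IsScalarTower F K X] {β : Sy K X} {H : Subgroup ((K × X × K) ≃ₗ[F] (K × X × K))} [Finite K]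

/-- third coordinate of the image of `W^⊥` -/
lemma third_W {h : (K × X × K) ≃ₗ[F] (K × X × K)} (hi : h ∈ iso F (mdl β)) (hW : ∀ a : K, (h (a, 0, 0)).2 = 0)
    (x : X) : (h (0, x, 0)).2.2 = 0 := by
  apply Or.tr_nd F
  intro k
  obtain ⟨a', ha'⟩ := Or.surj_W hW k
  have h1 := (mem_iso.1 hi) (0, x, 0) (a', 0, 0)
  rw [ha'] at h1
  unfold tf at h1
  rw [mdl_b, mdl_b] at h1
  simpa using h1

lemma conj_RS (hy : HypS (mdl β) H) {h : (K × X × K) ≃ₗ[F] (K × X × K)} (hh : h ∈ H)
    (hW : ∀ a : K, (h (a, 0, 0)).2 = 0) {f₂ : X →ₗ[F] K} {g₂ : K →ₗ[F] X} {S₂ : K →ₗ[F] K} (hR : RS f₂ g₂ S₂ ∈ H) :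
    ∃ (f : X →ₗ[F] K) (g : K →ₗ[F] X) (S : K →ₗ[F] K), RS f g S ∈ H ∧ ∀ x, f₂ (h (0, x, 0)).2.1 = (h (f x, 0, 0)).1 := by
  have hr : h⁻¹ * RS f₂ g₂ S₂ * h ∈ H := H.mul_mem (H.mul_mem (H.inv_mem hh) hR) hh
  have e1 : ∀ a : K, (h⁻¹ * RS f₂ g₂ S₂ * h) (a, 0, 0) = (a, 0, 0) := by
    intro a
    rw [LinearEquiv.mul_apply, LinearEquiv.mul_apply]
    have : RS f₂ g₂ S₂ (h (a, 0, 0)) = h (a, 0, 0) := by
      rw [RS_apply, hW]
      ext <;> simp [hW]
    rw [this]
    exact inv_app h _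
  have e2 : ∀ x : X, ∃ y : K, h (y, 0, 0) = (f₂ (h (0, x, 0)).2.1, 0, 0) ∧
      (h⁻¹ * RS f₂ g₂ S₂ * h) (0, x, 0) = (y, x, 0) := by
    intro x
    obtain ⟨y, hy'⟩ := Or.surj_W hW (f₂ (h (0, x, 0)).2.1)
    refine ⟨y, hy', ?_⟩
    rw [LinearEquiv.mul_apply, LinearEquiv.mul_apply]
    have : RS f₂ g₂ S₂ (h (0, x, 0)) = h (y, x, 0) := by
      have e3 : ((y, x, 0) : K × X × K) = (y, 0, 0) + (0, x, 0) := by ext <;> simp
      rw [e3, map_add, hy', RS_apply]
      have e4 := third_W (hy.le hh) hW x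
      ext
      · simp [e4]; ring
      · simp [e4]
      · simp
    rw [this]
    exact inv_app h _
  obtain ⟨f, g, S, hfgS⟩ := exists_RS (hy.le hr) e1 (fun x => by
    obtain ⟨y, -, h2⟩ := e2 x
    rw [h2])
  refine ⟨f, g, S, by rw [← hfgS]; exact hr, fun x => ?_⟩
  obtain ⟨y, h1, h2⟩ := e2 x
  rw [hfgS, RS_apply] at h2
  have h3 := congrArg Prod.fst h2
  simp at h3
  rw [h3, h1]

lemma inv_X {h : (K × X × K) ≃ₗ[F] (K × X × K)} (hi : h ∈ iso F (mdl β))
    (hW : ∀ a : K, (h (a, 0, 0)).2 = 0) (x : X) : (h⁻¹ (0, (h (0, x, 0)).2.1, 0)).2.1 = x := by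
  have e4 := third_W hi hW x
  have e1 : h (0, x, 0) = ((h (0, x, 0)).1, 0, 0) + (0, (h (0, x, 0)).2.1, 0) := by
    ext
    · simp
    · simp
    · simp [e4]
  have e2 : ((0, x, 0) : K × X × K) = h⁻¹ ((h (0, x, 0)).1, 0, 0) + h⁻¹ (0, (h (0, x, 0)).2.1, 0) := by
    rw [← map_add, ← e1]
    exact (inv_app h _).symm
  have e3 := congrArg (fun t => t.2.1) e2
  simp only [Prod.snd_add, Prod.fst_add, Or.inv_W hW] at e3
  have e5 : (0 : X × K).1 = 0 := rfl
  rw [e5, zero_add] at e3
  exact e3.symm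

/-- action on the third coordinate -/
lemma third_adj {h : (K × X × K) ≃ₗ[F] (K × X × K)} (hi : h ∈ iso F (mdl β)) (hW : ∀ a : K, (h (a, 0, 0)).2 = 0)
    (a b : K) : Algebra.trace F K ((h (a, 0, 0)).1 * (h (0, 0, b)).2.2) = Algebra.trace F K (a * b) := by
  have t1 := (mem_iso.1 hi) (a, 0, 0) (0, 0, b)
  have s1 : (h (a, 0, 0)).2.1 = 0 := congrArg Prod.fst (hW a)
  have s2 : (h (a, 0, 0)).2.2 = 0 := congrArg Prod.snd (hW a)
  unfold tf at t1
  rw [mdl_b, mdl_b, s1, s2] at t1
  simpa using t1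

/-- `h ∈ H` preserving `W` acts on it semilinearly. -/
lemma semi_on_W (hy : HypS (mdl β) H) (hZ : AllK (mdl β) H)
    {h : (K × X × K) ≃ₗ[F] (K × X × K)} (hh : h ∈ H) (hW : ∀ a : K, (h (a, 0, 0)).2 = 0) :
    ∃ σ : K →ₐ[F] K, ∀ k l : K, (h (k * l, 0, 0)).1 = σ k * (h (l, 0, 0)).1 := by
  have hi := hy.le hh
  obtain ⟨a, ha⟩ : ∃ a : K →ₗ[F] K, ∀ k, a k = (h (k, 0, 0)).1 :=
    ⟨LinearMap.fst F K (X × K) ∘ₗ (h : (K × X × K) →ₗ[F] (K × X × K)) ∘ₗ LinearMap.inl F K (X × K), fun k => rfl⟩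
  have hak : ∀ k, h (k, 0, 0) = (a k, 0, 0) := by
    intro k
    rw [ha]
    exact Prod.ext rfl (hW k)
  have hinj : Function.Injective a := by
    intro k k' hkk
    have h1 : h (k, 0, 0) = h (k', 0, 0) := by rw [hak, hak, hkk]
    exact congrArg Prod.fst (h.injective h1)
  have hsurj : Function.Surjective a := Finite.injective_iff_surjective.1 hinj
  -- conjugates of transvections
  have hc : ∀ c : K, ∃ d : K, ∀ k : K, a (c * k) = d * a k := by
    intro c
    -- `h RS(0,0,c) h⁻¹ = RS(0,0,S)`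
    have hm : RS (0 : X →ₗ[F] K) 0 (Or.mu F c) ∈ H := by
      rw [RS_zero_eq (β := β)]
      have := (ZS (mdl β) H).neg_mem (hy.mu_mem c)
      exact this _
    have hr : ∀ {c : K}, RS (0 : X →ₗ[F] K) 0 (Or.mu F c) ∈ H → ∃ S : K →ₗ[F] K,
        (∀ k l, S (k * l) = k * S l) ∧ ∀ b : K, a (c * b) = S (h (0, 0, b)).2.2 := by
      intro c hm
      obtain ⟨r, hr⟩ : ∃ r, r = h * RS (0 : X →ₗ[F] K) 0 (Or.mu F c) * h⁻¹ := ⟨_, rfl⟩
      have hrH : r ∈ H := by rw [hr]; exact H.mul_mem (H.mul_mem hh hm) (H.inv_mem hh)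
      have hrv : ∀ v, r v = v + h (c * (h⁻¹ v).2.2, 0, 0) := by
        intro v
        rw [hr, LinearEquiv.mul_apply, LinearEquiv.mul_apply]
        have e3 : RS (0 : X →ₗ[F] K) 0 (Or.mu F c) (h⁻¹ v) = h⁻¹ v + (c * (h⁻¹ v).2.2, 0, 0) := by
          rw [RS_apply]
          ext <;> simp
        rw [e3, map_add, app_inv]
      have hW' := Or.inv_W hW
      have e1 : ∀ k : K, r (k, 0, 0) = (k, 0, 0) := by
        intro k
        rw [hrv]
        have : (h⁻¹ (k, 0, 0)).2.2 = 0 := congrArg Prod.snd (hW' k)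
        rw [this, mul_zero]
        have e4 : h ((0, 0, 0) : K × X × K) = 0 := map_zero h
        rw [e4, add_zero]
      have e2 : ∀ x : X, r (0, x, 0) = (0, x, 0) := by
        intro x
        rw [hrv, third_W (hy.le (H.inv_mem hh)) hW', mul_zero]
        have e4 : h ((0, 0, 0) : K × X × K) = 0 := map_zero h
        rw [e4, add_zero]
      obtain ⟨f, g, S, hfgS⟩ := exists_RS (hy.le hrH) e1 (fun x => by rw [e2])
      have hlin := RS_lin hy hZ (by rw [← hfgS]; exact hrH)
      have hf0 : f = 0 := by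
        apply LinearMap.ext
        intro x
        have := congrArg Prod.fst (e2 x)
        rw [hfgS, RS_apply] at this
        simpa using this
      have hg0 : g = 0 := by
        have hc := Rcs_of_mem (by rw [← hfgS]; exact hy.le hrH : RS f g S ∈ iso F (mdl β))
        apply LinearMap.ext
        intro k
        apply β.nd
        intro y
        apply Or.tr_nd F
        intro l
        have := hc.1 k (l • y)
        rw [hf0, LinearMap.zero_apply, mul_zero, map_zero, map_smul, smul_eq_mul, mul_comm] at this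
        exact this.symm
      subst hf0 hg0
      refine ⟨S, fun k l => ?_, fun b => ?_⟩
      · have h3 := hlin.2 k (0, 0, l)
        rw [RS_apply, RS_apply] at h3
        have := congrArg Prod.fst h3
        simpa using this
      · have h3 := hrv (h (0, 0, b))
        rw [inv_app, hfgS, RS_apply] at h3
        have h4 := congrArg Prod.fst h3
        simp only [LinearMap.zero_apply, add_zero, Prod.fst_add] at h4
        rw [ha]
        exact (add_left_cancel h4).symm
    obtain ⟨S, hS1, hS2⟩ := hr hm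
    obtain ⟨T, hT1, hT2⟩ := hr (c := 1) (by
      rw [RS_zero_eq (β := β)]
      have := (ZS (mdl β) H).neg_mem (hy.mu_mem 1)
      exact this _)
    have hT : ∀ m, T m = m * T 1 := fun m => by rw [← hT1, mul_one]
    have hS : ∀ m, S m = m * S 1 := fun m => by rw [← hS1, mul_one]
    have hT0 : T 1 ≠ 0 := by
      intro h0
      have h3 := hT2 1
      rw [hT, h0, mul_zero, one_mul] at h3
      exact one_ne_zero (hinj (h3.trans (map_zero a).symm))
    refine ⟨S 1 / T 1, fun k => ?_⟩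
    have h3 := hS2 k
    have h4 := hT2 k
    rw [one_mul, hT] at h4
    rw [hS] at h3
    rw [h3, h4]
    field_simp
  choose d hd using hc
  have h1 : a 1 ≠ 0 := by
    intro h0
    exact one_ne_zero (hinj (h0.trans (map_zero a).symm))
  have hd1 : ∀ c, d c = a c / a 1 := by
    intro c
    have := hd c 1
    rw [mul_one] at this
    rw [this]
    field_simp
  refine ⟨{ toFun := d
            map_one' := ?_
            map_mul' := ?_
            map_zero' := ?_
            map_add' := ?_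
            commutes' := ?_ }, fun k l => ?_⟩
  · rw [hd1]; exact div_self h1
  · intro k l
    have h3 := hd (k * l) 1
    rw [mul_one, hd k l] at h3
    have h4 := hd l 1
    rw [mul_one] at h4
    rw [h4, ← mul_assoc] at h3
    exact (mul_right_cancel₀ h1 h3).symm
  · rw [hd1, map_zero, zero_div]
  · intro k l
    rw [hd1, hd1, hd1, map_add, add_div]
  · intro c
    change d (algebraMap F K c) = algebraMap F K c
    rw [hd1, Algebra.algebraMap_eq_smul_one, map_smul, Algebra.smul_def, Algebra.smul_def]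
    field_simp
  · change (h (k * l, 0, 0)).1 = d k * (h (l, 0, 0)).1
    rw [← ha, ← ha, hd]

/-- The block diagonal part. -/
lemma exists_diag [Finite X] {h : (K × X × K) ≃ₗ[F] (K × X × K)} (hi : h ∈ iso F (mdl β))
    (hW : ∀ a : K, (h (a, 0, 0)).2 = 0) :
    ∃ D : (K × X × K) ≃ₗ[F] (K × X × K), (∀ v, D v = ((h (v.1, 0, 0)).1, (h (0, v.2.1, 0)).2.1, (h (0, 0, v.2.2)).2.2)) ∧
      D ∈ iso F (mdl β) := by
  have e2 := third_W hi hW
  let D₀ : (K × X × K) →ₗ[F] (K × X × K) :=
    { toFun := fun v => ((h (v.1, 0, 0)).1, (h (0, v.2.1, 0)).2.1, (h (0, 0, v.2.2)).2.2)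
      map_add' := by
        intro v w
        have e1 : ∀ a b : K, ((a + b, 0, 0) : K × X × K) = (a, 0, 0) + (b, 0, 0) := by intro a b; ext <;> simp
        have e2 : ∀ a b : X, ((0, a + b, 0) : K × X × K) = (0, a, 0) + (0, b, 0) := by intro a b; ext <;> simp
        have e3 : ∀ a b : K, ((0, 0, a + b) : K × X × K) = (0, 0, a) + (0, 0, b) := by intro a b; ext <;> simp
        ext
        · simp only [Prod.fst_add, e1, map_add]
        · simp only [Prod.fst_add, Prod.snd_add, e2, map_add]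
        · simp only [Prod.fst_add, Prod.snd_add, e3, map_add]
      map_smul' := by
        intro c v
        have e1 : ∀ a : K, ((c • a, 0, 0) : K × X × K) = c • (a, 0, 0) := by intro a; ext <;> simp
        have e2 : ∀ a : X, ((0, c • a, 0) : K × X × K) = c • (0, a, 0) := by intro a; ext <;> simp
        have e3 : ∀ a : K, ((0, 0, c • a) : K × X × K) = c • (0, 0, a) := by intro a; ext <;> simp
        ext
        · simp only [Prod.smul_fst, e1, map_smul, RingHom.id_apply]
        · simp only [Prod.smul_fst, Prod.smul_snd, e2, map_smul, RingHom.id_apply]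
        · simp only [Prod.smul_fst, Prod.smul_snd, e3, map_smul, RingHom.id_apply] }
  have hD₀ : ∀ v, D₀ v = ((h (v.1, 0, 0)).1, (h (0, v.2.1, 0)).2.1, (h (0, 0, v.2.2)).2.2) := fun v => rfl
  have hiso : ∀ v w, tf F (mdl β) (D₀ v) (D₀ w) = tf F (mdl β) v w := by
    intro v w
    have t1 := third_adj hi hW v.1 w.2.2
    have t2 := third_adj hi hW w.1 v.2.2
    have t3 := (mem_iso.1 hi) (0, v.2.1, 0) (0, w.2.1, 0)
    rw [hD₀, hD₀]
    unfold tf at t3 ⊢
    rw [mdl_b, mdl_b] at t3 ⊢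
    simp only [e2, mul_zero, zero_mul, sub_zero, zero_sub, add_zero, zero_add, map_add, map_sub] at t1 t2 t3 ⊢
    rw [mul_comm (h (0, 0, v.2.2)).2.2, mul_comm v.2.2, t1, t2, t3]
  have hinj : Function.Injective D₀ := by
    rw [← LinearMap.ker_eq_bot, LinearMap.ker_eq_bot']
    intro v hv
    apply tf_nd (F := F) (B := mdl β)
    intro w
    rw [← hiso, hv]
    unfold tf
    rw [map_zero, LinearMap.zero_apply, map_zero]
  have : FiniteDimensional F (K × X × K) := Module.Finite.of_finite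
  exact ⟨LinearEquiv.ofInjectiveEndo D₀ hinj, hD₀, hiso⟩

theorem stab_semi [Finite X] (hy : HypS (mdl β) H) (hZ : AllK (mdl β) H)
    {h : (K × X × K) ≃ₗ[F] (K × X × K)} (hh : h ∈ H) (hW : ∀ a : K, (h (a, 0, 0)).2 = 0) : Semi K h := by
  obtain ⟨σ, hσ⟩ := semi_on_W hy hZ hh hW
  have hi := hy.le hh
  -- on X
  have hC : ∀ k x, (h (0, k • x, 0)).2.1 = σ k • (h (0, x, 0)).2.1 := by
    intro k x
    rw [← sub_eq_zero]
    apply β.nd
    intro u
    rw [skew, neg_eq_zero]
    have h1 : (tS β u).restrictScalars F ∈ H := hy.lin (tS_b u)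
    rw [tS_eq] at h1
    obtain ⟨f, g, S, hf, hff⟩ := conj_RS hy hh hW h1
    have h2 := (RS_lin hy hZ hf).1
    have h3 := hff (k • x)
    have h4 := hff x
    rw [h2, hσ, ← h4, bs_apply, bs_apply] at h3
    rw [map_sub, map_smul, h3, smul_eq_mul, sub_self]
  -- on W'
  have hA' : ∀ k b, (h (0, 0, k * b)).2.2 = σ k * (h (0, 0, b)).2.2 := by
    intro k b
    apply Or.tr_ext F
    intro c
    obtain ⟨a, ha⟩ := Or.surj_W hW c
    have t1 := third_adj hi hW a (k * b)
    have t2 := third_adj hi hW (k * a) b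
    have s : (h (k * a, 0, 0)).1 = σ k * c := by
      rw [hσ, ha]
    have s' : (h (a, 0, 0)).1 = c := by rw [ha]
    rw [s'] at t1
    rw [s] at t2
    rw [mul_comm, t1, mul_right_comm, t2]
    congr 1
    ring
  obtain ⟨D, hD, hDi⟩ := exists_diag hi hW
  have hDs : Semi K D := by
    intro k
    refine ⟨σ k, fun v => ?_⟩
    rw [hD, hD]
    ext
    · change (h (k * v.1, 0, 0)).1 = σ k * _
      exact hσ _ _
    · exact hC _ _
    · change (h (0, 0, k * v.2.2)).2.2 = σ k * _
      exact hA' _ _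
  have hr : D⁻¹ * h ∈ iso F (mdl β) := (iso F (mdl β)).mul_mem ((iso F (mdl β)).inv_mem hDi) hi
  have e2 := third_W hi hW
  have s1 : ∀ a, (h (a, 0, 0)).2.1 = 0 := fun a => congrArg Prod.fst (hW a)
  have s2 : ∀ a, (h (a, 0, 0)).2.2 = 0 := fun a => congrArg Prod.snd (hW a)
  obtain ⟨f, g, S, hR⟩ := exists_RS hr (by
    intro a
    rw [LinearEquiv.mul_apply]
    have : h (a, 0, 0) = D (a, 0, 0) := by
      rw [hD]
      ext
      · rfl
      · rw [s1]
        change _ = (h (0, 0, 0)).2.1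
        rw [show ((0, 0, 0) : K × X × K) = 0 from rfl, map_zero]
        rfl
      · rw [s2]
        change _ = (h (0, 0, 0)).2.2
        rw [show ((0, 0, 0) : K × X × K) = 0 from rfl, map_zero]
        rfl
    rw [this]
    exact inv_app D _) (by
    intro x
    rw [LinearEquiv.mul_apply]
    obtain ⟨y, hy'⟩ := Or.surj_W hW (h (0, x, 0)).1
    have : h (0, x, 0) = D (y, x, 0) := by
      rw [hD]
      ext
      · change _ = (h (y, 0, 0)).1
        rw [hy']
      · rfl
      · rw [e2]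
        change _ = (h (0, 0, 0)).2.2
        rw [show ((0, 0, 0) : K × X × K) = 0 from rfl, map_zero]
        rfl
    rw [this]
    have e3 : D⁻¹ (D (y, x, 0)) = (y, x, 0) := inv_app D _
    rw [e3])
  have h4 : D ∈ H := hy.semi _ hDi hDs
  have h5 : RS f g S ∈ H := by
    rw [← hR]
    exact H.mul_mem (H.inv_mem h4) hh
  have h7 := (RS_lin hy hZ h5).2
  have h6 : h = D * RS f g S := by
    rw [← hR]
    group
  intro k
  obtain ⟨k', hk'⟩ := hDs k
  refine ⟨k', fun v => ?_⟩
  rw [h6, LinearEquiv.mul_apply, LinearEquiv.mul_apply, h7, hk']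

end model

end Cfsg.Agent.H98.Sp
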