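import Cfsg.Agent.H98.SpD
import Cfsg.Agent.H98.TrC
import Cfsg.Agent.H98.TrD

set_option autoImplicit false
set_option linter.unusedSectionVars false
set_option linter.style.haveILetI false
set_option linter.unusedSimpArgs false

/-!
Extension fields in symplectic groups, part E: odd characteristic, `dim_K V ≥ 4`.
-/

namespace Cfsg.Agent.H98.Sp

open Module Cfsg.Agent.H98.Ext Cfsg.Agent.H98.Or

section

variable {F K V : Type*} [Field F] [Field K] [Algebra F K] [AddCommGroup V] [Module F V] [Module K V]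
  [IsScalarTower F K V] {B : Sy K V} {H : Subgroup (V ≃ₗ[F] V)}

/-- elements of `H` preserving a `K`-line are semilinear -/
def Stab (K : Type*) {F V : Type*} [Field F] [Field K] [Algebra F K] [AddCommGroup V] [Module F V] [Module K V]
    (H : Subgroup (V ≃ₗ[F] V)) : Prop :=
  ∀ h ∈ H, ∀ e : V, e ≠ 0 → (∀ k : K, ∃ k' : K, h (k • e) = k' • e) → Semi K h

lemma semi_mul {g h : V ≃ₗ[F] V} (hg : Semi K g) (hh : Semi K h) : Semi K (g * h) := by
  intro k
  obtain ⟨k', hk'⟩ := hh k
  obtain ⟨k'', hk''⟩ := hg k'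
  exact ⟨k'', fun v => by rw [LinearEquiv.mul_apply, LinearEquiv.mul_apply, hk', hk'']⟩

/-- an element of `H` mapping a `K`-line into a `K`-line is semilinear -/
lemma semi_of_line (hy : HypS B H) (hst : Stab K H) {g : V ≃ₗ[F] V} (hg : g ∈ H) {e w : V} (he : e ≠ 0)
    (h : ∀ k : K, ∃ k' : K, g (k • e) = k' • w) : Semi K g := by
  have hw : w ≠ 0 := by
    rintro rfl
    obtain ⟨k', hk'⟩ := h 1
    rw [one_smul, smul_zero] at hk'
    exact he ((LinearEquiv.map_eq_zero_iff g).1 hk')
  obtain ⟨n, hn1, hn2⟩ := exists_klin (B := B) hw he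
  have hnH := hy.lin hn1
  have h1 : Semi K (n.restrictScalars F * g) := by
    refine hst _ (H.mul_mem hnH hg) e he (fun k => ?_)
    obtain ⟨k', hk'⟩ := h k
    refine ⟨k', ?_⟩
    rw [LinearEquiv.mul_apply, hk']
    change n (k' • w) = _
    rw [map_smul, hn2]
  have h2 : g = (n⁻¹).restrictScalars F * (n.restrictScalars F * g) := by
    apply LinearEquiv.ext
    intro v
    rw [LinearEquiv.mul_apply, LinearEquiv.mul_apply]
    exact (LinearEquiv.symm_apply_apply n (g v)).symm
  rw [h2]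
  exact semi_mul (semi_of_lin n⁻¹) h1

/-- an element of `H` commuting with a quadratic `K`-linear isometry is semilinear -/
lemma semi_of_comm [Finite K] (hy : HypS B H) (hst : Stab K H) {t : V ≃ₗ[K] V}
    (ht : ∀ v w, B.b (t v) (t w) = B.b v w) (hN : ∀ v, t (t v - v) = t v - v) {v₀ : V} (hv₀ : t v₀ ≠ v₀)
    {z : V ≃ₗ[F] V} (hz : z ∈ H) (hzt : ∀ v, z (t v) = t (z v)) : Semi K z := by
  obtain ⟨w, hw⟩ : ∃ w, w = t v₀ - v₀ := ⟨_, rfl⟩
  have hw0 : w ≠ 0 := by rw [hw]; exact sub_ne_zero.2 hv₀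
  have hNN : ∀ x y, B.b (t x - x) (t y - y) = 0 := by
    intro x y
    have h1 : ∀ x y, B.b (t x - x) (t y - y) + B.b (t x - x) y + B.b x (t y - y) = 0 := by
      intro x y
      have := ht x y
      simp only [map_sub, LinearMap.sub_apply]
      linear_combination this
    have h2 := h1 x (t y - y)
    rw [hN, sub_self, map_zero, map_zero, zero_add, add_zero] at h2
    exact h2
  have hz' : ∀ v, z⁻¹ (t v) = t (z⁻¹ v) := by
    intro v
    apply z.injective
    rw [app_inv, hzt, app_inv]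
  -- `τ = z LL(w, 1) z⁻¹`
  have hLL : LL B w (mu F (1 : K)) ∈ H := (hy.mu_mem 1) w
  obtain ⟨τ, hτ⟩ : ∃ τ, τ = z * LL B w (mu F (1 : K)) * z⁻¹ := ⟨_, rfl⟩
  have hτH : τ ∈ H := by rw [hτ]; exact H.mul_mem (H.mul_mem hz hLL) (H.inv_mem hz)
  have hτv : ∀ v, τ v = v + z (B.b (z⁻¹ v) w • w) := by
    intro v
    rw [hτ, LinearEquiv.mul_apply, LinearEquiv.mul_apply, LL_apply, LinearMap.mulLeft_apply, one_mul, map_add, app_inv]
  have hfix : ∀ k : K, τ (k • w) = k • w := by
    intro k
    rw [hτv]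
    have e1 : z⁻¹ (k • w) = t (z⁻¹ (k • v₀)) - z⁻¹ (k • v₀) := by
      rw [hw, smul_sub, ← map_smul t, map_sub, hz']
    rw [e1, hw, hNN, zero_smul, map_zero, add_zero]
  have hτs : Semi K τ := hst τ hτH w hw0 (fun k => ⟨k, hfix k⟩)
  have : Nontrivial V := ⟨⟨w, 0, hw0⟩⟩
  obtain ⟨σ, hσ⟩ := Tr.exists_alg_of_semi hτs
  have hσ1 : ∀ k, σ k = k := by
    intro k
    have h1 := hσ k w
    have h2 := hfix 1
    rw [one_smul] at h2
    rw [hfix, h2] at h1
    have : (k - σ k) • w = 0 := by rw [sub_smul, ← h1, sub_self]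
    exact (sub_eq_zero.1 ((smul_eq_zero.1 this).resolve_right hw0)).symm
  have hlin : ∀ (k : K) v, τ (k • v) = k • τ v := fun k v => by rw [hσ, hσ1]
  -- `z (K w) = K z w`
  obtain ⟨y, hy1⟩ : ∃ y, B.b (z⁻¹ y) w = 1 := by
    obtain ⟨y, hy1⟩ := exists_dual (B := B) hw0
    refine ⟨z (-y), ?_⟩
    rw [inv_app, map_neg, LinearMap.neg_apply, skew, neg_neg, hy1]
  have hκ : ∀ k : K, z (B.b (z⁻¹ (k • y)) w • w) = k • z w := by
    intro k
    have h1 := hlin k y
    rw [hτv, hτv, hy1, one_smul, smul_add] at h1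
    exact add_left_cancel h1
  have hzw : z w ≠ 0 := fun h => hw0 ((LinearEquiv.map_eq_zero_iff z).1 h)
  have hinj : Function.Injective (fun k : K => B.b (z⁻¹ (k • y)) w) := by
    intro k k' hkk
    have h1 := hκ k
    simp only at hkk
    rw [hkk, hκ k'] at h1
    have : (k' - k) • z w = 0 := by rw [sub_smul, h1, sub_self]
    exact (sub_eq_zero.1 ((smul_eq_zero.1 this).resolve_right hzw)).symm
  have hsurj := Finite.injective_iff_surjective.1 hinj
  refine semi_of_line hy hst hz hw0 (w := z w) (fun l => ?_)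
  obtain ⟨k, hk⟩ := hsurj l
  exact ⟨k, by rw [← hκ k]; simp only at hk; rw [hk]⟩

/-- `(Kw + W₁)`, with its orthogonal. -/
lemma perp_perp [Finite K] [Finite V] (U : Submodule F V) {x : V} (hx : ∀ c, (∀ u ∈ U, tf F B u c = 0) → tf F B x c = 0) :
    x ∈ U := by
  have := fin_F F K
  have : FiniteDimensional F V := Module.Finite.of_finite
  by_contra hxU
  obtain ⟨f, hfx, hfU⟩ := Submodule.exists_le_ker_of_notMem hxU
  -- represent `f`
  let T : V →ₗ[F] (V →ₗ[F] F) := LinearMap.mk₂ F (fun c v => tf F B v c)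
    (fun c c' v => tf_add_right _ _ _) (fun a c v => tf_smul_right _ _ _)
    (fun c v v' => tf_add_left _ _ _) (fun a c v => tf_smul_left _ _ _)
  have hT : ∀ c v, T c v = tf F B v c := fun c v => rfl
  have h3 : Function.Injective T := by
    rw [← LinearMap.ker_eq_bot, LinearMap.ker_eq_bot']
    intro c hc
    apply tf_nd (F := F) (B := B)
    intro w
    rw [tf_skew, ← hT, hc, LinearMap.zero_apply, neg_zero]
  have h4 : Function.Surjective T := by
    have h5 : finrank F V = finrank F (Module.Dual F V) := (Subspace.dual_finrank_eq (K := F) (V := V)).symm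
    exact (LinearMap.injective_iff_surjective_of_finrank_eq_finrank h5).1 h3
  obtain ⟨c, hc⟩ := h4 f
  apply hfx
  rw [← hc, hT]
  apply hx
  intro u hu
  rw [← hT, hc]
  exact hfU hu

/-- The choice of `w`. -/
lemma exists_w [Finite K] [Finite V] (hd : 4 ≤ finrank K V) {g : V ≃ₗ[F] V}
    {e : V} (he : e ≠ 0) (hg : ∀ w : V, ¬ ∀ k : K, ∃ k' : K, g (k • e) = k' • w) :
    ∃ w : V, w ≠ 0 ∧ B.b (g⁻¹ w) e = 0 ∧ ∀ y : V, (∀ k : K, ∃ a b : K, k • y = a • w + g (b • e)) → ∃ a : K, y = a • w := by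
  have := fin_F F K
  have := fin_dim F K
  have : FiniteDimensional F V := Module.Finite.of_finite
  have : FiniteDimensional K V := Module.Finite.of_finite
  have hmul : finrank F K * finrank K V = finrank F V := Module.finrank_mul_finrank F K V
  have hr : 0 < finrank F K := Module.finrank_pos
  -- `W₁`
  let ψ : K →ₗ[F] V := (g : V →ₗ[F] V) ∘ₗ (LinearMap.toSpanSingleton K V e).restrictScalars F
  have hψ : ∀ k, ψ k = g (k • e) := fun k => rfl
  -- its orthogonal
  let φ : V →ₗ[F] K := ((B.b.flip e).restrictScalars F) ∘ₗ (g⁻¹ : V ≃ₗ[F] V)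
  have hφ : ∀ v, φ v = B.b (g⁻¹ v) e := fun v => rfl
  have hker : finrank F V ≤ finrank F K + finrank F (LinearMap.ker φ) := by
    have h1 := LinearMap.finrank_range_add_finrank_ker φ
    have h2 := Submodule.finrank_le (LinearMap.range φ)
    omega
  let D : Submodule K V := Submodule.span K (Set.range ψ)
  have hDψ : ∀ k, ψ k ∈ D := fun k => Submodule.subset_span ⟨k, rfl⟩
  have hge : g e ≠ 0 := fun h => he ((LinearEquiv.map_eq_zero_iff g).1 h)
  have hgeD : g e ∈ D := by
    have := hDψ 1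
    rwa [hψ, one_smul] at this
  have hD2 : 2 ≤ finrank K D := by
    by_contra hcon
    push Not at hcon
    apply hg (g e)
    intro k
    have h1 : finrank K D ≤ 1 := by omega
    rw [finrank_le_one_iff] at h1
    obtain ⟨v, hv⟩ := h1
    obtain ⟨c, hc⟩ := hv ⟨g e, hgeD⟩
    obtain ⟨d, hd⟩ := hv ⟨ψ k, hDψ k⟩
    have hc' : c • (v : V) = g e := congrArg Subtype.val hc
    have hd' : d • (v : V) = g (k • e) := congrArg Subtype.val hd
    have hc0 : c ≠ 0 := by
      rintro rfl
      rw [zero_smul] at hc'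
      exact hge hc'.symm
    refine ⟨d * c⁻¹, ?_⟩
    rw [← hd', ← hc', smul_smul, mul_assoc, inv_mul_cancel₀ hc0, mul_one]
  -- the choice
  obtain ⟨w, hw0, hwφ, hwD⟩ : ∃ w : V, w ≠ 0 ∧ φ w = 0 ∧ (finrank K D ≤ 2 → w ∉ D) := by
    by_cases hD : finrank K D ≤ 2
    · have h1 : ¬ LinearMap.ker φ ≤ D.restrictScalars F := by
        intro hle
        have h2 := Submodule.finrank_mono hle
        have h3 : finrank F (D.restrictScalars F) = finrank F K * finrank K D := (Module.finrank_mul_finrank F K D).symm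
        rw [h3] at h2
        have h4 : finrank F K * finrank K D ≤ finrank F K * 2 := Nat.mul_le_mul_left _ hD
        have h5 : finrank F K * 4 ≤ finrank F K * finrank K V := Nat.mul_le_mul_left _ hd
        omega
      obtain ⟨w, hw1, hw2⟩ := Set.not_subset.1 h1
      refine ⟨w, ?_, hw1, fun _ => hw2⟩
      rintro rfl
      exact hw2 (Submodule.zero_mem _)
    · have h1 : LinearMap.ker φ ≠ ⊥ := by
        intro h
        rw [h, finrank_bot] at hker
        have h5 : finrank F K * 4 ≤ finrank F K * finrank K V := Nat.mul_le_mul_left _ hd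
        omega
      obtain ⟨w, hw1, hw2⟩ := Submodule.exists_mem_ne_zero_of_ne_bot h1
      exact ⟨w, hw2, hw1, fun h => absurd h hD⟩
  refine ⟨w, hw0, hwφ, ?_⟩
  intro y hy
  by_contra hcon
  push Not at hcon
  -- `Y = Ky + Kw`
  let χ : (K × K) →ₗ[K] V := (LinearMap.toSpanSingleton K V y).coprod (LinearMap.toSpanSingleton K V w)
  have hχ : ∀ a b, χ (a, b) = a • y + b • w := fun a b => rfl
  have hχi : Function.Injective χ := by
    rw [← LinearMap.ker_eq_bot, LinearMap.ker_eq_bot']
    rintro ⟨a, b⟩ hab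
    rw [hχ] at hab
    by_cases ha : a = 0
    · rw [ha, zero_smul, zero_add] at hab
      rw [ha, (smul_eq_zero.1 hab).resolve_right hw0]
      rfl
    · exfalso
      apply hcon (-(a⁻¹ * b))
      have : y = a⁻¹ • (a • y) := by rw [smul_smul, inv_mul_cancel₀ ha, one_smul]
      rw [this, eq_neg_of_add_eq_zero_left hab, smul_neg, smul_smul, neg_smul]
  let ω : (K × K) →ₗ[F] V := ((LinearMap.toSpanSingleton K V w).restrictScalars F).coprod ψ
  have hω : ∀ a b, ω (a, b) = a • w + g (b • e) := fun a b => rfl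
  have hle : LinearMap.range (χ.restrictScalars F) ≤ LinearMap.range ω := by
    rintro _ ⟨⟨a, b⟩, rfl⟩
    change χ (a, b) ∈ _
    rw [hχ]
    apply Submodule.add_mem
    · obtain ⟨c, d, hcd⟩ := hy a
      exact ⟨(c, d), by rw [hω, hcd]⟩
    · exact ⟨(b, 0), by rw [hω, zero_smul, map_zero, add_zero]⟩
  have hfin : finrank F (LinearMap.range (χ.restrictScalars F)) = finrank F (K × K) :=
    LinearMap.finrank_range_of_inj hχi
  have hfin2 : finrank F (LinearMap.range ω) ≤ finrank F (K × K) := LinearMap.finrank_range_le ω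
  have heq : LinearMap.range (χ.restrictScalars F) = LinearMap.range ω :=
    Submodule.eq_of_le_of_finrank_le hle (by rw [hfin]; exact hfin2)
  have hDle : D ≤ LinearMap.range χ := by
    apply Submodule.span_le.2
    rintro _ ⟨k, rfl⟩
    have h1 : ψ k ∈ LinearMap.range (χ.restrictScalars F) := by
      rw [heq]
      exact ⟨(0, k), by rw [hω, zero_smul, zero_add, hψ]⟩
    exact h1
  have hfχ : finrank K (LinearMap.range χ) = 2 := by
    rw [LinearMap.finrank_range_of_inj hχi, finrank_prod, finrank_self]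
  have hDeq : D = LinearMap.range χ := Submodule.eq_of_le_of_finrank_le hDle (by rw [hfχ]; exact hD2)
  apply hwD (by rw [hDeq, hfχ])
  rw [hDeq]
  exact ⟨(0, 1), by rw [hχ, zero_smul, zero_add, one_smul]⟩

end

end Cfsg.Agent.H98.Sp
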