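import Cfsg.Agent.H98.SpE

set_option autoImplicit false
set_option linter.unusedSectionVars false
set_option linter.style.haveILetI false
set_option linter.unusedSimpArgs false

/-!
Extension fields in symplectic groups, part F: odd characteristic, `dim_K V ≥ 4`, conclusion.
-/

namespace Cfsg.Agent.H98.Sp

open Module Cfsg.Agent.H98.Ext Cfsg.Agent.H98.Or

section

variable {F K V : Type*} [Field F] [Field K] [Algebra F K] [AddCommGroup V] [Module F V] [Module K V]
  [IsScalarTower F K V] {B : Sy K V} {H : Subgroup (V ≃ₗ[F] V)}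

/-- the pointwise stabiliser of `C` in `H` -/
def PF (H : Subgroup (V ≃ₗ[F] V)) (C : Set V) : Subgroup (V ≃ₗ[F] V) where
  carrier := {g | g ∈ H ∧ ∀ c ∈ C, g c = c}
  mul_mem' := by
    rintro a b ⟨a1, a2⟩ ⟨b1, b2⟩
    exact ⟨H.mul_mem a1 b1, fun c hc => by rw [LinearEquiv.mul_apply, b2 c hc, a2 c hc]⟩
  one_mem' := ⟨H.one_mem, fun _ _ => rfl⟩
  inv_mem' := by
    rintro a ⟨a1, a2⟩
    refine ⟨H.inv_mem a1, fun c hc => ?_⟩
    have := inv_app a c
    rwa [a2 c hc] at this

/-- the group of `K`-transvections with centre `w` -/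
def TG (F : Type*) [Field F] [Algebra F K] [Module F V] [IsScalarTower F K V] (B : Sy K V) (w : V) :
    Subgroup (V ≃ₗ[F] V) where
  carrier := {g | ∃ c : K, g = LL B w (mu F c)}
  mul_mem' := by
    rintro _ _ ⟨a, rfl⟩ ⟨b, rfl⟩
    refine ⟨a + b, ?_⟩
    rw [LL_mul]
    congr 1
    apply LinearMap.ext
    intro k
    simp [add_mul]
  one_mem' := ⟨0, by
    have : mu F (0 : K) = 0 := by
      apply LinearMap.ext
      intro k
      simp
    rw [this, LL_zero]⟩
  inv_mem' := by
    rintro _ ⟨a, rfl⟩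
    refine ⟨-a, ?_⟩
    rw [← LL_neg]
    congr 1
    apply LinearMap.ext
    intro k
    simp

lemma LL_mu_apply (w : V) (c : K) (v : V) : LL B w (mu F c) v = v + (c * B.b v w) • w := rfl

lemma LL_pow (w : V) (S : K →ₗ[F] K) (n : ℕ) : LL B w S ^ n = LL B w (n • S) := by
  induction n with
  | zero => rw [pow_zero, zero_smul, LL_zero]
  | succ n ih => rw [pow_succ, ih, LL_mul, succ_nsmul]

theorem odd_main [Finite K] [Finite V] (hy : HypS B H) (hst : Stab K H) {p : ℕ} [hp : Fact p.Prime] [CharP F p]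
    (hp2 : p ≠ 2) (hr : (finrank F K).Prime) (hd : 4 ≤ finrank K V) : ∀ g ∈ H, Semi K g := by
  intro g hg
  by_contra hgs
  have := fin_F F K
  have := fin_dim F K
  have : FiniteDimensional F V := Module.Finite.of_finite
  have : FiniteDimensional K V := Module.Finite.of_finite
  have hnt : Nontrivial V := Module.nontrivial_of_finrank_pos (R := K) (by omega)
  have hmul : finrank F K * finrank K V = finrank F V := Module.finrank_mul_finrank F K V
  have hrp : 0 < finrank F K := Module.finrank_pos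
  have h2F : (2 : F) ≠ 0 := by
    intro h
    have h2 : ((2 : ℕ) : F) = 0 := by exact_mod_cast h
    have := (CharP.cast_eq_zero_iff F p 2).1 h2
    exact hp2 ((Nat.prime_dvd_prime_iff_eq hp.out Nat.prime_two).1 this)
  obtain ⟨e, he⟩ := exists_ne (0 : V)
  have hline : ∀ w : V, ¬ ∀ k : K, ∃ k' : K, g (k • e) = k' • w := fun w h =>
    hgs (semi_of_line hy hst hg he h)
  obtain ⟨w, hw0, hwe, hwy⟩ := exists_w (B := B) hd he hline
  -- `C`
  obtain ⟨C, hC⟩ : ∃ C : Set V, C = {c | B.b c w = 0 ∧ B.b (g⁻¹ c) e = 0} := ⟨_, rfl⟩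
  have hwC : w ∈ C := by rw [hC]; exact ⟨B.alt w, hwe⟩
  obtain ⟨L, hL⟩ : ∃ L, L = PF H C := ⟨_, rfl⟩
  have hLL1 : ∀ z : V, LL B z (mu F (1 : K)) ∈ H := fun z => hy.mu_mem 1 z
  obtain ⟨s, hs⟩ : ∃ s, s = g * LL B e (mu F (1 : K)) * g⁻¹ := ⟨_, rfl⟩
  have hsv : ∀ v, s v = v + g (B.b (g⁻¹ v) e • e) := by
    intro v
    rw [hs, LinearEquiv.mul_apply, LinearEquiv.mul_apply, LL_mu_apply, one_mul, map_add, app_inv]
  have hsL : s ∈ L := by
    rw [hL]
    refine ⟨by rw [hs]; exact H.mul_mem (H.mul_mem hg (hLL1 e)) (H.inv_mem hg), fun c hc => ?_⟩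
    rw [hC] at hc
    rw [hsv, hc.2, zero_smul, map_zero, add_zero]
  have huL : LL B w (mu F (1 : K)) ∈ L := by
    rw [hL]
    refine ⟨hLL1 w, fun c hc => ?_⟩
    rw [hC] at hc
    rw [LL_mu_apply, hc.1, mul_zero, zero_smul, add_zero]
  -- an element of `F`-independent
  obtain ⟨k₀, hk₀⟩ : ∃ x : K, x ∉ Set.range (algebraMap F K) := by
    by_contra hcon
    push Not at hcon
    apply hr.ne_one
    have : Function.Surjective (algebraMap F K) := fun x => hcon x
    rw [finrank_eq_one_iff_of_nonzero' (1 : K) one_ne_zero]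
    intro w
    obtain ⟨c, hc⟩ := this w
    exact ⟨c, by rw [← hc, Algebra.algebraMap_eq_smul_one]⟩
  obtain ⟨u, hu0, huC, hkuC⟩ : ∃ u, u ≠ 0 ∧ u ∈ C ∧ k₀ • u ∈ C := by
    let T : V →ₗ[F] (K × K × K) :=
      ((B.b.flip w).restrictScalars F).prod ((((B.b.flip e).restrictScalars F) ∘ₗ
        ((g⁻¹ : V ≃ₗ[F] V) : V →ₗ[F] V)).prod (((B.b.flip e).restrictScalars F) ∘ₗ
        ((g⁻¹ : V ≃ₗ[F] V) : V →ₗ[F] V) ∘ₗ ((LinearMap.lsmul K V k₀).restrictScalars F)))
    have hT : ∀ v, T v = (B.b v w, B.b (g⁻¹ v) e, B.b (g⁻¹ (k₀ • v)) e) := fun v => rfl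
    have hk : LinearMap.ker T ≠ ⊥ := by
      intro h
      have h1 := LinearMap.finrank_range_add_finrank_ker T
      rw [h, finrank_bot] at h1
      have h2 := Submodule.finrank_le (LinearMap.range T)
      rw [finrank_prod, finrank_prod] at h2
      have h5 : finrank F K * 4 ≤ finrank F K * finrank K V := Nat.mul_le_mul_left _ hd
      omega
    obtain ⟨u, hu1, hu2⟩ := Submodule.exists_mem_ne_zero_of_ne_bot hk
    have h3 : T u = 0 := hu1
    rw [hT] at h3
    have a1 : B.b u w = 0 := congrArg Prod.fst h3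
    have a2 : B.b (g⁻¹ u) e = 0 := congrArg (fun t => t.2.1) h3
    have a3 : B.b (g⁻¹ (k₀ • u)) e = 0 := congrArg (fun t => t.2.2) h3
    refine ⟨u, hu2, ?_, ?_⟩
    · rw [hC]; exact ⟨a1, a2⟩
    · rw [hC]
      refine ⟨?_, a3⟩
      rw [map_smul, LinearMap.smul_apply, a1, smul_zero]
  -- elements of `L` preserving `K w`
  have hkey : ∀ h ∈ L, (∀ k : K, ∃ k' : K, h (k • w) = k' • w) → h ∈ TG F B w := by
    intro h hh hst'
    rw [hL] at hh
    obtain ⟨hhH, hhC⟩ := hh
    have hs := hst h hhH w hw0 hst'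
    obtain ⟨σ, hσ⟩ := Tr.exists_alg_of_semi hs
    have hσk : σ k₀ = k₀ := by
      have h1 := hσ k₀ u
      rw [hhC _ hkuC, hhC _ huC] at h1
      have : (k₀ - σ k₀) • u = 0 := by rw [sub_smul, ← h1, sub_self]
      exact (sub_eq_zero.1 ((smul_eq_zero.1 this).resolve_right hu0)).symm
    have hσ1 := eq_id_of_fix hr σ hk₀ hσk
    have hlin : ∀ (k : K) v, h (k • v) = k • h v := fun k v => by rw [hσ, hσ1]
    have hi := hy.le hhH
    have hex : ∀ v, ∃ a : K, h v - v = a • w := by
      intro v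
      apply hwy
      intro k
      let U : Submodule F V := LinearMap.range (((LinearMap.toSpanSingleton K V w).restrictScalars F).coprod
        ((g : V →ₗ[F] V) ∘ₗ (LinearMap.toSpanSingleton K V e).restrictScalars F))
      have hU : ∀ x, x ∈ U → ∃ a b : K, x = a • w + g (b • e) := by
        rintro _ ⟨⟨a, b⟩, rfl⟩
        exact ⟨a, b, rfl⟩
      have hU' : ∀ a b : K, a • w + g (b • e) ∈ U := fun a b => ⟨(a, b), rfl⟩
      apply hU
      apply perp_perp (B := B)
      intro c hc
      have hcC : c ∈ C := by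
        rw [hC]
        constructor
        · rw [skew, neg_eq_zero]
          apply b_of_tf (F := F)
          intro a
          have := hc _ (hU' a 0)
          rwa [zero_smul, map_zero, add_zero] at this
        · rw [skew, neg_eq_zero]
          apply b_of_tf (F := F)
          intro b
          have := hc _ (hU' 0 b)
          rw [zero_smul, zero_add] at this
          rwa [← iso_inv (hy.le hg)]
      have h1 := (mem_iso.1 hi) (k • v) c
      rw [hhC c hcC, hlin] at h1
      rw [smul_sub, sub_eq_add_neg, tf_add_left, ← neg_one_smul F, tf_smul_left, h1]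
      ring
    choose l hl using hex
    have hb : ∀ x y, l y * B.b x w = l x * B.b y w := by
      intro x y
      have h1 : B.b (h x) (h y) = B.b x y := by
        rw [← sub_eq_zero, ← sub_eq_zero (a := B.b (h x) (h y) - B.b x y)]
        apply tr_nd F
        intro k
        have h3 := (mem_iso.1 hi) (k • x) y
        rw [hlin] at h3
        unfold tf at h3
        rw [map_smul (B.b), LinearMap.smul_apply, map_smul (B.b), LinearMap.smul_apply, smul_eq_mul, smul_eq_mul] at h3
        rw [sub_zero, sub_mul, map_sub, mul_comm, h3, mul_comm k, sub_self]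
      have e1 : h x = x + l x • w := by rw [← hl]; abel
      have e2 : h y = y + l y • w := by rw [← hl]; abel
      rw [e1, e2] at h1
      simp only [map_add, LinearMap.add_apply, map_smul, LinearMap.smul_apply, B.alt, smul_eq_mul, skew w y] at h1
      linear_combination h1
    obtain ⟨y, hy1⟩ := exists_dual (B := B) hw0
    refine ⟨l (-y), ?_⟩
    apply LinearEquiv.ext
    intro v
    rw [LL_mu_apply]
    have h1 := hb v (-y)
    rw [map_neg, LinearMap.neg_apply, skew y w, hy1, neg_neg, mul_one] at h1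
    rw [h1, ← hl]
    abel
  have hconj : ∀ h ∈ L, ∀ c : K, c ≠ 0 → h * LL B w (mu F c) * h⁻¹ ∈ TG F B w → h ∈ TG F B w := by
    intro h hh c hc hm
    apply hkey h hh
    intro k
    obtain ⟨d, hd'⟩ := hm
    obtain ⟨y, hy1⟩ := exists_dual (B := B) hw0
    obtain ⟨x, hx⟩ : ∃ x, B.b x w = k / c :=
      ⟨(-(k / c)) • y, by rw [map_smul, LinearMap.smul_apply, skew y w, hy1, smul_eq_mul]; ring⟩
    have h1 := LinearEquiv.congr_fun hd' (h x)
    rw [LinearEquiv.mul_apply, LinearEquiv.mul_apply, inv_app, LL_mu_apply, LL_mu_apply, map_add, hx] at h1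
    have h3 := add_left_cancel h1
    refine ⟨d * B.b (h x) w, ?_⟩
    rw [← h3]
    congr 2
    field_simp
  have hfin : Finite (V ≃ₗ[F] V) :=
    Finite.of_injective (fun g : V ≃ₗ[F] V => (g : V → V)) (fun a b h => LinearEquiv.ext (fun v => congrFun h v))
  let f : L →* Module.End F V :=
    { toFun := fun g => ((g : V ≃ₗ[F] V) : V →ₗ[F] V)
      map_one' := rfl
      map_mul' := fun _ _ => rfl }
  have hf : Function.Injective f := by
    intro g g' hgg
    apply Subtype.ext
    apply LinearEquiv.ext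
    intro v
    exact LinearMap.congr_fun hgg v
  have hpS : ∀ S : K →ₗ[F] K, p • S = 0 := by
    intro S
    apply LinearMap.ext
    intro k
    rw [LinearMap.smul_apply, ← Nat.cast_smul_eq_nsmul F, CharP.cast_eq_zero, zero_smul, LinearMap.zero_apply]
  have h2K : (2 : K) ≠ 0 := by
    intro h
    apply h2F
    apply (algebraMap F K).injective
    rw [map_zero, map_ofNat, h]
  have key := Tr.burnside_frob (p := p) f hf (by
      intro m hm A B hAB
      have hmF : (m : F) ≠ 0 := by
        intro h0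
        exact hm ((CharP.cast_eq_zero_iff F p m).1 h0)
      have h1 : (m : F) • A = (m : F) • B := by
        rw [← nsmul_eq_mul, ← nsmul_eq_mul] at hAB
        rw [Nat.cast_smul_eq_nsmul, Nat.cast_smul_eq_nsmul]
        exact hAB
      exact smul_right_injective _ hmF h1)
    (U := (TG F B w).subgroupOf L) (by
      rintro ⟨g, hg⟩
      obtain ⟨c, hc⟩ := hg
      refine ⟨1, ?_⟩
      apply Subtype.ext
      apply Subtype.ext
      change (g : V ≃ₗ[F] V) ^ p ^ 1 = 1
      change (g : V ≃ₗ[F] V) = LL B w (mu F c) at hc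
      rw [hc, pow_one, LL_pow, hpS, LL_zero]) (by
      rintro ⟨a, ha⟩ ⟨A, hA⟩ ⟨b, hb⟩ ⟨D, hD⟩
      apply Subtype.ext
      change a * b = b * a
      change a = LL B w (mu F A) at hA
      change b = LL B w (mu F D) at hD
      rw [hA, hD, LL_mul, LL_mul, add_comm]) (u := ⟨LL B w (mu F (1 : K)), huL⟩) ⟨1, rfl⟩ (by
      rintro ⟨h, hh⟩ hc
      exact hconj h hh 1 one_ne_zero hc) (by
      rintro ⟨h, hh⟩ hc
      refine hconj h hh 2 h2K ?_
      have h3 : h * (LL B w (mu F (1 : K)) * LL B w (mu F (1 : K))) * h⁻¹ ∈ TG F B w := hc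
      have h4 : LL B w (mu F (1 : K)) * LL B w (mu F (1 : K)) = LL B w (mu F (2 : K)) := by
        rw [LL_mul]
        congr 1
        apply LinearMap.ext
        intro k
        simp only [LinearMap.add_apply, LinearMap.mulLeft_apply]
        ring
      rwa [h4] at h3) (by
      apply LinearMap.ext
      intro v
      have e1 : ∀ x, (f ⟨LL B w (mu F (1 : K)), huL⟩ - 1) x = B.b x w • w := by
        intro x
        change LL B w (mu F (1 : K)) x - x = _
        rw [LL_mu_apply, one_mul, add_sub_cancel_left]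
      rw [Module.End.mul_apply, e1, e1, map_smul, LinearMap.smul_apply, B.alt, smul_zero, zero_smul]
      rfl)
  have h1 : (⟨s, hsL⟩ : L) ∈ (TG F B w).subgroupOf L := by rw [key]; trivial
  obtain ⟨d, hd'⟩ : s ∈ TG F B w := h1
  apply hline w
  intro k
  obtain ⟨y, hy1⟩ := exists_dual (B := B) he
  obtain ⟨x, hx⟩ : ∃ x, B.b x e = k :=
    ⟨(-k) • y, by rw [map_smul, LinearMap.smul_apply, skew y e, hy1, smul_eq_mul]; ring⟩
  have h3 := LinearEquiv.congr_fun hd' (g x)
  rw [hsv, inv_app, LL_mu_apply, hx] at h3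
  have h4 := add_left_cancel h3
  exact ⟨d * B.b (g x) w, h4⟩

end

end Cfsg.Agent.H98.Sp
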