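import Cfsg.Agent.H98.SpF

set_option autoImplicit false
set_option linter.unusedSectionVars false
set_option linter.style.haveILetI false
set_option linter.unusedSimpArgs false

/-!
Extension fields in symplectic groups, part G: characteristic two, `dim_K V ≥ 4`.
-/

namespace Cfsg.Agent.H98.Sp

open Module Cfsg.Agent.H98.Ext Cfsg.Agent.H98.Or

/-- Two involutions are conjugate or commute with a common involution. -/
lemma dih {G : Type*} [Group G] [Finite G] {s t : G} (hs : s * s = 1) (ht : t * t = 1) :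
    (∃ k : ℕ, t = (s * ((s * t) ^ k)⁻¹) * s * (s * ((s * t) ^ k)⁻¹)⁻¹) ∨
    (∃ k : ℕ, (s * t) ^ k ≠ 1 ∧ (s * t) ^ k * (s * t) ^ k = 1 ∧ s * (s * t) ^ k = (s * t) ^ k * s ∧
      t * (s * t) ^ k = (s * t) ^ k * t) := by
  obtain ⟨x, hx⟩ : ∃ x, x = s * t := ⟨_, rfl⟩
  rw [← hx]
  have hs' : s⁻¹ = s := inv_eq_of_mul_eq_one_left hs
  have ht' : t⁻¹ = t := inv_eq_of_mul_eq_one_left ht
  have hsx : s * x * s⁻¹ = x⁻¹ := by
    rw [hx, mul_inv_rev, hs', ht', ← mul_assoc, hs, one_mul]
  have htx : t * x * t⁻¹ = x⁻¹ := by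
    rw [hx, mul_inv_rev, hs', ht', mul_assoc, mul_assoc, ht, mul_one]
  have hsk : ∀ k : ℕ, s * x ^ k * s⁻¹ = (x ^ k)⁻¹ := by
    intro k
    rw [← conj_pow, hsx, inv_pow]
  have htk : ∀ k : ℕ, t * x ^ k * t⁻¹ = (x ^ k)⁻¹ := by
    intro k
    rw [← conj_pow, htx, inv_pow]
  have hn := orderOf_pos x
  rcases Nat.even_or_odd' (orderOf x) with ⟨k, hk | hk⟩
  · right
    refine ⟨k, ?_, ?_, ?_, ?_⟩
    · intro h
      have := Nat.le_of_dvd (by omega) (orderOf_dvd_of_pow_eq_one h)
      omega
    · rw [← pow_add, ← two_mul, ← hk, pow_orderOf_eq_one]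
    · have h1 : x ^ k * x ^ k = 1 := by rw [← pow_add, ← two_mul, ← hk, pow_orderOf_eq_one]
      have h2 : (x ^ k)⁻¹ = x ^ k := inv_eq_of_mul_eq_one_left h1
      have h3 := hsk k
      rw [h2, mul_inv_eq_iff_eq_mul] at h3
      exact h3
    · have h1 : x ^ k * x ^ k = 1 := by rw [← pow_add, ← two_mul, ← hk, pow_orderOf_eq_one]
      have h2 : (x ^ k)⁻¹ = x ^ k := inv_eq_of_mul_eq_one_left h1
      have h3 := htk k
      rw [h2, mul_inv_eq_iff_eq_mul] at h3
      exact h3
  · left
    refine ⟨k, ?_⟩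
    have h1 : x ^ (2 * k + 1) = 1 := by rw [← hk, pow_orderOf_eq_one]
    have h2 : t = s * x := by rw [hx, ← mul_assoc, hs, one_mul]
    have h3 := hsk k
    rw [mul_inv_eq_iff_eq_mul] at h3
    have h4 : s * x ^ k * s = (x ^ k)⁻¹ := by rw [h3, mul_assoc, hs, mul_one]
    -- `(s x^{-k}) s (x^k s⁻¹)`
    rw [mul_inv_rev, inv_inv, hs']
    have h5 : (x ^ k)⁻¹ * s = s * x ^ k := h3.symm
    calc t = s * x := h2
      _ = s * (x ^ (2 * k + 1) * (x ^ (k + k))⁻¹) := by
          congr 1
          rw [eq_mul_inv_iff_mul_eq, ← pow_succ']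
          congr 1
          omega
      _ = s * ((x ^ k)⁻¹ * (x ^ k)⁻¹) := by rw [h1, one_mul, pow_add, mul_inv_rev]
      _ = s * ((x ^ k)⁻¹ * (s * x ^ k * s)) := by rw [h4]
      _ = s * (x ^ k)⁻¹ * s * (x ^ k * s) := by group

section

variable {F K V : Type*} [Field F] [Field K] [Algebra F K] [AddCommGroup V] [Module F V] [Module K V]
  [IsScalarTower F K V] {B : Sy K V} {H : Subgroup (V ≃ₗ[F] V)}

/-- A semilinear involution in characteristic two moving few vectors is linear. -/
lemma lin_of_small [Finite K] [Finite V] [Nontrivial V] [CharP F 2] (hr : (finrank F K).Prime) {z : V ≃ₗ[F] V}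
    (hz : Semi K z) (hzz : ∀ v, z (z v) = v) {n : ℕ}
    {U : Submodule F V} (hU1 : finrank F U ≤ n) (hU2 : ∀ v, z v - v ∈ U)
    (hn : finrank F K = 2 → 2 * n < finrank F V ∨ (2 * n ≤ finrank F V ∧ ∃ w : V, w ≠ 0 ∧ ∀ k : K, k • w ∈ U))
    (k : K) (v : V) : z (k • v) = k • z v := by
  have := fin_F F K
  have := fin_dim F K
  have : FiniteDimensional F V := Module.Finite.of_finite
  have hc2 : CharP K 2 := charP_of_injective_algebraMap (algebraMap F K).injective 2
  have h2 : ∀ a : K, a + a = 0 := fun a => CharTwo.add_self_eq_zero a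
  obtain ⟨σ, hσ⟩ := Tr.exists_alg_of_semi hz
  have hσσ : ∀ k, σ (σ k) = k := by
    intro k
    obtain ⟨v, hv⟩ := exists_ne (0 : V)
    have h1 := hzz (k • v)
    rw [hσ, hσ, hzz] at h1
    have : (σ (σ k) - k) • v = 0 := by rw [sub_smul, h1, sub_self]
    exact sub_eq_zero.1 ((smul_eq_zero.1 this).resolve_right hv)
  by_cases hid : ∀ k, σ k = k
  · rw [hσ, hid]
  exfalso
  push Not at hid
  obtain ⟨k₀, hk₀⟩ := hid
  have hfix : ∀ c, σ c = c → c ∈ Set.range (algebraMap F K) := by
    intro c hc
    by_contra h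
    exact hk₀ (eq_id_of_fix hr σ h hc k₀)
  -- `r = 2`
  have hr2 : finrank F K = 2 := by
    let T : K →ₗ[F] K := σ.toLinearMap - LinearMap.id
    have hT : ∀ c, T c = σ c - c := fun c => rfl
    have hker : finrank F (LinearMap.ker T) ≤ 1 := by
      have : LinearMap.ker T ≤ Submodule.span F {(1 : K)} := by
        intro c hc
        obtain ⟨a, ha⟩ := hfix c (sub_eq_zero.1 (by rw [← hT]; exact hc))
        rw [Submodule.mem_span_singleton]
        exact ⟨a, by rw [← ha, Algebra.algebraMap_eq_smul_one]⟩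
      exact (Submodule.finrank_mono this).trans (finrank_span_singleton (one_ne_zero)).le
    have hrange : finrank F (LinearMap.range T) ≤ finrank F (LinearMap.ker T) := by
      apply Submodule.finrank_mono
      rintro _ ⟨c, rfl⟩
      rw [LinearMap.mem_ker, hT, hT, map_sub, hσσ]
      have := h2 (c - σ c)
      linear_combination this
    have h3 := LinearMap.finrank_range_add_finrank_ker T
    have h4 := hr.two_le
    omega
  have hn' := hn hr2
  let N : V →ₗ[F] V := (z : V →ₗ[F] V) - LinearMap.id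
  have hN : ∀ v, N v = z v - v := fun v => rfl
  have h3 := LinearMap.finrank_range_add_finrank_ker N
  have h4 : finrank F (LinearMap.range N) ≤ finrank F U := by
    apply Submodule.finrank_mono
    rintro _ ⟨v, rfl⟩
    exact hU2 v
  have h5 : finrank F (LinearMap.ker N) ≤ finrank F (LinearMap.range N) := by
    have hmap : (LinearMap.ker N).map (((LinearMap.lsmul K V (σ k₀ - k₀)).restrictScalars F)) ≤ LinearMap.range N := by
      rintro _ ⟨v, hv, rfl⟩
      have hzv : z v = v := sub_eq_zero.1 (by rw [← hN]; exact hv)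
      refine ⟨k₀ • v, ?_⟩
      rw [hN, hσ, hzv, ← sub_smul]
      rfl
    have hinj : Function.Injective ((LinearMap.lsmul K V (σ k₀ - k₀)).restrictScalars F) := by
      intro x y hxy
      have h6 : (σ k₀ - k₀) • x = (σ k₀ - k₀) • y := hxy
      exact smul_right_injective _ (sub_ne_zero.2 hk₀) h6
    rw [(Submodule.equivMapOfInjective _ hinj _).finrank_eq]
    exact Submodule.finrank_mono hmap
  rcases hn' with hn' | ⟨hn', w, hw0, hw⟩
  · omega
  have hrU : LinearMap.range N = U := by
    apply Submodule.eq_of_le_of_finrank_le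
    · rintro _ ⟨v, rfl⟩
      exact hU2 v
    · omega
  have hzw : ∀ k : K, z (k • w) = k • w := by
    intro k
    have hk := hw k
    rw [← hrU] at hk
    obtain ⟨v, hv⟩ := hk
    rw [← hv, hN, map_sub, hzz, sub_eq_sub_iff_add_eq_add, ← one_smul K v, ← one_smul K (z ((1 : K) • v)),
      ← add_smul, ← add_smul, h2, zero_smul, zero_smul]
  have h6 := hσ k₀ w
  have h7 := hzw 1
  rw [one_smul] at h7
  rw [hzw, h7] at h6
  have h8 : (k₀ - σ k₀) • w = 0 := by rw [sub_smul, ← h6, sub_self]
  exact hk₀ (sub_eq_zero.1 ((smul_eq_zero.1 h8).resolve_right hw0)).symm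

theorem even_main [Finite K] [Finite V] (hy : HypS B H) (hst : Stab K H) [CharP F 2] (hr : (finrank F K).Prime)
    (hd : 4 ≤ finrank K V) (hn : finrank F K = 2 → 12 ≤ finrank F V) : ∀ g ∈ H, Semi K g := by
  intro g hg
  by_contra hgs
  have := fin_F F K
  have := fin_dim F K
  have : FiniteDimensional F V := Module.Finite.of_finite
  have : FiniteDimensional K V := Module.Finite.of_finite
  have hnt : Nontrivial V := Module.nontrivial_of_finrank_pos (R := K) (by omega)
  have hc2 : CharP K 2 := charP_of_injective_algebraMap (algebraMap F K).injective 2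
  have h2 : ∀ a : K, a + a = 0 := fun a => CharTwo.add_self_eq_zero a
  have h2V : ∀ v : V, v + v = 0 := by
    intro v
    rw [← one_smul K v, ← add_smul, h2, zero_smul]
  have hneg : ∀ a b : V, a - b = b - a := by
    intro a b
    rw [sub_eq_sub_iff_add_eq_add, h2V, h2V]
  obtain ⟨e, he⟩ := exists_ne (0 : V)
  have hline : ∀ w : V, ¬ ∀ k : K, ∃ k' : K, g (k • e) = k' • w := fun w h =>
    hgs (semi_of_line hy hst hg he h)
  have hLL1 : ∀ z : V, LL B z (mu F (1 : K)) ∈ H := fun z => hy.mu_mem 1 z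
  obtain ⟨s, hs⟩ : ∃ s, s = g * LL B e (mu F (1 : K)) * g⁻¹ := ⟨_, rfl⟩
  have hsH : s ∈ H := by rw [hs]; exact H.mul_mem (H.mul_mem hg (hLL1 e)) (H.inv_mem hg)
  have hsv : ∀ v, s v = v + g (B.b (g⁻¹ v) e • e) := by
    intro v
    rw [hs, LinearEquiv.mul_apply, LinearEquiv.mul_apply, LL_mu_apply, one_mul, map_add, app_inv]
  have hss : s * s = 1 := by
    apply LinearEquiv.ext
    intro v
    have h3 : B.b (g⁻¹ (s v)) e = B.b (g⁻¹ v) e := by
      rw [hsv v, map_add, inv_app, map_add, LinearMap.add_apply, map_smul B.b, LinearMap.smul_apply, B.alt,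
        smul_zero, add_zero]
    rw [LinearEquiv.mul_apply, hsv (s v), h3, hsv v, add_assoc, h2V, add_zero]
    rfl
  -- `t`
  obtain ⟨e₁, he₁⟩ := exists_ne (0 : V)
  obtain ⟨u₁, hu₁, heu⟩ : ∃ u, u ∉ Submodule.span K {e₁} ∧ B.b e₁ u = 0 := by
    by_contra hcon
    push Not at hcon
    have h1 : LinearMap.ker (B.b e₁) ≤ Submodule.span K {e₁} := by
      intro u hu
      by_contra h
      exact hcon u h hu
    have h2 := Submodule.finrank_mono h1
    rw [finrank_span_singleton he₁] at h2
    have h3 := LinearMap.finrank_range_add_finrank_ker (B.b e₁)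
    have h4 : finrank K (LinearMap.range (B.b e₁)) ≤ 1 := by
      have := Submodule.finrank_le (LinearMap.range (B.b e₁))
      rwa [finrank_self] at this
    omega
  have hue : B.b u₁ e₁ = 0 := by rw [skew, heu, neg_zero]
  have hu₁0 : u₁ ≠ 0 := by
    rintro rfl
    exact hu₁ (Submodule.zero_mem _)
  have he₁' : e₁ ∉ Submodule.span K {u₁} := by
    intro h
    obtain ⟨c, hc⟩ := Submodule.mem_span_singleton.1 h
    have hc0 : c ≠ 0 := by
      rintro rfl
      rw [zero_smul] at hc
      exact he₁ hc.symm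
    apply hu₁
    rw [Submodule.mem_span_singleton]
    exact ⟨c⁻¹, by rw [← hc, smul_smul, inv_mul_cancel₀ hc0, one_smul]⟩
  obtain ⟨x₁, hx1, hx2⟩ := exists_sep (B := B) hu₁
  obtain ⟨y₁, hy1, hy2⟩ := exists_sep (B := B) he₁'
  obtain ⟨t, ht⟩ : ∃ t, t = TK B e₁ 1 * TK B u₁ 1 := ⟨_, rfl⟩
  have htv : ∀ v, t v = v + (B.b v e₁ • e₁ + B.b v u₁ • u₁) := by
    intro v
    rw [ht, LinearEquiv.mul_apply, TK_apply, TK_apply]
    simp only [one_mul, map_add, LinearMap.add_apply, map_smul, LinearMap.smul_apply, hue, smul_zero, add_zero]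
    abel
  have htb : ∀ v w, B.b (t v) (t w) = B.b v w := by
    intro v w
    rw [ht, LinearEquiv.mul_apply, LinearEquiv.mul_apply, TK_b, TK_b]
  have htN : ∀ v, t (t v - v) = t v - v := by
    intro v
    rw [htv v, add_sub_cancel_left, htv]
    simp only [map_add, LinearMap.add_apply, map_smul, LinearMap.smul_apply, hue, heu, B.alt, smul_zero, add_zero,
      zero_smul]
  have hv₀ : t x₁ ≠ x₁ := by
    rw [htv, hx1, hx2, zero_smul, zero_add, one_smul]
    intro h
    exact hu₁0 (left_eq_add.1 h.symm)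
  obtain ⟨T, hT⟩ : ∃ T : V ≃ₗ[F] V, T = t.restrictScalars F := ⟨_, rfl⟩
  have hTv : ∀ v, T v = t v := fun v => by rw [hT]; rfl
  have hTH : T ∈ H := by rw [hT]; exact hy.lin htb
  have hTT : T * T = 1 := by
    apply LinearEquiv.ext
    intro v
    rw [LinearEquiv.mul_apply, hTv, hTv]
    have h1 := htN v
    rw [map_sub, sub_eq_iff_eq_add, hneg, sub_add_cancel] at h1
    exact h1
  have hfin : Finite (V ≃ₗ[F] V) :=
    Finite.of_injective (fun g : V ≃ₗ[F] V => (g : V → V)) (fun a b h => LinearEquiv.ext (fun v => congrFun h v))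
  have hmulr : finrank F K * finrank K V = finrank F V := Module.finrank_mul_finrank F K V
  rcases dih hss hTT with ⟨k, hk⟩ | ⟨k, hk1, hk2, hk3, hk4⟩
  · -- conjugate: impossible
    obtain ⟨c, hc⟩ : ∃ c, c = s * ((s * T) ^ k)⁻¹ := ⟨_, rfl⟩
    rw [← hc] at hk
    have h1 : ∀ p : K × K, ∃ κ : K, c (g (κ • e)) = p.1 • e₁ + p.2 • u₁ := by
      rintro ⟨a, b⟩
      obtain ⟨v, hv⟩ : ∃ v, v = a • y₁ + b • x₁ := ⟨_, rfl⟩
      have h3 : T v = v + (a • e₁ + b • u₁) := by
        rw [hTv, htv, hv]
        simp only [map_add, LinearMap.add_apply, map_smul, LinearMap.smul_apply, hx1, hx2, hy1, hy2, smul_eq_mul,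
          mul_one, mul_zero, add_zero, zero_add]
      have h4 : T v = v + c (g (B.b (g⁻¹ (c⁻¹ v)) e • e)) := by
        have h5 := LinearEquiv.congr_fun hk v
        rw [h5, LinearEquiv.mul_apply, LinearEquiv.mul_apply, hsv, map_add, app_inv]
      refine ⟨B.b (g⁻¹ (c⁻¹ v)) e, ?_⟩
      rw [h3] at h4
      exact (add_left_cancel h4).symm
    choose κ hκ using h1
    have hinj : Function.Injective κ := by
      rintro ⟨a, b⟩ ⟨a', b'⟩ h
      have h3 := hκ (a, b)
      rw [h, hκ (a', b')] at h3
      have h4 := congrArg (fun v => B.b y₁ v) h3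
      have h5 := congrArg (fun v => B.b x₁ v) h3
      simp only [map_add, map_smul, hx1, hx2, hy1, hy2, smul_eq_mul, mul_one, mul_zero, add_zero, zero_add] at h4 h5
      rw [h4, h5]
    have h3 := Nat.card_le_card_of_injective κ hinj
    rw [Nat.card_prod] at h3
    have h4 : 1 < Nat.card K := Finite.one_lt_card
    nlinarith
  · -- `z`
    obtain ⟨z, hz⟩ : ∃ z, z = (s * T) ^ k := ⟨_, rfl⟩
    rw [← hz] at hk1 hk2 hk3 hk4
    have hzH : z ∈ H := by rw [hz]; exact H.pow_mem (H.mul_mem hsH hTH) k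
    have hzz : ∀ v, z (z v) = v := fun v => LinearEquiv.congr_fun hk2 v
    have hzT : ∀ v, z (t v) = t (z v) := by
      intro v
      have := LinearEquiv.congr_fun hk4 v
      rw [LinearEquiv.mul_apply, LinearEquiv.mul_apply, hTv, hTv] at this
      exact this.symm
    have hzs := semi_of_comm hy hst htb htN hv₀ hzH hzT
    let ω : (K × K × K) →ₗ[F] V := ((g : V →ₗ[F] V) ∘ₗ (LinearMap.toSpanSingleton K V e).restrictScalars F).coprod
      (((LinearMap.toSpanSingleton K V e₁).restrictScalars F).coprod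
        ((LinearMap.toSpanSingleton K V u₁).restrictScalars F))
    have hω : ∀ a b c, ω (a, b, c) = g (a • e) + (b • e₁ + c • u₁) := fun a b c => rfl
    have hfω : finrank F (LinearMap.range ω) ≤ 3 * finrank F K := by
      have := LinearMap.finrank_range_le ω
      rw [finrank_prod, finrank_prod] at this
      omega
    have hzU : ∀ v, z v - v ∈ LinearMap.range ω := by
      have hall : ∀ j : ℕ, ∀ v, ((s * T) ^ j) v - v ∈ LinearMap.range ω := by
        have hs1 : ∀ v, s v - v ∈ LinearMap.range ω := by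
          intro v
          rw [hsv, add_sub_cancel_left]
          exact ⟨(B.b (g⁻¹ v) e, 0, 0), by rw [hω, zero_smul, zero_smul, add_zero, add_zero]⟩
        have ht1 : ∀ v, T v - v ∈ LinearMap.range ω := by
          intro v
          rw [hTv, htv, add_sub_cancel_left]
          exact ⟨(0, B.b v e₁, B.b v u₁), by rw [hω, zero_smul, map_zero, zero_add]⟩
        intro j
        induction j with
        | zero =>
          intro v
          rw [pow_zero]
          change v - v ∈ _
          rw [sub_self]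
          exact Submodule.zero_mem _
        | succ j ih =>
          intro v
          rw [pow_succ, LinearEquiv.mul_apply, LinearEquiv.mul_apply]
          have e1 : ((s * T) ^ j) (s (T v)) - v = (((s * T) ^ j) (s (T v)) - s (T v)) + ((s (T v) - T v) + (T v - v)) := by
            abel
          rw [e1]
          exact Submodule.add_mem _ (ih _) (Submodule.add_mem _ (hs1 _) (ht1 _))
      rw [hz]
      exact hall k
    have hzlin := lin_of_small (n := 3 * finrank F K) hr hzs hzz hfω hzU (by
      intro h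
      right
      have := hn h
      refine ⟨by omega, e₁, he₁, fun k => ⟨(0, k, 0), ?_⟩⟩
      rw [hω, zero_smul, zero_smul, map_zero, zero_add, add_zero])
    -- as a `K`-linear map
    let Z : V ≃ₗ[K] V :=
      { toFun := z
        map_add' := z.map_add
        map_smul' := hzlin
        invFun := z
        left_inv := hzz
        right_inv := hzz }
    have hZ : ∀ v, Z v = z v := fun v => rfl
    have hZb : ∀ v w, B.b (Z v) (Z w) = B.b v w := by
      intro v w
      rw [← sub_eq_zero, ← sub_eq_zero (a := B.b (Z v) (Z w) - B.b v w)]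
      apply tr_nd F
      intro k
      have h3 := (mem_iso.1 (hy.le hzH)) (k • v) w
      rw [hzlin] at h3
      unfold tf at h3
      rw [map_smul (B.b), LinearMap.smul_apply, map_smul (B.b), LinearMap.smul_apply, smul_eq_mul, smul_eq_mul] at h3
      rw [sub_zero, sub_mul, map_sub, mul_comm, hZ, hZ, h3, mul_comm k, sub_self]
    have hZN : ∀ v, Z (Z v - v) = Z v - v := by
      intro v
      rw [map_sub, hZ, hZ, hzz, hneg]
    obtain ⟨v₁, hv₁⟩ : ∃ v, z v ≠ v := by
      by_contra hcon
      push Not at hcon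
      exact hk1 (LinearEquiv.ext hcon)
    have hsZ : ∀ v, s (Z v) = Z (s v) := by
      intro v
      exact LinearEquiv.congr_fun hk3 v
    have hsS := semi_of_comm hy hst hZb hZN hv₁ hsH hsZ
    have hss' : ∀ v, s (s v) = v := fun v => LinearEquiv.congr_fun hss v
    let ω' : K →ₗ[F] V := ((g : V →ₗ[F] V) ∘ₗ (LinearMap.toSpanSingleton K V e).restrictScalars F)
    have hslin := lin_of_small (n := finrank F K) (U := LinearMap.range ω') hr hsS hss'
      (LinearMap.finrank_range_le ω') (by
        intro v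
        rw [hsv, add_sub_cancel_left]
        exact ⟨B.b (g⁻¹ v) e, rfl⟩) (by
      intro h
      left
      have := hn h
      omega)
    -- `g (K e)` is a `K`-line
    obtain ⟨y, hy1⟩ : ∃ y, B.b (g⁻¹ y) e = 1 := by
      obtain ⟨y, hy1⟩ := exists_dual (B := B) he
      refine ⟨g (-y), ?_⟩
      rw [inv_app, map_neg, LinearMap.neg_apply, skew, neg_neg, hy1]
    have hκ : ∀ k : K, g (B.b (g⁻¹ (k • y)) e • e) = k • g e := by
      intro k
      have h1 := hslin k y
      rw [hsv, hsv, hy1, one_smul, smul_add] at h1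
      exact add_left_cancel h1
    have hge : g e ≠ 0 := fun h => he ((LinearEquiv.map_eq_zero_iff g).1 h)
    have hinj : Function.Injective (fun k : K => B.b (g⁻¹ (k • y)) e) := by
      intro k k' hkk
      have h1 := hκ k
      simp only at hkk
      rw [hkk, hκ k'] at h1
      have : (k' - k) • g e = 0 := by rw [sub_smul, h1, sub_self]
      exact (sub_eq_zero.1 ((smul_eq_zero.1 this).resolve_right hge)).symm
    have hsurj := Finite.injective_iff_surjective.1 hinj
    apply hline (g e)
    intro l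
    obtain ⟨k, hk⟩ := hsurj l
    exact ⟨k, by rw [← hκ k]; simp only at hk; rw [hk]⟩

end

end Cfsg.Agent.H98.Sp
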