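import Cfsg.Agent.H98.SpG
import Cfsg.Agent.H98.ExtG

set_option autoImplicit false
set_option linter.unusedSectionVars false
set_option linter.style.haveILetI false
set_option linter.unusedSimpArgs false

/-!
Extension fields in symplectic groups, part H: `dim_K V ≥ 4`: either all of `H` is semilinear, or `H` contains the
`F`-transvections.
-/

namespace Cfsg.Agent.H98.Sp

open Module Cfsg.Agent.H98.Ext Cfsg.Agent.H98.Or

section

variable {F K V : Type*} [Field F] [Field K] [Algebra F K] [AddCommGroup V] [Module F V] [Module K V]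
  [IsScalarTower F K V] {B : Sy K V} {H : Subgroup (V ≃ₗ[F] V)}

theorem stab_of_allK [Finite K] [Finite V] (hy : HypS B H) (hZ : AllK B H) : Stab K H := by
  intro h hh e he hline
  obtain ⟨e', hee'⟩ := exists_dual (B := B) he
  have he'e : B.b e' e = -1 := by rw [skew, hee']
  let X : Submodule K V := LinearMap.ker (B.b e) ⊓ LinearMap.ker (B.b e')
  have hX : ∀ x : X, B.b e x = 0 ∧ B.b e' x = 0 := fun x => ⟨x.2.1, x.2.2⟩
  have hX' : ∀ x : X, B.b x e = 0 ∧ B.b x e' = 0 := fun x => by
    rw [skew _ e, skew _ e', neg_eq_zero, neg_eq_zero]; exact hX x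
  have hXm : ∀ v : V, v - B.b v e' • e - B.b e v • e' ∈ X := by
    intro v
    constructor
    · change B.b e (v - B.b v e' • e - B.b e v • e') = 0
      simp only [map_sub, map_smul, B.alt, hee', smul_eq_mul]
      ring
    · change B.b e' (v - B.b v e' • e - B.b e v • e') = 0
      simp only [map_sub, map_smul, he'e, B.alt, smul_eq_mul, skew e' v]
      ring
  let φ : V ≃ₗ[K] (K × X × K) :=
    { toFun := fun v => (B.b v e', ⟨v - B.b v e' • e - B.b e v • e', hXm v⟩, B.b e v)
      map_add' := by
        intro v w
        refine Prod.ext (by simp) (Prod.ext (Subtype.ext ?_) (by simp))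
        simp only [map_add, LinearMap.add_apply, add_smul, Prod.snd_add, Prod.fst_add, Submodule.coe_add]
        abel
      map_smul' := by
        intro c v
        refine Prod.ext (by simp) (Prod.ext (Subtype.ext ?_) (by simp))
        simp only [map_smul, LinearMap.smul_apply, smul_eq_mul, mul_smul, Prod.smul_snd, Prod.smul_fst,
          RingHom.id_apply, Submodule.coe_smul, smul_sub]
      invFun := fun t => t.1 • e + t.2.1 + t.2.2 • e'
      left_inv := by
        intro v
        simp only
        abel
      right_inv := by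
        rintro ⟨a, x, b⟩
        have e1 : B.b (a • e + (x : V) + b • e') e' = a := by
          simp only [map_add, map_smul, LinearMap.add_apply, LinearMap.smul_apply, hee', B.alt, (hX' x).2, smul_eq_mul]
          ring
        have e2 : B.b e (a • e + (x : V) + b • e') = b := by
          simp only [map_add, map_smul, B.alt, hee', (hX x).1, smul_eq_mul]
          ring
        refine Prod.ext e1 (Prod.ext (Subtype.ext ?_) e2)
        simp only [e1, e2]
        abel }
  have hφs : ∀ t : K × X × K, φ.symm t = t.1 • e + t.2.1 + t.2.2 • e' := fun t => rfl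
  let β : Sy K X :=
    { b := (B.b.domRestrict X).compl₂ X.subtype
      alt := fun x => B.alt _
      nd := by
        intro x hx
        apply Subtype.ext
        apply B.nd
        intro w
        have e1 : w = B.b w e' • e + (w - B.b w e' • e - B.b e w • e') + B.b e w • e' := by abel
        have e2 := hx ⟨w - B.b w e' • e - B.b e w • e', hXm w⟩
        change B.b x (w - B.b w e' • e - B.b e w • e') = 0 at e2
        rw [e1, map_add, map_add, map_smul, map_smul, (hX' x).1, (hX' x).2, e2]
        simp }
  have hβ : ∀ x y : X, β.b x y = B.b x y := fun x y => rfl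
  have hbe : ∀ s t : K × X × K, (mdl β).b s t = B.b (φ.symm s) (φ.symm t) := by
    intro s t
    rw [mdl_b, hφs, hφs, hβ]
    simp only [map_add, map_smul, LinearMap.add_apply, LinearMap.smul_apply, B.alt, hee', he'e,
      (hX _).1, (hX _).2, (hX' _).1, (hX' _).2, smul_eq_mul]
    ring
  have htf : ∀ s t : K × X × K, tf F (mdl β) s t = tf F B (φ.symm s) (φ.symm t) := by
    intro s t
    unfold tf
    rw [hbe]
  have hcj : ∀ g : (K × X × K) ≃ₗ[F] (K × X × K), g ∈ iso F (mdl β) → cj φ g ∈ iso F B := by
    intro g hg v w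
    rw [cj_apply, cj_apply, ← htf, hg, htf, LinearEquiv.symm_apply_apply, LinearEquiv.symm_apply_apply]
  have hcj' : ∀ g : (K × X × K) ≃ₗ[F] (K × X × K), cj φ g ∈ iso F B → g ∈ iso F (mdl β) := by
    intro g hg v w
    have := hg (φ.symm v) (φ.symm w)
    rw [cj_apply, cj_apply, ← htf, ← htf, LinearEquiv.apply_symm_apply, LinearEquiv.apply_symm_apply] at this
    exact this
  obtain ⟨H', hH'⟩ : ∃ H' : Subgroup ((K × X × K) ≃ₗ[F] (K × X × K)), H' = H.comap (cj (F := F) φ) := ⟨_, rfl⟩
  have hmem : ∀ g, g ∈ H' ↔ cj φ g ∈ H := by intro g; rw [hH', Subgroup.mem_comap]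
  have hy' : HypS (mdl β) H' := by
    constructor
    · intro g hg
      exact hcj' g (hy.le ((hmem g).1 hg))
    · intro g hg hs
      rw [hmem]
      refine hy.semi _ (hcj g hg) ?_
      intro k
      obtain ⟨k', hk'⟩ := hs k
      exact ⟨k', fun v => by rw [cj_apply, cj_apply, map_smul φ, hk', map_smul φ.symm]⟩
  have hZ' : AllK (mdl β) H' := by
    intro S hS
    apply hZ
    intro z
    have h1 := (hmem _).1 (hS (φ z))
    convert h1 using 1
    apply LinearEquiv.ext
    intro v
    rw [cj_apply, LL_apply, LL_apply, map_add, map_smul φ.symm, hbe, LinearEquiv.symm_apply_apply,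
      LinearEquiv.symm_apply_apply]
  have hh' : cj φ.symm h ∈ H' := by rw [hmem, cj_symm]; exact hh
  have hφe : ∀ a : K, φ (a • e) = (a, 0, 0) := by
    intro a
    apply φ.symm.injective
    rw [LinearEquiv.symm_apply_apply, hφs]
    simp
  have key := stab_semi hy' hZ' hh' (by
    intro a
    have h1 : φ.symm.symm (h (φ.symm (a, 0, 0))) = φ (h (φ.symm (a, 0, 0))) := rfl
    rw [cj_apply, h1, ← hφe, LinearEquiv.symm_apply_apply]
    obtain ⟨k', hk'⟩ := hline a
    rw [hk', hφe]
    rfl)
  intro k
  obtain ⟨k', hk'⟩ := key k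
  refine ⟨k', fun v => ?_⟩
  have h1 := hk' (φ v)
  have h2 : ∀ x, cj φ.symm h x = φ (h (φ.symm x)) := fun x => rfl
  rw [h2, h2, ← map_smul φ, LinearEquiv.symm_apply_apply, LinearEquiv.symm_apply_apply, ← map_smul φ] at h1
  exact φ.injective h1

theorem main4 [Finite K] [Finite V] (hy : HypS B H) (hr : (finrank F K).Prime) (hd : 4 ≤ finrank K V)
    (hn : finrank F K = 2 → 12 ≤ finrank F V) : (∀ g ∈ H, Semi K g) ∨ ∀ c, S1 K c ∈ ZS B H := by
  have := fin_F F K
  have hnt : Nontrivial V := Module.nontrivial_of_finrank_pos (R := K) (by omega)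
  by_cases hZ : AllK B H
  · left
    have hst := stab_of_allK hy hZ
    obtain ⟨p, hp⟩ := CharP.exists F
    have hp' : Fact p.Prime := ⟨(CharP.char_is_prime_or_zero F p).resolve_right (by
      rintro rfl
      have := CharP.charP_to_charZero F
      exact not_finite F)⟩
    by_cases hp2 : p = 2
    · subst hp2
      exact even_main hy hst hr hd hn
    · exact odd_main hy hst hp2 hr hd
  · right
    unfold AllK at hZ
    push Not at hZ
    obtain ⟨S, hS, k, l, hkl⟩ := hZ
    intro c
    refine transv_mem_of_JR hy (by omega) (fun y => JR_top hy hr hS ?_ y) c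
    intro hcon
    exact hkl (hcon k l)

end

end Cfsg.Agent.H98.Sp
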