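import Cfsg.Agent.H98.SpH

set_option autoImplicit false
set_option linter.unusedSectionVars false
set_option linter.style.haveILetI false
set_option linter.unusedSimpArgs false

/-!
Extension fields in symplectic groups, part I: Lie rings of `F`-endomorphisms of `K` which contain `K` and are
normalised by `K*`.
-/

namespace Cfsg.Agent.H98.Sp

open Module Cfsg.Agent.H98.Ext Cfsg.Agent.H98.Or

section lie

variable {F K : Type*} [Field F] [Field K] [Algebra F K] [Finite K] [FiniteDimensional F K]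

lemma exists_coef (y : K →ₗ[F] K) : ∃ a : (K ≃ₐ[F] K) → K, ∀ x, y x = ∑ τ : K ≃ₐ[F] K, a τ * τ x := by
  have := fin_F F K
  let e := Module.finBasis F K
  have hnd := traceForm_nondegenerate F K
  let e' := (Algebra.traceForm F K).dualBasis hnd e
  have h1 : ∀ x : K, x = ∑ i, Algebra.trace F K (x * e i) • e' i := by
    intro x
    conv_lhs => rw [← e'.sum_repr x]
    apply Finset.sum_congr rfl
    intro i _
    rw [LinearMap.BilinForm.dualBasis_repr_apply, Algebra.traceForm_apply]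
  have h3 : ∀ k : K, algebraMap F K (Algebra.trace F K k) = ∑ σ : K ≃ₐ[F] K, σ k := fun k =>
    trace_eq_sum_automorphisms k
  refine ⟨fun τ => ∑ i, τ (e i) * y (e' i), fun x => ?_⟩
  conv_lhs => rw [h1 x]
  rw [map_sum]
  have h4 : ∀ i, y (Algebra.trace F K (x * e i) • e' i) = ∑ τ : K ≃ₐ[F] K, τ (e i) * y (e' i) * τ x := by
    intro i
    rw [map_smul, Algebra.smul_def, h3, Finset.sum_mul]
    apply Finset.sum_congr rfl
    intro τ _
    rw [map_mul]
    ring
  rw [Finset.sum_congr rfl (fun i _ => h4 i), Finset.sum_comm]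
  apply Finset.sum_congr rfl
  intro τ _
  rw [Finset.sum_mul]

lemma alg_eq_one (hr : (finrank F K).Prime) {s : K ≃ₐ[F] K} {c : K} (hc : c ∉ Set.range (algebraMap F K))
    (h : s c = c) : s = 1 := by
  ext k
  exact eq_id_of_fix hr (s : K →ₐ[F] K) hc h k

lemma exists_notF (hr : (finrank F K).Prime) : ∃ c : K, c ∉ Set.range (algebraMap F K) := by
  by_contra hcon
  push Not at hcon
  have h1 : finrank F K ≤ 1 := by
    rw [finrank_le_one_iff]
    refine ⟨1, fun c => ?_⟩
    obtain ⟨a, ha⟩ := hcon c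
    exact ⟨a, by rw [← ha, Algebra.algebraMap_eq_smul_one]⟩
  have := hr.two_le
  omega

lemma char_distinct (hr : (finrank F K).Prime) {s i τ : K ≃ₐ[F] K} (hi : i ≠ 1)
    (h : ∀ c : K, s c * τ c = c * s (i c)) : s = 1 ∧ τ = i := by
  obtain ⟨c, hc⟩ := exists_notF (F := F) (K := K) hr
  have h1 : ∀ c : K, s c + τ c = c + s (i c) := by
    intro c
    have h2 := h (c + 1)
    have h3 := h c
    simp only [map_add, map_one] at h2
    linear_combination h2 - h3
  have h2 : (s c - c) * (τ c - c) = 0 := by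
    linear_combination h c - c * h1 c
  rcases mul_eq_zero.1 h2 with h3 | h3
  · have hs : s = 1 := alg_eq_one hr hc (sub_eq_zero.1 h3)
    refine ⟨hs, ?_⟩
    ext k
    have h4 := h1 k
    rw [hs] at h4
    exact add_left_cancel h4
  · exfalso
    have ht : τ = 1 := alg_eq_one hr hc (sub_eq_zero.1 h3)
    apply hi
    ext k
    have h4 := h1 k
    rw [ht, AlgEquiv.one_apply, add_comm] at h4
    exact (s.injective (add_left_cancel h4)).symm

/-- isolate a component -/
lemma proj (hr : (finrank F K).Prime) (A : Submodule F (K →ₗ[F] K))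
    (hA : ∀ c : K, c ≠ 0 → ∀ y ∈ A, mu F c ∘ₗ y ∘ₗ mu F c⁻¹ ∈ A) {y : K →ₗ[F] K} (hy : y ∈ A)
    {a : (K ≃ₐ[F] K) → K} (ha : ∀ x, y x = ∑ τ : K ≃ₐ[F] K, a τ * τ x) {i : K ≃ₐ[F] K} (hi : i ≠ 1) (k : K) :
    mu F (k * a i) ∘ₗ (i : K →ₗ[F] K) ∈ A := by
  classical
  have := fin_F F K
  have hfK := Fintype.ofFinite K
  have h3 : ∀ k : K, algebraMap F K (Algebra.trace F K k) = ∑ σ : K ≃ₐ[F] K, σ k := fun k =>
    trace_eq_sum_automorphisms k
  let χ : (K ≃ₐ[F] K) → (K ≃ₐ[F] K) → (Kˣ →* K) := fun s τ =>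
    { toFun := fun c => s ((c⁻¹ : Kˣ) : K) * s (i (c : K)) * (c : K) * τ ((c⁻¹ : Kˣ) : K)
      map_one' := by simp
      map_mul' := by
        intro c d
        simp only [mul_inv, Units.val_mul, map_mul]
        ring }
  have hχ : ∀ s τ, χ s τ = 1 ↔ s = 1 ∧ τ = i := by
    intro s τ
    constructor
    · intro h
      apply char_distinct hr hi
      intro c
      by_cases hc : c = 0
      · rw [hc]; simp
      have h4 := DFunLike.congr_fun h (Units.mk0 c hc)
      change s (((Units.mk0 c hc)⁻¹ : Kˣ) : K) * s (i c) * c * τ (((Units.mk0 c hc)⁻¹ : Kˣ) : K) = 1 at h4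
      rw [Units.val_inv_eq_inv_val, Units.val_mk0, map_inv₀, map_inv₀] at h4
      have hsc : s c ≠ 0 := fun h0 => hc ((map_eq_zero s).1 h0)
      have hτc : τ c ≠ 0 := fun h0 => hc ((map_eq_zero τ).1 h0)
      field_simp at h4
      rw [mul_comm (s (i c))] at h4
      exact h4.symm
    · rintro ⟨rfl, rfl⟩
      ext c
      change ((c⁻¹ : Kˣ) : K) * τ (c : K) * (c : K) * τ ((c⁻¹ : Kˣ) : K) = 1
      have e1 : (c : K) * ((c⁻¹ : Kˣ) : K) = 1 := c.mul_inv
      have e2 : τ (c : K) * τ ((c⁻¹ : Kˣ) : K) = 1 := by rw [← map_mul, e1, map_one]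
      linear_combination (τ (c : K) * τ ((c⁻¹ : Kˣ) : K)) * e1 + e2
  let P : K →ₗ[F] K := ∑ c : Kˣ, Algebra.trace F K (k * (((c⁻¹ : Kˣ) : K) * i (c : K))) •
    (mu F (c : K) ∘ₗ y ∘ₗ mu F (c : K)⁻¹)
  have hP : P ∈ A := A.sum_mem (fun c _ => A.smul_mem _ (hA _ c.ne_zero _ hy))
  have hPx : ∀ x, P x = (Fintype.card Kˣ : K) * (k * a i * i x) := by
    intro x
    have e1 : ∀ c : Kˣ, (Algebra.trace F K (k * (((c⁻¹ : Kˣ) : K) * i (c : K))) •
        (mu F (c : K) ∘ₗ y ∘ₗ mu F (c : K)⁻¹)) x =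
        ∑ s : K ≃ₐ[F] K, ∑ τ : K ≃ₐ[F] K, s k * a τ * τ x * χ s τ c := by
      intro c
      rw [LinearMap.smul_apply, Algebra.smul_def, h3, Finset.sum_mul]
      apply Finset.sum_congr rfl
      intro s _
      rw [LinearMap.comp_apply, LinearMap.comp_apply, LinearMap.mulLeft_apply, LinearMap.mulLeft_apply, ha,
        Finset.mul_sum, Finset.mul_sum]
      apply Finset.sum_congr rfl
      intro τ _
      change _ = s k * a τ * τ x * (s ((c⁻¹ : Kˣ) : K) * s (i (c : K)) * (c : K) * τ ((c⁻¹ : Kˣ) : K))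
      rw [map_mul, map_mul, map_mul, Units.val_inv_eq_inv_val]
      ring
    change (∑ c : Kˣ, Algebra.trace F K (k * (((c⁻¹ : Kˣ) : K) * i (c : K))) •
      (mu F (c : K) ∘ₗ y ∘ₗ mu F (c : K)⁻¹)) x = _
    rw [LinearMap.sum_apply, Finset.sum_congr rfl (fun c _ => e1 c), Finset.sum_comm]
    have e2 : ∀ s : K ≃ₐ[F] K, ∑ c : Kˣ, ∑ τ : K ≃ₐ[F] K, s k * a τ * τ x * χ s τ c =
        ∑ τ : K ≃ₐ[F] K, s k * a τ * τ x * (if s = 1 ∧ τ = i then (Fintype.card Kˣ : K) else 0) := by
      intro s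
      rw [Finset.sum_comm]
      apply Finset.sum_congr rfl
      intro τ _
      rw [← Finset.mul_sum, sum_hom_units]
      simp only [hχ]
      push_cast
      rfl
    rw [Finset.sum_congr rfl (fun s _ => e2 s), Finset.sum_eq_single 1, Finset.sum_eq_single i]
    · simp
      ring
    · intro τ _ hτ
      rw [if_neg (fun h => hτ h.2), mul_zero]
    · intro h
      exact absurd (Finset.mem_univ _) h
    · intro s _ hs
      apply Finset.sum_eq_zero
      intro τ _
      rw [if_neg (fun h => hs h.1), mul_zero]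
    · intro h
      exact absurd (Finset.mem_univ _) h
  have hcard : (Fintype.card Kˣ : K) = -1 := by
    rw [Fintype.card_units, Nat.cast_sub Fintype.card_pos, FiniteField.cast_card_eq_zero]
    simp
  have hfin : mu F (k * a i) ∘ₗ (i : K →ₗ[F] K) = -P := by
    apply LinearMap.ext
    intro x
    rw [LinearMap.neg_apply, hPx, hcard]
    change k * a i * i x = _
    ring
  rw [hfin]
  exact A.neg_mem hP

theorem lie_top (hr : (finrank F K).Prime) (A : Submodule F (K →ₗ[F] K)) (hK : ∀ c : K, mu F c ∈ A)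
    (hA : ∀ c : K, c ≠ 0 → ∀ y ∈ A, mu F c ∘ₗ y ∘ₗ mu F c⁻¹ ∈ A)
    (hlie : ∀ y ∈ A, ∀ z ∈ A, y ∘ₗ z - z ∘ₗ y ∈ A) {y : K →ₗ[F] K} (hy : y ∈ A)
    (hy' : ¬ ∀ k l : K, y (k * l) = k * y l) (z : K →ₗ[F] K) : z ∈ A := by
  classical
  have := fin_F F K
  have hfr : Fact (finrank F K).Prime := ⟨hr⟩
  obtain ⟨a, ha⟩ := exists_coef y
  obtain ⟨i, hi, hai⟩ : ∃ i : K ≃ₐ[F] K, i ≠ 1 ∧ a i ≠ 0 := by
    by_contra hcon
    push Not at hcon
    apply hy'
    intro k l
    have h1 : ∀ x, y x = a 1 * x := by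
      intro x
      rw [ha, Finset.sum_eq_single 1]
      · rfl
      · intro τ _ hτ
        rw [hcon τ hτ, zero_mul]
      · intro h
        exact absurd (Finset.mem_univ _) h
    rw [h1, h1]
    ring
  -- the powers of `i`
  have hpow : ∀ n : ℕ, ∀ k : K, mu F k ∘ₗ ((i ^ n : K ≃ₐ[F] K) : K →ₗ[F] K) ∈ A := by
    intro n
    induction n with
    | zero =>
      intro k
      rw [pow_zero]
      exact hK k
    | succ n ih =>
      intro k
      by_cases h1 : i ^ (n + 1) = 1
      · rw [h1]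
        exact hK k
      obtain ⟨l, hl⟩ := exists_notF (F := F) (K := K) hr
      have hi1 : mu F (1 : K) ∘ₗ (i : K →ₗ[F] K) ∈ A := by
        have := proj hr A hA hy ha hi (a i)⁻¹
        rwa [inv_mul_cancel₀ hai] at this
      have h2 := hlie _ hi1 _ (ih l)
      have h3 := proj hr A hA h2 (a := fun τ => if τ = i ^ (n + 1) then i l - l else 0) (by
        intro x
        rw [Finset.sum_eq_single (i ^ (n + 1))]
        · rw [if_pos rfl, LinearMap.sub_apply]
          change 1 * i (l * (i ^ n) x) - l * (i ^ n) (1 * i x) = _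
          have e1 : (i ^ (n + 1)) x = i ((i ^ n) x) := by rw [pow_succ']; rfl
          have e2 : (i ^ (n + 1)) x = (i ^ n) (i x) := by rw [pow_succ]; rfl
          rw [one_mul, one_mul, map_mul, ← e1, ← e2]
          ring
        · intro τ _ hτ
          rw [if_neg hτ, zero_mul]
        · intro h
          exact absurd (Finset.mem_univ _) h) h1 (k * (i l - l)⁻¹)
      rw [if_pos rfl, mul_assoc, inv_mul_cancel₀, mul_one] at h3
      · exact h3
      · intro h0
        exact hi (alg_eq_one hr hl (sub_eq_zero.1 h0))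
  have hgal : IsGalois F K := inferInstance
  have hcardG : Nat.card (K ≃ₐ[F] K) = finrank F K := IsGalois.card_aut_eq_finrank F K
  have hall : ∀ (τ : K ≃ₐ[F] K) (k : K), mu F k ∘ₗ (τ : K →ₗ[F] K) ∈ A := by
    intro τ k
    obtain ⟨n, hn⟩ := mem_powers_of_prime_card hcardG (g := i) (g' := τ) hi
    have := hpow n k
    simp only at hn
    rwa [hn] at this
  obtain ⟨b, hb⟩ := exists_coef z
  have hz : z = ∑ τ : K ≃ₐ[F] K, mu F (b τ) ∘ₗ (τ : K →ₗ[F] K) := by
    apply LinearMap.ext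
    intro x
    rw [hb, LinearMap.sum_apply]
    rfl
  rw [hz]
  exact A.sum_mem (fun τ _ => hall τ (b τ))

end lie

end Cfsg.Agent.H98.Sp
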