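import Cfsg.Agent.H98.SpI
import Cfsg.Agent.H98.ExtD

set_option autoImplicit false
set_option linter.unusedSectionVars false
set_option linter.style.haveILetI false
set_option linter.unusedSimpArgs false

/-!
Extension fields in symplectic groups, part J: the Lie idealiser of the long root maps.
-/

namespace Cfsg.Agent.H98.Sp

open Module Cfsg.Agent.H98.Ext Cfsg.Agent.H98.Or

section

variable {F K V : Type*} [Field F] [Field K] [Algebra F K] [AddCommGroup V] [Module F V] [Module K V]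
  [IsScalarTower F K V] {B : Sy K V} {H : Subgroup (V ≃ₗ[F] V)}

lemma Ad_unique [Finite K] {y y₁ y₂ : K →ₗ[F] K} (h1 : Ad y y₁) (h2 : Ad y y₂) : y₁ = y₂ := by
  apply LinearMap.ext
  intro k
  apply tr_ext F
  intro l
  rw [mul_comm, ← h1, h2, mul_comm]

lemma fsmul_ZS [Finite K] (c : F) {S : K →ₗ[F] K} (hS : S ∈ ZS B H) : c • S ∈ ZS B H := by
  have := fin_F F K
  have hsq : ∀ a : F, (a * a) • S ∈ ZS B H := by
    intro a
    have h1 := smul_ZS (algebraMap F K a) hS
    convert h1 using 1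
    apply LinearMap.ext
    intro k
    rw [LinearMap.comp_apply, LinearMap.comp_apply, LinearMap.mulLeft_apply, LinearMap.mulLeft_apply,
      ← Algebra.smul_def, ← Algebra.smul_def, map_smul, smul_smul, LinearMap.smul_apply]
  by_cases h2 : (2 : F) = 0
  · have hchar : CharP F 2 := CharTwo.of_one_ne_zero_of_two_eq_zero one_ne_zero h2
    have hfF := Fintype.ofFinite F
    obtain ⟨a, ha⟩ := FiniteField.isSquare_of_char_two (F := F) (ringChar.eq F 2 ▸ rfl) c
    rw [ha]
    exact hsq a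
  · have e : c • S = (((c + 1) / 2) * ((c + 1) / 2)) • S - (((c - 1) / 2) * ((c - 1) / 2)) • S := by
      apply LinearMap.ext
      intro k
      rw [LinearMap.sub_apply, LinearMap.smul_apply, LinearMap.smul_apply, LinearMap.smul_apply, ← sub_smul]
      congr 1
      field_simp
      ring
    rw [e]
    exact (ZS B H).sub_mem (hsq _) (hsq _)

/-- The Lie idealiser. -/
def LI (B : Sy K V) (H : Subgroup (V ≃ₗ[F] V)) [Finite K] : Submodule F (K →ₗ[F] K) where
  carrier := {y | ∀ y', Ad y y' → ∀ b ∈ ZS B H, y ∘ₗ b + b ∘ₗ y' ∈ ZS B H}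
  add_mem' := by
    intro y z hy hz w hw b hb
    obtain ⟨y', hy'⟩ := exists_adj y
    obtain ⟨z', hz'⟩ := exists_adj z
    rw [Ad_unique hw (hy'.add hz')]
    have e : (y + z) ∘ₗ b + b ∘ₗ (y' + z') = (y ∘ₗ b + b ∘ₗ y') + (z ∘ₗ b + b ∘ₗ z') := by
      rw [LinearMap.add_comp, LinearMap.comp_add]
      abel
    rw [e]
    exact (ZS B H).add_mem (hy _ hy' _ hb) (hz _ hz' _ hb)
  zero_mem' := by
    intro w hw b hb
    have h0 : Ad (0 : K →ₗ[F] K) 0 := by intro k l; simp
    rw [Ad_unique hw h0, LinearMap.zero_comp, LinearMap.comp_zero, add_zero]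
    exact (ZS B H).zero_mem
  smul_mem' := by
    intro c y hy w hw b hb
    obtain ⟨y', hy'⟩ := exists_adj y
    have h0 : Ad (c • y) (c • y') := by
      intro k l
      rw [LinearMap.smul_apply, LinearMap.smul_apply, mul_smul_comm, mul_smul_comm, map_smul, map_smul, hy']
    rw [Ad_unique hw h0]
    have e : (c • y) ∘ₗ b + b ∘ₗ (c • y') = c • (y ∘ₗ b + b ∘ₗ y') := by
      rw [LinearMap.smul_comp, LinearMap.comp_smul, smul_add]
    rw [e]
    exact fsmul_ZS c (hy _ hy' _ hb)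

variable [Finite K]

lemma mem_LI {y : K →ₗ[F] K} : y ∈ LI B H ↔ ∀ y', Ad y y' → ∀ b ∈ ZS B H, y ∘ₗ b + b ∘ₗ y' ∈ ZS B H := Iff.rfl

lemma mu_LI (c : K) : mu F c ∈ LI B H := by
  intro y' hy' b hb
  rw [Ad_unique hy' (Ad_mu c)]
  have e : mu F c ∘ₗ b + b ∘ₗ mu F c = mu F (c + 1) ∘ₗ b ∘ₗ mu F (c + 1) - mu F c ∘ₗ b ∘ₗ mu F c - b := by
    apply LinearMap.ext
    intro k
    simp only [LinearMap.add_apply, LinearMap.sub_apply, LinearMap.comp_apply, LinearMap.mulLeft_apply, add_mul,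
      one_mul, map_add, mul_add]
    ring
  rw [e]
  exact (ZS B H).sub_mem ((ZS B H).sub_mem (smul_ZS _ hb) (smul_ZS _ hb)) hb

/-- conjugation by a map preserving the long root maps -/
lemma conj_LI {x x' w w' : K →ₗ[F] K} (hx : Ad x x') (hw : Ad w w') (hxw : x ∘ₗ w = LinearMap.id)
    (h1 : ∀ b ∈ ZS B H, x ∘ₗ b ∘ₗ x' ∈ ZS B H) (h2 : ∀ b ∈ ZS B H, w ∘ₗ b ∘ₗ w' ∈ ZS B H) {y : K →ₗ[F] K}
    (hy : y ∈ LI B H) : x ∘ₗ y ∘ₗ w ∈ LI B H := by
  intro z hz b hb
  obtain ⟨y', hy'⟩ := exists_adj y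
  rw [Ad_unique hz (hx.comp (hy'.comp hw))]
  have h3 := h1 _ (hy y' hy' _ (h2 b hb))
  have hw'x' : w' ∘ₗ x' = LinearMap.id := by
    apply Ad_unique (hx.comp hw)
    rw [hxw]
    intro k l
    rw [LinearMap.id_apply, LinearMap.id_apply, mul_comm]
  have e3 : ∀ k, x (w k) = k := fun k => LinearMap.congr_fun hxw k
  have e4 : ∀ k, w' (x' k) = k := fun k => LinearMap.congr_fun hw'x' k
  convert h3 using 1
  apply LinearMap.ext
  intro k
  simp only [LinearMap.add_apply, LinearMap.comp_apply, map_add, e3, e4]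

lemma lie_LI {y z : K →ₗ[F] K} (hy : y ∈ LI B H) (hz : z ∈ LI B H) : y ∘ₗ z - z ∘ₗ y ∈ LI B H := by
  intro w hw b hb
  obtain ⟨y', hy'⟩ := exists_adj y
  obtain ⟨z', hz'⟩ := exists_adj z
  have h0 : Ad (y ∘ₗ z - z ∘ₗ y) (z' ∘ₗ y' - y' ∘ₗ z') := by
    rw [sub_eq_add_neg, sub_eq_add_neg]
    exact (hy'.comp hz').add (hz'.comp hy').neg
  rw [Ad_unique hw h0]
  have h1 := hy _ hy' _ (hz _ hz' b hb)
  have h2 := hz _ hz' _ (hy _ hy' b hb)
  have h3 := (ZS B H).sub_mem h1 h2
  convert h3 using 1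
  apply LinearMap.ext
  intro k
  simp only [LinearMap.add_apply, LinearMap.sub_apply, LinearMap.comp_apply, map_add, map_sub]
  abel

/-- either everything is there, or the idealiser is `K`-linear -/
theorem dich (hr : (finrank F K).Prime) (hy : HypS B H) :
    (∀ c, S1 K c ∈ ZS B H) ∨ ∀ y ∈ LI B H, ∀ k l : K, y (k * l) = k * y l := by
  have := fin_dim F K
  by_cases h : ∀ y ∈ LI B H, ∀ k l : K, y (k * l) = k * y l
  · exact Or.inr h
  left
  push Not at h
  obtain ⟨y, hyL, k, l, hkl⟩ := h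
  have htop : ∀ z, z ∈ LI B H := by
    refine lie_top hr (LI B H) mu_LI ?_ (fun y hy z hz => lie_LI hy hz) hyL (fun hcon => hkl (hcon k l))
    intro c hc y hy
    refine conj_LI (Ad_mu c) (Ad_mu c⁻¹) ?_ (fun b hb => smul_ZS c hb) (fun b hb => smul_ZS c⁻¹ hb) hy
    apply LinearMap.ext
    intro k
    simp [hc]
  refine S1_mem (ZS B H) hy.mu_mem (fun c S hS => smul_ZS c hS) ?_
  intro z z' hzz
  have h1 := htop z z' hzz (mu F (1 : K)) (hy.mu_mem 1)
  convert h1 using 1
  apply LinearMap.ext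
  intro k
  simp only [LinearMap.add_apply, LinearMap.comp_apply, LinearMap.mulLeft_apply, one_mul]

/-- `h` preserving a line acts semilinearly on it -/
lemma gal_of [Finite V] (hy : HypS B H) (hL : ∀ y ∈ LI B H, ∀ k l : K, y (k * l) = k * y l) {h : V ≃ₗ[F] V} (hh : h ∈ H)
    {e : V} (he : e ≠ 0) (hW : ∀ k : K, ∃ k' : K, h (k • e) = k' • e) (h1 : h e = e) :
    ∃ σ : K →ₐ[F] K, ∀ k, h (k • e) = σ k • e := by
  have := fin_F F K
  have := fin_dim F K
  choose x₀ hx₀ using hW
  have hinj : ∀ a b : K, a • e = b • e → a = b := by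
    intro a b hab
    have : (a - b) • e = 0 := by rw [sub_smul, hab, sub_self]
    exact sub_eq_zero.1 ((smul_eq_zero.1 this).resolve_right he)
  let x₁ : K →ₗ[F] K :=
    { toFun := x₀
      map_add' := by
        intro a b
        apply hinj
        rw [← hx₀, add_smul, map_add, hx₀, hx₀, add_smul]
      map_smul' := by
        intro a b
        apply hinj
        rw [← hx₀, smul_assoc, map_smul, hx₀, RingHom.id_apply, smul_assoc] }
  have hx₁ : ∀ k, h (k • e) = x₁ k • e := hx₀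
  have hx₁i : Function.Injective x₁ := by
    intro a b hab
    apply hinj
    apply h.injective
    rw [hx₁, hx₁, hab]
  let X := LinearEquiv.ofInjectiveEndo x₁ hx₁i
  obtain ⟨x, hx⟩ : ∃ x : K →ₗ[F] K, x = X := ⟨_, rfl⟩
  obtain ⟨w, hw⟩ : ∃ w : K →ₗ[F] K, w = X.symm := ⟨_, rfl⟩
  have hxh : ∀ k, h (k • e) = x k • e := by intro k; rw [hx]; exact hx₁ k
  have hxw : ∀ k, x (w k) = k := by intro k; rw [hx, hw]; exact X.apply_symm_apply k
  have hwx : ∀ k, w (x k) = k := by intro k; rw [hx, hw]; exact X.symm_apply_apply k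
  have hwh : ∀ k, h⁻¹ (k • e) = w k • e := by
    intro k
    apply h.injective
    rw [app_inv, hxh, hxw]
  obtain ⟨x', hx'⟩ := exists_adj x
  obtain ⟨w', hw'⟩ := exists_adj w
  -- general conjugation
  have key : ∀ (g : V ≃ₗ[F] V) (u u' : K →ₗ[F] K), g ∈ H → (∀ k, g (k • e) = u k • e) → Ad u u' →
      ∀ b ∈ ZS B H, u ∘ₗ b ∘ₗ u' ∈ ZS B H := by
    intro g u u' hg hu huu b hb
    refine hy.mem_ZS he ?_
    have h2 : LL B e (u ∘ₗ b ∘ₗ u') = g * LL B e b * g⁻¹ := by
      rw [eq_mul_inv_iff_mul_eq]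
      apply LinearEquiv.ext
      intro v
      rw [LinearEquiv.mul_apply, LinearEquiv.mul_apply, LL_apply, LL_apply, map_add, hu]
      congr 2
      rw [LinearMap.comp_apply, LinearMap.comp_apply]
      congr 2
      apply tr_ext F
      intro k
      have h3 := (mem_iso.1 (hy.le hg)) v (k • e)
      unfold tf at h3
      rw [hu, map_smul (B.b (g v)), map_smul (B.b v), smul_eq_mul, smul_eq_mul] at h3
      have h4 := huu (B.b (g v) e) k
      rw [mul_comm (u' (B.b (g v) e)), ← h4, mul_comm (B.b v e), ← h3, mul_comm]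
    rw [h2]
    exact H.mul_mem (H.mul_mem hg (hb e)) (H.inv_mem hg)
  have k1 := key h x x' hh hxh hx'
  have k2 := key h⁻¹ w w' (H.inv_mem hh) hwh hw'
  have hx1 : x 1 = 1 := by
    apply hinj
    rw [← hxh, one_smul, h1]
  have hlin : ∀ k l, x (k * l) = x k * x l := by
    intro k l
    have h2 := conj_LI hx' hw' (LinearMap.ext hxw) k1 k2 (mu_LI k)
    have h3 := hL _ h2
    have h4 : ∀ m, x (k * w m) = m * x (k * w 1) := by
      intro m
      have := h3 m 1
      simp only [mul_one, LinearMap.comp_apply, LinearMap.mulLeft_apply] at this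
      exact this
    have h5 := h4 (x l)
    have hw1 : w 1 = 1 := by rw [← hx1, hwx, hx1]
    rw [hwx, hw1, mul_one] at h5
    rw [h5, mul_comm]
  refine ⟨{ toFun := x
            map_one' := hx1
            map_mul' := hlin
            map_zero' := map_zero x
            map_add' := map_add x
            commutes' := ?_ }, fun k => hxh k⟩
  intro c
  change x (algebraMap F K c) = _
  rw [Algebra.algebraMap_eq_smul_one, map_smul, hx1]

end

end Cfsg.Agent.H98.Sp
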