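import Cfsg.Agent.H98.SpJ

set_option autoImplicit false
set_option linter.unusedSectionVars false
set_option linter.style.haveILetI false
set_option linter.unusedSimpArgs false

/-!
Extension fields in symplectic groups, part K: `dim_K V = 2`, orbits of the stabiliser of a vector.
-/

namespace Cfsg.Agent.H98.Sp

open Module Cfsg.Agent.H98.Ext Cfsg.Agent.H98.Or

section orb

variable {F K V : Type*} [Field F] [Field K] [Algebra F K] [AddCommGroup V] [Module F V] [Module K V]
  [IsScalarTower F K V] {B : Sy K V} {H : Subgroup (V ≃ₗ[F] V)}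

/-- The pointwise stabiliser of `K e` in `H`. -/
def AV (K : Type*) {F V : Type*} [Field F] [Field K] [AddCommGroup V] [Module F V] [Module K V]
    (H : Subgroup (V ≃ₗ[F] V)) (e : V) : Subgroup (V ≃ₗ[F] V) where
  carrier := {h | h ∈ H ∧ ∀ k : K, h (k • e) = k • e}
  mul_mem' := by
    rintro a b ⟨ha, ha'⟩ ⟨hb, hb'⟩
    refine ⟨H.mul_mem ha hb, fun k => ?_⟩
    rw [LinearEquiv.mul_apply, hb', ha']
  one_mem' := ⟨H.one_mem, fun k => rfl⟩
  inv_mem' := by
    rintro a ⟨ha, ha'⟩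
    refine ⟨H.inv_mem ha, fun k => ?_⟩
    conv_lhs => rw [← ha' k]
    exact LinearEquiv.symm_apply_apply a _

/-- The stabiliser of `e` and `c e` in `H`. -/
def BV {K : Type*} {F V : Type*} [Field F] [Field K] [AddCommGroup V] [Module F V] [Module K V]
    (H : Subgroup (V ≃ₗ[F] V)) (e : V) (c : K) : Subgroup (V ≃ₗ[F] V) where
  carrier := {h | h ∈ H ∧ h e = e ∧ h (c • e) = c • e}
  mul_mem' := by
    rintro a b ⟨ha, ha', ha''⟩ ⟨hb, hb', hb''⟩
    refine ⟨H.mul_mem ha hb, ?_, ?_⟩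
    · rw [LinearEquiv.mul_apply, hb', ha']
    · rw [LinearEquiv.mul_apply, hb'', ha'']
  one_mem' := ⟨H.one_mem, rfl, rfl⟩
  inv_mem' := by
    rintro a ⟨ha, ha', ha''⟩
    refine ⟨H.inv_mem ha, ?_, ?_⟩
    · conv_lhs => rw [← ha']
      exact LinearEquiv.symm_apply_apply a _
    · conv_lhs => rw [← ha'']
      exact LinearEquiv.symm_apply_apply a _

/-- The group of `K`-transvections with centre `e`. -/
def TV (F : Type*) {K V : Type*} [Field F] [Field K] [Algebra F K] [AddCommGroup V] [Module F V] [Module K V]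
    [IsScalarTower F K V] (B : Sy K V) (e : V) : Subgroup (V ≃ₗ[F] V) where
  carrier := {g | ∃ k : K, g = LL B e (mu F k)}
  mul_mem' := by
    rintro _ _ ⟨k, rfl⟩ ⟨l, rfl⟩
    refine ⟨k + l, ?_⟩
    rw [LL_mul]
    congr 1
    apply LinearMap.ext
    intro m
    simp [add_mul]
  one_mem' := ⟨0, by
    rw [← LL_zero (B := B) e]
    congr 1
    apply LinearMap.ext
    intro m
    simp⟩
  inv_mem' := by
    rintro _ ⟨k, rfl⟩
    refine ⟨-k, ?_⟩
    rw [← LL_neg]
    congr 1
    apply LinearMap.ext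
    intro m
    simp

lemma TV_le (hy : HypS B H) (e : V) : TV F B e ≤ AV K H e := by
  rintro _ ⟨k, rfl⟩
  refine ⟨hy.mu_mem k e, fun l => ?_⟩
  rw [LL_apply, map_smul B.b, LinearMap.smul_apply, B.alt, smul_zero, map_zero, zero_smul, add_zero]

lemma isPGroup_TV (p : ℕ) [CharP F p] (e : V) : IsPGroup p (TV F B e) := by
  rintro ⟨g, k, rfl⟩
  refine ⟨1, ?_⟩
  apply Subtype.ext
  rw [pow_one, Subgroup.coe_pow]
  have h1 : ∀ n : ℕ, LL B e (mu F k) ^ n = LL B e (n • mu F k) := by
    intro n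
    induction n with
    | zero => rw [pow_zero, zero_smul, LL_zero]
    | succ n ih => rw [pow_succ, ih, LL_mul, succ_nsmul]
  rw [h1]
  have h : p • (mu F k) = 0 := by
    apply LinearMap.ext
    intro x
    rw [LinearMap.smul_apply, LinearMap.zero_apply, ← Nat.cast_smul_eq_nsmul F, CharP.cast_eq_zero, zero_smul]
  rw [h, LL_zero]
  rfl

lemma finGL (F V : Type*) [Field F] [AddCommGroup V] [Module F V] [Finite V] : Finite (V ≃ₗ[F] V) :=
  Finite.of_injective (fun g : V ≃ₗ[F] V => (g : V → V)) DFunLike.coe_injective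

variable {p : ℕ} [Fact p.Prime] [Finite V] [Finite K]

lemma maxP_BV (hr : (finrank F K).Prime) {e : V} (he : e ≠ 0)
    (hgal : ∀ h ∈ H, (∀ k : K, ∃ k' : K, h (k • e) = k' • e) → h e = e → ∃ σ : K →ₐ[F] K, ∀ k, h (k • e) = σ k • e)
    {T U : Subgroup (V ≃ₗ[F] V)} (hTU : T ≤ U) (hfix : ∀ v : V, (∀ u ∈ T, u v = v) → ∃ k : K, v = k • e)
    (hU : MaxP p (AV K H e) U) {c : K}
    (hc : c ∉ Set.range (algebraMap F K)) : MaxP p (BV H e c) U := by
  have := finGL F V
  refine ⟨hU.1, fun u hu => ⟨(hU.2.1 hu).1, ?_, (hU.2.1 hu).2 c⟩, fun Q hQ hQB hUQ => ?_⟩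
  · have := (hU.2.1 hu).2 1
    rwa [one_smul] at this
  by_contra hne
  obtain ⟨g, hgQ, hgU, hnorm⟩ := norm_grow hQ (lt_of_le_of_ne hUQ (Ne.symm hne))
  obtain ⟨hgH, hg1, hgc⟩ := hQB hgQ
  have hW : ∀ k : K, ∃ k' : K, g (k • e) = k' • e := by
    intro k
    apply hfix
    intro u hu
    have h1 : g⁻¹ * u * g ∈ U := by
      rw [hnorm]
      have : g * (g⁻¹ * u * g) * g⁻¹ = u := by group
      rw [this]
      exact hTU hu
    have h2 := (hU.2.1 h1).2 k
    have h3 : u (g (k • e)) = g ((g⁻¹ * u * g) (k • e)) := by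
      have : u * g = g * (g⁻¹ * u * g) := by group
      exact congrArg (fun t : V ≃ₗ[F] V => t (k • e)) this
    rw [h3, h2]
  obtain ⟨σ, hσ⟩ := hgal g hgH hW hg1
  have hinj : ∀ a b : K, a • e = b • e → a = b := by
    intro a b hab
    have : (a - b) • e = 0 := by rw [sub_smul, hab, sub_self]
    exact sub_eq_zero.1 ((smul_eq_zero.1 this).resolve_right he)
  have hσc : σ c = c := by
    have := hσ c
    rw [hgc] at this
    exact (hinj _ _ this).symm
  have hgA : g ∈ AV K H e := ⟨hgH, fun k => by rw [hσ, eq_id_of_fix hr σ hc hσc]⟩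
  have h4 := hU.2.2 (Q ⊓ AV K H e) (hQ.to_le inf_le_left) inf_le_right (le_inf hUQ hU.2.1)
  apply hgU
  rw [← h4]
  exact ⟨hgQ, hgA⟩

lemma same_orbit' (hr : (finrank F K).Prime) {e : V} (he : e ≠ 0)
    (hgal : ∀ h ∈ H, (∀ k : K, ∃ k' : K, h (k • e) = k' • e) → h e = e → ∃ σ : K →ₐ[F] K, ∀ k, h (k • e) = σ k • e)
    {T U : Subgroup (V ≃ₗ[F] V)} (hTU : T ≤ U) (hfix : ∀ v : V, (∀ u ∈ T, u v = v) → ∃ k : K, v = k • e)
    (hU : MaxP p (AV K H e) U) {c c' : K}
    (hc : c ∉ Set.range (algebraMap F K)) {h₀ : V ≃ₗ[F] V} (hh₀ : h₀ ∈ H) (h1 : h₀ e = e)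
    (h2 : h₀ (c • e) = c' • e) : ∃ σ : K →ₐ[F] K, σ c = c' := by
  have := finGL F V
  have hUc := maxP_BV hr he hgal hTU hfix hU hc
  have hQ : IsPGroup p (U.map (MulAut.conj h₀⁻¹).toMonoidHom) := hU.1.map _
  have hQB : U.map (MulAut.conj h₀⁻¹).toMonoidHom ≤ BV H e c := by
    rintro _ ⟨u, hu, rfl⟩
    obtain ⟨hu1, hu2⟩ := hU.2.1 hu
    have e1 : (MulAut.conj h₀⁻¹).toMonoidHom u = h₀⁻¹ * u * h₀ := by simp [MulAut.conj_apply]
    rw [e1]
    have hfix : ∀ v w : V, h₀ v = w → u w = w → (h₀⁻¹ * u * h₀) v = v := by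
      intro v w hv hw
      rw [LinearEquiv.mul_apply, LinearEquiv.mul_apply, hv, hw, ← hv]
      exact LinearEquiv.symm_apply_apply h₀ _
    have hu3 := hu2 1
    rw [one_smul] at hu3
    exact ⟨H.mul_mem (H.mul_mem (H.inv_mem hh₀) hu1) hh₀, hfix _ _ h1 hu3, hfix _ _ h2 (hu2 c')⟩
  obtain ⟨b, hb, hbQ⟩ := maxP_conj hUc hQ hQB
  have hn : ∀ u ∈ U, (h₀ * b)⁻¹ * u * (h₀ * b) ∈ U := by
    intro u hu
    have h3 := hbQ (h₀⁻¹ * u * h₀) ⟨u, hu, by simp [MulAut.conj_apply]⟩
    have h4 : (h₀ * b)⁻¹ * u * (h₀ * b) = b⁻¹ * (h₀⁻¹ * u * h₀) * b := by group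
    rw [h4]
    exact h3
  obtain ⟨n, hn'⟩ : ∃ n, n = h₀ * b := ⟨_, rfl⟩
  rw [← hn'] at hn
  have hnH : n ∈ H := by rw [hn']; exact H.mul_mem hh₀ hb.1
  have hW : ∀ k : K, ∃ k' : K, n (k • e) = k' • e := by
    intro k
    apply hfix
    intro u hu
    have h2 := (hU.2.1 (hn u (hTU hu))).2 k
    have h3 : u (n (k • e)) = n ((n⁻¹ * u * n) (k • e)) := by
      have : u * n = n * (n⁻¹ * u * n) := by group
      exact congrArg (fun t : V ≃ₗ[F] V => t (k • e)) this
    rw [h3, h2]
  have hn1 : n e = e := by rw [hn', LinearEquiv.mul_apply, hb.2.1, h1]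
  obtain ⟨σ, hσ⟩ := hgal n hnH hW hn1
  refine ⟨σ, ?_⟩
  have h5 := hσ c
  rw [hn', LinearEquiv.mul_apply, hb.2.2, h2] at h5
  have : (c' - σ c) • e = 0 := by rw [sub_smul, h5, sub_self]
  exact (sub_eq_zero.1 ((smul_eq_zero.1 this).resolve_right he)).symm

end orb

section stay

variable {F K V : Type*} [Field F] [Field K] [Algebra F K] [AddCommGroup V] [Module F V] [Module K V]
  [IsScalarTower F K V] {B : Sy K V} {H : Subgroup (V ≃ₗ[F] V)}

/-- If the orbit of `c e` under the stabiliser of `e` stays in `K e`, then `H` is semilinear. -/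
theorem semi_of_stay' [Finite V] (hy : HypS B H) (hr : (finrank F K).Prime) (hd : 2 ≤ finrank K V) {e : V} (he : e ≠ 0)
    {c : K} (hc : c ∉ Set.range (algebraMap F K)) (hst : ∀ g ∈ H, g e = e → ∃ k : K, g (c • e) = k • e) :
    ∀ g ∈ H, Semi K g := by
  have : FiniteDimensional K V := Module.Finite.of_finite
  have hns : ∀ v : V, ∃ u : V, u ∉ Submodule.span K {v} := by
    intro v
    by_contra hcon
    push Not at hcon
    have h1 : finrank K V ≤ 1 := by
      rw [finrank_le_one_iff]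
      exact ⟨v, fun w => Submodule.mem_span_singleton.1 (hcon w)⟩
    omega
  have h1 : ∀ g ∈ H, ∀ w : V, ∃ d : K, g (c • w) = d • g w := by
    intro g hg w
    by_cases hw : w = 0
    · exact ⟨0, by rw [hw, smul_zero, map_zero, smul_zero]⟩
    have hgw : g w ≠ 0 := by
      intro h0
      exact hw (g.map_eq_zero_iff.1 h0)
    obtain ⟨s, hs, hs1⟩ := exists_klin (B := B) he hw
    obtain ⟨t, ht, ht1⟩ := exists_klin (B := B) hgw he
    obtain ⟨k, hk⟩ := hst (t.restrictScalars F * g * s.restrictScalars F)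
      (H.mul_mem (H.mul_mem (hy.lin ht) hg) (hy.lin hs)) (by
      rw [LinearEquiv.mul_apply, LinearEquiv.mul_apply]
      change t (g (s e)) = _
      rw [hs1, ht1])
    rw [LinearEquiv.mul_apply, LinearEquiv.mul_apply] at hk
    change t (g (s (c • e))) = k • e at hk
    rw [map_smul s, hs1, ← ht1, ← map_smul t] at hk
    exact ⟨k, t.injective hk⟩
  have : IsSimpleOrder (Subalgebra F K) := Subalgebra.isSimpleOrder_of_finrank_prime _ _ hr
  let S : Subalgebra F K :=
    { carrier := {k | ∀ g ∈ H, ∀ w : V, ∃ d : K, g (k • w) = d • g w}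
      mul_mem' := by
        intro a b ha hb g hg w
        obtain ⟨d, hd⟩ := hb g hg w
        obtain ⟨d', hd'⟩ := ha g hg (b • w)
        exact ⟨d' * d, by rw [mul_smul, hd', hd, mul_smul]⟩
      add_mem' := by
        intro a b ha hb g hg w
        obtain ⟨d, hd⟩ := hb g hg w
        obtain ⟨d', hd'⟩ := ha g hg w
        exact ⟨d' + d, by rw [add_smul, map_add, hd', hd, add_smul]⟩
      algebraMap_mem' := by
        intro a g hg w
        exact ⟨algebraMap F K a, by rw [algebraMap_smul, algebraMap_smul, map_smul]⟩ }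
  have hS : S = ⊤ := by
    rcases this.eq_bot_or_eq_top S with h4 | h4
    · exfalso
      apply hc
      have h5 : c ∈ S := h1
      rw [h4, Algebra.mem_bot] at h5
      exact h5
    · exact h4
  have h2 : ∀ k : K, ∀ g ∈ H, ∀ w : V, ∃ d : K, g (k • w) = d • g w := by
    intro k
    have : k ∈ S := by rw [hS]; trivial
    exact this
  intro g hg k
  choose d hd using h2 k g hg
  -- d is constant on independent pairs
  have hpair : ∀ v w : V, v ≠ 0 → w ∉ Submodule.span K {v} → d v = d w := by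
    intro v w hv hw
    have e1 := hd (v + w)
    rw [smul_add, map_add, hd v, hd w, map_add, smul_add] at e1
    have e2 : (d v - d (v + w)) • g v + (d w - d (v + w)) • g w = 0 := by
      rw [sub_smul, sub_smul]
      have := sub_eq_zero.2 e1
      rw [← this]
      abel
    have hgv : g v ≠ 0 := by
      intro h0
      exact hv (g.map_eq_zero_iff.1 h0)
    have e3 : d w - d (v + w) = 0 := by
      by_contra hne
      apply hw
      have e4 : g w = (-(d w - d (v + w))⁻¹ * (d v - d (v + w))) • g v := by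
        have e5 : (d w - d (v + w)) • g w = -((d v - d (v + w)) • g v) := by
          rw [eq_neg_iff_add_eq_zero, add_comm]
          exact e2
        have e6 := congrArg (fun t => (d w - d (v + w))⁻¹ • t) e5
        simp only [smul_smul, inv_mul_cancel₀ hne, one_smul, smul_neg] at e6
        rw [e6, neg_mul, neg_smul]
      obtain ⟨d', hd'⟩ := h2 (-(d w - d (v + w))⁻¹ * (d v - d (v + w))) g⁻¹ (H.inv_mem hg) (g v)
      rw [← e4] at hd'
      have e7 : g⁻¹ (g w) = w := LinearEquiv.symm_apply_apply g _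
      have e8 : g⁻¹ (g v) = v := LinearEquiv.symm_apply_apply g _
      rw [e7, e8] at hd'
      rw [Submodule.mem_span_singleton]
      exact ⟨d', hd'.symm⟩
    rw [e3, zero_smul, add_zero] at e2
    rcases smul_eq_zero.1 e2 with e4 | e4
    · rw [sub_eq_zero] at e3 e4
      rw [e4, e3]
    · exact absurd e4 hgv
  refine ⟨d e, fun v => ?_⟩
  rw [hd v]
  by_cases hv : v = 0
  · rw [hv, map_zero, smul_zero, smul_zero]
  by_cases hv' : v ∈ Submodule.span K {e}
  · obtain ⟨u, hu⟩ := hns e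
    have e1 := hpair e u he hu
    have hu' : u ∉ Submodule.span K {v} := by
      intro h'
      obtain ⟨a, ha⟩ := Submodule.mem_span_singleton.1 h'
      apply hu
      rw [← ha]
      exact Submodule.smul_mem _ _ hv'
    rw [hpair v u hv hu', e1]
  · rw [hpair e v he hv']

end stay

end Cfsg.Agent.H98.Sp
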