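import Cfsg.Agent.H98.SpK

set_option autoImplicit false
set_option linter.unusedSectionVars false
set_option linter.style.haveILetI false
set_option linter.unusedSimpArgs false

/-!
Extension fields in symplectic groups, part L: `dim_K V = 2`, counting.
-/

namespace Cfsg.Agent.H98.Sp

open Module Cfsg.Agent.H98.Ext Cfsg.Agent.H98.Or

section count

variable {F K V : Type*} [Field F] [Field K] [Algebra F K] [AddCommGroup V] [Module F V] [Module K V]
  [IsScalarTower F K V] {B : Sy K V} {H : Subgroup (V ≃ₗ[F] V)}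

lemma perp_line [Finite V] (hd : finrank K V = 2) {e : V} (he : e ≠ 0) {v : V} (hv : B.b e v = 0) :
    ∃ k : K, v = k • e := by
  have : FiniteDimensional K V := Module.Finite.of_finite
  have h1 : Submodule.span K {e} ≤ LinearMap.ker (B.b e) := by
    rw [Submodule.span_singleton_le_iff_mem]
    exact B.alt e
  have h3 := LinearMap.finrank_range_add_finrank_ker (B.b e)
  have h4 : 1 ≤ finrank K (LinearMap.range (B.b e)) := by
    by_contra hcon
    have h5 : finrank K (LinearMap.range (B.b e)) = 0 := by omega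
    rw [Submodule.finrank_eq_zero, LinearMap.range_eq_bot] at h5
    apply he
    apply B.nd
    intro y
    rw [h5, LinearMap.zero_apply]
  have h5 := Submodule.eq_of_le_of_finrank_le h1 (by
    rw [finrank_span_singleton he]
    omega)
  have h6 : v ∈ Submodule.span K {e} := by rw [h5]; exact hv
  obtain ⟨k, hk⟩ := Submodule.mem_span_singleton.1 h6
  exact ⟨k, hk.symm⟩

lemma expand [Finite V] (hd : finrank K V = 2) {e x : V} (hb : B.b e x ≠ 0) (v : V) :
    v = (B.b v x / B.b e x) • e + (B.b e v / B.b e x) • x := by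
  have he : e ≠ 0 := by
    rintro rfl
    apply hb
    rw [map_zero, LinearMap.zero_apply]
  obtain ⟨u, hu⟩ : ∃ u, u = v - ((B.b v x / B.b e x) • e + (B.b e v / B.b e x) • x) := ⟨_, rfl⟩
  have h1 : B.b e u = 0 := by
    rw [hu]
    simp only [map_sub, map_add, map_smul, B.alt, smul_eq_mul]
    field_simp
    ring
  have h2 : B.b u x = 0 := by
    rw [hu]
    simp only [map_sub, map_add, map_smul, LinearMap.sub_apply, LinearMap.add_apply, LinearMap.smul_apply, B.alt,
      smul_eq_mul]
    field_simp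
    ring
  obtain ⟨k, hk⟩ := perp_line hd he h1
  rw [hk, map_smul, LinearMap.smul_apply, smul_eq_mul] at h2
  have hk0 : k = 0 := (mul_eq_zero.1 h2).resolve_right hb
  rw [hk0, zero_smul] at hk
  rw [hk] at hu
  exact sub_eq_zero.1 hu.symm

lemma exists_semi [Finite V] [Finite K] (hd : finrank K V = 2) {e x x' : V} (hb : B.b e x ≠ 0) (σ : K ≃ₐ[F] K)
    (h : B.b e x' = σ (B.b e x)) : ∃ n : V ≃ₗ[F] V, Semi K n ∧ n ∈ iso F B ∧ n e = e ∧ n x = x' := by
  have := fin_F F K
  let n₀ : V →ₗ[F] V :=
    { toFun := fun v => σ (B.b v x / B.b e x) • e + σ (B.b e v / B.b e x) • x'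
      map_add' := by
        intro v w
        simp only [map_add, LinearMap.add_apply, add_div, add_smul]
        abel
      map_smul' := by
        intro c v
        simp only [b_fsmul, b_fsmul', RingHom.id_apply, smul_div_assoc, map_smul σ, smul_add, smul_assoc] }
  have hn₀ : ∀ v, n₀ v = σ (B.b v x / B.b e x) • e + σ (B.b e v / B.b e x) • x' := fun v => rfl
  have hσb : σ (B.b e x) ≠ 0 := fun h0 => hb ((map_eq_zero σ).1 h0)
  have hBn : ∀ v w, B.b (n₀ v) (n₀ w) = σ (B.b v w) := by
    intro v w
    have e1 : B.b v w = (B.b v x * B.b e w - B.b e v * B.b w x) / B.b e x := by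
      have ev := expand hd hb v
      have ew := expand hd hb w
      have e2 : B.b v w = B.b ((B.b v x / B.b e x) • e + (B.b e v / B.b e x) • x)
          ((B.b w x / B.b e x) • e + (B.b e w / B.b e x) • x) := by rw [← ev, ← ew]
      rw [e2]
      simp only [map_add, LinearMap.add_apply, map_smul, LinearMap.smul_apply, B.alt, skew x e, smul_eq_mul]
      field_simp
      ring
    rw [e1, hn₀, hn₀]
    simp only [map_add, LinearMap.add_apply, map_smul B.b, map_smul (B.b _), LinearMap.smul_apply, B.alt, skew x' e, h,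
      smul_eq_mul, map_div₀, map_sub, map_mul]
    field_simp
    ring
  have hiso : ∀ v w, tf F B (n₀ v) (n₀ w) = tf F B v w := by
    intro v w
    unfold tf
    rw [hBn]
    exact Algebra.trace_eq_of_algEquiv σ _
  have hinj : Function.Injective n₀ := by
    rw [← LinearMap.ker_eq_bot, LinearMap.ker_eq_bot']
    intro v hv
    apply tf_nd (F := F) (B := B)
    intro w
    rw [← hiso, hv]
    unfold tf
    rw [map_zero, LinearMap.zero_apply, map_zero]
  have : FiniteDimensional F V := Module.Finite.of_finite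
  refine ⟨LinearEquiv.ofInjectiveEndo n₀ hinj, ?_, hiso, ?_, ?_⟩
  · intro k
    refine ⟨σ k, fun v => ?_⟩
    change n₀ (k • v) = σ k • n₀ v
    rw [hn₀, hn₀]
    simp only [map_smul B.b, map_smul (B.b _), LinearMap.smul_apply, smul_eq_mul, mul_div_assoc, map_mul, smul_add,
      smul_smul]
  · change n₀ e = e
    rw [hn₀, B.alt, div_self hb, map_one, one_smul, zero_div, map_zero, zero_smul, add_zero]
  · change n₀ x = x'
    rw [hn₀, B.alt, div_self hb, map_one, one_smul, zero_div, map_zero, zero_smul, zero_add]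

/-- The counting argument. -/
theorem count2 [Finite K] [Finite V] (hy : HypS B H) (hr : (finrank F K).Prime) (hd : finrank K V = 2)
    (hL : ∀ y ∈ LI B H, ∀ k l : K, y (k * l) = k * y l) {e : V} (he : e ≠ 0)
    (hmove : ∀ c : K, c ∉ Set.range (algebraMap F K) → ∃ g ∈ H, g e = e ∧ ¬ ∃ k : K, g (c • e) = k • e) :
    Nat.card K < Nat.card F + finrank F K * (Nat.card F - 1) + Nat.card F ^ (finrank F K - 1) := by
  classical
  have := fin_F F K
  have := fin_dim F K
  have hfF := Fintype.ofFinite F
  have hfK := Fintype.ofFinite K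
  obtain ⟨p, hp⟩ := CharP.exists F
  have hpp : Fact p.Prime := ⟨(CharP.char_is_prime_or_zero F p).resolve_right (by
    rintro rfl
    have := CharP.charP_to_charZero F
    exact (not_injective_infinite_finite (Nat.cast : ℕ → F)) Nat.cast_injective)⟩
  have hfinG := finGL F V
  obtain ⟨U, hTU, hU⟩ := exists_maxP (p := p) (isPGroup_TV (B := B) p e) (TV_le hy e)
  have hfix : ∀ v : V, (∀ u ∈ TV F B e, u v = v) → ∃ k : K, v = k • e := by
    intro v hv
    apply perp_line (B := B) hd he
    have h1 := hv _ ⟨1, rfl⟩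
    rw [LL_apply, LinearMap.mulLeft_apply, one_mul] at h1
    have h2 : B.b v e • e = 0 := by
      have : v + B.b v e • e = v + 0 := by rw [h1, add_zero]
      exact add_left_cancel this
    rw [skew, (smul_eq_zero.1 h2).resolve_right he, neg_zero]
  have hgal : ∀ h ∈ H, (∀ k : K, ∃ k' : K, h (k • e) = k' • e) → h e = e →
      ∃ σ : K →ₐ[F] K, ∀ k, h (k • e) = σ k • e := fun h hh hW h1 => gal_of hy hL hh he hW h1
  choose! g hgH hg1 hgc using hmove
  have hbc : ∀ c : K, c ∉ Set.range (algebraMap F K) → B.b e (g c (c • e)) ≠ 0 := by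
    intro c hc h0
    obtain ⟨k, hk⟩ := perp_line (B := B) hd he h0
    exact hgc c hc ⟨k, hk⟩
  have htr : ∀ c : K, c ∉ Set.range (algebraMap F K) → Algebra.trace F K (B.b e (g c (c • e))) = 0 := by
    intro c hc
    have h1 := (mem_iso.1 (hy.le (hgH c hc))) e (c • e)
    rw [hg1 c hc] at h1
    unfold tf at h1
    rw [h1, map_smul, B.alt, smul_zero, map_zero]
  let b : K → K := fun c => B.b e (g c (c • e))
  -- the main claim
  have claim : ∀ c c' : K, c ∉ Set.range (algebraMap F K) → c' ∉ Set.range (algebraMap F K) →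
      ∀ σ : K ≃ₐ[F] K, b c' = σ (b c) → ∃ τ : K →ₐ[F] K, τ c = c' := by
    intro c c' hc hc' σ hσ
    obtain ⟨n, hn1, hn2, hn3, hn4⟩ := exists_semi hd (hbc c hc) σ hσ
    have hnH := hy.semi n hn2 hn1
    have hfixg : ∀ a : K, a ∉ Set.range (algebraMap F K) → (g a)⁻¹ e = e ∧ (g a)⁻¹ (g a (a • e)) = a • e := by
      intro a ha
      refine ⟨?_, inv_app _ _⟩
      conv_lhs => rw [← hg1 a ha]
      exact inv_app _ _
    refine same_orbit' (p := p) hr he hgal hTU hfix hU hc (h₀ := (g c')⁻¹ * n * g c)
      (H.mul_mem (H.mul_mem (H.inv_mem (hgH c' hc')) hnH) (hgH c hc)) ?_ ?_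
    · rw [LinearEquiv.mul_apply, LinearEquiv.mul_apply, hg1 c hc, hn3, (hfixg c' hc').1]
    · rw [LinearEquiv.mul_apply, LinearEquiv.mul_apply, hn4, (hfixg c' hc').2]
  let S : Finset K := Finset.univ.filter (fun c => c ∉ Set.range (algebraMap F K))
  let S₁ : Finset K := S.filter (fun c => b c ∈ Set.range (algebraMap F K))
  let S₂ : Finset K := S.filter (fun c => b c ∉ Set.range (algebraMap F K))
  have hS : ∀ c ∈ S, c ∉ Set.range (algebraMap F K) := fun c hc => (Finset.mem_filter.1 hc).2
  have hgalcard : Fintype.card (K →ₐ[F] K) ≤ finrank F K := AlgHom.card_le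
  have hgalcard' : Fintype.card (K ≃ₐ[F] K) = finrank F K := by
    rw [← Nat.card_eq_fintype_card]
    exact IsGalois.card_aut_eq_finrank F K
  -- S₁
  have c1 : S₁.card ≤ finrank F K * (Nat.card F - 1) := by
    let F₁ : Finset F := Finset.univ.erase 0
    have hfib : ∀ z ∈ (F₁.image (algebraMap F K)), (S₁.filter (fun c => b c = z)).card ≤ finrank F K := by
      intro z _
      rcases (S₁.filter (fun c => b c = z)).eq_empty_or_nonempty with h0 | ⟨c, hc⟩
      · rw [h0]; simp
      · have hcS : c ∉ Set.range (algebraMap F K) := hS c (Finset.mem_filter.1 (Finset.mem_filter.1 hc).1).1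
        have hsub : S₁.filter (fun c => b c = z) ⊆ Finset.univ.image (fun σ : K →ₐ[F] K => σ c) := by
          intro c' hc'
          have hcS' : c' ∉ Set.range (algebraMap F K) := hS c' (Finset.mem_filter.1 (Finset.mem_filter.1 hc').1).1
          rw [Finset.mem_image]
          obtain ⟨τ, hτ⟩ := claim c c' hcS hcS' 1 (by
            rw [(Finset.mem_filter.1 hc').2, (Finset.mem_filter.1 hc).2]
            rfl)
          exact ⟨τ, Finset.mem_univ _, hτ⟩
        exact ((Finset.card_le_card hsub).trans Finset.card_image_le).trans hgalcard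
    have h1 : S₁.card ≤ finrank F K * (F₁.image (algebraMap F K)).card :=
      Finset.card_le_mul_card_image_of_maps_to (f := b) (fun c hc => by
        obtain ⟨a, ha⟩ := (Finset.mem_filter.1 hc).2
        refine Finset.mem_image.2 ⟨a, Finset.mem_erase.2 ⟨?_, Finset.mem_univ _⟩, ha⟩
        rintro rfl
        rw [map_zero] at ha
        exact hbc c (hS c (Finset.mem_filter.1 hc).1) ha.symm) _ hfib
    refine h1.trans (Nat.mul_le_mul_left _ ?_)
    refine Finset.card_image_le.trans ?_
    rw [Finset.card_erase_of_mem (Finset.mem_univ _), Finset.card_univ, Nat.card_eq_fintype_card]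
  -- S₂
  let Z₀ : Finset K := Finset.univ.filter (fun z => Algebra.trace F K z = 0)
  let Z : Finset K := Z₀.erase 0
  have cZ₀ : Z₀.card = Nat.card F ^ (finrank F K - 1) := by
    have h1 : Z₀.card = Nat.card (LinearMap.ker (Algebra.trace F K)) := by
      rw [Nat.card_eq_fintype_card, Fintype.card_of_subtype Z₀]
      intro x
      rw [Finset.mem_filter, LinearMap.mem_ker]
      exact ⟨fun h => h.2, fun h => ⟨Finset.mem_univ _, h⟩⟩
    rw [h1, Module.natCard_eq_pow_finrank (K := F)]
    congr 1
    have h2 := LinearMap.finrank_range_add_finrank_ker (Algebra.trace F K)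
    have h3 : LinearMap.range (Algebra.trace F K) = ⊤ := LinearMap.range_eq_top.2 (Algebra.trace_surjective F K)
    rw [h3, finrank_top, finrank_self] at h2
    omega
  have cZ : Z.card = Nat.card F ^ (finrank F K - 1) - 1 := by
    rw [Finset.card_erase_of_mem, cZ₀]
    exact Finset.mem_filter.2 ⟨Finset.mem_univ _, map_zero _⟩
  have c2 : S₂.card ≤ Nat.card F ^ (finrank F K - 1) - 1 := by
    let P : Finset (K × (K ≃ₐ[F] K)) := S₂ ×ˢ Finset.univ
    have hfib : ∀ z ∈ Z, (P.filter (fun t => t.2 (b t.1) = z)).card ≤ finrank F K := by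
      intro z _
      rcases (P.filter (fun t => t.2 (b t.1) = z)).eq_empty_or_nonempty with h0 | ⟨⟨c, s⟩, hc⟩
      · rw [h0]; simp
      · have hmem : ∀ t ∈ P.filter (fun t => t.2 (b t.1) = z), t.1 ∉ Set.range (algebraMap F K) ∧
            b t.1 ∉ Set.range (algebraMap F K) ∧ t.2 (b t.1) = z := by
          intro t ht
          have h1 := Finset.mem_filter.1 ht
          have h2 := (Finset.mem_product.1 h1.1).1
          exact ⟨hS _ (Finset.mem_filter.1 h2).1, (Finset.mem_filter.1 h2).2, h1.2⟩
        have hinj : Set.InjOn Prod.fst (P.filter (fun t => t.2 (b t.1) = z) : Set (K × (K ≃ₐ[F] K))) := by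
          rintro ⟨a, u⟩ hau ⟨a', u'⟩ hau' haa
          obtain ⟨h1, h2, h3⟩ := hmem _ (Finset.mem_coe.1 hau)
          obtain ⟨h1', h2', h3'⟩ := hmem _ (Finset.mem_coe.1 hau')
          simp only at haa h1 h2 h3 h1' h2' h3'
          subst haa
          have h4 : (u'⁻¹ * u) (b a) = b a := by
            rw [AlgEquiv.mul_apply, h3, ← h3']
            exact u'.symm_apply_apply _
          have h5 := alg_eq_one hr h2 h4
          rw [inv_mul_eq_one] at h5
          rw [h5]
        rw [← Finset.card_image_of_injOn hinj]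
        obtain ⟨h1, h2, h3⟩ := hmem _ hc
        simp only at h1 h2 h3
        have hsub : (P.filter (fun t => t.2 (b t.1) = z)).image Prod.fst ⊆
            Finset.univ.image (fun σ : K →ₐ[F] K => σ c) := by
          intro c' hc'
          obtain ⟨⟨c'', s'⟩, ht, rfl⟩ := Finset.mem_image.1 hc'
          obtain ⟨h1', h2', h3'⟩ := hmem _ ht
          simp only at h1' h2' h3'
          rw [Finset.mem_image]
          obtain ⟨τ, hτ⟩ := claim c c'' h1 h1' (s'⁻¹ * s) (by
            rw [AlgEquiv.mul_apply, h3, ← h3']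
            exact (s'.symm_apply_apply _).symm)
          exact ⟨τ, Finset.mem_univ _, hτ⟩
        exact ((Finset.card_le_card hsub).trans Finset.card_image_le).trans hgalcard
    have h1 : P.card ≤ finrank F K * Z.card :=
      Finset.card_le_mul_card_image_of_maps_to (f := fun t => t.2 (b t.1)) (fun t ht => by
        have h2 := (Finset.mem_product.1 ht).1
        rw [Finset.mem_erase, Finset.mem_filter]
        refine ⟨fun h0 => hbc _ (hS _ (Finset.mem_filter.1 h2).1) ((map_eq_zero _).1 h0), Finset.mem_univ _, ?_⟩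
        rw [Algebra.trace_eq_of_algEquiv]
        exact htr _ (hS _ (Finset.mem_filter.1 h2).1)) _ hfib
    have h2 : P.card = S₂.card * finrank F K := by
      rw [Finset.card_product, Finset.card_univ, hgalcard']
    rw [h2, mul_comm, cZ] at h1
    exact Nat.le_of_mul_le_mul_left h1 hr.pos
  have h3 : Nat.card K ≤ Nat.card F + (S₁.card + S₂.card) := by
    rw [Nat.card_eq_fintype_card, Nat.card_eq_fintype_card]
    have h4 : (Finset.univ : Finset K) ⊆ (Finset.univ.image (algebraMap F K)) ∪ (S₁ ∪ S₂) := by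
      intro k _
      by_cases hk : k ∈ Set.range (algebraMap F K)
      · obtain ⟨a, ha⟩ := hk
        exact Finset.mem_union_left _ (Finset.mem_image.2 ⟨a, Finset.mem_univ _, ha⟩)
      · have hkS : k ∈ S := Finset.mem_filter.2 ⟨Finset.mem_univ _, hk⟩
        apply Finset.mem_union_right
        by_cases hb : b k ∈ Set.range (algebraMap F K)
        · exact Finset.mem_union_left _ (Finset.mem_filter.2 ⟨hkS, hb⟩)
        · exact Finset.mem_union_right _ (Finset.mem_filter.2 ⟨hkS, hb⟩)
    calc Fintype.card K = (Finset.univ : Finset K).card := rfl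
      _ ≤ _ := Finset.card_le_card h4
      _ ≤ _ := Finset.card_union_le _ _
      _ ≤ Fintype.card F + (S₁.card + S₂.card) := Nat.add_le_add Finset.card_image_le (Finset.card_union_le _ _)
  have h5 : 0 < Nat.card F ^ (finrank F K - 1) := Nat.pow_pos Nat.card_pos
  omega

/-- The numerical condition for `dim_K V = 2`. -/
def Num (q r : ℕ) : Prop := q + r * (q - 1) + q ^ (r - 1) ≤ q ^ r

lemma num_of_five {q r : ℕ} (hq : 2 ≤ q) (hr : 5 ≤ r) : Num q r := by
  obtain ⟨a, rfl⟩ : ∃ a, q = a + 2 := ⟨q - 2, by omega⟩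
  obtain ⟨b, rfl⟩ : ∃ b, r = b + 5 := ⟨r - 5, by omega⟩
  have h2 : ∀ n : ℕ, (n + 6) * (a + 2) < (a + 2) ^ (n + 4) * (a + 1) := by
    intro n
    induction n with
    | zero =>
      have h3 : 2 ^ 3 ≤ (a + 2) ^ 3 := Nat.pow_le_pow_left (by omega) 3
      have h4 : (a + 2) ^ (0 + 4) = (a + 2) ^ 3 * (a + 2) := by rw [← pow_succ]
      rw [h4]
      nlinarith [Nat.mul_le_mul h3 (le_refl ((a + 2) * (a + 1)))]
    | succ n ih =>
      have h4 : (a + 2) ^ (n + 1 + 4) = (a + 2) ^ (n + 4) * (a + 2) := by rw [← pow_succ]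
      rw [h4]
      obtain ⟨P, hP⟩ : ∃ P, P = (a + 2) ^ (n + 4) * (a + 1) := ⟨_, rfl⟩
      rw [← hP] at ih
      have h5 : (a + 2) ^ (n + 4) * (a + 2) * (a + 1) = P * (a + 2) := by rw [hP]; ring
      rw [h5]
      nlinarith [Nat.zero_le (P * a)]
  have h3 := h2 b
  have h5 : b + 5 - 1 = b + 4 := by omega
  have h6 : (a + 2) ^ (b + 5) = (a + 2) ^ (b + 4) * (a + 1) + (a + 2) ^ (b + 4) := by
    rw [pow_succ]
    ring
  unfold Num
  rw [h5, h6]
  have h7 : a + 2 - 1 = a + 1 := by omega
  rw [h7]
  nlinarith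

lemma num_of_three {q : ℕ} (hq : 3 ≤ q) : Num q 3 := by
  obtain ⟨a, rfl⟩ : ∃ a, q = a + 3 := ⟨q - 3, by omega⟩
  unfold Num
  have h7 : a + 3 - 1 = a + 2 := by omega
  rw [h7]
  norm_num
  nlinarith [Nat.zero_le (a * a), Nat.zero_le (a ^ 3)]

lemma num_of_two {q : ℕ} (hq : 4 ≤ q) : Num q 2 := by
  obtain ⟨a, rfl⟩ : ∃ a, q = a + 4 := ⟨q - 4, by omega⟩
  unfold Num
  have h7 : a + 4 - 1 = a + 3 := by omega
  rw [h7]
  norm_num
  nlinarith [Nat.zero_le (a * a)]

theorem main2 [Finite K] [Finite V] (hy : HypS B H) (hr : (finrank F K).Prime)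
    (hnum : Num (Nat.card F) (finrank F K)) (hd : finrank K V = 2) : (∀ g ∈ H, Semi K g) ∨ ∀ c, S1 K c ∈ ZS B H := by
  have := fin_F F K
  have := fin_dim F K
  rcases dich hr hy with h | hL
  · exact Or.inr h
  left
  have hnt : Nontrivial V := Module.nontrivial_of_finrank_pos (R := K) (by omega)
  obtain ⟨e, he⟩ := exists_ne (0 : V)
  by_cases hmove : ∀ c : K, c ∉ Set.range (algebraMap F K) → ∃ g ∈ H, g e = e ∧ ¬ ∃ k : K, g (c • e) = k • e
  · exfalso
    have h1 := count2 hy hr hd hL he hmove
    rw [Module.natCard_eq_pow_finrank (K := F) (V := K)] at h1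
    unfold Num at hnum
    omega
  · push Not at hmove
    obtain ⟨c, hc, hst⟩ := hmove
    exact semi_of_stay' hy hr (by omega) he hc hst

end count

end Cfsg.Agent.H98.Sp
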