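import Cfsg.Agent.H98.SpL
import Cfsg.Agent.GeoMax.SpStd

set_option autoImplicit false
set_option linter.unusedSectionVars false
set_option linter.style.haveILetI false
set_option linter.unusedSimpArgs false

/-!
Extension fields in symplectic groups, part M: main theorem, matrix form.
-/

namespace Cfsg.Agent.H98.Sp

open Module Cfsg.Agent.H98.Ext Cfsg.Agent.H98.Or

/-- The numerical condition in the main theorem: `q = |F|`, `r = [K : F]`, `d = dim_K V`. -/
def Cond (q r d : ℕ) : Prop := (4 ≤ d ∧ (r = 2 → 6 ≤ d)) ∨ (d = 2 ∧ Num q r)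

section

variable {F K V : Type*} [Field F] [Field K] [Algebra F K] [AddCommGroup V] [Module F V] [Module K V]
  [IsScalarTower F K V]

/-- the alternating `K`-form with trace `f` -/
lemma exists_sy [Finite K] (f : V →ₗ[F] V →ₗ[F] F) (hsa : ∀ (k : K) v w, f (k • v) w = f v (k • w))
    (halt : ∀ (k : K) v, f (k • v) v = 0) (hnd : ∀ v, (∀ w, f v w = 0) → v = 0) :
    ∃ B : Sy K V, ∀ v w, tf F B v w = f v w := by
  have hex : ∀ v w : V, ∃ c : K, ∀ k : K, f (k • v) w = Algebra.trace F K (c * k) := by
    intro v w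
    exact tr_exists F
      { toFun := fun k => f (k • v) w
        map_add' := fun k l => by rw [add_smul, map_add, LinearMap.add_apply]
        map_smul' := fun c k => by rw [smul_assoc, map_smul, LinearMap.smul_apply]; rfl }
  choose b hb using hex
  have htr : ∀ v w, Algebra.trace F K (b v w) = f v w := by
    intro v w
    have := hb v w 1
    rw [one_smul, mul_one] at this
    exact this.symm
  refine ⟨{ b := LinearMap.mk₂ K b ?_ ?_ ?_ ?_, alt := ?_, nd := ?_ }, ?_⟩
  · intro v v' w
    apply tr_ext F
    intro k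
    rw [add_mul, map_add, ← hb, ← hb, ← hb, smul_add, map_add, LinearMap.add_apply]
  · intro c v w
    apply tr_ext F
    intro k
    have e : c * b v w * k = b v w * (k * c) := by ring
    rw [← hb, smul_eq_mul, e, ← hb, smul_smul]
  · intro v w w'
    apply tr_ext F
    intro k
    rw [add_mul, map_add, ← hb, ← hb, ← hb, map_add]
  · intro c v w
    apply tr_ext F
    intro k
    have e : c * b v w * k = b v w * (c * k) := by ring
    rw [← hb, ← hsa, smul_eq_mul, e, ← hb, smul_smul]
  · intro v
    apply tr_nd F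
    intro k
    change Algebra.trace F K (b v v * k) = 0
    rw [← hb]
    exact halt k v
  · intro v hv
    apply hnd
    intro w
    have h1 := hv w
    change b v w = 0 at h1
    rw [← htr, h1, map_zero]
  · intro v w
    exact htr v w

theorem main [Finite K] [Finite V] {B : Sy K V} {H : Subgroup (V ≃ₗ[F] V)} (hy : HypS B H)
    (hr : (finrank F K).Prime) (hc : Cond (Nat.card F) (finrank F K) (finrank K V)) :
    (∀ g ∈ H, Semi K g) ∨ ∀ c, S1 K c ∈ ZS B H := by
  rcases hc with ⟨h1, h2⟩ | ⟨h1, h2⟩
  · refine main4 hy hr h1 (fun h => ?_)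
    have := Module.finrank_mul_finrank F K V
    have h3 := h2 h
    rw [h] at this
    omega
  · exact main2 hy hr h2 h1

/-- a transvection is not semilinear -/
lemma not_semi [Finite K] [Nontrivial V] {B : Sy K V} (hr : (finrank F K).Prime) {z : V} (hz : z ≠ 0) :
    ¬ Semi K (LL B z (S1 K (1 : F))) := by
  have := fin_F F K
  have := fin_dim F K
  intro h
  obtain ⟨σ, hσ⟩ := Tr.exists_alg_of_semi h
  have h1 : ∀ k : K, LL B z (S1 K (1 : F)) (k • z) = k • z := by
    intro k
    rw [LL_apply, map_smul B.b, LinearMap.smul_apply, B.alt, smul_zero, map_zero, zero_smul, add_zero]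
  have hσ1 : ∀ k, σ k = k := by
    intro k
    have h2 := hσ k z
    have h3 := h1 1
    rw [one_smul] at h3
    rw [h1, h3] at h2
    have : (k - σ k) • z = 0 := by rw [sub_smul, ← h2, sub_self]
    exact (sub_eq_zero.1 ((smul_eq_zero.1 this).resolve_right hz)).symm
  obtain ⟨y, hy⟩ := exists_dual (B := B) hz
  have h4 : ∀ k : K, algebraMap F K (Algebra.trace F K (-k)) = k * algebraMap F K (Algebra.trace F K (-1 : K)) := by
    intro k
    have h5 := hσ k y
    rw [hσ1, LL_apply, LL_apply, map_smul B.b, LinearMap.smul_apply, skew y z, hy, smul_eq_mul, mul_neg, mul_one,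
      smul_add] at h5
    have h6 := add_left_cancel h5
    rw [S1_apply, S1_apply, one_mul, one_mul, ← Algebra.algebraMap_eq_smul_one, ← Algebra.algebraMap_eq_smul_one,
      smul_smul] at h6
    have : (algebraMap F K (Algebra.trace F K (-k)) - k * algebraMap F K (Algebra.trace F K (-1 : K))) • z = 0 := by
      rw [sub_smul, h6, sub_self]
    exact sub_eq_zero.1 ((smul_eq_zero.1 this).resolve_right hz)
  by_cases h7 : Algebra.trace F K (-1 : K) = 0
  · obtain ⟨k, hk⟩ := Algebra.trace_surjective F K 1
    have h8 := h4 (-k)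
    rw [h7, map_zero, mul_zero, neg_neg, hk, map_one] at h8
    exact one_ne_zero h8
  · obtain ⟨c, hc⟩ := exists_notF (F := F) (K := K) hr
    apply hc
    have h8 := h4 c
    refine ⟨Algebra.trace F K (-c) / Algebra.trace F K (-1 : K), ?_⟩
    rw [map_div₀, h8, mul_div_assoc, div_self, mul_one]
    intro h0
    exact h7 ((map_eq_zero _).1 h0)

end

section matrix

open Cfsg.Geo Cfsg.Agent.GeoMax Cfsg.Agent.AschCases Matrix
open scoped MatrixGroups

variable {ι : Type} [Fintype ι] [DecidableEq ι] {F : Type*} [Field F]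

theorem sp_alg {K : Type*} [Field K] [Algebra F K] [Finite F] (φ : K →ₐ[F] Matrix ι ι F)
    {f : (ι → F) → (ι → F) → F} (hf : IsSymplecticForm f)
    (hsa : ∀ (k : K) v w, f (φ k *ᵥ v) w = f v (φ k *ᵥ w)) (halt : ∀ (k : K) v, f (φ k *ᵥ v) v = 0)
    (hr : (finrank F K).Prime) {d : ℕ} (hd : finrank F K * d = Fintype.card ι)
    (hc : Cond (Nat.card F) (finrank F K) d) :
    (∀ M : Subgroup (GL ι F), M ≤ isoGL f →
      (∀ g ∈ isoGL f, (∀ k : K, ∃ k' : K, (g : Matrix ι ι F) * φ k = φ k' * (g : Matrix ι ι F)) → g ∈ M) →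
      (∀ g ∈ M, ∀ k : K, ∃ k' : K, (g : Matrix ι ι F) * φ k = φ k' * (g : Matrix ι ι F)) ∨ isoGL f ≤ M) ∧
    ∃ g ∈ isoGL f, ¬ ∀ k : K, ∃ k' : K, (g : Matrix ι ι F) * φ k = φ k' * (g : Matrix ι ι F) := by
  classical
  letI : Module K (ι → F) := Module.compHom (ι → F)
    (((Matrix.toLinAlgEquiv' : Matrix ι ι F ≃ₐ[F] _).toAlgHom.comp φ : K →ₐ[F] _) : K →+* Module.End F (ι → F))
  have hsm : ∀ (k : K) (v : ι → F), k • v = φ k *ᵥ v := fun k v => rfl
  have htower : IsScalarTower F K (ι → F) := by
    refine ⟨fun c k v => ?_⟩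
    rw [hsm, hsm, map_smul, Matrix.smul_mulVec]
  have : FiniteDimensional F K := FiniteDimensional.of_finrank_pos hr.pos
  have hfinK : Finite K := Module.finite_of_finite F
  have hdim := Module.finrank_mul_finrank F K (ι → F)
  rw [Module.finrank_fintype_fun_eq_card, ← hd] at hdim
  have hdK : finrank K (ι → F) = d := Nat.eq_of_mul_eq_mul_left hr.pos hdim
  have hsemi : ∀ g : GL ι F, (∀ k : K, ∃ k' : K, (g : Matrix ι ι F) * φ k = φ k' * (g : Matrix ι ι F)) ↔
      Semi K (mx.symm g) := by
    intro g
    constructor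
    · intro hg k
      obtain ⟨k', hk'⟩ := hg k
      refine ⟨k', fun v => ?_⟩
      rw [mx_symm_apply, mx_symm_apply, hsm, hsm, Matrix.mulVec_mulVec, Matrix.mulVec_mulVec, hk']
    · intro hg k
      obtain ⟨k', hk'⟩ := hg k
      refine ⟨k', ?_⟩
      apply Matrix.toLin'.injective
      apply LinearMap.ext
      intro v
      have := hk' v
      rw [mx_symm_apply, mx_symm_apply, hsm, hsm, Matrix.mulVec_mulVec, Matrix.mulVec_mulVec] at this
      exact this
  let f' : (ι → F) →ₗ[F] (ι → F) →ₗ[F] F := LinearMap.mk₂ F f hf.bilinear.add_left hf.bilinear.smul_left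
    hf.bilinear.add_right hf.bilinear.smul_right
  obtain ⟨B, hB⟩ := exists_sy (K := K) f' (fun k v w => hsa k v w) (fun k v => halt k v)
    (fun v hv => Symp.eq_zero_of_forall hf hv)
  have hB' : ∀ v w, tf F B v w = f v w := hB
  have hiso : ∀ g : GL ι F, g ∈ isoGL f ↔ mx.symm g ∈ iso F B := by
    intro g
    rw [mem_isoGL, mem_iso]
    constructor
    · intro h v w
      rw [hB', hB']
      exact h v w
    · intro h v w
      have := h v w
      rw [hB', hB'] at this
      exact this
  have hntV : Nontrivial (ι → F) := by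
    apply Module.nontrivial_of_finrank_pos (R := K)
    rw [hdK]
    rcases hc with h | h
    · omega
    · omega
  constructor
  · intro M hM1 hM2
    have hy : HypS B (M.comap (mx : ((ι → F) ≃ₗ[F] (ι → F)) ≃* GL ι F).toMonoidHom) := by
      constructor
      · intro g hg
        have h1 := (hiso (mx g)).1 (hM1 hg)
        rwa [MulEquiv.symm_apply_apply] at h1
      · intro g hg hs
        rw [Subgroup.mem_comap]
        refine hM2 (mx g) ?_ ?_
        · rw [hiso, MulEquiv.symm_apply_apply]
          exact hg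
        · rw [hsemi, MulEquiv.symm_apply_apply]
          exact hs
    rcases main hy hr (by rw [hdK]; exact hc) with h | h
    · left
      intro g hg
      rw [hsemi]
      apply h
      rw [Subgroup.mem_comap]
      change mx (mx.symm g) ∈ M
      rwa [MulEquiv.apply_symm_apply]
    · right
      apply Symp.iso_le hf
      intro z c
      have h1 := h c z
      rw [Subgroup.mem_comap] at h1
      convert h1 using 1
      apply Units.ext
      apply Matrix.toLin'.injective
      apply LinearMap.ext
      intro v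
      change (Symp.tr hf z c : Matrix ι ι F) *ᵥ v = ((mx (LL B z (S1 K c)) : GL ι F) : Matrix ι ι F) *ᵥ v
      rw [mx_mulVec, Symp.tr_mulVec, LL_apply, S1_apply, smul_assoc, one_smul, ← hB']
      rfl
  · obtain ⟨z, hz⟩ := exists_ne (0 : ι → F)
    refine ⟨mx (LL B z (S1 K (1 : F))), ?_, ?_⟩
    · rw [hiso, MulEquiv.symm_apply_apply]
      exact LL_iso (Ad_S1 1) z
    · rw [hsemi, MulEquiv.symm_apply_apply]
      exact not_semi hr hz

set_option maxHeartbeats 2000000 in
/-- The elements of the symplectic group normalising a field extension of prime degree `r` form a maximal subgroup. -/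
theorem sp_maximal [Finite F] {f : (ι → F) → (ι → F) → F} (hf : IsSymplecticForm f) {r d : ℕ}
    (K : Subalgebra F (Matrix ι ι F)) (hK : IsFieldSubalgebra r K) (hsa : IsSelfAdjointFor f K)
    (halt : ∀ k ∈ K, ∀ v : ι → F, f (k *ᵥ v) v = 0) (hr : r.Prime) (hd : r * d = Fintype.card ι)
    (hc : Cond (Nat.card F) r d) :
    IsMaximalIn (isoGL f) (subalgebraNormalizer K ⊓ isoGL f) := by
  have hι : Nonempty ι := by
    rw [← Fintype.card_pos_iff, ← hd]
    apply Nat.mul_pos hr.pos
    rcases hc with h | h
    · omega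
    · omega
  have hfr : finrank F K = r := hK.finrank_eq
  have key := @sp_alg ι _ _ F _ K (fieldOf hK) (inferInstanceAs (Algebra F K)) _ K.val f hf
    (fun k v w => hsa k k.2 v w) (fun k v => halt k k.2 v) (by
      have : finrank F K = r := hK.finrank_eq
      rw [this]
      exact hr) d (by
      have : finrank F K = r := hK.finrank_eq
      rw [this]
      exact hd) (by
      have : finrank F K = r := hK.finrank_eq
      rw [this]
      exact hc)
  constructor
  · refine lt_of_le_of_ne inf_le_right ?_
    intro heq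
    obtain ⟨g, hg, hg'⟩ := key.2
    apply hg'
    rw [← heq] at hg
    exact mem_normalizer_iff.1 hg.1
  · intro M hM1 hM2
    rcases key.1 M hM2 (fun g hg hs => hM1 ⟨mem_normalizer_iff.2 hs, hg⟩) with h | h
    · left
      exact le_antisymm (fun g hg => ⟨mem_normalizer_iff.2 (h g hg), hM2 hg⟩) hM1
    · right
      exact le_antisymm hM2 h

end matrix

end Cfsg.Agent.H98.Sp
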