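import Mathlib
import Cfsg.Agent.USub.NDc

set_option autoImplicit false
set_option linter.unusedSectionVars false
set_option linter.unusedVariables false
set_option linter.style.haveILetI false

/-!
Quasi-reflections modulo a totally isotropic subspace: the plane lemma.
-/

namespace Cfsg.Agent.H98.UF

open scoped Matrix
open Cfsg.Agent.Uni Module

variable {F : Type*} [Field F] [Fintype F] {q n : ℕ}

/-- `g` acts on `U` modulo `R` as a quasi-reflection. -/
def Ref (R U : Submodule F (Fin n → F)) (g : SU n F q) (x : Fin n → F) (a : F) : Prop :=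
  ∀ v ∈ U, act g v - (v + ((a - 1) * hermForm n F q v x) • x) ∈ R

/-- `g` acts on `U` modulo `R` as a transvection. -/
def Trn (R U : Submodule F (Fin n → F)) (g : SU n F q) (d : Fin n → F) (s : F) : Prop :=
  ∀ v ∈ U, act g v - (v + (s * hermForm n F q v d) • d) ∈ R

structure Ctx (R U : Submodule F (Fin n → F)) (G : Subgroup (SU n F q)) : Prop where
  le : R ≤ U
  orth : ∀ r ∈ R, ∀ u ∈ U, hermForm n F q r u = 0
  gR : ∀ g ∈ G, ∀ r ∈ R, act g r ∈ R
  gU : ∀ g ∈ G, ∀ u ∈ U, act g u ∈ U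

section
variable {R U : Submodule F (Fin n → F)} {G : Subgroup (SU n F q)}

theorem Ctx.orth' (hF : Fintype.card F = q ^ 2) (h : Ctx R U G) {u r : Fin n → F} (hu : u ∈ U)
    (hr : r ∈ R) : hermForm n F q u r = 0 := (hermForm_eq_zero_comm hF).1 (h.orth r hr u hu)

theorem Ctx.form_left (h : Ctx R U G) {v w u : Fin n → F} (hvw : v - w ∈ R) (hu : u ∈ U) :
    hermForm n F q v u = hermForm n F q w u := by
  have := h.orth _ hvw u hu
  rw [hermForm_sub_left] at this
  exact sub_eq_zero.1 this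

theorem Ctx.form_right (hF : Fintype.card F = q ^ 2) (h : Ctx R U G) {v w u : Fin n → F}
    (hvw : v - w ∈ R) (hu : u ∈ U) : hermForm n F q u v = hermForm n F q u w := by
  have := h.orth' hF hu hvw
  rw [hermForm_sub_right hF] at this
  exact sub_eq_zero.1 this

theorem Ctx.act_congr (h : Ctx R U G) {g : SU n F q} (hg : g ∈ G) {v w : Fin n → F}
    (hvw : v - w ∈ R) : act g v - act g w ∈ R := by
  rw [← act_sub]; exact h.gR g hg _ hvw

theorem Ctx.act_trans (h : Ctx R U G) {g : SU n F q} (hg : g ∈ G) {v w z : Fin n → F}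
    (hvw : v - w ∈ R) (hz : act g w - z ∈ R) : act g v - z ∈ R := by
  have := R.add_mem (h.act_congr hg hvw) hz
  convert this using 1
  abel

theorem Trn.mul (hF : Fintype.card F = q ^ 2) (h : Ctx R U G) {g g' : SU n F q} (hg : g ∈ G)
    {d : Fin n → F} (hd : d ∈ U) (hdd : hermForm n F q d d = 0) {s s' : F}
    (h1 : Trn R U g d s) (h2 : Trn R U g' d s') : Trn R U (g * g') d (s + s') := by
  intro v hv
  rw [act_mul]
  refine h.act_trans hg (h2 v hv) ?_
  have h3 := h1 (v + (s' * hermForm n F q v d) • d) (U.add_mem hv (U.smul_mem _ hd))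
  rw [hermForm_add_left, hermForm_smul_left, hdd] at h3
  convert h3 using 1
  module

theorem Trn.one (h : Ctx R U G) (d : Fin n → F) : Trn R U (1 : SU n F q) d 0 := by
  intro v hv
  rw [act_one]
  simp

theorem Trn.inv (hF : Fintype.card F = q ^ 2) (h : Ctx R U G) {g : SU n F q} (hg : g ∈ G)
    {d : Fin n → F} (hd : d ∈ U) (hdd : hermForm n F q d d = 0) {s : F}
    (h1 : Trn R U g d s) : Trn R U g⁻¹ d (-s) := by
  intro v hv
  have hw : act g⁻¹ v ∈ U := h.gU _ (G.inv_mem hg) _ hv
  have h3 := h1 _ hw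
  rw [act_act_inv] at h3
  have h4 := h.form_left h3 hd
  rw [hermForm_add_left, hermForm_smul_left, hdd, mul_zero, add_zero] at h4
  rw [← h4] at h3
  have := R.neg_mem h3
  convert this using 1
  module

theorem Trn.pow (hF : Fintype.card F = q ^ 2) (h : Ctx R U G) {g : SU n F q} (hg : g ∈ G)
    {d : Fin n → F} (hd : d ∈ U) (hdd : hermForm n F q d d = 0) {s : F}
    (h1 : Trn R U g d s) (k : ℕ) : Trn R U (g ^ k) d (k * s) := by
  induction k with
  | zero => rw [pow_zero, Nat.cast_zero, zero_mul]; exact Trn.one h d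
  | succ k ih =>
    rw [pow_succ, Nat.cast_succ, add_mul, one_mul]
    exact Trn.mul hF h (G.pow_mem hg k) hd hdd ih h1

theorem Trn.conj (hF : Fintype.card F = q ^ 2) (h : Ctx R U G) {g k : SU n F q} (hg : g ∈ G)
    (hk : k ∈ G) {d : Fin n → F} (hd : d ∈ U) {s : F} (h1 : Trn R U g d s) :
    Trn R U (k * g * k⁻¹) (act k d) s := by
  intro v hv
  rw [act_mul, act_mul]
  have hw : act k⁻¹ v ∈ U := h.gU _ (G.inv_mem hk) _ hv
  have h2 := h.act_congr hk (h1 _ hw)
  rw [act_add, act_act_inv, act_smul] at h2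
  have e : hermForm n F q v (act k d) = hermForm n F q (act k⁻¹ v) d := by
    rw [← act_form k (act k⁻¹ v) d, act_act_inv]
  rw [e]
  exact h2

theorem Trn.congr (hF : Fintype.card F = q ^ 2) (h : Ctx R U G) {g : SU n F q}
    {d d' : Fin n → F} {s s' m : F} (hd : d ∈ U) (hd' : d' - m • d ∈ R) (hs : s' = s * m ^ (q + 1))
    (h1 : Trn R U g d' s) : Trn R U g d s' := by
  intro v hv
  have h2 := h1 v hv
  have hmd : m • d ∈ U := U.smul_mem _ hd
  have e := h.form_right hF hd' hv
  rw [hermForm_smul_right] at e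
  rw [e] at h2
  have h3 := R.add_mem h2 (R.smul_mem (s * (m ^ q * hermForm n F q v d)) hd')
  rw [hs]
  convert h3 using 1
  rw [pow_succ]
  module

theorem Ref.inv (hF : Fintype.card F = q ^ 2) (h : Ctx R U G) {g : SU n F q} (hg : g ∈ G)
    {x : Fin n → F} (hx : x ∈ U) (hxx : hermForm n F q x x = 1) {a : F} (ha : a ≠ 0)
    (h1 : Ref R U g x a) : Ref R U g⁻¹ x a⁻¹ := by
  intro v hv
  have hw : act g⁻¹ v ∈ U := h.gU _ (G.inv_mem hg) _ hv
  have h3 := h1 _ hw
  rw [act_act_inv] at h3
  have h4 := h.form_left h3 hx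
  rw [hermForm_add_left, hermForm_smul_left, hxx, mul_one] at h4
  have h5 : hermForm n F q (act g⁻¹ v) x = a⁻¹ * hermForm n F q v x := by
    rw [h4]; field_simp; ring
  rw [h5] at h3
  have := R.neg_mem h3
  convert this using 1
  have e : (a - 1) * (a⁻¹ * hermForm n F q v x) = (1 - a⁻¹) * hermForm n F q v x := by
    field_simp
  rw [e]
  module

theorem Ref.conj (hF : Fintype.card F = q ^ 2) (h : Ctx R U G) {g k : SU n F q} (hg : g ∈ G)
    (hk : k ∈ G) {x : Fin n → F} (hx : x ∈ U) {a : F} (h1 : Ref R U g x a) :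
    Ref R U (k * g * k⁻¹) (act k x) a := by
  intro v hv
  rw [act_mul, act_mul]
  have hw : act k⁻¹ v ∈ U := h.gU _ (G.inv_mem hk) _ hv
  have h2 := h.act_congr hk (h1 _ hw)
  rw [act_add, act_act_inv, act_smul] at h2
  have e : hermForm n F q v (act k x) = hermForm n F q (act k⁻¹ v) x := by
    rw [← act_form k (act k⁻¹ v) x, act_act_inv]
  rw [e]
  exact h2

end

end Cfsg.Agent.H98.UF
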