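import Mathlib
import Cfsg.Agent.H98.UFA

set_option autoImplicit false
set_option linter.unusedSectionVars false
set_option linter.unusedVariables false
set_option linter.style.haveILetI false

/-!
The plane lemma: two quasi-reflection tori generate full transvection groups.
-/

namespace Cfsg.Agent.H98.UF

open scoped Matrix
open Cfsg.Agent.Uni Module

variable {F : Type*} [Field F] [Fintype F] {q n : ℕ}

theorem card_norm_one [DecidableEq F] (hF : Fintype.card F = q ^ 2) :
    (Finset.univ.filter fun a : F => a ^ (q + 1) = 1).card = q + 1 := by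
  have h := card_norm_eq hF (c := (1 : F)) (one_pow _) one_ne_zero
  rw [Nat.card_eq_fintype_card, Fintype.card_subtype] at h
  exact h

theorem card_fixed' [DecidableEq F] (hF : Fintype.card F = q ^ 2) :
    (Finset.univ.filter fun a : F => a ^ q = a).card = q := by
  have h := card_fixed (F := F) hF
  rw [Nat.card_eq_fintype_card, Fintype.card_subtype] at h
  exact h

theorem card_skew_le [DecidableEq F] (hF : Fintype.card F = q ^ 2) :
    (Finset.univ.filter fun a : F => a ^ q = -a).card ≤ q := by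
  obtain ⟨x, hx0, hx⟩ := exists_skew (F := F) (q := q) hF
  conv_rhs => rw [← card_fixed' (F := F) hF]
  refine Finset.card_le_card_of_injOn (fun s => s * x) ?_ ?_
  · intro s hs
    rw [Finset.mem_coe, Finset.mem_filter] at hs
    rw [Finset.mem_coe, Finset.mem_filter]
    refine ⟨Finset.mem_univ _, ?_⟩
    change (s * x) ^ q = s * x
    rw [mul_pow, hs.2, hx]; ring
  · intro s _ s' _ h
    exact mul_right_cancel₀ hx0 h

theorem count_lemma [DecidableEq F] (hF : Fintype.card F = q ^ 2) (A S : Finset F)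
    (hA : ∀ s ∈ A, s ^ q = -s) (h0 : (0 : F) ∈ A) (hadd : ∀ s ∈ A, ∀ s' ∈ A, s + s' ∈ A)
    (hneg : ∀ s ∈ A, -s ∈ A) (hS : ∀ m ∈ S, m ^ q = m ∧ m ≠ 0 ∧ ∀ s ∈ A, m * s ∈ A)
    (hcard : q + 1 ≤ A.card * S.card) : ∀ s : F, s ^ q = -s → s ∈ A := by
  intro s₁ hs₁
  by_contra hs₁A
  obtain ⟨E, hE⟩ : ∃ E : Finset F, ∀ e, e ∈ E ↔ (e ^ q = e ∧ ∀ s ∈ A, e * s ∈ A) :=
    ⟨Finset.univ.filter fun e => e ^ q = e ∧ ∀ s ∈ A, e * s ∈ A, fun e => by simp⟩
  have hEpow : ∀ e ∈ E, ∀ k : ℕ, ∀ s ∈ A, e ^ k * s ∈ A := by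
    intro e he k
    induction k with
    | zero => intro s hs; rwa [pow_zero, one_mul]
    | succ k ih =>
      intro s hs
      rw [pow_succ, mul_assoc]
      exact ih _ (((hE e).1 he).2 s hs)
  have hinv : ∀ e ∈ E, e ≠ 0 → ∀ s ∈ A, e⁻¹ * s ∈ A := by
    intro e he he0 s hs
    have h1 : e⁻¹ = e ^ (Fintype.card F - 2) := by
      have h2 := FiniteField.pow_card_sub_one_eq_one e he0
      have h3 : 2 ≤ Fintype.card F := by
        rw [hF]
        have := two_le_q (F := F) hF
        nlinarith
      have h4 : e ^ (Fintype.card F - 2) * e = 1 := by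
        rw [← pow_succ, ← h2]
        congr 1
        omega
      exact (eq_inv_of_mul_eq_one_left h4).symm
    rw [h1]
    exact hEpow e he _ s hs
  have hinj : (E ×ˢ A).card ≤ (Finset.univ.filter fun a : F => a ^ q = -a).card := by
    refine Finset.card_le_card_of_injOn (fun p => p.1 * s₁ + p.2) ?_ ?_
    · rintro ⟨e, s⟩ hp
      rw [Finset.mem_coe, Finset.mem_product] at hp
      rw [Finset.mem_coe, Finset.mem_filter]
      refine ⟨Finset.mem_univ _, ?_⟩
      change (e * s₁ + s) ^ q = -(e * s₁ + s)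
      rw [add_pow_q hF, mul_pow, hs₁, hA s hp.2, ((hE e).1 hp.1).1]; ring
    · rintro ⟨e, s⟩ hp ⟨e', s'⟩ hp' heq
      rw [Finset.mem_coe, Finset.mem_product] at hp hp'
      change e * s₁ + s = e' * s₁ + s' at heq
      by_cases hee : e = e'
      · subst hee
        rw [add_right_inj] at heq
        rw [heq]
      · exfalso
        apply hs₁A
        have h1 : (e - e') * s₁ = s' + -s := by linear_combination heq
        have h2 : e - e' ∈ E := by
          rw [hE]
          refine ⟨by rw [sub_pow_q hF, ((hE e).1 hp.1).1, ((hE e').1 hp'.1).1], fun t ht => ?_⟩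
          have := hadd _ (((hE e).1 hp.1).2 t ht) _ (hneg _ (((hE e').1 hp'.1).2 t ht))
          convert this using 1
          ring
        have h3 := hinv _ h2 (sub_ne_zero.2 hee) _ (hadd _ hp'.2 _ (hneg _ hp.2))
        rw [← h1, ← mul_assoc, inv_mul_cancel₀ (sub_ne_zero.2 hee), one_mul] at h3
        exact h3
  have h1 : E.card * A.card ≤ q := by
    rw [← Finset.card_product]; exact hinj.trans (card_skew_le hF)
  have h2 : S.card + 1 ≤ E.card := by
    have h3 : S ⊆ E.erase 0 := by
      intro m hm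
      rw [Finset.mem_erase]
      exact ⟨(hS m hm).2.1, (hE m).2 ⟨(hS m hm).1, (hS m hm).2.2⟩⟩
    have h4 : (0 : F) ∈ E := (hE 0).2 ⟨zero_pow_q hF, fun s _ => by rw [zero_mul]; exact h0⟩
    have h5 := Finset.card_le_card h3
    rw [Finset.card_erase_of_mem h4] at h5
    have h6 : 0 < E.card := Finset.card_pos.2 ⟨0, h4⟩
    omega
  have h3 : A.card * S.card ≤ E.card * A.card := by
    rw [mul_comm]
    exact Nat.mul_le_mul_right _ (by omega)
  omega

section
variable {R U : Submodule F (Fin n → F)} {G : Subgroup (SU n F q)}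

/-- `g` acts trivially modulo `R` off `x, y`. -/
def Tri (q : ℕ) {n : ℕ} (R U : Submodule F (Fin n → F)) (x y : Fin n → F) (g : SU n F q) : Prop :=
  (∀ v ∈ U, act g v - v ∈ Submodule.span F {x, y} ⊔ R) ∧
    ∀ v ∈ U, hermForm n F q v x = 0 → hermForm n F q v y = 0 → act g v - v ∈ R

theorem Tri.mul (h : Ctx R U G) {x y : Fin n → F} {g g' : SU n F q} (hg : g ∈ G) (hg' : g' ∈ G)
    (h1 : Tri q R U x y g) (h2 : Tri q R U x y g') : Tri q R U x y (g * g') := by
  constructor
  · intro v hv
    rw [act_mul]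
    have a1 := h1.1 _ (h.gU _ hg' v hv)
    have a2 := h2.1 v hv
    have := Submodule.add_mem _ a1 a2
    rwa [sub_add_sub_cancel] at this
  · intro v hv hvx hvy
    rw [act_mul]
    exact h.act_trans hg (h2.2 v hv hvx hvy) (h1.2 v hv hvx hvy)

theorem Tri.inv (h : Ctx R U G) {x y : Fin n → F} {g : SU n F q} (hg : g ∈ G)
    (h1 : Tri q R U x y g) : Tri q R U x y g⁻¹ := by
  constructor
  · intro v hv
    have := h1.1 _ (h.gU _ (G.inv_mem hg) v hv)
    rw [act_act_inv] at this
    have := Submodule.neg_mem _ this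
    rwa [neg_sub] at this
  · intro v hv hvx hvy
    have a1 := h.gR _ (G.inv_mem hg) _ (h1.2 v hv hvx hvy)
    rw [act_sub, act_inv_act] at a1
    have := R.neg_mem a1
    rwa [neg_sub] at this

theorem Tri.of_ref {x y : Fin n → F} {g : SU n F q} {a : F} (h1 : Ref R U g x a) :
    Tri q R U x y g := by
  constructor
  · intro v hv
    have h2 : act g v - v = ((a - 1) * hermForm n F q v x) • x +
        (act g v - (v + ((a - 1) * hermForm n F q v x) • x)) := by abel
    rw [h2]
    exact Submodule.add_mem_sup (Submodule.smul_mem _ _ (Submodule.subset_span (by simp))) (h1 v hv)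
  · intro v hv hvx _
    have := h1 v hv
    rwa [hvx, mul_zero, zero_smul, add_zero] at this

theorem Tri.symm {x y : Fin n → F} {g : SU n F q} (h1 : Tri q R U x y g) : Tri q R U y x g := by
  refine ⟨?_, fun v hv hvy hvx => h1.2 v hv hvx hvy⟩
  rw [Set.pair_comm]
  exact h1.1

/-- The action of an element fixing an isotropic line. -/
theorem fix_line (hF : Fintype.card F = q ^ 2) (h : Ctx R U G) {x y d : Fin n → F} (hx : x ∈ U)
    (hy : y ∈ U) {b : F} (hb : b ≠ 0) (hd : d = x + b • y) (hxx : hermForm n F q x x = 1)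
    (hdd : hermForm n F q d d = 0) (hdx : hermForm n F q d x ≠ 0) {g : SU n F q} (hg : g ∈ G)
    (hT : Tri q R U x y g) {μ : F} (hμ : μ ^ (q + 1) = 1) (hgd : act g d - μ • d ∈ R) :
    ∃ s : F, s ^ q = -s ∧
      (∀ α β : F, act g (α • x + β • d) -
        μ • (α • x + β • d + (s * (α * hermForm n F q x d)) • d) ∈ R) ∧
      Trn R U (g ^ (q + 1)) d s := by
  have hdU : d ∈ U := by rw [hd]; exact U.add_mem hx (U.smul_mem _ hy)
  have hxd : hermForm n F q x d ≠ 0 := fun h0 => hdx ((hermForm_eq_zero_comm hF).1 h0)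
  have hxd' : hermForm n F q x d = (hermForm n F q d x) ^ q := (hermForm_symm hF _ _).symm
  have hdx' : hermForm n F q d x = (hermForm n F q x d) ^ q := (hermForm_symm hF _ _).symm
  have hμ0 : μ ≠ 0 := by
    rintro rfl
    rw [zero_pow (by omega)] at hμ
    exact zero_ne_one hμ
  have hμμ : μ * μ ^ q = 1 := by rw [← pow_succ']; exact hμ
  -- the image of `x`
  obtain ⟨α₁, α₂, hα⟩ : ∃ α₁ α₂ : F, act g x - (α₁ • x + α₂ • d) ∈ R := by
    obtain ⟨p, hp, r, hr, hpr⟩ := Submodule.mem_sup.1 (hT.1 x hx)
    obtain ⟨p₁, p₂, rfl⟩ := Submodule.mem_span_pair.1 hp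
    refine ⟨1 + p₁ - p₂ / b, p₂ / b, ?_⟩
    have e : act g x - ((1 + p₁ - p₂ / b) • x + (p₂ / b) • d) = r := by
      have h1 : act g x = x + (p₁ • x + p₂ • y + r) := by rw [hpr]; abel
      have h2 : (p₂ / b) • d = (p₂ / b) • x + p₂ • y := by
        rw [hd, smul_add, smul_smul, div_mul_cancel₀ _ hb]
      rw [h1, h2]
      module
    rw [e]; exact hr
  have hxdU : α₁ • x + α₂ • d ∈ U := U.add_mem (U.smul_mem _ hx) (U.smul_mem _ hdU)
  have hα₁ : α₁ = μ := by
    have e := act_form g x d
    rw [h.form_left hα (h.gU g hg d hdU), h.form_right hF hgd hxdU, hermForm_smul_right,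
      hermForm_add_left, hermForm_smul_left, hermForm_smul_left, hdd] at e
    have e2 : (μ ^ q * α₁ - 1) * hermForm n F q x d = 0 := by linear_combination e
    rcases mul_eq_zero.1 e2 with h3 | h3
    · have : μ * (μ ^ q * α₁ - 1) = 0 := by rw [h3, mul_zero]
      linear_combination this - α₁ * hμμ
    · exact absurd h3 hxd
  subst hα₁
  obtain ⟨s, hs⟩ : ∃ s, s = α₂ / (α₁ * hermForm n F q x d) := ⟨_, rfl⟩
  have hα₂ : α₂ = s * α₁ * hermForm n F q x d := by rw [hs]; field_simp
  have hsk : s ^ q = -s := by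
    have e := act_form g x x
    rw [h.form_left hα (h.gU g hg x hx), h.form_right hF hα hxdU] at e
    simp only [hermForm_add_left, hermForm_add_right hF, hermForm_smul_left,
      hermForm_smul_right, hxx, hdd] at e
    rw [hα₂, mul_pow, mul_pow, ← hdx'] at e
    have e2 : (s ^ q + s) * (hermForm n F q x d * hermForm n F q d x) = 0 := by
      linear_combination e - (1 + (s ^ q + s) * (hermForm n F q x d * hermForm n F q d x)) * hμμ
    rcases mul_eq_zero.1 e2 with h3 | h3
    · linear_combination h3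
    · exact absurd h3 (mul_ne_zero hxd hdx)
  have hP : ∀ α β : F, act g (α • x + β • d) -
      α₁ • (α • x + β • d + (s * (α * hermForm n F q x d)) • d) ∈ R := by
    intro α β
    rw [act_add, act_smul, act_smul]
    have h3 := R.add_mem (R.smul_mem α hα) (R.smul_mem β hgd)
    convert h3 using 1
    rw [hα₂]
    module
  refine ⟨s, hsk, hP, ?_⟩
  -- powers
  have hk : ∀ k : ℕ, ∀ α β : F, act (g ^ k) (α • x + β • d) -
      α₁ ^ k • (α • x + β • d + (k * (s * (α * hermForm n F q x d))) • d) ∈ R := by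
    intro k
    induction k with
    | zero =>
      intro α β
      rw [pow_zero, pow_zero, act_one, Nat.cast_zero, zero_mul, zero_smul, add_zero, one_smul,
        sub_self]
      exact R.zero_mem
    | succ k ih =>
      intro α β
      rw [pow_succ' g, act_mul]
      refine h.act_trans hg (ih α β) ?_
      have e : α₁ ^ k • (α • x + β • d + (k * (s * (α * hermForm n F q x d))) • d) =
          (α₁ ^ k * α) • x + (α₁ ^ k * (β + k * (s * (α * hermForm n F q x d)))) • d := by module
      rw [e]
      have := hP (α₁ ^ k * α) (α₁ ^ k * (β + k * (s * (α * hermForm n F q x d))))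
      convert this using 1
      push_cast
      module
  have hTk : ∀ k : ℕ, Tri q R U x y (g ^ k) := by
    intro k
    induction k with
    | zero =>
      rw [pow_zero]
      refine ⟨fun v hv => by rw [act_one, sub_self]; exact Submodule.zero_mem _,
        fun v hv _ _ => by rw [act_one, sub_self]; exact Submodule.zero_mem _⟩
    | succ k ih =>
      rw [pow_succ]
      exact Tri.mul h (G.pow_mem hg k) hg ih hT
  intro v hv
  obtain ⟨α, hαv⟩ : ∃ α, α = hermForm n F q v d / hermForm n F q x d := ⟨_, rfl⟩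
  obtain ⟨β, hβv⟩ : ∃ β, β = (hermForm n F q v x - α) / hermForm n F q d x := ⟨_, rfl⟩
  obtain ⟨w, hw⟩ : ∃ w, w = v - (α • x + β • d) := ⟨_, rfl⟩
  have hPU : α • x + β • d ∈ U := U.add_mem (U.smul_mem _ hx) (U.smul_mem _ hdU)
  have hwU : w ∈ U := by rw [hw]; exact U.sub_mem hv hPU
  have hwd : hermForm n F q w d = 0 := by
    rw [hw, hermForm_sub_left, hermForm_add_left, hermForm_smul_left, hermForm_smul_left, hdd, hαv]
    field_simp
    ring
  have hwx : hermForm n F q w x = 0 := by
    rw [hw, hermForm_sub_left, hermForm_add_left, hermForm_smul_left, hermForm_smul_left, hxx, hβv]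
    field_simp
    ring
  have hwy : hermForm n F q w y = 0 := by
    have e := hwd
    rw [hd, hermForm_add_right hF, hermForm_smul_right, hwx, zero_add] at e
    exact (mul_eq_zero.1 e).resolve_left (pow_ne_zero _ hb)
  have e1 := (hTk (q + 1)).2 w hwU hwx hwy
  have e2 := hk (q + 1) α β
  rw [hμ, one_smul] at e2
  have hq0 : ((q + 1 : ℕ) : F) = 1 := by
    have h0 : (q : F) ^ 2 = 0 := by
      have := FiniteField.cast_card_eq_zero F
      rw [hF] at this
      push_cast at this
      exact this
    rw [Nat.cast_add, Nat.cast_one, pow_eq_zero_iff (by norm_num)] at *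
    rw [h0, zero_add]
  rw [hq0, one_mul] at e2
  have e3 : v = w + (α • x + β • d) := by rw [hw]; abel
  have e4 : α * hermForm n F q x d = hermForm n F q v d := by rw [hαv]; field_simp
  rw [e4] at e2
  have e5 := R.add_mem e1 e2
  have e6 : act (g ^ (q + 1)) v = act (g ^ (q + 1)) w + act (g ^ (q + 1)) (α • x + β • d) := by
    rw [← act_add, ← e3]
  have e7 : v + (s * hermForm n F q v d) • d =
      w + (α • x + β • d) + (s * hermForm n F q v d) • d := by rw [← e3]
  rw [e6, e7]
  convert e5 using 1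
  abel

end

end Cfsg.Agent.H98.UF
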