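import Mathlib
import Cfsg.Agent.H98.UFB

set_option autoImplicit false
set_option linter.unusedSectionVars false
set_option linter.unusedVariables false
set_option linter.style.haveILetI false
set_option maxHeartbeats 1000000

/-!
The plane lemma and reflection groups.
-/

namespace Cfsg.Agent.H98.UF

open scoped Matrix
open Cfsg.Agent.Uni Module

variable {F : Type*} [Field F] [Fintype F] {q n : ℕ}

section
variable {R U : Submodule F (Fin n → F)} {G : Subgroup (SU n F q)}

theorem plane (hF : Fintype.card F = q ^ 2) (h : Ctx R U G) {x y : Fin n → F} (hx : x ∈ U)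
    (hy : y ∈ U) (hxx : hermForm n F q x x = 1) (hyy : hermForm n F q y y = 1)
    (h0 : hermForm n F q x y ≠ 0) (h1 : hermForm n F q x y ^ (q + 1) ≠ 1)
    (hrx : ∀ a : F, a ^ (q + 1) = 1 → ∃ g ∈ G, Ref R U g x a)
    (hry : ∀ a : F, a ^ (q + 1) = 1 → ∃ g ∈ G, Ref R U g y a) :
    ∃ b : F, b ≠ 0 ∧ hermForm n F q (x + b • y) (x + b • y) = 0 ∧
      hermForm n F q (x + b • y) x ≠ 0 ∧
      ∀ s : F, s ^ q = -s → ∃ g ∈ G, Trn R U g (x + b • y) s := by
  classical
  obtain ⟨φ, hφ⟩ : ∃ φ, φ = hermForm n F q x y := ⟨_, rfl⟩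
  obtain ⟨φ', hφ'⟩ : ∃ φ', φ' = φ ^ q := ⟨_, rfl⟩
  have hyx : hermForm n F q y x = φ' := by rw [hφ', hφ, hermForm_symm hF]
  have hφ'q : φ' ^ q = φ := by rw [hφ', pow_q_pow_q hF]
  rw [← hφ] at h0 h1
  have hφ'0 : φ' ≠ 0 := by rw [hφ']; exact pow_ne_zero _ h0
  have h1' : φ * φ' ≠ 1 := by rw [hφ', ← pow_succ']; exact h1
  obtain ⟨ω, hω⟩ := exists_norm_eq (F := F) (q := q) hF (c := φ * φ' - 1) (by
    rw [sub_pow_q hF, mul_pow, hφ'q, ← hφ', one_pow]; ring)
  obtain ⟨ω', hω'⟩ : ∃ ω', ω' = ω ^ q := ⟨_, rfl⟩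
  have hω'q : ω' ^ q = ω := by rw [hω', pow_q_pow_q hF]
  have hωω : ω * ω' = φ * φ' - 1 := by rw [hω', ← pow_succ', hω]
  have hω0 : ω ≠ 0 := by
    rintro rfl
    rw [zero_mul] at hωω
    exact h1' (by linear_combination -hωω)
  have hω'0 : ω' ≠ 0 := by rw [hω']; exact pow_ne_zero _ hω0
  obtain ⟨β, hβ⟩ : ∃ β, β = ω - φ := ⟨_, rfl⟩
  have hβq : β ^ q = ω' - φ' := by rw [hβ, sub_pow_q hF, ← hω', ← hφ']
  have hβ0 : β ≠ 0 := by
    intro hb
    rw [hb, zero_pow_q hF] at hβq
    have e1 : ω' = φ' := by linear_combination -hβq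
    have e2 : ω = φ := by rw [hb] at hβ; linear_combination -hβ
    rw [e1, e2] at hωω
    have : (1 : F) = 0 := by linear_combination hωω
    exact one_ne_zero this
  obtain ⟨d, hd⟩ : ∃ d, d = x + β • y := ⟨_, rfl⟩
  have hdU : d ∈ U := by rw [hd]; exact U.add_mem hx (U.smul_mem _ hy)
  have hdd : hermForm n F q d d = 0 := by
    rw [hd]
    simp only [hermForm_add_left, hermForm_add_right hF, hermForm_smul_left,
      hermForm_smul_right, hxx, hyy, ← hφ, hyx]
    rw [hβq, hβ]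
    linear_combination hωω
  have hdy : hermForm n F q d y = ω := by
    rw [hd, hermForm_add_left, hermForm_smul_left, hyy, ← hφ, hβ]; ring
  obtain ⟨κ, hκ⟩ : ∃ κ, κ = hermForm n F q d x := ⟨_, rfl⟩
  have hκe : κ = 1 + (ω - φ) * φ' := by
    rw [hκ, hd, hermForm_add_left, hermForm_smul_left, hxx, hyx, hβ]
  obtain ⟨κ', hκ'⟩ : ∃ κ', κ' = κ ^ q := ⟨_, rfl⟩
  have hκ'e : κ' = 1 + (ω' - φ') * φ := by
    rw [hκ', hκe, add_pow_q hF, mul_pow, sub_pow_q hF, one_pow, hφ'q, ← hω', ← hφ']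
  have hκ0 : κ ≠ 0 := by
    intro hk
    have hk' : κ' = 0 := by rw [hκ', hk, zero_pow_q hF]
    rw [hk] at hκe
    rw [hk'] at hκ'e
    have e1 : ω * φ' = φ * φ' - 1 := by linear_combination -hκe
    have e2 : ω' * φ = φ * φ' - 1 := by linear_combination -hκ'e
    have e3 : (φ * φ' - 1) * (φ * φ' - (φ * φ' - 1)) = 0 := by
      have : (ω * φ') * (ω' * φ) = (ω * ω') * (φ * φ') := by ring
      rw [e1, e2, hωω] at this
      linear_combination -this
    rcases mul_eq_zero.1 e3 with e | e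
    · exact h1' (by linear_combination e)
    · exact one_ne_zero (α := F) (by linear_combination e)
  have hκ1 : κ ≠ 1 := by
    intro hk
    rw [hk] at hκe
    have e1 : (ω - φ) * φ' = 0 := by linear_combination -hκe
    rcases mul_eq_zero.1 e1 with e | e
    · exact hβ0 (by rw [hβ, e])
    · exact hφ'0 e
  have hdx0 : hermForm n F q d x ≠ 0 := by rw [← hκ]; exact hκ0
  -- the elements `g a`
  have key : ∀ a : F, a ^ (q + 1) = 1 → ∃ g ∈ G, ∃ b : F, Tri q R U x y g ∧
      1 + (a - 1) * κ ≠ 0 ∧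
      (∀ v ∈ U, act g v - (v + ((a - 1) * hermForm n F q v x) • x +
        ((b - 1) * (hermForm n F q v y + (a - 1) * hermForm n F q v x * φ)) • y) ∈ R) ∧
      act g d - (1 + (a - 1) * κ) • d ∈ R := by
    intro a ha
    obtain ⟨a', ha'⟩ : ∃ a', a' = a ^ q := ⟨_, rfl⟩
    have haa : a * a' = 1 := by rw [ha', ← pow_succ', ha]
    obtain ⟨ρ, hρ⟩ : ∃ ρ, ρ = ω + (a - 1) * κ * φ := ⟨_, rfl⟩
    obtain ⟨μ, hμ⟩ : ∃ μ, μ = 1 + (a - 1) * κ := ⟨_, rfl⟩
    have hρq : ρ ^ q = ω' + (a' - 1) * κ' * φ' := by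
      rw [hρ, add_pow_q hF, mul_pow, mul_pow, sub_pow_q hF, one_pow, ← hω', ← ha', ← hκ', ← hφ']
    have hμq : μ ^ q = 1 + (a' - 1) * κ' := by
      rw [hμ, add_pow_q hF, mul_pow, sub_pow_q hF, one_pow, ← ha', ← hκ']
    have hnorm : ρ * ρ ^ q = (μ * ω) * (μ * ω) ^ q := by
      rw [mul_pow, ← hω', hρq, hμq, hρ, hμ]
      have k1 : φ' * ω - (φ * φ' - 1) = κ := by rw [hκe]; ring
      have k2 : φ * ω' - (φ * φ' - 1) = κ' := by rw [hκ'e]; ring
      have e : (a' - 1) * κ' * κ + (a - 1) * κ * κ' + (a - 1) * (a' - 1) * κ * κ' = 0 := by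
        linear_combination κ * κ' * haa
      linear_combination (1 - (1 + (a - 1) * κ) * (1 + (a' - 1) * κ')) * hωω + e +
        ((a' - 1) * κ') * k1 + ((a - 1) * κ) * k2
    have hμ0 : μ ≠ 0 := by
      intro hm
      rw [hm, zero_mul, zero_mul] at hnorm
      have hρ0 : ρ = 0 := by
        rcases mul_eq_zero.1 hnorm with e | e
        · exact e
        · exact (pow_q_eq_zero hF).1 e
      apply hβ0
      rw [hβ]
      rw [hρ0] at hρ
      rw [hm] at hμ
      linear_combination -hρ + φ * hμ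
    have hρ0 : ρ ≠ 0 := by
      intro hm
      rw [hm, zero_mul] at hnorm
      have := mul_ne_zero (mul_ne_zero hμ0 hω0) (pow_ne_zero q (mul_ne_zero hμ0 hω0))
      exact this hnorm.symm
    obtain ⟨b, hb⟩ : ∃ b, b = μ * ω / ρ := ⟨_, rfl⟩
    have hbn : b ^ (q + 1) = 1 := by
      rw [pow_succ', hb, div_pow]
      have : ρ ^ q ≠ 0 := pow_ne_zero _ hρ0
      field_simp
      linear_combination -hnorm
    have hbρ : b * ρ = μ * ω := by rw [hb]; field_simp
    obtain ⟨gx, hgx, hgx'⟩ := hrx a ha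
    obtain ⟨gy, hgy, hgy'⟩ := hry b hbn
    have hform : ∀ v ∈ U, act (gy * gx) v - (v + ((a - 1) * hermForm n F q v x) • x +
        ((b - 1) * (hermForm n F q v y + (a - 1) * hermForm n F q v x * φ)) • y) ∈ R := by
      intro v hv
      rw [act_mul]
      refine h.act_trans hgy (hgx' v hv) ?_
      have := hgy' (v + ((a - 1) * hermForm n F q v x) • x) (U.add_mem hv (U.smul_mem _ hx))
      rwa [hermForm_add_left, hermForm_smul_left, ← hφ] at this
    refine ⟨gy * gx, G.mul_mem hgy hgx, b,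
      Tri.mul h hgy hgx (Tri.of_ref hgy').symm (Tri.of_ref hgx'), ?_, hform, ?_⟩
    · rw [← hμ]; exact hμ0
    · have := hform d hdU
      rw [hdy, ← hκ] at this
      convert this using 2
      rw [hd, smul_add, smul_smul]
      have e1 : (1 + (a - 1) * κ) * β = β + (b - 1) * (ω + (a - 1) * κ * φ) := by
        have : (b - 1) * (ω + (a - 1) * κ * φ) = μ * ω - ρ := by
          rw [← hρ]; linear_combination hbρ
        rw [this, hμ, hρ, hβ]; ring
      rw [e1]
      module
  choose! g hgG b hT hμ0 hform hgd using key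
  obtain ⟨C, hC⟩ : ∃ C : Finset F, ∀ a, a ∈ C ↔ a ^ (q + 1) = 1 :=
    ⟨Finset.univ.filter fun a => a ^ (q + 1) = 1, fun a => by simp⟩
  have hCcard : C.card = q + 1 := by
    rw [← card_norm_one (F := F) hF]
    congr 1
    ext a
    rw [hC]; simp
  obtain ⟨A, hA⟩ : ∃ A : Finset F, ∀ s, s ∈ A ↔ (s ^ q = -s ∧ ∃ g ∈ G, Trn R U g d s) :=
    ⟨Finset.univ.filter fun s => s ^ q = -s ∧ ∃ g ∈ G, Trn R U g d s, fun s => by simp⟩
  obtain ⟨ν, hν⟩ : ∃ ν : F → F, ∀ a, ν a = (1 + (a - 1) * κ) ^ (q + 1) := ⟨_, fun _ => rfl⟩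
  refine ⟨β, hβ0, by rw [← hd]; exact hdd, by rw [← hd]; exact hdx0, ?_⟩
  rw [← hd]
  have hall : ∀ s : F, s ^ q = -s → s ∈ A := by
    apply count_lemma hF A (C.image ν)
    · intro s hs
      exact ((hA s).1 hs).1
    · rw [hA]
      exact ⟨by rw [zero_pow_q hF, neg_zero], 1, G.one_mem, Trn.one h d⟩
    · intro s hs s' hs'
      obtain ⟨e1, g1, hg1, ht1⟩ := (hA s).1 hs
      obtain ⟨e2, g2, hg2, ht2⟩ := (hA s').1 hs'
      rw [hA]
      exact ⟨by rw [add_pow_q hF, e1, e2]; ring, g1 * g2, G.mul_mem hg1 hg2,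
        Trn.mul hF h hg1 hdU hdd ht1 ht2⟩
    · intro s hs
      obtain ⟨e1, g1, hg1, ht1⟩ := (hA s).1 hs
      rw [hA]
      exact ⟨by rw [neg_pow_q hF, e1], g1⁻¹, G.inv_mem hg1, Trn.inv hF h hg1 hdU hdd ht1⟩
    · intro m hm
      obtain ⟨a, ha, rfl⟩ := Finset.mem_image.1 hm
      rw [hC] at ha
      rw [hν]
      refine ⟨norm_pow_q hF _, pow_ne_zero _ (hμ0 a ha), fun s hs => ?_⟩
      obtain ⟨e1, g1, hg1, ht1⟩ := (hA s).1 hs
      rw [hA]
      refine ⟨by rw [mul_pow, norm_pow_q hF, e1]; ring, g a * g1 * (g a)⁻¹,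
        G.mul_mem (G.mul_mem (hgG a ha) hg1) (G.inv_mem (hgG a ha)), ?_⟩
      exact Trn.congr hF h hdU (hgd a ha) (mul_comm _ _) (Trn.conj hF h hg1 (hgG a ha) hdU ht1)
    · rw [← hCcard]
      apply Finset.card_le_mul_card_image
      intro m hm
      obtain ⟨a₀, ha₀, rfl⟩ := Finset.mem_image.1 hm
      rw [hC] at ha₀
      -- the fibre
      have fib : ∀ a : F, a ^ (q + 1) = 1 → ν a = ν a₀ → ∃ s, s ∈ A ∧
          ∀ α β : F, act (g a) (α • x + β • d) - ((1 + (a - 1) * κ) / (1 + (a₀ - 1) * κ)) •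
            act (g a₀) (α • x + β • d + (s * (α * hermForm n F q x d)) • d) ∈ R := by
        intro a ha hνa
        rw [hν, hν] at hνa
        obtain ⟨μ, hμ⟩ : ∃ μ, μ = (1 + (a - 1) * κ) / (1 + (a₀ - 1) * κ) := ⟨_, rfl⟩
        have hμn : μ ^ (q + 1) = 1 := by
          rw [hμ, div_pow, hνa, div_self (pow_ne_zero _ (hμ0 a₀ ha₀))]
        have hk : (g a₀)⁻¹ * g a ∈ G := G.mul_mem (G.inv_mem (hgG a₀ ha₀)) (hgG a ha)
        have hkd : act ((g a₀)⁻¹ * g a) d - μ • d ∈ R := by
          rw [act_mul]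
          refine h.act_trans (G.inv_mem (hgG a₀ ha₀)) (hgd a ha) ?_
          have e := h.act_congr (G.inv_mem (hgG a₀ ha₀)) (hgd a₀ ha₀)
          rw [act_inv_act, act_smul] at e
          have e2 := R.smul_mem μ (R.neg_mem e)
          convert e2 using 1
          rw [act_smul, hμ]
          have := hμ0 a₀ ha₀
          rw [neg_sub, smul_sub, smul_smul, div_mul_cancel₀ _ this]
        obtain ⟨s, hs1, hs2, hs3⟩ := fix_line hF h hx hy hβ0 hd hxx hdd hdx0 hk
          (Tri.mul h (G.inv_mem (hgG a₀ ha₀)) (hgG a ha) (Tri.inv h (hgG a₀ ha₀) (hT a₀ ha₀))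
            (hT a ha)) hμn hkd
        refine ⟨s, (hA s).2 ⟨hs1, _, G.pow_mem hk _, hs3⟩, fun α β => ?_⟩
        have e := h.act_congr (hgG a₀ ha₀) (hs2 α β)
        rw [act_mul, act_act_inv, act_smul, hμ] at e
        exact e
      choose! σ hσA hσ using fib
      refine Finset.card_le_card_of_injOn σ ?_ ?_
      · intro a ha
        rw [Finset.mem_coe, Finset.mem_filter, hC] at ha
        exact hσA a ha.1 ha.2
      · intro a ha a₁ ha₁ heq
        rw [Finset.mem_coe, Finset.mem_filter, hC] at ha ha₁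
        have f1 := hσ a ha.1 ha.2
        have f2 := hσ a₁ ha₁.1 ha₁.2
        rw [← heq] at f2
        have n0 := hμ0 a₀ ha₀
        have n1 := hμ0 a ha.1
        have n2 := hμ0 a₁ ha₁.1
        obtain ⟨τ, hτ⟩ : ∃ τ, τ = (1 + (a - 1) * κ) / (1 + (a₁ - 1) * κ) := ⟨_, rfl⟩
        -- proportionality
        have f3 : ∀ α β : F, act (g a) (α • x + β • d) - τ • act (g a₁) (α • x + β • d) ∈ R := by
          intro α β
          have e := R.sub_mem (f1 α β) (R.smul_mem τ (f2 α β))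
          convert e using 1
          have e2 : τ * ((1 + (a₁ - 1) * κ) / (1 + (a₀ - 1) * κ)) =
              (1 + (a - 1) * κ) / (1 + (a₀ - 1) * κ) := by
            rw [hτ, div_mul_div_cancel₀ n2]
          rw [smul_sub, smul_smul, e2]
          abel
        -- evaluate at `x`
        have f4 := f3 1 0
        rw [one_smul, zero_smul, add_zero] at f4
        have f5 := hform a ha.1 x hx
        have f6 := hform a₁ ha₁.1 x hx
        rw [hxx, ← hφ] at f5 f6
        have f7 : (x + ((a - 1) * 1) • x + ((b a - 1) * (φ + (a - 1) * 1 * φ)) • y) -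
            τ • (x + ((a₁ - 1) * 1) • x + ((b a₁ - 1) * (φ + (a₁ - 1) * 1 * φ)) • y) ∈ R := by
          have e := R.add_mem (R.sub_mem f4 f5) (R.smul_mem τ f6)
          convert e using 1
          module
        have f8 : (a - τ * a₁) • x + (φ * ((b a - 1) * a - τ * (b a₁ - 1) * a₁)) • y ∈ R := by
          convert f7 using 1
          module
        -- independence modulo `R`
        have hind : ∀ c c' : F, c • x + c' • y ∈ R → c = 0 := by
          intro c c' hc
          have e1 := h.orth _ hc x hx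
          have e2 := h.orth _ hc y hy
          rw [hermForm_add_left, hermForm_smul_left, hermForm_smul_left, hxx, hyx] at e1
          rw [hermForm_add_left, hermForm_smul_left, hermForm_smul_left, hyy, ← hφ] at e2
          have e3 : c * (1 - φ * φ') = 0 := by linear_combination e1 - φ' * e2
          rcases mul_eq_zero.1 e3 with e | e
          · exact e
          · exact absurd (by linear_combination -e) h1'
        have f9 : a = τ * a₁ := by
          have := hind _ _ f8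
          linear_combination this
        have f10 : τ * (1 + (a₁ - 1) * κ) = 1 + (a - 1) * κ := by
          rw [hτ, div_mul_cancel₀ _ n2]
        have f11 : (1 - τ) * (1 - κ) = 0 := by
          rw [f9] at f10
          linear_combination -f10
        rcases mul_eq_zero.1 f11 with e | e
        · have : τ = 1 := by linear_combination -e
          rw [f9, this, one_mul]
        · exact absurd (by linear_combination -e) hκ1
  intro s hs
  exact ((hA s).1 (hall s hs)).2

theorem exists_norm_one_eval (hF : Fintype.card F = q ^ 2) (p : Polynomial F) (hp : p ≠ 0)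
    (hdeg : p.natDegree < q + 1) : ∃ a : F, a ^ (q + 1) = 1 ∧ p.eval a ≠ 0 := by
  classical
  by_contra hcon
  push Not at hcon
  have h1 : (Finset.univ.filter fun a : F => a ^ (q + 1) = 1) ⊆ p.roots.toFinset := by
    intro a ha
    rw [Finset.mem_filter] at ha
    rw [Multiset.mem_toFinset, Polynomial.mem_roots hp]
    exact hcon a ha.2
  have h2 := Finset.card_le_card h1
  rw [card_norm_one hF] at h2
  have h3 := Multiset.toFinset_card_le p.roots
  have h4 := Polynomial.card_roots' p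
  omega

theorem exists_norm_one_sub (hF : Fintype.card F = q ^ 2) (hq : 3 ≤ q) :
    ∃ a : F, a ^ (q + 1) = 1 ∧ a ≠ 1 ∧ (a - 1) ^ (q + 1) ≠ 1 := by
  obtain ⟨a, ha, hp⟩ := exists_norm_one_eval (F := F) hF
    ((Polynomial.X - Polynomial.C 1) * (Polynomial.X ^ 2 - Polynomial.X + Polynomial.C 1)) (by
      apply mul_ne_zero (Polynomial.X_sub_C_ne_zero 1)
      intro h
      have := congrArg (fun p => Polynomial.coeff p 2) h
      simp [Polynomial.coeff_X, Polynomial.coeff_one] at this) (by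
      have h1 : (((Polynomial.X - Polynomial.C 1) * (Polynomial.X ^ 2 - Polynomial.X +
        Polynomial.C 1) : Polynomial F)).natDegree ≤ 1 + 2 := by
        refine Polynomial.natDegree_mul_le.trans (add_le_add ?_ ?_)
        · compute_degree
        · compute_degree
      omega)
  rw [Polynomial.eval_mul] at hp
  simp only [Polynomial.eval_sub, Polynomial.eval_X, Polynomial.eval_C, Polynomial.eval_add,
    Polynomial.eval_pow] at hp
  have h1 := left_ne_zero_of_mul hp
  have h2 := right_ne_zero_of_mul hp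
  refine ⟨a, ha, sub_ne_zero.1 h1, fun h => h2 ?_⟩
  rw [pow_succ', sub_pow_q hF, one_pow] at h
  have ha' : a * a ^ q = 1 := by rw [← pow_succ']; exact ha
  linear_combination (-a) * h + (a - 1) * ha'

/-- Groups with quasi-reflection tori on an orthonormal family: monomial or a transvection. -/
theorem refl_group (hF : Fintype.card F = q ^ 2) (hq : 3 ≤ q) (h : Ctx R U G)
    {b : Fin n → Fin n → F} (hb : IsON q b) {I : Finset (Fin n)} (hbU : ∀ i ∈ I, b i ∈ U)
    (hr : ∀ i ∈ I, ∀ a : F, a ^ (q + 1) = 1 → ∃ g ∈ G, Ref R U g (b i) a) {g : SU n F q}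
    (hg : g ∈ G) {i j l : Fin n} (hi : i ∈ I) (hj : j ∈ I) (hl : l ∈ I) (hjl : j ≠ l)
    (h1 : hermForm n F q (act g (b i)) (b j) ≠ 0) (h2 : hermForm n F q (act g (b i)) (b l) ≠ 0) :
    ∃ d ∈ U, hermForm n F q d d = 0 ∧ d ∉ R ∧
      ∀ s : F, s ^ q = -s → ∃ g ∈ G, Trn R U g d s := by
  obtain ⟨y, hy⟩ : ∃ y, y = act g (b i) := ⟨_, rfl⟩
  rw [← hy] at h1 h2
  have hyU : y ∈ U := by rw [hy]; exact h.gU g hg _ (hbU i hi)
  have hyy : hermForm n F q y y = 1 := by rw [hy, act_form, hb, if_pos rfl]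
  have hbb : ∀ k, hermForm n F q (b k) (b k) = 1 := fun k => by rw [hb, if_pos rfl]
  have hry : ∀ a : F, a ^ (q + 1) = 1 → ∃ g ∈ G, Ref R U g y a := by
    intro a ha
    obtain ⟨t, ht, hta⟩ := hr i hi a ha
    refine ⟨g * t * g⁻¹, G.mul_mem (G.mul_mem hg ht) (G.inv_mem hg), ?_⟩
    rw [hy]
    exact Ref.conj hF h ht hg (hbU i hi) hta
  have fin : ∀ x z : Fin n → F, x ∈ U → z ∈ U → hermForm n F q x x = 1 →
      hermForm n F q z z = 1 → hermForm n F q x z ≠ 0 → hermForm n F q x z ^ (q + 1) ≠ 1 →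
      (∀ a : F, a ^ (q + 1) = 1 → ∃ g ∈ G, Ref R U g x a) →
      (∀ a : F, a ^ (q + 1) = 1 → ∃ g ∈ G, Ref R U g z a) →
      ∃ d ∈ U, hermForm n F q d d = 0 ∧ d ∉ R ∧
      ∀ s : F, s ^ q = -s → ∃ g ∈ G, Trn R U g d s := by
    intro x z hx hz hxx hzz e1 e2 e3 e4
    obtain ⟨c, -, hc1, hc2, hc3⟩ := plane hF h hx hz hxx hzz e1 e2 e3 e4
    exact ⟨x + c • z, U.add_mem hx (U.smul_mem _ hz), hc1,
      fun hR => hc2 (h.orth _ hR x hx), hc3⟩
  by_cases h3 : hermForm n F q y (b j) ^ (q + 1) = 1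
  · obtain ⟨a, ha, ha1, haN⟩ := exists_norm_one_sub (F := F) hF hq
    by_cases h4 : hermForm n F q y (b l) ^ (q + 1) = 1
    · obtain ⟨t, ht, hta⟩ := hry a ha
      obtain ⟨z, hz⟩ : ∃ z, z = act t (b j) := ⟨_, rfl⟩
      have hzU : z ∈ U := by rw [hz]; exact h.gU t ht _ (hbU j hj)
      have hzz : hermForm n F q z z = 1 := by rw [hz, act_form, hbb]
      have hzl : hermForm n F q z (b l) = (a - 1) * hermForm n F q (b j) y *
          hermForm n F q y (b l) := by
        rw [hz, h.form_left (hta _ (hbU j hj)) (hbU l hl), hermForm_add_left, hermForm_smul_left,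
          hb j l, if_neg hjl, zero_add]
      have hjy : hermForm n F q (b j) y = hermForm n F q y (b j) ^ q :=
        (hermForm_symm hF _ _).symm
      have hzlN : hermForm n F q z (b l) ^ (q + 1) = (a - 1) ^ (q + 1) := by
        rw [hzl, mul_pow, mul_pow, hjy, ← pow_mul, mul_comm q (q + 1), pow_mul, h3, one_pow, h4,
          mul_one, mul_one]
      refine fin z (b l) hzU (hbU l hl) hzz (hbb l) ?_ (by rw [hzlN]; exact haN) ?_ (hr l hl)
      · rw [hzl, hjy]
        exact mul_ne_zero (mul_ne_zero (sub_ne_zero.2 ha1) (pow_ne_zero _ h1)) h2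
      · intro c hc
        obtain ⟨t', ht', hta'⟩ := hr j hj c hc
        refine ⟨t * t' * t⁻¹, G.mul_mem (G.mul_mem ht ht') (G.inv_mem ht), ?_⟩
        rw [hz]
        exact Ref.conj hF h ht' ht (hbU j hj) hta'
    · exact fin y (b l) hyU (hbU l hl) hyy (hbb l) h2 h4 hry (hr l hl)
  · exact fin y (b j) hyU (hbU j hj) hyy (hbb j) h1 h3 hry (hr j hj)

end

end Cfsg.Agent.H98.UF
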