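import Mathlib
import Cfsg.Agent.H98.UFC

set_option autoImplicit false
set_option linter.unusedSectionVars false
set_option linter.unusedVariables false
set_option linter.style.haveILetI false
set_option maxHeartbeats 1000000

/-!
Orthonormal frames and monomial elements.
-/

namespace Cfsg.Agent.H98.UF

open scoped Matrix
open Cfsg.Agent.Uni Module

variable {F : Type*} [Field F] [Fintype F] {q n : ℕ}

theorem IsON.self {b : Fin n → Fin n → F} (hb : IsON q b) (i : Fin n) :
    hermForm n F q (b i) (b i) = 1 := by rw [hb, if_pos rfl]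

theorem IsON.ne {b : Fin n → Fin n → F} (hb : IsON q b) {i j : Fin n} (h : i ≠ j) :
    hermForm n F q (b i) (b j) = 0 := by rw [hb, if_neg h]

theorem IsON.act {b : Fin n → Fin n → F} (hb : IsON q b) (g : SU n F q) :
    IsON q (fun i => Uni.act g (b i)) := fun i j => by
  change hermForm n F q (Uni.act g (b i)) (Uni.act g (b j)) = _
  rw [act_form, hb i j]

theorem IsON.ext (hF : Fintype.card F = q ^ 2) {b : Fin n → Fin n → F} (hb : IsON q b)
    {v w : Fin n → F} (h : ∀ i, hermForm n F q v (b i) = hermForm n F q w (b i)) : v = w := by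
  rw [← IsON.sum_eq hF hb v, ← IsON.sum_eq hF hb w]
  exact Finset.sum_congr rfl fun i _ => by rw [h i]

theorem IsON.ne_zero {b : Fin n → Fin n → F} (hb : IsON q b) (i : Fin n) : b i ≠ 0 := by
  intro h
  have := IsON.self hb i
  rw [h, hermForm_zero_left] at this
  exact zero_ne_one this

/-- expansion of the form -/
theorem IsON.form_eq (hF : Fintype.card F = q ^ 2) {b : Fin n → Fin n → F} (hb : IsON q b)
    (v w : Fin n → F) : hermForm n F q v w =
      ∑ i, hermForm n F q v (b i) * hermForm n F q w (b i) ^ q := by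
  conv_lhs => rw [← IsON.sum_eq hF hb w]
  rw [hermForm_sum_right hF]
  refine Finset.sum_congr rfl fun i _ => ?_
  rw [hermForm_smul_right]; ring

theorem act_sum {ι : Type*} (s : Finset ι) (f : ι → Fin n → F) (g : SU n F q) :
    act g (∑ i ∈ s, f i) = ∑ i ∈ s, act g (f i) := by
  classical
  induction s using Finset.induction_on with
  | empty => simp [act_zero]
  | insert a s ha ih => rw [Finset.sum_insert ha, Finset.sum_insert ha, act_add, ih]

/-- `SU` elements agreeing on a frame are equal. -/
theorem IsON.act_ext (hF : Fintype.card F = q ^ 2) {b : Fin n → Fin n → F} (hb : IsON q b)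
    {g h : SU n F q} (H : ∀ i, Uni.act g (b i) = Uni.act h (b i)) : g = h := by
  apply Uni.act_ext
  intro x
  rw [← IsON.sum_eq hF hb x, act_sum, act_sum]
  exact Finset.sum_congr rfl fun i _ => by rw [act_smul, act_smul, H i]

/-- `act g` as a linear map -/
def actL (g : SU n F q) : (Fin n → F) →ₗ[F] (Fin n → F) where
  toFun := act g
  map_add' := act_add g
  map_smul' := act_smul g

/-- The monomial elements of a frame. -/
def Mono (b : Fin n → Fin n → F) : Subgroup (SU n F q) where
  carrier := {g | ∀ i, ∃ j, ∃ c : F, c ≠ 0 ∧ act g (b i) = c • b j}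
  mul_mem' := by
    intro g h hg hh i
    obtain ⟨j, c, hc, e⟩ := hh i
    obtain ⟨k, d, hd, e2⟩ := hg j
    exact ⟨k, c * d, mul_ne_zero hc hd, by rw [act_mul, e, act_smul, e2, smul_smul]⟩
  one_mem' := fun i => ⟨i, 1, one_ne_zero, by rw [act_one, one_smul]⟩
  inv_mem' := by
    intro g hg
    -- powers of `g` are monomial and `g` has finite order
    have hpow : ∀ k : ℕ, ∀ i, ∃ j, ∃ c : F, c ≠ 0 ∧ act (g ^ k) (b i) = c • b j := by
      intro k
      induction k with
      | zero => intro i; exact ⟨i, 1, one_ne_zero, by rw [pow_zero, act_one, one_smul]⟩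
      | succ k ih =>
        intro i
        obtain ⟨j, c, hc, e⟩ := hg i
        obtain ⟨l, d, hd, e2⟩ := ih j
        exact ⟨l, c * d, mul_ne_zero hc hd, by rw [pow_succ, act_mul, e, act_smul, e2, smul_smul]⟩
    have h1 : g⁻¹ = g ^ (Nat.card (SU n F q) - 1) := by
      have h2 : g ^ Nat.card (SU n F q) = 1 := pow_card_eq_one'
      have h3 : 0 < Nat.card (SU n F q) := Nat.card_pos
      have h4 : g ^ (Nat.card (SU n F q) - 1) * g = 1 := by
        rw [← pow_succ, Nat.sub_add_cancel h3, h2]
      exact (eq_inv_of_mul_eq_one_left h4).symm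
    change ∀ i, ∃ j, ∃ c : F, c ≠ 0 ∧ act g⁻¹ (b i) = c • b j
    rw [h1]
    exact hpow _

theorem mem_Mono {b : Fin n → Fin n → F} {g : SU n F q} :
    g ∈ Mono b ↔ ∀ i, ∃ j, ∃ c : F, c ≠ 0 ∧ act g (b i) = c • b j := Iff.rfl

theorem mem_Mono_act {b : Fin n → Fin n → F} {g k : SU n F q} :
    k ∈ Mono (fun i => act g (b i)) ↔ g⁻¹ * k * g ∈ Mono b := by
  rw [mem_Mono, mem_Mono]
  refine forall_congr' fun i => exists_congr fun j => exists_congr fun c => and_congr_right fun _ => ?_
  rw [act_mul, act_mul]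
  constructor
  · intro h
    rw [h, act_smul, act_inv_act]
  · intro h
    have := congrArg (act g) h
    rwa [act_act_inv, act_smul] at this

/-- The two index torus. -/
theorem exists_D (hF : Fintype.card F = q ^ 2) {b : Fin n → Fin n → F} (hb : IsON q b)
    {i j : Fin n} (hij : i ≠ j) {a : F} (ha : a ^ (q + 1) = 1) :
    ∃ t : SU n F q, (∀ v, act t v = v + ((a - 1) * hermForm n F q v (b i)) • b i +
      ((a⁻¹ - 1) * hermForm n F q v (b j)) • b j) := by
  obtain ⟨g, hg, hgd⟩ := exists_grefl hF (IsON.self hb i) ha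
  obtain ⟨g', hg', hgd'⟩ := exists_grefl hF (IsON.self hb j) (a := a⁻¹) (by rw [inv_pow, ha, inv_one])
  have ha0 : a ≠ 0 := by
    rintro rfl
    rw [zero_pow (by omega)] at ha
    exact zero_ne_one ha
  obtain ⟨t, ht⟩ := UTP.exists_SU_of_GU hF (g' * g) (by
    rw [map_mul]
    change ((detHom hF n g' : Fˣ) : F) * ((detHom hF n g : Fˣ) : F) = 1
    rw [hgd, hgd', inv_mul_cancel₀ ha0])
  refine ⟨t, fun v => ?_⟩
  rw [ht, gact_mul, hg, hg', hermForm_add_left, hermForm_smul_left, IsON.ne hb hij, mul_zero,
    add_zero]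

/-- general monomial elements -/
theorem exists_mono (hF : Fintype.card F = q ^ 2) {b : Fin n → Fin n → F} (hb : IsON q b)
    (σ : Equiv.Perm (Fin n)) {α : Fin n → F} (hα : ∀ i, α i ^ (q + 1) = 1) {l : Fin n}
    (hl : σ l = l) : ∃ k ∈ (Mono b : Subgroup (SU n F q)),
      ∀ m, m ≠ l → act k (b m) = α m • b (σ m) := by
  have hα0 : ∀ i, α i ≠ 0 := by
    intro i h
    have := hα i
    rw [h, zero_pow (by omega)] at this
    exact zero_ne_one this
  obtain ⟨g, hg⟩ := exists_GU_of_ON hF (v := b) (w := fun i => α i • b (σ i)) hb (by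
    intro i j
    rw [hermForm_smul_left, hermForm_smul_right, hb]
    by_cases hij : i = j
    · subst hij
      rw [if_pos rfl, if_pos rfl, mul_one, ← pow_succ', hα]
    · rw [if_neg hij, if_neg (fun h => hij (σ.injective h)), mul_zero, mul_zero]) le_rfl
  have hg' : ∀ i, gact g (b i) = α i • b (σ i) := hg
  obtain ⟨k, hk⟩ := USub.exists_SU_adjust hF g (e := b l) (by rw [IsON.self hb]; exact one_ne_zero)
  have hkm : ∀ m, m ≠ l → act k (b m) = α m • b (σ m) := by
    intro m hm
    rw [hk, hg']
    rw [hg', hermForm_smul_left, IsON.ne hb, mul_zero]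
    intro h
    apply hm
    rw [← hl] at h
    exact σ.injective h
  refine ⟨k, ?_, hkm⟩
  intro i
  by_cases hi : i = l
  · subst hi
    refine ⟨i, hermForm n F q (act k (b i)) (b i), ?_, ?_⟩
    · intro h0
      have h1 : act k (b i) = 0 := by
        apply IsON.ext hF hb
        intro j
        rw [hermForm_zero_left]
        by_cases hj : j = i
        · rw [hj, h0]
        · have h2 : σ.symm j ≠ i := by
            intro h
            apply hj
            rw [← hl, ← h, Equiv.apply_symm_apply]
          have h3 := hkm _ h2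
          rw [Equiv.apply_symm_apply] at h3
          have h4 : b j = (α (σ.symm j))⁻¹ • act k (b (σ.symm j)) := by
            rw [h3, smul_smul, inv_mul_cancel₀ (hα0 _), one_smul]
          rw [h4, hermForm_smul_right, act_form, IsON.ne hb (Ne.symm h2), mul_zero]
      have h2 : act k (b i) = act k 0 := by rw [h1, act_zero]
      exact IsON.ne_zero hb i (act_inj.1 h2)
    · apply IsON.ext hF hb
      intro j
      rw [hermForm_smul_left]
      by_cases hj : j = i
      · rw [hj, IsON.self hb, mul_one]
      · rw [IsON.ne hb (Ne.symm hj), mul_zero]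
        have h2 : σ.symm j ≠ i := by
          intro h
          apply hj
          rw [← hl, ← h, Equiv.apply_symm_apply]
        have h3 := hkm _ h2
        rw [Equiv.apply_symm_apply] at h3
        have h4 : b j = (α (σ.symm j))⁻¹ • act k (b (σ.symm j)) := by
          rw [h3, smul_smul, inv_mul_cancel₀ (hα0 _), one_smul]
        rw [h4, hermForm_smul_right, act_form, IsON.ne hb (Ne.symm h2), mul_zero]
  · exact ⟨σ i, α i, hα0 i, hkm i hi⟩

/-- A generator of the norm one group. -/
theorem exists_gen (hF : Fintype.card F = q ^ 2) (hq : 3 ≤ q) :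
    ∃ a : F, a ^ (q + 1) = 1 ∧ a ^ 2 ≠ 1 ∧ 1 + a + a⁻¹ ≠ 0 := by
  classical
  obtain ⟨u, hu⟩ := IsCyclic.exists_generator (α := Fˣ)
  have h1 : orderOf u = (q + 1) * (q - 1) := by
    rw [orderOf_eq_card_of_forall_mem_zpowers hu, card_units hF]
  have h2 : orderOf (u ^ (q - 1)) = q + 1 := by
    rw [orderOf_pow, h1, Nat.gcd_eq_right (Dvd.intro_left _ rfl),
      Nat.mul_div_cancel _ (by omega)]
  refine ⟨((u ^ (q - 1) : Fˣ) : F), ?_, ?_, ?_⟩
  · rw [← Units.val_pow_eq_pow_val, ← h2, pow_orderOf_eq_one, Units.val_one]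
  · intro h
    rw [← Units.val_pow_eq_pow_val, Units.val_eq_one] at h
    have := Nat.le_of_dvd (by norm_num) (orderOf_dvd_of_pow_eq_one h)
    omega
  · intro h
    obtain ⟨a, ha⟩ : ∃ a : F, a = ((u ^ (q - 1) : Fˣ) : F) := ⟨_, rfl⟩
    have ha0 : a ≠ 0 := by rw [ha]; exact Units.ne_zero _
    rw [← ha] at h
    have h3 : a ^ 3 = 1 := by
      have h4 : a ^ 2 + a + 1 = 0 := by
        field_simp at h
        linear_combination h
      linear_combination (a - 1) * h4
    rw [ha, ← Units.val_pow_eq_pow_val, Units.val_eq_one] at h3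
    have := Nat.le_of_dvd (by norm_num) (orderOf_dvd_of_pow_eq_one h3)
    omega

/-- coordinates under a diagonal element -/
theorem coord_diag (hF : Fintype.card F = q ^ 2) {b : Fin n → Fin n → F} (hb : IsON q b)
    {t : SU n F q} {α : Fin n → F} (hα : ∀ i, act t (b i) = α i • b i) (v : Fin n → F)
    (i : Fin n) : hermForm n F q (act t v) (b i) = α i * hermForm n F q v (b i) := by
  conv_lhs => rw [← IsON.sum_eq hF hb v]
  rw [act_sum, hermForm_sum_left, Finset.sum_eq_single i]
  · rw [act_smul, hα, hermForm_smul_left, hermForm_smul_left, IsON.self hb]; ring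
  · intro j _ hj
    rw [act_smul, hα, hermForm_smul_left, hermForm_smul_left, IsON.ne hb hj, mul_zero, mul_zero]
  · intro h; exact absurd (Finset.mem_univ i) h

/-- Diagonal elements of a frame which are monomial for another frame. -/
theorem mono_fix (hF : Fintype.card F = q ^ 2) {b b' : Fin n → Fin n → F} (hb : IsON q b)
    (hb' : IsON q b') {t : SU n F q} {a : F} (ha0 : a ≠ 0) (ha2 : a ^ 2 ≠ 1) (ha3 : 1 + a + a⁻¹ ≠ 0)
    {α : Fin n → F} (hα : ∀ i, act t (b i) = α i • b i) (hα' : ∀ i, α i = 1 ∨ α i = a ∨ α i = a⁻¹)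
    (ht : t ∈ (Mono b' : Subgroup (SU n F q))) {k i : Fin n} (hi : α i = 1)
    (hne : hermForm n F q (b' k) (b i) ≠ 0) : act t (b' k) = b' k := by
  obtain ⟨v, hv⟩ : ∃ v, v = b' k := ⟨_, rfl⟩
  rw [← hv] at hne ⊢
  have hvv : hermForm n F q v v = 1 := by rw [hv, IsON.self hb']
  have hco := fun w => coord_diag hF hb hα w
  obtain ⟨k1, c1, hc1, e1⟩ := ht k
  rw [← hv] at e1
  have hone : ∀ c : F, act t v = c • v → act t v = v := by
    intro c hc
    have h1 := hco v i
    rw [hc, hermForm_smul_left, hi, one_mul] at h1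
    have : c = 1 := mul_right_cancel₀ hne (by rw [h1, one_mul])
    rw [hc, this, one_smul]
  by_cases hk1 : k1 = k
  · rw [hk1, ← hv] at e1
    exact hone c1 e1
  obtain ⟨k2, c2, hc2, e2⟩ := ht k1
  obtain ⟨k3, c3, hc3, e3⟩ := ht k2
  have et2 : act t (act t v) = (c1 * c2) • b' k2 := by rw [e1, act_smul, e2, smul_smul]
  have et3 : act t (act t (act t v)) = (c1 * c2 * c3) • b' k3 := by
    rw [et2, act_smul, e3, smul_smul]
  by_cases hk2 : k2 = k
  · -- `t²v = v`
    rw [hk2, ← hv] at et2
    have h1 := hco (act t v) i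
    rw [hco v i, et2, hermForm_smul_left, hi, one_mul, one_mul] at h1
    have h2 : c1 * c2 = 1 := mul_right_cancel₀ hne (by rw [h1, one_mul])
    rw [h2, one_smul] at et2
    apply IsON.ext hF hb
    intro m
    rw [hco]
    have h3 := hco (act t v) m
    rw [hco v m, et2] at h3
    by_cases hm : hermForm n F q v (b m) = 0
    · rw [hm, mul_zero]
    · have h4 : α m ^ 2 = 1 := mul_right_cancel₀ hm (by linear_combination -h3)
      rcases hα' m with h | h | h
      · rw [h, one_mul]
      · rw [h] at h4; exact absurd h4 ha2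
      · rw [h, inv_pow, inv_eq_one] at h4; exact absurd h4 ha2
  exfalso
  have hk21 : k2 ≠ k1 := by
    intro h
    rw [h] at e2
    -- `t (b' k1) = c2 b' k1`, hence `t v` is a multiple of `v`
    have h1 : act t (b' k1 - (c2 / c1) • v) = 0 := by
      rw [act_sub, act_smul, e1, e2, smul_smul, div_mul_cancel₀ _ hc1, sub_self]
    have h2 : b' k1 - (c2 / c1) • v = 0 := by
      apply act_inj (g := t).1
      rw [h1, act_zero]
    have h3 : hermForm n F q (b' k1) (b' k1) = 0 := by
      have h4 : b' k1 = (c2 / c1) • b' k := by rw [← hv]; exact sub_eq_zero.1 h2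
      have h5 : hermForm n F q (b' k1) (b' k1) = (c2 / c1) * hermForm n F q (b' k) (b' k1) := by
        rw [← hermForm_smul_left, ← h4]
      rw [h5, IsON.ne hb' (Ne.symm hk1), mul_zero]
    rw [IsON.self hb'] at h3
    exact one_ne_zero h3
  obtain ⟨σ, hσ⟩ : ∃ σ : F, σ = 1 + a + a⁻¹ := ⟨_, rfl⟩
  have hpoly : act t (act t (act t v)) = σ • act t (act t v) - σ • act t v + v := by
    apply IsON.ext hF hb
    intro m
    rw [hermForm_add_left, hermForm_sub_left, hermForm_smul_left, hermForm_smul_left]
    rw [hco, hco, hco v m]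
    have : α m ^ 3 = σ * α m ^ 2 - σ * α m + 1 := by
      rcases hα' m with h | h | h
      · rw [h]; ring
      · rw [h, hσ]; field_simp; ring
      · rw [h, hσ]; field_simp; ring
    linear_combination hermForm n F q v (b m) * this
  have o1 : hermForm n F q (act t v) v = 0 := by
    rw [e1, hv, hermForm_smul_left, IsON.ne hb' hk1, mul_zero]
  have o2 : hermForm n F q (act t (act t v)) v = 0 := by
    rw [et2, hv, hermForm_smul_left, IsON.ne hb' hk2, mul_zero]
  have h5 : hermForm n F q (act t (act t (act t v))) v = 1 := by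
    rw [hpoly, hermForm_add_left, hermForm_sub_left, hermForm_smul_left, hermForm_smul_left, o1, o2,
      hvv]; ring
  have hk3 : k3 = k := by
    by_contra hne3
    rw [et3, hv, hermForm_smul_left, IsON.ne hb' hne3, mul_zero] at h5
    exact zero_ne_one h5
  rw [hk3, ← hv] at et3
  have h6 : c1 * c2 * c3 = 1 := by
    rw [et3, hermForm_smul_left, hvv, mul_one] at h5
    exact h5
  rw [h6, one_smul] at et3
  rw [et3] at hpoly
  have h7 : act t (act t v) = act t v := by
    have h8 : σ • (act t (act t v) - act t v) = 0 := by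
      rw [smul_sub]
      have := hpoly
      have h9 : σ • act t (act t v) - σ • act t v + v - v = 0 := by rw [← this, sub_self]
      rwa [add_sub_cancel_right] at h9
    rcases smul_eq_zero.1 h8 with h | h
    · rw [hσ] at h; exact absurd h ha3
    · exact sub_eq_zero.1 h
  have h8 : act t v = v := act_inj.1 h7
  rw [h8] at o1
  rw [hvv] at o1
  exact one_ne_zero o1

end Cfsg.Agent.H98.UF
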