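import Mathlib
import Cfsg.Agent.H98.UFD

set_option autoImplicit false
set_option linter.unusedSectionVars false
set_option linter.unusedVariables false
set_option linter.style.haveILetI false
set_option maxHeartbeats 1000000

/-!
Frames whose point stabilisers are monomial.
-/

namespace Cfsg.Agent.H98.UF

open scoped Matrix
open Cfsg.Agent.Uni Module
open Cfsg.Agent.USub (XT)

variable {F : Type*} [Field F] [Fintype F] {q n : ℕ}

theorem mem_XT_of {M : Subgroup (SU n F q)} {d : Fin n → F} (hd : hermForm n F q d d = 0)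
    (h : ∀ s : F, s ^ q = -s → ∃ g ∈ M, ∀ v, act g v = v + (s * hermForm n F q v d) • d) :
    d ∈ XT M := by
  refine ⟨hd, fun c hc g hg => ?_⟩
  obtain ⟨g', hg', h'⟩ := h c hc
  have : g = g' := act_ext fun x => by rw [hg, h']
  rw [this]; exact hg'

theorem exists_two {b : Fin n → Fin n → F} (hF : Fintype.card F = q ^ 2) (hb : IsON q b)
    {v : Fin n → F} (hv0 : v ≠ 0) (hv : ∀ j, ∀ c : F, v ≠ c • b j) :
    ∃ j l, j ≠ l ∧ hermForm n F q v (b j) ≠ 0 ∧ hermForm n F q v (b l) ≠ 0 := by
  by_contra hcon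
  push Not at hcon
  obtain ⟨j, hj⟩ : ∃ j, hermForm n F q v (b j) ≠ 0 := by
    by_contra h
    push Not at h
    exact hv0 (IsON.ext hF hb fun i => by rw [h i, hermForm_zero_left])
  refine hv j (hermForm n F q v (b j)) (IsON.ext hF hb fun i => ?_)
  rw [hermForm_smul_left]
  by_cases hi : j = i
  · subst hi; rw [IsON.self hb, mul_one]
  · rw [hcon j i hi hj, IsON.ne hb hi, mul_zero]

theorem norm_scalar {b : Fin n → Fin n → F} (hb : IsON q b) {g : SU n F q} {i j : Fin n} {c : F}
    (h : act g (b i) = c • b j) : c ^ (q + 1) = 1 := by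
  have h1 := act_form g (b i) (b i)
  rw [h, hermForm_smul_left, hermForm_smul_right, IsON.self hb, IsON.self hb, mul_one] at h1
  rw [pow_succ']; exact h1

/-- A frame with monomial point stabilisers. -/
structure Frm (M : Subgroup (SU n F q)) (b : Fin n → Fin n → F) : Prop where
  on : IsON q b
  mono : Mono b ≤ M
  stab : ∀ g ∈ M, ∀ i, ∀ c : F, act g (b i) = c • b i → g ∈ (Mono b : Subgroup (SU n F q))

theorem Frm.act {M : Subgroup (SU n F q)} {b : Fin n → Fin n → F} (h : Frm M b) {g : SU n F q}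
    (hg : g ∈ M) : Frm M (fun i => Uni.act g (b i)) := by
  refine ⟨IsON.act h.on g, fun k hk => ?_, fun k hk i c hkc => ?_⟩
  · rw [mem_Mono_act] at hk
    have h1 := M.mul_mem (M.mul_mem hg (h.mono hk)) (M.inv_mem hg)
    convert h1 using 1
    group
  · rw [mem_Mono_act]
    refine h.stab _ (M.mul_mem (M.mul_mem (M.inv_mem hg) hk) hg) i c ?_
    rw [act_mul, act_mul, hkc, act_smul, act_inv_act]

/-- Either a full transvection group or monomial point stabilisers. -/
theorem frm_of (hF : Fintype.card F = q ^ 2) (hq : 3 ≤ q) {M : Subgroup (SU n F q)}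
    {b : Fin n → Fin n → F} (hb : IsON q b) (hM : Mono b ≤ M)
    (hN : ∀ d, d ∈ XT M → (∃ i, hermForm n F q d (b i) = 0) → d = 0) : Frm M b := by
  refine ⟨hb, hM, fun g hg i₀ c hc => ?_⟩
  by_contra hmono
  have hcn := norm_scalar hb hc
  have hc0 : c ≠ 0 := by
    rintro rfl
    rw [zero_pow (by omega)] at hcn
    exact zero_ne_one hcn
  obtain ⟨L, hL⟩ : ∃ L, L = Submodule.span F {b i₀} := ⟨_, rfl⟩
  obtain ⟨G, hG⟩ : ∃ G : Subgroup (SU n F q), G = M ⊓ sstab q L := ⟨_, rfl⟩
  have hstab : ∀ k : SU n F q, k ∈ sstab q L → ∃ δ : F, act k (b i₀) = δ • b i₀ := by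
    intro k hk
    rw [mem_sstab] at hk
    have h1 := (hk (b i₀)).1 (by rw [hL]; exact Submodule.mem_span_singleton_self _)
    rw [hL] at h1
    obtain ⟨δ, hδ⟩ := Submodule.mem_span_singleton.1 h1
    exact ⟨δ, hδ.symm⟩
  have hstab' : ∀ k : SU n F q, ∀ δ : F, act k (b i₀) = δ • b i₀ → k ∈ sstab q L := by
    intro k δ hk
    have hδ : δ ≠ 0 := by
      rintro rfl
      have := norm_scalar hb hk
      rw [zero_pow (by omega)] at this
      exact zero_ne_one this
    rw [mem_sstab]
    intro v
    rw [hL, Submodule.mem_span_singleton, Submodule.mem_span_singleton]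
    constructor
    · rintro ⟨α, rfl⟩
      exact ⟨α * δ, by rw [act_smul, hk, smul_smul]⟩
    · rintro ⟨α, hα⟩
      refine ⟨α * δ⁻¹, ?_⟩
      apply act_inj (g := k).1
      rw [act_smul, hk, smul_smul, ← hα, mul_assoc, inv_mul_cancel₀ hδ, mul_one]
  obtain ⟨U, hU⟩ : ∃ U : Submodule F (Fin n → F), ∀ v, v ∈ U ↔ hermForm n F q v (b i₀) = 0 := by
    refine ⟨perp q L, fun v => ?_⟩
    rw [hL, mem_perp_span hF]
    simp
  have hctx : Ctx (⊥ : Submodule F (Fin n → F)) U G := by
    refine ⟨bot_le, fun r hr u _ => by rw [(Submodule.mem_bot F).1 hr, hermForm_zero_left],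
      fun k _ r hr => by rw [(Submodule.mem_bot F).1 hr, act_zero]; exact Submodule.zero_mem _,
      fun k hk u hu => ?_⟩
    rw [hU] at hu ⊢
    rw [hG, Subgroup.mem_inf] at hk
    obtain ⟨δ, hδ⟩ := hstab k⁻¹ ((sstab q L).inv_mem hk.2)
    rw [← act_form k⁻¹, act_inv_act, hδ, hermForm_smul_right, hu, mul_zero]
  obtain ⟨i, hi⟩ : ∃ i, ∀ j, ∀ c : F, act g (b i) ≠ c • b j := by
    by_contra h
    push Not at h
    apply hmono
    intro i
    obtain ⟨j, c, hc⟩ := h i
    refine ⟨j, c, ?_, hc⟩
    rintro rfl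
    have := norm_scalar hb hc
    rw [zero_pow (by omega)] at this
    exact zero_ne_one this
  have hii : i ≠ i₀ := by
    rintro rfl
    exact hi i c hc
  obtain ⟨j, l, hjl, h1, h2⟩ := exists_two hF hb (act_ne_zero (IsON.ne_zero hb i)) hi
  have hne0 : ∀ m, hermForm n F q (act g (b i)) (b m) ≠ 0 → m ≠ i₀ := by
    rintro m hm rfl
    apply hm
    have e : b m = c⁻¹ • act g (b m) := by rw [hc, smul_smul, inv_mul_cancel₀ hc0, one_smul]
    rw [e, hermForm_smul_right, act_form, IsON.ne hb hii, mul_zero]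
  have hgG : g ∈ G := by
    rw [hG, Subgroup.mem_inf]
    exact ⟨hg, hstab' g c hc⟩
  obtain ⟨d, hdU, hdd, hd0, hd⟩ := refl_group hF hq hctx hb
    (I := Finset.univ.filter fun m => m ≠ i₀)
    (fun m hm => by rw [hU]; exact IsON.ne hb (Finset.mem_filter.1 hm).2)
    (fun m hm a ha => by
      obtain ⟨t, ht⟩ := exists_D hF hb (Finset.mem_filter.1 hm).2 ha
      have ht0 : act t (b i₀) = a⁻¹ • b i₀ := by
        rw [ht, IsON.ne hb (Ne.symm (Finset.mem_filter.1 hm).2), IsON.self hb]
        module
      refine ⟨t, ?_, fun v hv => ?_⟩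
      · rw [hG, Subgroup.mem_inf]
        refine ⟨hM fun k => ?_, hstab' t _ ht0⟩
        by_cases hkm : k = m
        · subst hkm
          refine ⟨k, a, ?_, ?_⟩
          · rintro rfl
            rw [zero_pow (by omega)] at ha
            exact zero_ne_one ha
          · rw [ht, IsON.ne hb (Finset.mem_filter.1 hm).2, IsON.self hb]
            module
        · by_cases hki : k = i₀
          · subst hki
            refine ⟨k, a⁻¹, ?_, ht0⟩
            apply inv_ne_zero
            rintro rfl
            rw [zero_pow (by omega)] at ha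
            exact zero_ne_one ha
          · refine ⟨k, 1, one_ne_zero, ?_⟩
            rw [ht, IsON.ne hb hkm, IsON.ne hb hki]
            module
      · rw [Submodule.mem_bot, ht, (hU v).1 hv]
        module)
    hgG (Finset.mem_filter.2 ⟨Finset.mem_univ _, hii⟩)
    (Finset.mem_filter.2 ⟨Finset.mem_univ _, hne0 j h1⟩)
    (Finset.mem_filter.2 ⟨Finset.mem_univ _, hne0 l h2⟩) hjl h1 h2
  have hd0' : d ≠ 0 := fun h => hd0 (by rw [h]; exact Submodule.zero_mem _)
  apply hd0'
  refine hN d (mem_XT_of hdd fun s hs => ?_) ⟨i₀, (hU d).1 hdU⟩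
  obtain ⟨k, hk, hkT⟩ := hd s hs
  have hkG := hk
  rw [hG, Subgroup.mem_inf] at hk
  obtain ⟨δ, hδ⟩ := hstab k hk.2
  have hδn := norm_scalar hb hδ
  have hpow := Trn.pow hF hctx hkG hdU hdd hkT (q + 1)
  have hq0 : ((q + 1 : ℕ) : F) = 1 := by
    have h0 : (q : F) ^ 2 = 0 := by
      have := FiniteField.cast_card_eq_zero F
      rw [hF] at this
      push_cast at this
      exact this
    rw [Nat.cast_add, Nat.cast_one, pow_eq_zero_iff (by norm_num)] at *
    rw [h0, zero_add]
  rw [hq0, one_mul] at hpow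
  have hpδ : ∀ m : ℕ, act (k ^ m) (b i₀) = δ ^ m • b i₀ := by
    intro m
    induction m with
    | zero => rw [pow_zero, pow_zero, act_one, one_smul]
    | succ m ih => rw [pow_succ, act_mul, hδ, act_smul, ih, smul_smul, pow_succ, mul_comm]
  refine ⟨k ^ (q + 1), M.pow_mem hk.1 _, fun v => ?_⟩
  obtain ⟨w, hw⟩ : ∃ w, w = v - hermForm n F q v (b i₀) • b i₀ := ⟨_, rfl⟩
  have hwU : w ∈ U := by
    rw [hU, hw, hermForm_sub_left, hermForm_smul_left, IsON.self hb]; ring
  have e1 := hpow w hwU
  rw [Submodule.mem_bot, sub_eq_zero] at e1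
  have hd' : hermForm n F q (b i₀) d = 0 := (hermForm_eq_zero_comm hF).1 ((hU d).1 hdU)
  have e2 : hermForm n F q w d = hermForm n F q v d := by
    rw [hw, hermForm_sub_left, hermForm_smul_left, hd']; ring
  have e3 : v = w + hermForm n F q v (b i₀) • b i₀ := by rw [hw]; abel
  conv_lhs => rw [e3]
  rw [act_add, e1, act_smul, hpδ, hδn, one_smul, e2, hw]
  abel

/-- Distinct frames in an orbit have no common line. -/
theorem Frm.same (hF : Fintype.card F = q ^ 2) (hn : 3 ≤ n) {M : Subgroup (SU n F q)}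
    {b : Fin n → Fin n → F} (h : Frm M b) {g : SU n F q} (hg : g ∈ M) {i j : Fin n} {c : F}
    (hc : Uni.act g (b i) = c • b j) : g ∈ (Mono b : Subgroup (SU n F q)) := by
  by_cases hij : i = j
  · subst hij; exact h.stab g hg i c hc
  obtain ⟨l, hl⟩ : ∃ l : Fin n, l ∉ ({i, j} : Finset (Fin n)) := by
    by_contra hcon
    push Not at hcon
    have h1 : (Finset.univ : Finset (Fin n)) ⊆ {i, j} := fun x _ => hcon x
    have := Finset.card_le_card h1
    rw [Finset.card_univ, Fintype.card_fin] at this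
    have h2 : ({i, j} : Finset (Fin n)).card ≤ 2 := Finset.card_le_two
    omega
  rw [Finset.mem_insert, Finset.mem_singleton, not_or] at hl
  obtain ⟨k, hk, hkm⟩ := exists_mono hF h.on (Equiv.swap i j) (α := fun _ => 1)
    (fun _ => one_pow _) (l := l) (Equiv.swap_apply_of_ne_of_ne hl.1 hl.2)
  have h1 : k * g ∈ (Mono b : Subgroup (SU n F q)) := by
    refine h.stab _ (M.mul_mem (h.mono hk) hg) i c ?_
    rw [act_mul, hc, act_smul, hkm j (Ne.symm hl.2), Equiv.swap_apply_right, one_smul]
  have h2 := (Mono b).mul_mem ((Mono b).inv_mem hk) h1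
  rwa [inv_mul_cancel_left] at h2

theorem D_mem {M : Subgroup (SU n F q)} {b : Fin n → Fin n → F} (hb : IsON q b)
    {i j : Fin n} (hij : i ≠ j) {a : F} (ha : a ≠ 0) {t : SU n F q}
    (ht : ∀ v, act t v = v + ((a - 1) * hermForm n F q v (b i)) • b i +
      ((a⁻¹ - 1) * hermForm n F q v (b j)) • b j) :
    act t (b i) = a • b i ∧ act t (b j) = a⁻¹ • b j ∧ (∀ k, k ≠ i → k ≠ j → act t (b k) = b k) ∧
      t ∈ (Mono b : Subgroup (SU n F q)) := by
  have h1 : act t (b i) = a • b i := by
    rw [ht, IsON.self hb, IsON.ne hb hij]; module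
  have h2 : act t (b j) = a⁻¹ • b j := by
    rw [ht, IsON.self hb, IsON.ne hb (Ne.symm hij)]; module
  have h3 : ∀ k, k ≠ i → k ≠ j → act t (b k) = b k := by
    intro k hki hkj
    rw [ht, IsON.ne hb hki, IsON.ne hb hkj]; module
  refine ⟨h1, h2, h3, fun k => ?_⟩
  by_cases hki : k = i
  · subst hki; exact ⟨k, a, ha, h1⟩
  · by_cases hkj : k = j
    · subst hkj; exact ⟨k, a⁻¹, inv_ne_zero ha, h2⟩
    · exact ⟨k, 1, one_ne_zero, by rw [h3 k hki hkj, one_smul]⟩

/-- Distinct frames in an orbit: at most one coordinate vanishes. -/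
theorem Frm.weight (hF : Fintype.card F = q ^ 2) (hq : 3 ≤ q) (hn : 5 ≤ n)
    {M : Subgroup (SU n F q)} {b : Fin n → Fin n → F} (h : Frm M b) {g : SU n F q} (hg : g ∈ M)
    (hgn : g ∉ (Mono b : Subgroup (SU n F q))) {i j k : Fin n} (hjk : j ≠ k)
    (hj : hermForm n F q (Uni.act g (b i)) (b j) = 0)
    (hk : hermForm n F q (Uni.act g (b i)) (b k) = 0) : False := by
  obtain ⟨a, ha, ha2, ha3⟩ := exists_gen (F := F) hF hq
  have ha0 : a ≠ 0 := by
    rintro rfl
    rw [zero_pow (by omega)] at ha
    exact zero_ne_one ha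
  have ha1 : a ≠ 1 := by rintro rfl; exact ha2 (one_pow _)
  have hai1 : a⁻¹ ≠ 1 := by rw [Ne, inv_eq_one]; exact ha1
  have hb := h.on
  have h' := h.act hg
  have hb' := h'.on
  -- torus elements which stabilise the other frame
  have key : ∀ i j k : Fin n, j ≠ k → hermForm n F q (Uni.act g (b i)) (b j) = 0 →
      hermForm n F q (Uni.act g (b i)) (b k) = 0 →
      ∀ m, (hermForm n F q (Uni.act g (b m)) (b j) = 0 ∧
        hermForm n F q (Uni.act g (b m)) (b k) = 0) ∨
        ∀ l, l ≠ j → l ≠ k → hermForm n F q (Uni.act g (b m)) (b l) = 0 := by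
    intro i j k hjk hj hk m
    obtain ⟨t, ht⟩ := exists_D hF hb hjk ha
    obtain ⟨t1, t2, t3, t4⟩ := D_mem (M := M) hb hjk ha0 ht
    have htM : t ∈ (Mono (fun i => Uni.act g (b i)) : Subgroup (SU n F q)) := by
      refine h'.stab t (h.mono t4) i 1 ?_
      change Uni.act t (Uni.act g (b i)) = _
      rw [ht, hj, hk]; module
    by_cases hl : ∃ l, l ≠ j ∧ l ≠ k ∧ hermForm n F q (Uni.act g (b m)) (b l) ≠ 0
    · left
      obtain ⟨l, hlj, hlk, hl⟩ := hl
      have hfix := mono_fix hF hb hb' (t := t) ha0 ha2 ha3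
        (α := fun i => if i = j then a else if i = k then a⁻¹ else 1)
        (fun i => by
          by_cases h1 : i = j
          · simp only [h1, if_true]; exact t1
          · by_cases h2 : i = k
            · simp only [h2, if_neg (Ne.symm hjk), if_true]; exact t2
            · simp only [h1, h2, if_false, one_smul]; exact t3 i h1 h2)
        (fun i => by
          by_cases h1 : i = j
          · right; left; simp only [h1, if_true]
          · by_cases h2 : i = k
            · right; right; simp only [h2, if_neg (Ne.symm hjk), if_true]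
            · left; simp only [h1, h2, if_false]) htM (k := m) (i := l)
        (by simp only [hlj, hlk, if_false]) hl
      change Uni.act t (Uni.act g (b m)) = Uni.act g (b m) at hfix
      constructor
      · have e1 := act_form t (Uni.act g (b m)) (b j)
        rw [hfix, t1, hermForm_smul_right] at e1
        have e2 : (a ^ q - 1) * hermForm n F q (Uni.act g (b m)) (b j) = 0 := by
          linear_combination e1
        rcases mul_eq_zero.1 e2 with e | e
        · exfalso
          have : a ^ q = 1 := by linear_combination e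
          rw [pow_succ, this, one_mul] at ha
          exact ha1 ha
        · exact e
      · have e1 := act_form t (Uni.act g (b m)) (b k)
        rw [hfix, t2, hermForm_smul_right] at e1
        have e2 : (a⁻¹ ^ q - 1) * hermForm n F q (Uni.act g (b m)) (b k) = 0 := by
          linear_combination e1
        rcases mul_eq_zero.1 e2 with e | e
        · exfalso
          have : a⁻¹ ^ q = 1 := by linear_combination e
          rw [inv_pow, inv_eq_one] at this
          rw [pow_succ, this, one_mul] at ha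
          exact ha1 ha
        · exact e
    · right
      push Not at hl
      exact hl
  -- a vector of the other frame in a coordinate plane
  obtain ⟨m₀, hm₀⟩ : ∃ m, ∀ l, l ≠ j → l ≠ k → hermForm n F q (Uni.act g (b m)) (b l) = 0 := by
    by_contra hcon
    push Not at hcon
    have h1 : ∀ m, hermForm n F q (b j) (Uni.act g (b m)) = 0 := by
      intro m
      obtain ⟨l, hlj, hlk, hl⟩ := hcon m
      rcases key i j k hjk hj hk m with e | e
      · exact (hermForm_eq_zero_comm hF).1 e.1
      · exact absurd (e l hlj hlk) hl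
    exact IsON.ne_zero hb j (IsON.ext hF hb' fun m => by rw [hermForm_zero_left]; exact h1 m)
  -- three further indices
  obtain ⟨p, hp⟩ : ∃ p : Fin n, p ∉ ({j, k} : Finset (Fin n)) := by
    by_contra hcon
    push Not at hcon
    have h1 : (Finset.univ : Finset (Fin n)) ⊆ {j, k} := fun x _ => hcon x
    have := Finset.card_le_card h1
    rw [Finset.card_univ, Fintype.card_fin] at this
    have h2 : ({j, k} : Finset (Fin n)).card ≤ 2 := Finset.card_le_two
    omega
  obtain ⟨r, hr⟩ : ∃ p' : Fin n, p' ∉ ({j, k, p} : Finset (Fin n)) := by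
    by_contra hcon
    push Not at hcon
    have h1 : (Finset.univ : Finset (Fin n)) ⊆ {j, k, p} := fun x _ => hcon x
    have := Finset.card_le_card h1
    rw [Finset.card_univ, Fintype.card_fin] at this
    have h2 : ({j, k, p} : Finset (Fin n)).card ≤ 3 := Finset.card_le_three
    omega
  obtain ⟨s, hs⟩ : ∃ p' : Fin n, p' ∉ ({j, k, p, r} : Finset (Fin n)) := by
    by_contra hcon
    push Not at hcon
    have h1 : (Finset.univ : Finset (Fin n)) ⊆ {j, k, p, r} := fun x _ => hcon x
    have := Finset.card_le_card h1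
    rw [Finset.card_univ, Fintype.card_fin] at this
    have h2 : ({j, k, p, r} : Finset (Fin n)).card ≤ 4 := Finset.card_le_four
    omega
  simp only [Finset.mem_insert, Finset.mem_singleton, not_or] at hp hr hs
  obtain ⟨m, hm⟩ : ∃ m, hermForm n F q (b p) (Uni.act g (b m)) ≠ 0 := by
    by_contra hcon
    push Not at hcon
    exact IsON.ne_zero hb p (IsON.ext hF hb' fun m => by rw [hermForm_zero_left]; exact hcon m)
  have hm' : hermForm n F q (Uni.act g (b m)) (b p) ≠ 0 := fun e =>
    hm ((hermForm_eq_zero_comm hF).1 e)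
  have e1 := key m₀ p r (Ne.symm hr.2.2) (hm₀ p hp.1 hp.2) (hm₀ r hr.1 hr.2.1) m
  have e2 := key m₀ p s (Ne.symm hs.2.2.1) (hm₀ p hp.1 hp.2) (hm₀ s hs.1 hs.2.1) m
  have e1' := e1.resolve_left (fun e => hm' e.1)
  have e2' := e2.resolve_left (fun e => hm' e.1)
  apply hgn
  refine h.same hF (by omega) hg (i := m) (j := p)
    (c := hermForm n F q (Uni.act g (b m)) (b p)) (IsON.ext hF hb fun l => ?_)
  rw [hermForm_smul_left]
  by_cases hlp : l = p
  · rw [hlp, IsON.self hb, mul_one]
  · rw [IsON.ne hb (Ne.symm hlp), mul_zero]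
    by_cases hlr : l = r
    · rw [hlr]; exact e2' r hr.2.2 (Ne.symm hs.2.2.2)
    · exact e1' l hlp hlr

end Cfsg.Agent.H98.UF
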