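import Mathlib
import Cfsg.Agent.H98.UFE

set_option autoImplicit false
set_option linter.unusedSectionVars false
set_option linter.unusedVariables false
set_option linter.style.haveILetI false
set_option maxHeartbeats 1000000

/-!
Involutions in frame tori (odd characteristic).
-/

namespace Cfsg.Agent.H98.UF

open scoped Matrix
open Cfsg.Agent.Uni Module
open Cfsg.Agent.USub (XT)

variable {F : Type*} [Field F] [Fintype F] {q n : ℕ}

/-- `u` is the involution with `(-1)`-space spanned by `b i`, `i ∈ C`. -/
def Tau (b : Fin n → Fin n → F) (C : Finset (Fin n)) (u : SU n F q) : Prop :=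
  ∀ v, act u v = v - (2 : F) • ∑ i ∈ C, hermForm n F q v (b i) • b i

theorem exists_tau (hF : Fintype.card F = q ^ 2) {b : Fin n → Fin n → F} (hb : IsON q b) :
    ∀ m : ℕ, ∀ C : Finset (Fin n), C.card = 2 * m → ∃ u : SU n F q, Tau b C u := by
  intro m
  induction m with
  | zero =>
    intro C hC
    have : C = ∅ := Finset.card_eq_zero.1 (by omega)
    subst this
    exact ⟨1, fun v => by rw [act_one]; simp⟩
  | succ m ih =>
    intro C hC
    obtain ⟨i, hi⟩ : C.Nonempty := Finset.card_pos.1 (by omega)
    obtain ⟨j, hj⟩ : (C.erase i).Nonempty := Finset.card_pos.1 (by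
      rw [Finset.card_erase_of_mem hi]; omega)
    obtain ⟨u, hu⟩ := ih ((C.erase i).erase j) (by
      rw [Finset.card_erase_of_mem hj, Finset.card_erase_of_mem hi]; omega)
    have hij : i ≠ j := fun h => Finset.notMem_erase i C (h ▸ hj)
    obtain ⟨t, ht⟩ := exists_D hF hb hij (a := -1) (neg_one_pow_succ hF)
    refine ⟨u * t, fun v => ?_⟩
    have e1 : act t v = v - (2 * hermForm n F q v (b i)) • b i - (2 * hermForm n F q v (b j)) • b j := by
      rw [ht]
      have : ((-1 : F))⁻¹ = -1 := by norm_num
      rw [this]
      module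
    rw [act_mul, hu, e1]
    have e2 : ∑ k ∈ (C.erase i).erase j, hermForm n F q (v - (2 * hermForm n F q v (b i)) • b i -
        (2 * hermForm n F q v (b j)) • b j) (b k) • b k =
        ∑ k ∈ (C.erase i).erase j, hermForm n F q v (b k) • b k := by
      refine Finset.sum_congr rfl fun k hk => ?_
      have hkj : k ≠ j := Finset.ne_of_mem_erase hk
      have hki : k ≠ i := Finset.ne_of_mem_erase (Finset.mem_of_mem_erase hk)
      rw [hermForm_sub_left, hermForm_sub_left, hermForm_smul_left, hermForm_smul_left,
        IsON.ne hb (Ne.symm hki), IsON.ne hb (Ne.symm hkj)]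
      simp
    rw [e2, ← Finset.add_sum_erase C (fun i => hermForm n F q v (b i) • b i) hi,
      ← Finset.add_sum_erase (C.erase i) (fun i => hermForm n F q v (b i) • b i) hj]
    module

section
variable {b : Fin n → Fin n → F} {C : Finset (Fin n)} {u : SU n F q}

theorem Tau.neg (hb : IsON q b) (h : Tau b C u) {i : Fin n} (hi : i ∈ C) : act u (b i) = -b i := by
  rw [h, Finset.sum_eq_single i]
  · rw [IsON.self hb]; module
  · intro j _ hj; rw [IsON.ne hb (Ne.symm hj), zero_smul]
  · intro h'; exact absurd hi h'

theorem Tau.pos (hb : IsON q b) (h : Tau b C u) {i : Fin n} (hi : i ∉ C) : act u (b i) = b i := by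
  rw [h, Finset.sum_eq_zero, smul_zero, sub_zero]
  intro j hj
  rw [IsON.ne hb (fun e => hi (by rw [e]; exact hj)), zero_smul]

theorem Tau.fix (h : Tau b C u) {v : Fin n → F} (hv : ∀ i ∈ C, hermForm n F q v (b i) = 0) :
    act u v = v := by
  rw [h, Finset.sum_eq_zero, smul_zero, sub_zero]
  intro j hj
  rw [hv j hj, zero_smul]

theorem Tau.mem (hb : IsON q b) (h : Tau b C u) : u ∈ (Mono b : Subgroup (SU n F q)) := by
  intro i
  by_cases hi : i ∈ C
  · exact ⟨i, -1, by norm_num, by rw [h.neg hb hi, neg_one_smul]⟩
  · exact ⟨i, 1, one_ne_zero, by rw [h.pos hb hi, one_smul]⟩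

theorem Tau.sq (hF : Fintype.card F = q ^ 2) (hb : IsON q b) (h : Tau b C u) : u * u = 1 := by
  apply IsON.act_ext hF hb
  intro i
  rw [act_mul, act_one]
  by_cases hi : i ∈ C
  · rw [h.neg hb hi, act_neg, h.neg hb hi, neg_neg]
  · rw [h.pos hb hi, h.pos hb hi]

/-- the support of a negated vector -/
theorem Tau.coord_zero (h2 : (2 : F) ≠ 0) (hb : IsON q b) (h : Tau b C u) {v : Fin n → F}
    (hv : act u v = -v) {i : Fin n} (hi : i ∉ C) : hermForm n F q v (b i) = 0 := by
  have e := act_form u v (b i)
  rw [hv, h.pos hb hi, hermForm_neg_left] at e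
  have : (2 : F) * hermForm n F q v (b i) = 0 := by linear_combination -e
  exact (mul_eq_zero.1 this).resolve_left h2

/-- the support of a fixed vector -/
theorem Tau.coord_zero' (hF : Fintype.card F = q ^ 2) (h2 : (2 : F) ≠ 0) (hb : IsON q b)
    (h : Tau b C u) {v : Fin n → F}
    (hv : act u v = v) {i : Fin n} (hi : i ∈ C) : hermForm n F q v (b i) = 0 := by
  have e := act_form u v (b i)
  rw [hv, h.neg hb hi, hermForm_neg_right hF] at e
  have : (2 : F) * hermForm n F q v (b i) = 0 := by linear_combination -e
  exact (mul_eq_zero.1 this).resolve_left h2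

end

/-- Elements of `M` which commute with a frame involution are monomial. -/
theorem Frm.centr (hF : Fintype.card F = q ^ 2) (hq : 3 ≤ q) (h2 : (2 : F) ≠ 0) (hn : 5 ≤ n)
    {M : Subgroup (SU n F q)} {b : Fin n → Fin n → F} (h : Frm M b) {C : Finset (Fin n)}
    {u : SU n F q} (hu : Tau b C u) (hC0 : C.Nonempty) (hC : C.card + 2 ≤ n) {g : SU n F q}
    (hg : g ∈ M) (hgu : g * u = u * g) : g ∈ (Mono b : Subgroup (SU n F q)) := by
  by_contra hgn
  obtain ⟨i, hi⟩ := hC0
  have h1 : Uni.act u (Uni.act g (b i)) = -Uni.act g (b i) := by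
    rw [← act_mul, ← hgu, act_mul, hu.neg h.on hi, act_neg]
  have h3 : ((Finset.univ : Finset (Fin n)) \ C).card = n - C.card := by
    rw [Finset.card_sdiff_of_subset (Finset.subset_univ _), Finset.card_univ, Fintype.card_fin]
  obtain ⟨j, hj, k, hk, hjk⟩ := Finset.one_lt_card.1 (show 1 < (Finset.univ \ C).card by omega)
  rw [Finset.mem_sdiff] at hj hk
  exact h.weight hF hq hn hg hgn hjk (hu.coord_zero h2 h.on h1 hj.2)
    (hu.coord_zero h2 h.on h1 hk.2)

/-- Data for an involution of a monomial group. -/
theorem mono_data {b : Fin n → Fin n → F} (hb : IsON q b) {z : SU n F q}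
    (hz : z ∈ (Mono b : Subgroup (SU n F q))) (hzz : z * z = 1) :
    ∃ (π : Fin n → Fin n) (c : Fin n → F), (∀ i, act z (b i) = c i • b (π i)) ∧
      (∀ i, c i ^ (q + 1) = 1) ∧ (∀ i, π (π i) = i) ∧ (∀ i, c i * c (π i) = 1) := by
  choose π c hc hπ using hz
  have h1 : ∀ i, (c i * c (π i)) • b (π (π i)) = b i := by
    intro i
    rw [← smul_smul, ← hπ, ← act_smul, ← hπ, ← act_mul, hzz, act_one]
  have h2 : ∀ i, π (π i) = i := by
    intro i
    by_contra hne
    have h3 : hermForm n F q (b i) (b i) = 0 := by
      have : hermForm n F q (b i) (b i) = (c i * c (π i)) * hermForm n F q (b (π (π i))) (b i) := by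
        rw [← hermForm_smul_left, h1]
      rw [this, IsON.ne hb hne, mul_zero]
    rw [IsON.self hb] at h3
    exact one_ne_zero h3
  refine ⟨π, c, hπ, fun i => norm_scalar hb (hπ i), h2, fun i => ?_⟩
  have h3 := h1 i
  rw [h2] at h3
  have : hermForm n F q ((c i * c (π i)) • b i) (b i) = hermForm n F q (b i) (b i) := by rw [h3]
  rwa [hermForm_smul_left, IsON.self hb, mul_one] at this

/-- Counting moved lines by test vectors. -/
theorem count_pairs (hF : Fintype.card F = q ^ 2) (h2 : (2 : F) ≠ 0) {b : Fin n → Fin n → F}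
    (hb : IsON q b) {z : SU n F q} {π : Fin n → Fin n} {c : Fin n → F}
    (hπ : ∀ i, act z (b i) = c i • b (π i)) (hππ : ∀ i, π (π i) = i) (hcc : ∀ i, c i * c (π i) = 1)
    (J : Finset (Fin n)) (hJ : ∀ i ∈ J, act z (b i) ≠ b i) (hJπ : ∀ i ∈ J, π i ∈ J)
    {κ : Type*} [Fintype κ] (t : κ → Fin n → F)
    (hinj : ∀ x, act z x = -x → (∀ i ∉ J, hermForm n F q x (b i) = 0) →
      (∀ k, hermForm n F q x (t k) = 0) → x = 0) : J.card ≤ 2 * Fintype.card κ := by
  classical
  obtain ⟨S, hS⟩ : ∃ S, S = J.filter fun i => i ≤ π i := ⟨_, rfl⟩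
  have hSJ : ∀ i ∈ S, i ∈ J := fun i hi => by rw [hS] at hi; exact (Finset.mem_filter.1 hi).1
  have hSle : ∀ i ∈ S, i ≤ π i := fun i hi => by rw [hS] at hi; exact (Finset.mem_filter.1 hi).2
  have h1 : J ⊆ S ∪ S.image π := by
    intro i hi
    rw [Finset.mem_union]
    by_cases hle : i ≤ π i
    · left; rw [hS, Finset.mem_filter]; exact ⟨hi, hle⟩
    · right
      rw [Finset.mem_image]
      refine ⟨π i, ?_, hππ i⟩
      rw [hS, Finset.mem_filter, hππ]
      exact ⟨hJπ i hi, (not_le.1 hle).le⟩
  have h3 : J.card ≤ 2 * S.card := by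
    have e1 := Finset.card_le_card h1
    have e2 := Finset.card_union_le S (S.image π)
    have e3 : (S.image π).card ≤ S.card := Finset.card_image_le
    omega
  suffices h4 : S.card ≤ Fintype.card κ by omega
  by_contra hlt
  push Not at hlt
  -- the vectors
  obtain ⟨w, hw⟩ : ∃ w : Fin n → Fin n → F, ∀ i, w i = b i - act z (b i) := ⟨_, fun _ => rfl⟩
  let Φ : (S → F) →ₗ[F] (κ → F) :=
    { toFun := fun α k => hermForm n F q (∑ i : S, α i • w i) (t k)
      map_add' := fun α β => by
        funext k
        change hermForm n F q (∑ i : S, (α i + β i) • w i) (t k) =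
          hermForm n F q (∑ i : S, α i • w i) (t k) + hermForm n F q (∑ i : S, β i • w i) (t k)
        rw [← hermForm_add_left, ← Finset.sum_add_distrib]
        simp only [add_smul]
      map_smul' := fun a α => by
        funext k
        change hermForm n F q (∑ i : S, (a * α i) • w i) (t k) =
          a * hermForm n F q (∑ i : S, α i • w i) (t k)
        rw [← hermForm_smul_left, Finset.smul_sum]
        simp only [smul_smul] }
  have hker : LinearMap.ker Φ ≠ ⊥ := by
    apply LinearMap.ker_ne_bot_of_finrank_lt
    rw [Module.finrank_fintype_fun_eq_card, Module.finrank_fintype_fun_eq_card,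
      Fintype.card_coe]
    exact hlt
  obtain ⟨α, hα, hα0⟩ := (Submodule.ne_bot_iff _).1 hker
  obtain ⟨x, hx⟩ : ∃ x, x = ∑ i : S, α i • w i := ⟨_, rfl⟩
  have hzz : ∀ i, act z (act z (b i)) = b i := by
    intro i
    rw [hπ, act_smul, hπ, smul_smul, hcc, one_smul, hππ]
  have hx0 : x = 0 := by
    apply hinj
    · rw [hx, act_sum, ← Finset.sum_neg_distrib]
      refine Finset.sum_congr rfl fun i _ => ?_
      rw [act_smul, hw, act_sub, hzz, ← smul_neg, neg_sub]
    · intro i hi
      rw [hx, hermForm_sum_left]
      apply Finset.sum_eq_zero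
      intro j _
      have hj := hSJ j j.2
      have e1 : (j : Fin n) ≠ i := fun e => hi (by rw [← e]; exact hj)
      have e2 : π j ≠ i := fun e => hi (by rw [← e]; exact hJπ _ hj)
      rw [hermForm_smul_left, hw, hermForm_sub_left, hπ, hermForm_smul_left, IsON.ne hb e1,
        IsON.ne hb e2]; ring
    · intro k
      have : Φ α = 0 := hα
      have := congrFun this k
      rw [hx]; exact this
  apply hα0
  funext i
  have e1 : hermForm n F q x (b i) = α i * (1 - if π i = i then c i else 0) := by
    rw [hx, hermForm_sum_left, Finset.sum_eq_single i]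
    · rw [hermForm_smul_left, hw, hermForm_sub_left, hπ, hermForm_smul_left, IsON.self hb, hb (π i) i]
      split_ifs <;> ring
    · intro j _ hji
      have e1 : (j : Fin n) ≠ i := fun e => hji (Subtype.ext e)
      have e2 : π j ≠ i := by
        intro e
        apply e1
        have a1 := hSle j j.2
        have a2 := hSle i i.2
        rw [← e, hππ] at a2
        have a3 : (j : Fin n) = π j := le_antisymm a1 a2
        rw [a3, e]
      rw [hermForm_smul_left, hw, hermForm_sub_left, hπ, hermForm_smul_left, IsON.ne hb e1,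
        IsON.ne hb e2]; ring
    · intro h; exact absurd (Finset.mem_univ i) h
  rw [hx0, hermForm_zero_left] at e1
  have e2 : (1 - if π i = i then c i else 0 : F) ≠ 0 := by
    split_ifs with hpi
    · intro h
      have h5 : c i = 1 := by linear_combination -h
      apply hJ i (hSJ i i.2)
      rw [hπ, hpi, h5, one_smul]
    · rw [sub_zero]; exact one_ne_zero
  exact (mul_eq_zero.1 e1.symm).resolve_right e2

/-- Parity of the number of transpositions. -/
theorem parity (hF : Fintype.card F = q ^ 2) (h2 : (2 : F) ≠ 0) {b : Fin n → Fin n → F}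
    (hb : IsON q b) {z : SU n F q} {π : Fin n → Fin n} {c : Fin n → F}
    (hπ : ∀ i, act z (b i) = c i • b (π i)) (hππ : ∀ i, π (π i) = i) (hcc : ∀ i, c i * c (π i) = 1)
    (hcn : ∀ i, c i ^ (q + 1) = 1) (hfix : ∀ i, π i = i → c i = 1) :
    ∃ m, (Finset.univ.filter fun i => π i ≠ i).card = 4 * m := by
  classical
  obtain ⟨S, hS⟩ : ∃ S : Finset (Fin n), S = Finset.univ.filter fun i => i < π i := ⟨_, rfl⟩
  have hSlt : ∀ i, i ∈ S ↔ i < π i := fun i => by rw [hS]; simp
  have hcard : (Finset.univ.filter fun i => π i ≠ i).card = 2 * S.card := by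
    have h1 : (Finset.univ.filter fun i => π i ≠ i) = S ∪ S.image π := by
      ext i
      rw [Finset.mem_filter, Finset.mem_union, hSlt, Finset.mem_image]
      constructor
      · rintro ⟨-, hi⟩
        rcases lt_or_gt_of_ne hi with h | h
        · right
          exact ⟨π i, by rw [hSlt, hππ]; exact h, hππ i⟩
        · left; exact h
      · rintro (h | ⟨j, hj, rfl⟩)
        · exact ⟨Finset.mem_univ _, h.ne'⟩
        · rw [hSlt] at hj
          exact ⟨Finset.mem_univ _, by rw [hππ]; exact hj.ne⟩
    rw [h1, Finset.card_union_of_disjoint, Finset.card_image_of_injective, two_mul]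
    · intro i j hij
      have := congrArg π hij
      rwa [hππ, hππ] at this
    · rw [Finset.disjoint_left]
      intro i hi hi'
      obtain ⟨j, hj, rfl⟩ := Finset.mem_image.1 hi'
      rw [hSlt] at hi hj
      rw [hππ] at hi
      exact lt_asymm hi hj
  obtain ⟨w, hw⟩ : ∃ w : Fin n → Fin n → F, ∀ i, w i = b i - c i • b (π i) := ⟨_, fun _ => rfl⟩
  have hww : ∀ i j : S, hermForm n F q (w i) (w j) = if i = j then 2 else 0 := by
    intro i j
    have hi := (hSlt i).1 i.2
    have hj := (hSlt j).1 j.2
    have e1 : π i ≠ j := by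
      intro e
      rw [← e, hππ] at hj
      rw [← e] at *
      exact lt_asymm hi hj
    have e2 : (i : Fin n) ≠ π j := by
      intro e
      have := congrArg π e
      rw [hππ] at this
      exact e1 this
    rw [hw, hw, hermForm_sub_left, hermForm_sub_right hF, hermForm_sub_right hF, hermForm_smul_left,
      hermForm_smul_left, hermForm_smul_right, hermForm_smul_right, IsON.ne hb e1, IsON.ne hb e2]
    by_cases hij : i = j
    · subst hij
      rw [if_pos rfl, IsON.self hb, IsON.self hb]
      have := hcn i
      rw [pow_succ'] at this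
      linear_combination this
    · rw [if_neg hij]
      have e3 : (i : Fin n) ≠ j := fun e => hij (Subtype.ext e)
      have e4 : π i ≠ π j := by
        intro e
        have := congrArg π e
        rw [hππ, hππ] at this
        exact e3 this
      rw [IsON.ne hb e3, IsON.ne hb e4]; ring
  have hzv : ∀ v, act z v = v - ∑ i : S, hermForm n F q v (w i) • w i := by
    intro v
    -- both sides are linear: check on the basis
    have hlin : ∀ k, act z (b k) = b k - ∑ i : S, hermForm n F q (b k) (w i) • w i := by
      intro k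
      have hform : ∀ i : Fin n, hermForm n F q (b k) (w i) =
          (if k = i then 1 else 0) - c i ^ q * (if k = π i then 1 else 0) := by
        intro i
        rw [hw, hermForm_sub_right hF, hermForm_smul_right, hb k i, hb k (π i)]
      rcases lt_trichotomy k (π k) with h | h | h
      · have hk : k ∈ S := (hSlt k).2 h
        rw [Finset.sum_eq_single (⟨k, hk⟩ : S)]
        · rw [hform, if_pos rfl, if_neg h.ne, hw, hπ]; module
        · intro i _ hi
          have e1 : k ≠ (i : Fin n) := fun e => hi (Subtype.ext e.symm)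
          have e2 : k ≠ π i := by
            intro e
            have := (hSlt i).1 i.2
            rw [e, hππ] at h
            exact lt_asymm h this
          rw [hform, if_neg e1, if_neg e2, mul_zero, sub_zero, zero_smul]
        · intro h'; exact absurd (Finset.mem_univ _) h'
      · rw [Finset.sum_eq_zero, sub_zero, hπ, ← h, hfix k h.symm, one_smul]
        intro i _
        have hi := (hSlt i).1 i.2
        have e1 : k ≠ (i : Fin n) := by
          intro e
          rw [← e] at hi
          exact hi.ne h
        have e2 : k ≠ π i := by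
          intro e
          rw [e, hππ] at h
          exact hi.ne h.symm
        rw [hform, if_neg e1, if_neg e2, mul_zero, sub_zero, zero_smul]
      · have hk : π k ∈ S := (hSlt _).2 (by rw [hππ]; exact h)
        rw [Finset.sum_eq_single (⟨π k, hk⟩ : S)]
        · rw [hform, if_neg h.ne', if_pos (hππ k).symm, hw, hππ, hπ]
          have e1 : c (π k) ^ q = c k := by
            have h1 := hcn (π k)
            have h3 := hcc k
            have h4 : c (π k) ≠ 0 := by
              intro h0
              rw [h0, mul_zero] at h3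
              exact zero_ne_one h3
            apply mul_right_cancel₀ h4
            rw [← pow_succ, h1, h3]
          rw [e1, zero_sub, mul_one, neg_smul, sub_neg_eq_add, smul_sub, smul_smul, hcc, one_smul]
          abel
        · intro i _ hi
          have e1 : k ≠ (i : Fin n) := by
            intro e
            have := (hSlt i).1 i.2
            rw [← e] at this
            exact lt_asymm h this
          have e2 : k ≠ π i := by
            intro e
            apply hi
            apply Subtype.ext
            change (i : Fin n) = π k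
            rw [e, hππ]
          rw [hform, if_neg e1, if_neg e2, mul_zero, sub_zero, zero_smul]
        · intro h'; exact absurd (Finset.mem_univ _) h'
    conv_lhs => rw [← IsON.sum_eq hF hb v]
    rw [act_sum]
    have e1 : ∀ k, act z (hermForm n F q v (b k) • b k) = hermForm n F q v (b k) • b k -
        ∑ i : S, (hermForm n F q v (b k) * hermForm n F q (b k) (w i)) • w i := by
      intro k
      rw [act_smul, hlin, smul_sub, Finset.smul_sum]
      simp only [smul_smul]
    rw [Finset.sum_congr rfl fun k _ => e1 k, Finset.sum_sub_distrib, IsON.sum_eq hF hb v,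
      Finset.sum_comm]
    congr 1
    refine Finset.sum_congr rfl fun i _ => ?_
    rw [← Finset.sum_smul]
    congr 1
    conv_rhs => rw [← IsON.sum_eq hF hb v]
    rw [hermForm_sum_left]
    exact Finset.sum_congr rfl fun k _ => by rw [hermForm_smul_left]
  -- determinant
  let A : Matrix (Fin n) S F := Matrix.of fun m i => w i m
  let B : Matrix S (Fin n) F := Matrix.of fun i m => (w i m) ^ q
  have hmat : ((z : Matrix.SpecialLinearGroup (Fin n) F) : Matrix (Fin n) (Fin n) F) = 1 - A * B := by
    apply Matrix.ext_of_mulVec_single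
    intro k
    change act z (Pi.single k 1) = _
    rw [hzv, Matrix.sub_mulVec, Matrix.one_mulVec, ← Matrix.mulVec_mulVec]
    congr 1
    funext m
    rw [Finset.sum_apply]
    change _ = ∑ i : S, A m i * (B *ᵥ Pi.single k 1) i
    refine Finset.sum_congr rfl fun i _ => ?_
    rw [Pi.smul_apply, smul_eq_mul, hermForm_def, mul_comm]
    congr 1
    change _ = ∑ m, B i m * (Pi.single k 1 : Fin n → F) m
    exact Finset.sum_congr rfl fun m _ => mul_comm _ _
  have hBA : B * A = (2 : F) • (1 : Matrix S S F) := by
    ext i j
    rw [Matrix.mul_apply]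
    have : ∑ m, B i m * A m j = hermForm n F q (w j) (w i) := by
      rw [hermForm_def]
      exact Finset.sum_congr rfl fun m _ => mul_comm _ _
    rw [this, hww, Matrix.smul_apply, Matrix.one_apply]
    by_cases hij : j = i
    · rw [if_pos hij, if_pos hij.symm]; simp
    · rw [if_neg hij, if_neg (Ne.symm hij)]; simp
  have hdet : (-1 : F) ^ S.card = 1 := by
    have h1 : (((z : Matrix.SpecialLinearGroup (Fin n) F) : Matrix (Fin n) (Fin n) F)).det = 1 :=
      (z : Matrix.SpecialLinearGroup (Fin n) F).2
    rw [hmat, Matrix.det_one_sub_mul_comm, hBA] at h1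
    have h3 : (1 : Matrix S S F) - (2 : F) • 1 = (-1 : F) • 1 := by
      ext i j
      simp only [Matrix.sub_apply, Matrix.smul_apply, smul_eq_mul]
      ring
    rw [h3, Matrix.det_smul, Matrix.det_one, mul_one, Fintype.card_coe] at h1
    exact h1
  have hev : Even S.card := by
    by_contra hodd
    rw [Nat.not_even_iff_odd] at hodd
    rw [hodd.neg_one_pow] at hdet
    apply h2
    linear_combination -hdet
  obtain ⟨m, hm⟩ := hev
  exact ⟨m, by rw [hcard, hm]; ring⟩

end Cfsg.Agent.H98.UF
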