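import Mathlib
import Cfsg.Agent.H98.UFF

set_option autoImplicit false
set_option linter.unusedSectionVars false
set_option linter.unusedVariables false
set_option linter.style.haveILetI false
set_option maxHeartbeats 1000000

/-!
Pairs of frames and involutions in their tori: the dihedral argument (odd characteristic).
-/

namespace Cfsg.Agent.H98.UF

open scoped Matrix
open Cfsg.Agent.Uni Module
open Cfsg.Agent.USub (XT)

variable {F : Type*} [Field F] [Fintype F] {q n : ℕ}

/-! ### involutions -/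

theorem conj_w {G : Type*} [Group G] {u v : G} (hu : u * u = 1) (hv : v * v = 1) (k : ℕ) :
    u * (u * v) ^ k * u⁻¹ = ((u * v) ^ k)⁻¹ := by
  have e1 : u⁻¹ = u := inv_eq_of_mul_eq_one_left hu
  have e2 : v⁻¹ = v := inv_eq_of_mul_eq_one_left hv
  rw [← conj_pow, ← inv_pow]
  congr 1
  rw [mul_inv_rev, e1, e2]
  calc u * (u * v) * u = (u * u) * v * u := by group
    _ = v * u := by rw [hu, one_mul]

theorem even_inv {G : Type*} [Group G] [Finite G] {u v : G} (hu : u * u = 1) (hv : v * v = 1)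
    (hev : Even (orderOf (u * v))) : ∃ z ∈ Subgroup.zpowers (u * v), z ≠ 1 ∧ z * z = 1 ∧
      z * u = u * z ∧ z * v = v * z := by
  obtain ⟨m, hm⟩ := hev
  have hpos : 0 < orderOf (u * v) := orderOf_pos _
  have hzz : (u * v) ^ m * (u * v) ^ m = 1 := by
    rw [← pow_add, ← hm, pow_orderOf_eq_one]
  have h1 := conj_w hu hv m
  rw [inv_eq_of_mul_eq_one_left hzz, mul_inv_eq_iff_eq_mul] at h1
  refine ⟨(u * v) ^ m, Subgroup.npow_mem_zpowers _ _, ?_, hzz, h1.symm, ?_⟩
  · intro h
    have := orderOf_dvd_of_pow_eq_one h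
    have := Nat.le_of_dvd (by omega) this
    omega
  · have h2 : (u * v) ^ m * (u * v) = (u * v) * (u * v) ^ m := by
      rw [← pow_succ, ← pow_succ']
    have h3 : u * ((u * v) ^ m * v) = u * (v * (u * v) ^ m) := by
      calc u * ((u * v) ^ m * v) = (u * (u * v) ^ m) * v := by group
        _ = ((u * v) ^ m * u) * v := by rw [h1]
        _ = (u * v) ^ m * (u * v) := by group
        _ = (u * v) * (u * v) ^ m := h2
        _ = _ := by group
    exact mul_left_cancel h3

theorem odd_conj {G : Type*} [Group G] [Finite G] {u v : G} (hu : u * u = 1) (hv : v * v = 1)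
    (hodd : Odd (orderOf (u * v))) : ∃ g ∈ Subgroup.zpowers (u * v), g * u * g⁻¹ = v := by
  obtain ⟨m, hm⟩ := hodd
  have hw : (u * v) ^ (2 * m + 1) = 1 := by rw [← hm, pow_orderOf_eq_one]
  refine ⟨(u * v) ^ m, Subgroup.npow_mem_zpowers _ _, ?_⟩
  have h1 := conj_w hu hv m
  have e1 : u⁻¹ = u := inv_eq_of_mul_eq_one_left hu
  have h2 : u * ((u * v) ^ m)⁻¹ = (u * v) ^ m * u := by
    rw [← h1, e1]
    calc u * (u * (u * v) ^ m * u) = (u * u) * (u * v) ^ m * u := by group
      _ = _ := by rw [hu, one_mul]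
  calc (u * v) ^ m * u * ((u * v) ^ m)⁻¹ = (u * v) ^ m * (u * ((u * v) ^ m)⁻¹) := by group
    _ = (u * v) ^ m * (u * v) ^ m * u := by rw [h2]; group
    _ = (u * v)⁻¹ * ((u * v) ^ (2 * m + 1)) * u := by
      rw [pow_succ', inv_mul_cancel_left, two_mul, pow_add]
    _ = (u * v)⁻¹ * u := by rw [hw, mul_one]
    _ = v⁻¹ * (u⁻¹ * u) := by group
    _ = v := by rw [inv_mul_cancel, mul_one]; exact inv_eq_of_mul_eq_one_left hv

theorem zpowers_fix {w z : SU n F q} (hz : z ∈ Subgroup.zpowers w) {x : Fin n → F}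
    (hx : act w x = x) : act z x = x := by
  rw [← mem_powers_iff_mem_zpowers] at hz
  obtain ⟨k, rfl⟩ := hz
  change act (w ^ k) x = x
  induction k with
  | zero => rw [pow_zero, act_one]
  | succ k ih => rw [pow_succ, act_mul, hx, ih]

/-! ### opposite frames -/

/-- two frames in opposite position -/
structure Opp (M : Subgroup (SU n F q)) (b b' : Fin n → Fin n → F) : Prop where
  l : Frm M b
  r : Frm M b'
  wl : ∀ i j k, j ≠ k → hermForm n F q (b' i) (b j) = 0 → hermForm n F q (b' i) (b k) = 0 → False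
  wr : ∀ i j k, j ≠ k → hermForm n F q (b i) (b' j) = 0 → hermForm n F q (b i) (b' k) = 0 → False

theorem Opp.symm {M : Subgroup (SU n F q)} {b b' : Fin n → Fin n → F} (h : Opp M b b') :
    Opp M b' b := ⟨h.r, h.l, h.wr, h.wl⟩

theorem Frm.opp (hF : Fintype.card F = q ^ 2) (hq : 3 ≤ q) (hn : 5 ≤ n)
    {M : Subgroup (SU n F q)} {b : Fin n → Fin n → F} (h : Frm M b) {g : SU n F q} (hg : g ∈ M)
    (hgn : g ∉ (Mono b : Subgroup (SU n F q))) : Opp M b (fun i => Uni.act g (b i)) := by
  refine ⟨h, h.act hg, fun i j k hjk h1 h2 => h.weight hF hq hn hg hgn hjk h1 h2,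
    fun i j k hjk h1 h2 => ?_⟩
  change hermForm n F q (b i) (Uni.act g (b j)) = 0 at h1
  change hermForm n F q (b i) (Uni.act g (b k)) = 0 at h2
  refine h.weight hF hq hn (M.inv_mem hg) (fun h' => hgn ?_) (i := i) hjk ?_ ?_
  · have := (Mono b).inv_mem h'
    rwa [inv_inv] at this
  · rw [← act_form g, act_act_inv]; exact h1
  · rw [← act_form g, act_act_inv]; exact h2

/-- a frame vector has large support in the other frame -/
theorem Opp.supp {M : Subgroup (SU n F q)} {b b' : Fin n → Fin n → F} (h : Opp M b b')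
    {S : Finset (Fin n)} (hS : S.card + 2 ≤ n) {i : Fin n}
    (hi : ∀ j ∉ S, hermForm n F q (b i) (b' j) = 0) : False := by
  have h3 : ((Finset.univ : Finset (Fin n)) \ S).card = n - S.card := by
    rw [Finset.card_sdiff_of_subset (Finset.subset_univ _), Finset.card_univ, Fintype.card_fin]
  obtain ⟨j, hj, k, hk, hjk⟩ := Finset.one_lt_card.1 (show 1 < (Finset.univ \ S).card by omega)
  rw [Finset.mem_sdiff] at hj hk
  exact h.wr i j k hjk (hi j hj.2) (hi k hk.2)

/-- the moved vectors of a frame -/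
noncomputable def mv (b : Fin n → Fin n → F) (z : SU n F q) : Finset (Fin n) := by
  classical
  exact Finset.univ.filter fun i => act z (b i) ≠ b i

theorem mem_mv {b : Fin n → Fin n → F} {z : SU n F q} {i : Fin n} :
    i ∈ mv b z ↔ act z (b i) ≠ b i := by
  classical
  rw [mv, Finset.mem_filter]
  exact ⟨fun h => h.2, fun h => ⟨Finset.mem_univ _, h⟩⟩

/-- configuration of an involution commuting with two frame involutions -/
structure Cfg (M : Subgroup (SU n F q)) (b b' : Fin n → Fin n → F) (A B : Finset (Fin n))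
    (z : SU n F q) : Prop where
  opp : Opp M b b'
  zm : z ∈ (Mono b : Subgroup (SU n F q))
  zm' : z ∈ (Mono b' : Subgroup (SU n F q))
  zz : z * z = 1
  z1 : z ≠ 1
  sA : ∀ i j, ∀ c : F, act z (b i) = c • b j → (i ∈ A ↔ j ∈ A)
  sB : ∀ i j, ∀ c : F, act z (b' i) = c • b' j → (i ∈ B ↔ j ∈ B)
  fx : ∀ x, (∀ i ∈ A, hermForm n F q x (b i) = 0) → (∀ j ∈ B, hermForm n F q x (b' j) = 0) →
    act z x = x

theorem Cfg.symm {M : Subgroup (SU n F q)} {b b' : Fin n → Fin n → F} {A B : Finset (Fin n)}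
    {z : SU n F q} (h : Cfg M b b' A B z) : Cfg M b' b B A z :=
  ⟨h.opp.symm, h.zm', h.zm, h.zz, h.z1, h.sB, h.sA, fun x h1 h2 => h.fx x h2 h1⟩

theorem act_act_zz {z : SU n F q} (hz : z * z = 1) (x : Fin n → F) : act z (act z x) = x := by
  rw [← act_mul, hz, act_one]

theorem neg_fix (h2 : (2 : F) ≠ 0) {x : Fin n → F} (h : x = -x) : x = 0 := by
  have h1 : (2 : F) • x = 0 := by
    rw [two_smul]
    nth_rw 2 [h]
    rw [add_neg_cancel]
  exact (smul_eq_zero.1 h1).resolve_left h2

theorem Tau.stab (h2 : (2 : F) ≠ 0) {b : Fin n → Fin n → F} (hb : IsON q b)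
    {C : Finset (Fin n)} {u z : SU n F q} (hu : Tau b C u) (hzu : z * u = u * z) {i j : Fin n} {c : F}
    (h : act z (b i) = c • b j) : i ∈ C ↔ j ∈ C := by
  have hc : c ≠ 0 := by
    rintro rfl
    have := norm_scalar hb h
    rw [zero_pow (by omega)] at this
    exact zero_ne_one this
  have h1 : act z (act u (b i)) = act u (act z (b i)) := by rw [← act_mul, hzu, act_mul]
  constructor
  · intro hi
    by_contra hj
    rw [hu.neg hb hi, act_neg, h, act_smul, hu.pos hb hj] at h1
    have := neg_fix h2 h1.symm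
    rcases smul_eq_zero.1 this with h | h
    · exact hc h
    · exact IsON.ne_zero hb j h
  · intro hj
    by_contra hi
    rw [hu.pos hb hi, h, act_smul, hu.neg hb hj, smul_neg] at h1
    have := neg_fix h2 h1
    rcases smul_eq_zero.1 this with h | h
    · exact hc h
    · exact IsON.ne_zero hb j h

section
variable {M : Subgroup (SU n F q)} {b b' : Fin n → Fin n → F} {A B : Finset (Fin n)}
  {z : SU n F q}

/-- number of moved vectors outside `A` -/
theorem Cfg.count (hF : Fintype.card F = q ^ 2) (h2 : (2 : F) ≠ 0) (h : Cfg M b b' A B z) :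
    (mv b z \ A).card ≤ 2 * B.card := by
  classical
  obtain ⟨π, c, hπ, hcn, hππ, hcc⟩ := mono_data h.opp.l.on h.zm h.zz
  have hb := h.opp.l.on
  have := count_pairs hF h2 hb hπ hππ hcc (mv b z \ A)
    (fun i hi => mem_mv.1 (Finset.mem_sdiff.1 hi).1)
    (fun i hi => by
      rw [Finset.mem_sdiff] at hi ⊢
      refine ⟨mem_mv.2 fun e => mem_mv.1 hi.1 ?_, fun e => hi.2 ((h.sA i (π i) _ (hπ i)).2 e)⟩
      have e1 := congrArg (Uni.act z) (hπ i)
      rw [act_act_zz h.zz, act_smul, e, ← hπ] at e1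
      exact e1.symm)
    (κ := B) (fun j => b' j)
    (fun x hx hJ ht => by
      apply neg_fix h2
      rw [← hx]
      refine (h.fx x (fun i hi => hJ i fun h' => (Finset.mem_sdiff.1 h').2 hi)
        (fun j hj => ht ⟨j, hj⟩)).symm)
  rwa [Fintype.card_coe] at this

theorem Cfg.neg (hF : Fintype.card F = q ^ 2) (h2 : (2 : F) ≠ 0) (h : Cfg M b b' A B z)
    {k : Fin n} (hk : act z (b k) = -b k) : n ≤ (mv b' z).card + 1 := by
  by_contra hlt
  refine h.opp.supp (S := mv b' z) (by omega) (i := k) fun j hj => ?_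
  rw [mem_mv, not_not] at hj
  have e := act_form z (b k) (b' j)
  rw [hk, hj, hermForm_neg_left] at e
  have : (2 : F) * hermForm n F q (b k) (b' j) = 0 := by linear_combination -e
  exact (mul_eq_zero.1 this).resolve_left h2

theorem mv_parity (hF : Fintype.card F = q ^ 2) (h2 : (2 : F) ≠ 0) (hb : IsON q b)
    (hz : z ∈ (Mono b : Subgroup (SU n F q))) (hzz : z * z = 1)
    (hneg : ∀ k, act z (b k) ≠ -b k) : ∃ m, (mv b z).card = 4 * m := by
  classical
  obtain ⟨π, c, hπ, hcn, hππ, hcc⟩ := mono_data hb hz hzz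
  have hfix : ∀ i, π i = i → c i = 1 := by
    intro i hi
    have h1 := hcc i
    rw [hi] at h1
    rcases mul_self_eq_one_iff.1 h1 with h | h
    · exact h
    · exfalso
      apply hneg i
      rw [hπ, hi, h, neg_one_smul]
  obtain ⟨m, hm⟩ := parity hF h2 hb hπ hππ hcc hcn hfix
  refine ⟨m, ?_⟩
  rw [← hm]
  congr 1
  ext i
  rw [mem_mv, Finset.mem_filter]
  constructor
  · intro h
    refine ⟨Finset.mem_univ _, fun e => h ?_⟩
    rw [hπ, e, hfix i e, one_smul]
  · rintro ⟨-, h⟩ e
    rw [hπ] at e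
    have h3 : hermForm n F q (c i • b (π i)) (b i) = 1 := by rw [e, IsON.self hb]
    rw [hermForm_smul_left, IsON.ne hb h, mul_zero] at h3
    exact zero_ne_one h3

/-- refined count -/
theorem Cfg.count' (hF : Fintype.card F = q ^ 2) (h2 : (2 : F) ≠ 0) (h : Cfg M b b' A B z)
    (hneg : ∀ k, act z (b k) ≠ -b k) (hneg' : ∀ k, act z (b' k) ≠ -b' k) :
    (mv b z).card ≤ (A ∩ mv b z).card + (B ∩ mv b' z).card := by
  classical
  -- half of the moved vectors in a set
  have half : ∀ (b : Fin n → Fin n → F) (A : Finset (Fin n)) (hb : IsON q b)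
      (hz : z ∈ (Mono b : Subgroup (SU n F q)))
      (sA : ∀ i j, ∀ c : F, act z (b i) = c • b j → (i ∈ A ↔ j ∈ A))
      (hneg : ∀ k, act z (b k) ≠ -b k),
      ∃ S ⊆ A, 2 * S.card ≤ (A ∩ mv b z).card ∧ ∀ x, act z x = -x →
        (∀ i ∈ S, hermForm n F q x (b i) = 0) → ∀ i ∈ A, hermForm n F q x (b i) = 0 := by
    intro b A hb hz sA hneg
    obtain ⟨π, c, hπ, hcn, hππ, hcc⟩ := mono_data hb hz h.zz
    have hfix : ∀ i, π i = i → act z (b i) = b i := by
      intro i hi
      have h1 := hcc i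
      rw [hi] at h1
      rcases mul_self_eq_one_iff.1 h1 with h | h
      · rw [hπ, h, hi, one_smul]
      · exfalso
        apply hneg i
        rw [hπ, hi, h, neg_one_smul]
    obtain ⟨S, hS⟩ : ∃ S, S = A.filter fun i => i < π i := ⟨_, rfl⟩
    have hSm : ∀ i, i ∈ S ↔ i ∈ A ∧ i < π i := fun i => by rw [hS, Finset.mem_filter]
    have hmv : ∀ i, π i ≠ i → i ∈ mv b z := by
      intro i hi
      rw [mem_mv]
      intro e
      have h3 : hermForm n F q (c i • b (π i)) (b i) = 1 := by rw [← hπ, e, IsON.self hb]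
      rw [hermForm_smul_left, IsON.ne hb hi, mul_zero] at h3
      exact zero_ne_one h3
    refine ⟨S, fun i hi => ((hSm i).1 hi).1, ?_, fun x hx hxS i hi => ?_⟩
    · have h1 : S ∪ S.image π ⊆ A ∩ mv b z := by
        intro i hi
        rw [Finset.mem_union] at hi
        rcases hi with hi | hi
        · rw [hSm] at hi
          exact Finset.mem_inter.2 ⟨hi.1, hmv i hi.2.ne'⟩
        · obtain ⟨j, hj, rfl⟩ := Finset.mem_image.1 hi
          rw [hSm] at hj
          exact Finset.mem_inter.2 ⟨(sA j (π j) _ (hπ j)).1 hj.1, hmv _ (by rw [hππ]; exact hj.2.ne)⟩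
      have h3 := Finset.card_le_card h1
      rw [Finset.card_union_of_disjoint, Finset.card_image_of_injective] at h3
      · omega
      · intro i j hij
        have := congrArg π hij
        rwa [hππ, hππ] at this
      · rw [Finset.disjoint_left]
        intro i hi hi'
        obtain ⟨j, hj, rfl⟩ := Finset.mem_image.1 hi'
        rw [hSm] at hi hj
        have := hi.2
        rw [hππ] at this
        exact lt_asymm this hj.2
    · have hco : ∀ i, hermForm n F q x (b (π i)) = 0 → hermForm n F q x (b i) = 0 := by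
        intro i hi
        have e := act_form z x (b i)
        rw [hx, hπ, hermForm_smul_right, hermForm_neg_left, hi] at e
        rw [← e]; ring
      rcases lt_trichotomy i (π i) with h3 | h3 | h3
      · exact hxS i ((hSm i).2 ⟨hi, h3⟩)
      · have e := act_form z x (b i)
        rw [hx, hfix i h3.symm, hermForm_neg_left] at e
        have : (2 : F) * hermForm n F q x (b i) = 0 := by linear_combination -e
        exact (mul_eq_zero.1 this).resolve_left h2
      · refine hco i (hxS _ ((hSm _).2 ⟨(sA i (π i) _ (hπ i)).1 hi, by rw [hππ]; exact h3⟩))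
  obtain ⟨S, hSA, hS, hSx⟩ := half b A h.opp.l.on h.zm h.sA hneg
  obtain ⟨T, hTB, hT, hTx⟩ := half b' B h.opp.r.on h.zm' h.sB hneg'
  obtain ⟨π, c, hπ, hcn, hππ, hcc⟩ := mono_data h.opp.l.on h.zm h.zz
  have hb := h.opp.l.on
  have h1 := count_pairs hF h2 hb hπ hππ hcc (mv b z)
    (fun i hi => mem_mv.1 hi)
    (fun i hi => by
      refine mem_mv.2 fun e => mem_mv.1 hi ?_
      have e1 := congrArg (Uni.act z) (hπ i)
      rw [act_act_zz h.zz, act_smul, e, ← hπ] at e1
      exact e1.symm)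
    (κ := S ⊕ T) (Sum.elim (fun i => b i) (fun j => b' j))
    (fun x hx hJ ht => by
      apply neg_fix h2
      rw [← hx]
      refine (h.fx x (hSx x hx fun i hi => ht (Sum.inl ⟨i, hi⟩))
        (hTx x hx fun j hj => ht (Sum.inr ⟨j, hj⟩))).symm)
  rw [Fintype.card_sum, Fintype.card_coe, Fintype.card_coe] at h1
  omega

theorem Cfg.main (hF : Fintype.card F = q ^ 2) (h2 : (2 : F) ≠ 0) (hn : 10 ≤ n)
    (h : Cfg M b b' A B z) (hA : A.card = 2) (hB : B.card = 2 ∨ B.card = 4) :
    (∀ k, act z (b k) ≠ -b k) ∧ (∀ k, act z (b' k) ≠ -b' k) ∧ (mv b z).card = 4 ∧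
      (mv b' z).card = 4 ∧ (B.card = 2 → A ⊆ mv b z ∧ B ⊆ mv b' z) := by
  classical
  have hsd : ∀ s t : Finset (Fin n), s.card ≤ (s \ t).card + t.card := by
    intro s t
    have h1 := Finset.card_sdiff_add_card s t
    have h3 := Finset.card_le_card (Finset.subset_union_left (s₁ := s) (s₂ := t))
    omega
  have c1 := h.count hF h2
  have c2 := h.symm.count hF h2
  have s1 := hsd (mv b z) A
  have s2 := hsd (mv b' z) B
  have n1 : ∀ k, act z (b k) ≠ -b k := by
    intro k hk
    have := h.neg hF h2 hk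
    omega
  obtain ⟨m, hm⟩ := mv_parity hF h2 h.opp.l.on h.zm h.zz n1
  have n2 : ∀ k, act z (b' k) ≠ -b' k := by
    intro k hk
    have := h.symm.neg hF h2 hk
    omega
  obtain ⟨m', hm'⟩ := mv_parity hF h2 h.opp.r.on h.zm' h.zz n2
  have c3 := h.count' hF h2 n1 n2
  have c4 := h.symm.count' hF h2 n2 n1
  have i1 : (A ∩ mv b z).card ≤ A.card := Finset.card_le_card Finset.inter_subset_left
  have i2 : (B ∩ mv b' z).card ≤ B.card := Finset.card_le_card Finset.inter_subset_left
  have e1 : mv b z ≠ ∅ := by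
    intro he
    apply h.z1
    apply IsON.act_ext hF h.opp.l.on
    intro i
    rw [act_one]
    by_contra hi
    have : i ∈ mv b z := mem_mv.2 hi
    rw [he] at this
    exact absurd this (Finset.notMem_empty i)
  have e2 : mv b' z ≠ ∅ := by
    intro he
    apply h.z1
    apply IsON.act_ext hF h.opp.r.on
    intro i
    rw [act_one]
    by_contra hi
    have : i ∈ mv b' z := mem_mv.2 hi
    rw [he] at this
    exact absurd this (Finset.notMem_empty i)
  have p1 := Finset.card_pos.2 (Finset.nonempty_iff_ne_empty.2 e1)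
  have p2 := Finset.card_pos.2 (Finset.nonempty_iff_ne_empty.2 e2)
  refine ⟨n1, n2, by omega, by omega, fun hB2 => ?_⟩
  have f1 : A ∩ mv b z = A := Finset.eq_of_subset_of_card_le Finset.inter_subset_left (by omega)
  have f2 : B ∩ mv b' z = B := Finset.eq_of_subset_of_card_le Finset.inter_subset_left (by omega)
  exact ⟨Finset.inter_eq_left.1 f1, Finset.inter_eq_left.1 f2⟩

end

/-- double transpositions -/
structure DT (b : Fin n → Fin n → F) (z : SU n F q) : Prop where
  card : (mv b z).card = 4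
  sw : ∀ i ∈ mv b z, ∃ j ∈ mv b z, j ≠ i ∧ ∃ c : F, act z (b i) = c • b j

theorem DT.of {b : Fin n → Fin n → F} {z : SU n F q} (hb : IsON q b)
    (hz : z ∈ (Mono b : Subgroup (SU n F q))) (hzz : z * z = 1)
    (hneg : ∀ k, act z (b k) ≠ -b k) (hc : (mv b z).card = 4) : DT b z := by
  obtain ⟨π, c, hπ, hcn, hππ, hcc⟩ := mono_data hb hz hzz
  refine ⟨hc, fun i hi => ⟨π i, ?_, fun h => ?_, c i, hπ i⟩⟩
  · refine mem_mv.2 fun e => mem_mv.1 hi ?_
    have e1 := congrArg (Uni.act z) (hπ i)
    rw [act_act_zz hzz, act_smul, e, ← hπ] at e1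
    exact e1.symm
  · have h1 := hcc i
    rw [h] at h1
    rcases mul_self_eq_one_iff.1 h1 with h' | h'
    · exact mem_mv.1 hi (by rw [hπ, h', h, one_smul])
    · exact hneg i (by rw [hπ, h, h', neg_one_smul])

/-- pairs of even order -/
theorem Opp.even (hF : Fintype.card F = q ^ 2) (hq : 3 ≤ q) (h2 : (2 : F) ≠ 0) (hn : 10 ≤ n)
    {M : Subgroup (SU n F q)} {b b' : Fin n → Fin n → F} (h : Opp M b b')
    {A B : Finset (Fin n)} (hA : A.card = 2) (hB : B.card = 2 ∨ B.card = 4)
    {u v : SU n F q} (hu : Tau b A u) (hv : Tau b' B v) (hev : Even (orderOf (u * v))) :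
    ∃ z ∈ Subgroup.zpowers (u * v), z * z = 1 ∧ Cfg M b b' A B z ∧ DT b z ∧ DT b' z ∧
      (B.card = 2 → A ⊆ mv b z ∧ B ⊆ mv b' z) := by
  obtain ⟨z, hz, hz1, hzz, hzu, hzv⟩ := even_inv (hu.sq hF h.l.on) (hv.sq hF h.r.on) hev
  have hzM : z ∈ M := by
    have : Subgroup.zpowers (u * v) ≤ M := by
      rw [Subgroup.zpowers_le]
      exact M.mul_mem (h.l.mono (hu.mem h.l.on)) (h.r.mono (hv.mem h.r.on))
    exact this hz
  have hcfg : Cfg M b b' A B z := by
    refine ⟨h, h.l.centr hF hq h2 (by omega) hu ?_ (by omega) hzM hzu,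
      h.r.centr hF hq h2 (by omega) hv ?_ (by omega) hzM hzv, hzz, hz1,
      fun i j c hc => hu.stab h2 h.l.on hzu hc, fun i j c hc => hv.stab h2 h.r.on hzv hc,
      fun x hx hx' => zpowers_fix hz ?_⟩
    · exact Finset.card_pos.1 (by omega)
    · exact Finset.card_pos.1 (by omega)
    · rw [act_mul, hv.fix hx', hu.fix hx]
  obtain ⟨n1, n2, m1, m2, h3⟩ := hcfg.main hF h2 hn hA hB
  exact ⟨z, hz, hzz, hcfg, DT.of h.l.on hcfg.zm hzz n1 m1, DT.of h.r.on hcfg.zm' hzz n2 m2, h3⟩

end Cfsg.Agent.H98.UF
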