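import Mathlib
import Cfsg.Agent.H98.UFG

set_option autoImplicit false
set_option linter.unusedSectionVars false
set_option linter.unusedVariables false
set_option linter.style.haveILetI false
set_option maxHeartbeats 1000000

/-!
Pairs of frames: double transpositions.
-/

namespace Cfsg.Agent.H98.UF

open scoped Matrix
open Cfsg.Agent.Uni Module
open Cfsg.Agent.USub (XT)

variable {F : Type*} [Field F] [Fintype F] {q n : ℕ}

theorem Tau.conj (hF : Fintype.card F = q ^ 2) {b : Fin n → Fin n → F} {C : Finset (Fin n)}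
    {u : SU n F q} (h : Tau b C u) (g : SU n F q) :
    Tau (fun i => act g (b i)) C (g * u * g⁻¹) := by
  intro v
  rw [act_mul, act_mul, h, act_sub, act_smul, act_sum, act_act_inv]
  congr 2
  refine Finset.sum_congr rfl fun i _ => ?_
  rw [act_smul, ← act_form g, act_act_inv]

theorem tau_card (hF : Fintype.card F = q ^ 2) (h2 : (2 : F) ≠ 0) {b b' : Fin n → Fin n → F}
    (hb' : IsON q b')
    {A B : Finset (Fin n)} {u : SU n F q} (hu : Tau b A u) (hv : Tau b' B u) : B.card ≤ A.card := by
  classical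
  by_contra hlt
  push Not at hlt
  let Φ : (B → F) →ₗ[F] (A → F) :=
    { toFun := fun α k => hermForm n F q (∑ i : B, α i • b' i) (b k)
      map_add' := fun α β => by
        funext k
        change hermForm n F q (∑ i : B, (α i + β i) • b' i) (b k) =
          hermForm n F q (∑ i : B, α i • b' i) (b k) + hermForm n F q (∑ i : B, β i • b' i) (b k)
        rw [← hermForm_add_left, ← Finset.sum_add_distrib]
        simp only [add_smul]
      map_smul' := fun a α => by
        funext k
        change hermForm n F q (∑ i : B, (a * α i) • b' i) (b k) =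
          a * hermForm n F q (∑ i : B, α i • b' i) (b k)
        rw [← hermForm_smul_left, Finset.smul_sum]
        simp only [smul_smul] }
  have hker : LinearMap.ker Φ ≠ ⊥ := by
    apply LinearMap.ker_ne_bot_of_finrank_lt
    rw [Module.finrank_fintype_fun_eq_card, Module.finrank_fintype_fun_eq_card,
      Fintype.card_coe, Fintype.card_coe]
    exact hlt
  obtain ⟨α, hα, hα0⟩ := (Submodule.ne_bot_iff _).1 hker
  obtain ⟨x, hx⟩ : ∃ x, x = ∑ i : B, α i • b' i := ⟨_, rfl⟩
  have h1 : act u x = x := by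
    apply hu.fix
    intro i hi
    have : Φ α = 0 := hα
    have := congrFun this ⟨i, hi⟩
    rw [hx]; exact this
  have h3 : act u x = -x := by
    rw [hx, act_sum, ← Finset.sum_neg_distrib]
    refine Finset.sum_congr rfl fun i _ => ?_
    rw [act_smul, hv.neg hb' i.2, smul_neg]
  have hx0 : x = 0 := neg_fix h2 (by rw [← h3, h1])
  apply hα0
  funext i
  have e1 : hermForm n F q x (b' i) = α i := by
    rw [hx, hermForm_sum_left, Finset.sum_eq_single i]
    · rw [hermForm_smul_left, IsON.self hb', mul_one]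
    · intro j _ hji
      rw [hermForm_smul_left, IsON.ne hb' (fun e => hji (Subtype.ext e)), mul_zero]
    · intro h; exact absurd (Finset.mem_univ i) h
  rw [hx0, hermForm_zero_left] at e1
  exact e1.symm

theorem Tau.comm (hF : Fintype.card F = q ^ 2) {b : Fin n → Fin n → F} {C : Finset (Fin n)}
    {u z : SU n F q} (h : Tau b C u) (hz : ∀ i ∈ C, act z (b i) = b i) : z * u = u * z := by
  apply Uni.act_ext
  intro x
  rw [act_mul, act_mul, h, h, act_sub, act_smul, act_sum]
  congr 2
  refine Finset.sum_congr rfl fun i hi => ?_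
  rw [act_smul, hz i hi]
  congr 1
  rw [← act_form z x (b i), hz i hi]

/-- `(2,4)` pairs have even order -/
theorem even_24 (hF : Fintype.card F = q ^ 2) (h2 : (2 : F) ≠ 0)
    {b b' : Fin n → Fin n → F} (hb : IsON q b) (hb' : IsON q b')
    {A B : Finset (Fin n)} (hA : A.card = 2) (hB : B.card = 4)
    {u v : SU n F q} (hu : Tau b A u) (hv : Tau b' B v) : Even (orderOf (u * v)) := by
  by_contra hodd
  rw [Nat.not_even_iff_odd] at hodd
  obtain ⟨g, hg, hgu⟩ := odd_conj (hu.sq hF hb) (hv.sq hF hb') hodd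
  have h1 := hu.conj hF g
  rw [hgu] at h1
  have := tau_card hF h2 hb' h1 hv
  omega

/-- `(2,2)` pairs of odd order -/
theorem Frm.odd (hF : Fintype.card F = q ^ 2) (hq : 3 ≤ q) (h2 : (2 : F) ≠ 0) (hn : 10 ≤ n)
    {M : Subgroup (SU n F q)} {b : Fin n → Fin n → F} (h : Frm M b) {g : SU n F q} (hg : g ∈ M)
    {A B : Finset (Fin n)} (hA : A.card = 2) (hB : B.card = 2)
    {u v : SU n F q} (hu : Tau b A u) (hv : Tau (fun i => Uni.act g (b i)) B v)
    (hodd : ¬ Even (orderOf (u * v))) :
    ∃ g₁ ∈ M, g₁ ∈ Subgroup.zpowers (u * v) ∧ g⁻¹ * g₁ ∈ (Mono b : Subgroup (SU n F q)) ∧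
      (∀ i ∈ A, ∃ j ∈ B, ∃ c : F, c ≠ 0 ∧ Uni.act g₁ (b i) = c • Uni.act g (b j)) := by
  rw [Nat.not_even_iff_odd] at hodd
  have h' := h.act hg
  have hb := h.on
  have hb' := h'.on
  obtain ⟨g₁, hg₁, hgu⟩ := odd_conj (hu.sq hF h.on) (hv.sq hF h'.on) hodd
  have hg₁M : g₁ ∈ M := by
    have : Subgroup.zpowers (u * v) ≤ M := by
      rw [Subgroup.zpowers_le]
      exact M.mul_mem (h.mono (hu.mem h.on)) (h'.mono (hv.mem h'.on))
    exact this hg₁
  have hsupp : ∀ i ∈ A, ∀ j ∉ B, hermForm n F q (Uni.act (g⁻¹ * g₁) (b i)) (b j) = 0 := by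
    intro i hi j hj
    have e1 : Uni.act v (Uni.act g₁ (b i)) = -Uni.act g₁ (b i) := by
      have : v * g₁ = g₁ * u := by rw [← hgu]; group
      rw [← act_mul, this, act_mul, hu.neg hb hi, act_neg]
    have e3 := hv.coord_zero h2 hb' e1 hj
    rw [← act_form g, ← act_mul, mul_inv_cancel_left]
    exact e3
  obtain ⟨i₀, hi₀⟩ : A.Nonempty := Finset.card_pos.1 (by omega)
  have h3 : ((Finset.univ : Finset (Fin n)) \ B).card = n - B.card := by
    rw [Finset.card_sdiff_of_subset (Finset.subset_univ _), Finset.card_univ, Fintype.card_fin]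
  obtain ⟨j, hj, k, hk, hjk⟩ := Finset.one_lt_card.1 (show 1 < (Finset.univ \ B).card by omega)
  rw [Finset.mem_sdiff] at hj hk
  have hmono : g⁻¹ * g₁ ∈ (Mono b : Subgroup (SU n F q)) := by
    by_contra hcon
    exact h.weight hF hq (by omega) (M.mul_mem (M.inv_mem hg) hg₁M) hcon hjk
      (hsupp i₀ hi₀ j hj.2) (hsupp i₀ hi₀ k hk.2)
  refine ⟨g₁, hg₁M, hg₁, hmono, fun i hi => ?_⟩
  obtain ⟨m, c, hc, hm⟩ := hmono i
  refine ⟨m, ?_, c, hc, ?_⟩
  · by_contra hmB
    have := hsupp i hi m hmB
    rw [hm, hermForm_smul_left, IsON.self hb, mul_one] at this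
    exact hc this
  · rw [← act_smul, ← hm, ← act_mul, mul_inv_cancel_left]

/-- E3: the `(-1)`-vectors of a double transposition agree. -/
theorem Frm.align (hF : Fintype.card F = q ^ 2) (hq : 3 ≤ q) (h2 : (2 : F) ≠ 0) (hn : 10 ≤ n)
    {M : Subgroup (SU n F q)} {b : Fin n → Fin n → F} (h : Frm M b) {g : SU n F q} (hg : g ∈ M)
    (hgn : g ∉ (Mono b : Subgroup (SU n F q))) {z : SU n F q} (hzz : z * z = 1)
    (hz : (mv b z).card = 4) (hz' : (mv (fun i => Uni.act g (b i)) z).card = 4)
    {i : Fin n} (hi : i ∈ mv b z) :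
    ∃ r ∈ mv (fun i => Uni.act g (b i)) z, ∃ α : F,
      b i - Uni.act z (b i) = α • (Uni.act g (b r) - Uni.act z (Uni.act g (b r))) := by
  classical
  by_contra hcon
  have hopp := h.opp hF hq (by omega) hg hgn
  obtain ⟨b', hb'⟩ : ∃ b' : Fin n → Fin n → F, b' = fun i => Uni.act g (b i) := ⟨_, rfl⟩
  have hb'' : ∀ i, b' i = Uni.act g (b i) := fun i => by rw [hb']
  rw [← hb'] at hcon hopp hz'
  have hon := hopp.l.on
  have hon' := hopp.r.on
  obtain ⟨x, hx⟩ : ∃ x, x = b i - Uni.act z (b i) := ⟨_, rfl⟩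
  have hx0 : x ≠ 0 := by
    rw [hx, Ne, sub_eq_zero]
    exact fun e => mem_mv.1 hi e.symm
  have hzx : Uni.act z x = -x := by
    rw [hx, act_sub, act_act_zz hzz, neg_sub]
  -- all pairs outside are even
  have hev : ∀ A B : Finset (Fin n), A.card = 2 → B.card = 2 → (∀ k ∈ A, k ∉ mv b z) →
      (∀ k ∈ B, k ∉ mv b' z) → ∀ u v : SU n F q, Tau b A u → Tau b' B v →
      Even (orderOf (u * v)) := by
    intro A B hA hB hAJ hBJ u v hu hv
    by_contra hodd
    have hv' := hv
    rw [hb'] at hv'
    obtain ⟨g₁, hg₁M, hg₁, hmono, -⟩ := h.odd hF hq h2 hn hg hA hB hu hv' hodd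
    have hzu := hu.comm hF (z := z) (fun k hk => by
      have := hAJ k hk
      rwa [mem_mv, not_not] at this)
    have hzv := hv.comm hF (z := z) (fun k hk => by
      have := hBJ k hk
      rwa [mem_mv, not_not] at this)
    have hzg : z * g₁ = g₁ * z := by
      have h1 : u * v ∈ Subgroup.centralizer {z} := by
        rw [Subgroup.mem_centralizer_singleton_iff]
        rw [mul_assoc, ← hzv, ← mul_assoc, ← hzu, mul_assoc]
      have h3 : Subgroup.zpowers (u * v) ≤ Subgroup.centralizer {z} := by
        rw [Subgroup.zpowers_le]; exact h1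
      exact (Subgroup.mem_centralizer_singleton_iff.1 (h3 hg₁)).symm
    have hfx : Uni.act g₁ x = x := by
      apply zpowers_fix hg₁
      have f1 : Uni.act u x = x := by
        apply hu.fix
        intro k hk
        have hk1 := hAJ k hk
        have hk2 : Uni.act z (b k) = b k := by rwa [mem_mv, not_not] at hk1
        have e := act_form z x (b k)
        rw [hzx, hk2, hermForm_neg_left] at e
        have : (2 : F) * hermForm n F q x (b k) = 0 := by linear_combination -e
        exact (mul_eq_zero.1 this).resolve_left h2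
      have f2 : Uni.act v x = x := by
        apply hv.fix
        intro k hk
        have hk1 := hBJ k hk
        have hk2 : Uni.act z (b' k) = b' k := by rwa [mem_mv, not_not] at hk1
        have e := act_form z x (b' k)
        rw [hzx, hk2, hermForm_neg_left] at e
        have : (2 : F) * hermForm n F q x (b' k) = 0 := by linear_combination -e
        exact (mul_eq_zero.1 this).resolve_left h2
      rw [act_mul, f2, f1]
    obtain ⟨r, c, hc, hr⟩ := hmono i
    have hr' : Uni.act g₁ (b i) = c • b' r := by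
      rw [hb'', ← act_smul, ← hr, ← act_mul, mul_inv_cancel_left]
    have hx' : x = c • (b' r - Uni.act z (b' r)) := by
      rw [← hfx, hx, act_sub, ← act_mul, ← hzg, act_mul, hr', act_smul, smul_sub]
    refine hcon ⟨r, ?_, c, ?_⟩
    · rw [mem_mv]
      intro e
      rw [e, sub_self, smul_zero] at hx'
      exact hx0 hx'
    · rw [← hb'', ← hx, hx']
  -- involutions
  have key : ∀ m l : Fin n, m ≠ l → m ∉ mv b z → l ∉ mv b z → ∀ B : Finset (Fin n), B.card = 2 →
      (∀ k ∈ B, k ∉ mv b' z) → ∃ y : SU n F q, y * y = 1 ∧ (mv b' y).card = 4 ∧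
      (∃ c : F, Uni.act y (b m) = c • b l) ∧
      (∀ p ∈ B, ∃ s ∈ B, s ≠ p ∧ ∃ c : F, Uni.act y (b' p) = c • b' s) := by
    intro m l hml hm hl B hB hBJ
    obtain ⟨u, hu⟩ := exists_tau hF hon 1 {m, l} (Finset.card_pair hml)
    obtain ⟨v, hv⟩ := exists_tau hF hon' 1 B hB
    have hev' := hev {m, l} B (Finset.card_pair hml) hB (fun k hk => by
      rw [Finset.mem_insert, Finset.mem_singleton] at hk
      rcases hk with rfl | rfl
      · exact hm
      · exact hl) hBJ u v hu hv
    obtain ⟨y, -, hyy, hcfg, hdt, hdt', hAB⟩ := hopp.even hF hq h2 hn (Finset.card_pair hml)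
      (Or.inl hB) hu hv hev'
    obtain ⟨hA', hB'⟩ := hAB hB
    refine ⟨y, hyy, hdt'.card, ?_, fun p hp => ?_⟩
    · obtain ⟨j, hj, hjm, c, hc⟩ := hdt.sw m (hA' (Finset.mem_insert_self _ _))
      have h1 := (hcfg.sA m j c hc).1 (Finset.mem_insert_self _ _)
      rw [Finset.mem_insert, Finset.mem_singleton] at h1
      have h3 := h1.resolve_left hjm
      exact ⟨c, by rw [hc, h3]⟩
    · obtain ⟨j, hj, hjm, c, hc⟩ := hdt'.sw p (hB' hp)
      exact ⟨j, (hcfg.sB p j c hc).1 hp, hjm, c, hc⟩
  have cardc : ∀ S : Finset (Fin n), S.card ≤ 8 → ∃ j k, j ≠ k ∧ j ∉ S ∧ k ∉ S := by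
    intro S hS
    have h3 : ((Finset.univ : Finset (Fin n)) \ S).card = n - S.card := by
      rw [Finset.card_sdiff_of_subset (Finset.subset_univ _), Finset.card_univ, Fintype.card_fin]
    obtain ⟨j, hj, k, hk, hjk⟩ := Finset.one_lt_card.1 (show 1 < (Finset.univ \ S).card by omega)
    rw [Finset.mem_sdiff] at hj hk
    exact ⟨j, k, hjk, hj.2, hk.2⟩
  obtain ⟨m, m', hmm', hm, hm'⟩ := cardc (mv b z) (by omega)
  obtain ⟨p₀, p₁, hp₀₁, hp₀, hp₁⟩ := cardc (mv b' z) (by omega)
  -- the vectors
  have hvec : ∀ l, l ≠ m → l ∉ mv b z → ∃ c : F, c ≠ 0 ∧ ∀ p ∉ mv b' z,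
      hermForm n F q (b m - c • b l) (b' p) = 0 := by
    intro l hlm hl
    obtain ⟨y₀, hy₀, hyc₀, ⟨c₀, hc₀⟩, -⟩ := key m l (Ne.symm hlm) hm hl {p₀, p₁}
      (Finset.card_pair hp₀₁) (fun k hk => by
        rw [Finset.mem_insert, Finset.mem_singleton] at hk
        rcases hk with rfl | rfl
        · exact hp₀
        · exact hp₁)
    have hc₀0 : c₀ ≠ 0 := by
      rintro rfl
      have := norm_scalar hon hc₀
      rw [zero_pow (by omega)] at this
      exact zero_ne_one this
    refine ⟨c₀, hc₀0, fun p hp => ?_⟩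
    by_contra hne
    obtain ⟨a, ha⟩ : ∃ a, a = b m - c₀ • b l := ⟨_, rfl⟩
    rw [← ha] at hne
    -- the scalar does not depend on the pair
    have hall : ∀ B : Finset (Fin n), B.card = 2 → (∀ k ∈ B, k ∉ mv b' z) → ∃ y : SU n F q,
        (mv b' y).card = 4 ∧ Uni.act y a = -a ∧
        (∀ p ∈ B, ∃ s ∈ B, s ≠ p ∧ ∃ c : F, Uni.act y (b' p) = c • b' s) := by
      intro B hB hBJ
      obtain ⟨y, hyy, hyc, ⟨c, hc⟩, hyB⟩ := key m l (Ne.symm hlm) hm hl B hB hBJ
      have hcc : c = c₀ := by
        by_contra hcne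
        have hun := Finset.card_union_le (mv b' y) (mv b' y₀)
        refine hopp.supp (S := mv b' y ∪ mv b' y₀) (by omega) (i := l) fun j hj => ?_
        rw [Finset.mem_union, not_or, mem_mv, mem_mv, not_not, not_not] at hj
        have e1 := act_form y (b m) (b' j)
        have e2 := act_form y₀ (b m) (b' j)
        rw [hc, hj.1, hermForm_smul_left] at e1
        rw [hc₀, hj.2, hermForm_smul_left] at e2
        have e3 : (c - c₀) * hermForm n F q (b l) (b' j) = 0 := by
          rw [sub_mul, e1, e2, sub_self]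
        exact (mul_eq_zero.1 e3).resolve_left (sub_ne_zero.2 hcne)
      refine ⟨y, hyc, ?_, hyB⟩
      have e1 := act_act_zz hyy (b m)
      rw [hc, hcc] at e1
      rw [ha, act_sub, hc, hcc, e1, neg_sub]
    have hsub : ∀ s, s ∉ mv b' z → hermForm n F q a (b' s) ≠ 0 := by
      intro s hs
      by_cases hsp : s = p
      · rw [hsp]; exact hne
      · obtain ⟨y, hyc, hya, hyB⟩ := hall {p, s} (Finset.card_pair (Ne.symm hsp)) (fun k hk => by
          rw [Finset.mem_insert, Finset.mem_singleton] at hk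
          rcases hk with rfl | rfl
          · exact hp
          · exact hs)
        obtain ⟨j, hj, hjp, c, hc⟩ := hyB p (Finset.mem_insert_self _ _)
        rw [Finset.mem_insert, Finset.mem_singleton] at hj
        have hjs := hj.resolve_left hjp
        rw [hjs] at hc
        intro h0
        apply hne
        have e := act_form y a (b' p)
        rw [hya, hc, hermForm_smul_right, hermForm_neg_left, h0] at e
        rw [← e]; ring
    obtain ⟨y, hyc, hya, hyB⟩ := hall {p₀, p₁} (Finset.card_pair hp₀₁) (fun k hk => by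
          rw [Finset.mem_insert, Finset.mem_singleton] at hk
          rcases hk with rfl | rfl
          · exact hp₀
          · exact hp₁)
    have hle : (Finset.univ \ mv b' z) ⊆ mv b' y := by
      intro s hs
      rw [Finset.mem_sdiff] at hs
      rw [mem_mv]
      intro e1
      apply hsub s hs.2
      have e := act_form y a (b' s)
      rw [hya, e1, hermForm_neg_left] at e
      have : (2 : F) * hermForm n F q a (b' s) = 0 := by linear_combination -e
      exact (mul_eq_zero.1 this).resolve_left h2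
    have h3 : ((Finset.univ : Finset (Fin n)) \ mv b' z).card = n - (mv b' z).card := by
      rw [Finset.card_sdiff_of_subset (Finset.subset_univ _), Finset.card_univ, Fintype.card_fin]
    have := Finset.card_le_card hle
    omega
  -- linear algebra
  choose! c hc0 hc using hvec
  obtain ⟨S, hS⟩ : ∃ S, S = (Finset.univ \ mv b z).erase m := ⟨_, rfl⟩
  have hSm' : ∀ l, l ∈ S → l ≠ m ∧ l ∉ mv b z := by
    intro l hl
    rw [hS, Finset.mem_erase, Finset.mem_sdiff] at hl
    exact ⟨hl.1, hl.2.2⟩
  have hSm : ∀ l : S, (l : Fin n) ≠ m ∧ (l : Fin n) ∉ mv b z := fun l => hSm' l l.2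
  have hScard : S.card = n - 5 := by
    rw [hS, Finset.card_erase_of_mem (Finset.mem_sdiff.2 ⟨Finset.mem_univ _, hm⟩),
      Finset.card_sdiff_of_subset (Finset.subset_univ _), Finset.card_univ, Fintype.card_fin, hz]
    omega
  let Φ : (S → F) →ₗ[F] (mv b' z → F) :=
    { toFun := fun α k => hermForm n F q (∑ l : S, α l • (b m - c l • b l)) (b' k)
      map_add' := fun α β => by
        funext k
        change hermForm n F q (∑ l : S, (α l + β l) • (b m - c l • b l)) (b' k) =
          hermForm n F q (∑ l : S, α l • (b m - c l • b l)) (b' k) +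
          hermForm n F q (∑ l : S, β l • (b m - c l • b l)) (b' k)
        rw [← hermForm_add_left, ← Finset.sum_add_distrib]
        simp only [add_smul]
      map_smul' := fun a α => by
        funext k
        change hermForm n F q (∑ l : S, (a * α l) • (b m - c l • b l)) (b' k) =
          a * hermForm n F q (∑ l : S, α l • (b m - c l • b l)) (b' k)
        rw [← hermForm_smul_left, Finset.smul_sum]
        simp only [smul_smul] }
  have hker : LinearMap.ker Φ ≠ ⊥ := by
    apply LinearMap.ker_ne_bot_of_finrank_lt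
    rw [Module.finrank_fintype_fun_eq_card, Module.finrank_fintype_fun_eq_card,
      Fintype.card_coe, Fintype.card_coe, hScard, hz']
    omega
  obtain ⟨α, hα, hα0⟩ := (Submodule.ne_bot_iff _).1 hker
  obtain ⟨y, hy⟩ : ∃ y, y = ∑ l : S, α l • (b m - c l • b l) := ⟨_, rfl⟩
  have hy0 : y = 0 := by
    apply IsON.ext hF hon'
    intro k
    rw [hermForm_zero_left]
    by_cases hk : k ∈ mv b' z
    · have : Φ α = 0 := hα
      have := congrFun this ⟨k, hk⟩
      rw [hy]; exact this
    · rw [hy, hermForm_sum_left]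
      apply Finset.sum_eq_zero
      intro l _
      rw [hermForm_smul_left, hc l (hSm l).1 (hSm l).2 k hk, mul_zero]
  apply hα0
  funext l
  have e1 : hermForm n F q y (b l) = -(α l * c l) := by
    rw [hy, hermForm_sum_left, Finset.sum_eq_single l]
    · rw [hermForm_smul_left, hermForm_sub_left, hermForm_smul_left, IsON.self hon,
        IsON.ne hon (Ne.symm (hSm l).1)]; ring
    · intro j _ hjl
      rw [hermForm_smul_left, hermForm_sub_left, hermForm_smul_left,
        IsON.ne hon (fun e => hjl (Subtype.ext e)), IsON.ne hon (Ne.symm (hSm l).1)]; ring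
    · intro h; exact absurd (Finset.mem_univ l) h
  rw [hy0, hermForm_zero_left] at e1
  have e2 : α l * c l = 0 := by linear_combination e1
  exact (mul_eq_zero.1 e2).resolve_right (hc0 l (hSm l).1 (hSm l).2)

end Cfsg.Agent.H98.UF
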