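import Mathlib
import Cfsg.Agent.H98.UFH

set_option autoImplicit false
set_option linter.unusedSectionVars false
set_option linter.unusedVariables false
set_option linter.style.haveILetI false
set_option maxHeartbeats 1000000

/-!
Frames with monomial point stabilisers do not exist in odd characteristic, `n ≥ 10`.
-/

namespace Cfsg.Agent.H98.UF

open scoped Matrix
open Cfsg.Agent.Uni Module
open Cfsg.Agent.USub (XT)

variable {F : Type*} [Field F] [Fintype F] {q n : ℕ}

theorem scalar_ne {c : F} (h : c ^ (q + 1) = 1) : c ≠ 0 := by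
  rintro rfl
  rw [zero_pow (by omega)] at h
  exact zero_ne_one h

theorem exists_notMem {S : Finset (Fin n)} (hS : S.card < n) : ∃ j, j ∉ S := by
  by_contra hcon
  push Not at hcon
  have h1 : (Finset.univ : Finset (Fin n)) ⊆ S := fun x _ => hcon x
  have := Finset.card_le_card h1
  rw [Finset.card_univ, Fintype.card_fin] at this
  omega

/-- configuration (H5) -/
structure H5 (M : Subgroup (SU n F q)) (b : Fin n → Fin n → F) (g : SU n F q) (i j : Fin n)
    (c : F) : Prop where
  frm : Frm M b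
  gM : g ∈ M
  gn : g ∉ (Mono b : Subgroup (SU n F q))
  ij : i ≠ j
  cn : c ^ (q + 1) = 1
  w : act g (b i - c • b j) = b i - c • b j
  fx : ∀ x, hermForm n F q x (b i) = 0 → hermForm n F q x (b j) = 0 →
    hermForm n F q x (act g (b i)) = 0 → act g x = x

theorem Frm.exists_H5 (hF : Fintype.card F = q ^ 2) (hq : 3 ≤ q) (h2 : (2 : F) ≠ 0) (hn : 10 ≤ n)
    {M : Subgroup (SU n F q)} {b : Fin n → Fin n → F} (h : Frm M b) {g : SU n F q} (hg : g ∈ M)
    (hgn : g ∉ (Mono b : Subgroup (SU n F q))) :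
    ∃ g₁ i j c, H5 M b g₁ i j c ∧ g⁻¹ * g₁ ∈ (Mono b : Subgroup (SU n F q)) := by
  classical
  have hopp := h.opp hF hq (by omega) hg hgn
  obtain ⟨b', hb'⟩ : ∃ b' : Fin n → Fin n → F, b' = fun i => Uni.act g (b i) := ⟨_, rfl⟩
  have hb'' : ∀ i, b' i = Uni.act g (b i) := fun i => by rw [hb']
  have hal := fun {z : SU n F q} => h.align hF hq h2 hn hg hgn (z := z)
  rw [← hb'] at hopp
  simp only [← hb''] at hal
  have hon := hopp.l.on
  have hon' := hopp.r.on
  obtain ⟨A, -, hA⟩ := Finset.exists_subset_card_eq (s := (Finset.univ : Finset (Fin n))) (n := 2)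
    (by rw [Finset.card_univ, Fintype.card_fin]; omega)
  obtain ⟨B, -, hB⟩ := Finset.exists_subset_card_eq (s := (Finset.univ : Finset (Fin n))) (n := 4)
    (by rw [Finset.card_univ, Fintype.card_fin]; omega)
  obtain ⟨u, hu⟩ := exists_tau hF hon 1 A hA
  obtain ⟨v, hv⟩ := exists_tau hF hon' 2 B hB
  obtain ⟨z, -, hzz, -, hdt, hdt', -⟩ := hopp.even hF hq h2 hn hA (Or.inr hB) hu hv
    (even_24 hF h2 hon hon' hA hB hu hv)
  obtain ⟨i, hi⟩ : (mv b z).Nonempty := Finset.card_pos.1 (by rw [hdt.card]; norm_num)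
  obtain ⟨j, hj, hji, c, hc⟩ := hdt.sw i hi
  obtain ⟨r, hr, α, hα⟩ := hal hzz hdt.card hdt'.card hi
  obtain ⟨s, hs, hsr, c', hc'⟩ := hdt'.sw r hr
  rw [hc, hc'] at hα
  obtain ⟨w, hw⟩ : ∃ w, w = b i - c • b j := ⟨_, rfl⟩
  rw [← hw] at hα
  have hcn := norm_scalar hon hc
  have hc0 := scalar_ne hcn
  obtain ⟨u₂, hu₂⟩ := exists_tau hF hon 1 {i, j} (Finset.card_pair (Ne.symm hji))
  obtain ⟨v₂, hv₂⟩ := exists_tau hF hon' 1 {r, s} (Finset.card_pair (Ne.symm hsr))
  have huw : Uni.act u₂ w = -w := by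
    rw [hw, act_sub, act_smul, hu₂.neg hon (Finset.mem_insert_self _ _),
      hu₂.neg hon (Finset.mem_insert_of_mem (Finset.mem_singleton_self _))]
    module
  have hvw : Uni.act v₂ w = -w := by
    rw [hα, act_smul, act_sub, act_smul, hv₂.neg hon' (Finset.mem_insert_self _ _),
      hv₂.neg hon' (Finset.mem_insert_of_mem (Finset.mem_singleton_self _))]
    module
  have huvw : Uni.act (u₂ * v₂) w = w := by
    rw [act_mul, hvw, act_neg, huw, neg_neg]
  have hodd : ¬ Even (orderOf (u₂ * v₂)) := by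
    intro hev
    obtain ⟨z₂, hz₂, hzz₂, hcfg, hdt₂, hdt₂', hAB⟩ := hopp.even hF hq h2 hn
      (Finset.card_pair (Ne.symm hji)) (Or.inl (Finset.card_pair (Ne.symm hsr))) hu₂ hv₂ hev
    obtain ⟨hA', hB'⟩ := hAB (Finset.card_pair (Ne.symm hsr))
    have hi2 := hA' (Finset.mem_insert_self _ _)
    obtain ⟨j', -, hj'i, c₂, hc₂⟩ := hdt₂.sw i hi2
    have h1 := (hcfg.sA i j' c₂ hc₂).1 (Finset.mem_insert_self _ _)
    rw [Finset.mem_insert, Finset.mem_singleton] at h1
    have h3 := h1.resolve_left hj'i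
    rw [h3] at hc₂
    have hzw : Uni.act z₂ w = w := zpowers_fix hz₂ huvw
    -- `c₂ = -c`
    have hc₂c : c₂ = -c := by
      have e1 := act_form z₂ w (b i)
      rw [hzw, hc₂, hermForm_smul_right, hw, hermForm_sub_left, hermForm_sub_left,
        hermForm_smul_left, hermForm_smul_left, IsON.ne hon (Ne.symm hji), IsON.self hon,
        IsON.self hon, IsON.ne hon hji] at e1
      have e2 : c₂ ^ q * c = -1 := by linear_combination -e1
      have e3 := norm_scalar hon hc₂
      rw [pow_succ] at e3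
      have e4 : c₂ ^ q ≠ 0 := by
        intro h0
        rw [h0, zero_mul] at e2
        exact one_ne_zero (neg_eq_zero.1 e2.symm)
      apply mul_left_cancel₀ e4
      rw [e3]
      linear_combination e2
    obtain ⟨r', hr', α', hα'⟩ := hal hzz₂ hdt₂.card hdt₂'.card hi2
    obtain ⟨s', hs', hsr', c₃, hc₃⟩ := hdt₂'.sw r' hr'
    rw [hc₂, hc₃, hc₂c] at hα'
    refine hopp.supp (S := {r, s, r', s'}) (by
      have : ({r, s, r', s'} : Finset (Fin n)).card ≤ 4 := Finset.card_le_four
      omega) (i := i) fun k hk => ?_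
    simp only [Finset.mem_insert, Finset.mem_singleton, not_or] at hk
    have f1 : hermForm n F q w (b' k) = 0 := by
      rw [hα, hermForm_smul_left, hermForm_sub_left, hermForm_smul_left,
        IsON.ne hon' (Ne.symm hk.1), IsON.ne hon' (Ne.symm hk.2.1)]; ring
    have f2 : hermForm n F q (b i - -c • b j) (b' k) = 0 := by
      rw [hα', hermForm_smul_left, hermForm_sub_left, hermForm_smul_left,
        IsON.ne hon' (Ne.symm hk.2.2.1), IsON.ne hon' (Ne.symm hk.2.2.2)]; ring
    rw [hw, hermForm_sub_left, hermForm_smul_left] at f1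
    rw [hermForm_sub_left, hermForm_smul_left] at f2
    have f3 : (2 : F) * hermForm n F q (b i) (b' k) = 0 := by linear_combination f1 + f2
    exact (mul_eq_zero.1 f3).resolve_left h2
  have hv₂' := hv₂
  rw [hb'] at hv₂'
  obtain ⟨g₁, hg₁M, hg₁, hmono, hmv⟩ := h.odd hF hq h2 hn hg (Finset.card_pair (Ne.symm hji))
    (Finset.card_pair (Ne.symm hsr)) hu₂ hv₂' hodd
  have hgw : Uni.act g₁ w = w := zpowers_fix hg₁ huvw
  refine ⟨g₁, i, j, c, ⟨h, hg₁M, fun h' => hgn ?_, Ne.symm hji, hcn, by rw [← hw]; exact hgw,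
    fun x hxi hxj hxg => ?_⟩, hmono⟩
  · have := (Mono b).mul_mem h' ((Mono b).inv_mem hmono)
    rwa [mul_inv_rev, inv_inv, mul_inv_cancel_left] at this
  · have hxw : hermForm n F q x (Uni.act g₁ w) = 0 := by
      rw [hgw, hw, hermForm_sub_right hF, hermForm_smul_right, hxi, hxj]; ring
    have hxg' : hermForm n F q x (Uni.act g₁ (b j)) = 0 := by
      rw [hw, act_sub, act_smul, hermForm_sub_right hF, hermForm_smul_right, hxg] at hxw
      have : c ^ q * hermForm n F q x (Uni.act g₁ (b j)) = 0 := by linear_combination -hxw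
      exact (mul_eq_zero.1 this).resolve_left (pow_ne_zero _ hc0)
    obtain ⟨k₁, hk₁, d₁, hd₁, e₁⟩ := hmv i (Finset.mem_insert_self _ _)
    obtain ⟨k₂, hk₂, d₂, hd₂, e₂⟩ := hmv j (Finset.mem_insert_of_mem (Finset.mem_singleton_self _))
    rw [← hb''] at e₁ e₂
    have hk₁₂ : k₁ ≠ k₂ := by
      rintro rfl
      have e := act_form g₁ (b i) (b j)
      rw [e₁, e₂, hermForm_smul_left, hermForm_smul_right, IsON.self hon',
        IsON.ne hon (Ne.symm hji), mul_one] at e
      rcases mul_eq_zero.1 e with h | h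
      · exact hd₁ h
      · exact pow_ne_zero _ hd₂ h
    have o₁ : hermForm n F q x (b' k₁) = 0 := by
      rw [e₁, hermForm_smul_right] at hxg
      exact (mul_eq_zero.1 hxg).resolve_left (pow_ne_zero _ hd₁)
    have o₂ : hermForm n F q x (b' k₂) = 0 := by
      rw [e₂, hermForm_smul_right] at hxg'
      exact (mul_eq_zero.1 hxg').resolve_left (pow_ne_zero _ hd₂)
    have hall : ∀ k ∈ ({r, s} : Finset (Fin n)), hermForm n F q x (b' k) = 0 := by
      intro k hk
      have hsub : ({k₁, k₂} : Finset (Fin n)) = {r, s} := by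
        apply Finset.eq_of_subset_of_card_le
        · intro a ha
          rw [Finset.mem_insert, Finset.mem_singleton] at ha
          rcases ha with rfl | rfl
          · exact hk₁
          · exact hk₂
        · rw [Finset.card_pair (Ne.symm hsr), Finset.card_pair hk₁₂]
      rw [← hsub, Finset.mem_insert, Finset.mem_singleton] at hk
      rcases hk with rfl | rfl
      · exact o₁
      · exact o₂
    apply zpowers_fix hg₁
    rw [act_mul, hv₂.fix hall, hu₂.fix]
    intro k hk
    rw [Finset.mem_insert, Finset.mem_singleton] at hk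
    rcases hk with rfl | rfl
    · exact hxi
    · exact hxj

section
variable {M : Subgroup (SU n F q)} {b : Fin n → Fin n → F} {g : SU n F q} {i j : Fin n} {c : F}

/-- the residual vector -/
structure H6 (M : Subgroup (SU n F q)) (b : Fin n → Fin n → F) (g : SU n F q) (i j : Fin n)
    (c : F) (r : Fin n → F) (ρ : F) : Prop where
  h5 : H5 M b g i j c
  gb : ∀ m, m ≠ i → m ≠ j → act g (b m) = b m + hermForm n F q (b m) (act g (b i)) • r
  ρ0 : ρ ≠ 0
  rb : ∀ m, m ≠ i → m ≠ j →
    hermForm n F q r (b m) = ρ * hermForm n F q (b m) (act g (b i)) ^ q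

theorem H5.exists_H6 (hF : Fintype.card F = q ^ 2) (hq : 3 ≤ q) (hn : 10 ≤ n)
    (h : H5 M b g i j c) : ∃ r ρ, H6 M b g i j c r ρ := by
  classical
  have hopp := h.frm.opp hF hq (by omega) h.gM h.gn
  have hon := h.frm.on
  obtain ⟨η, hη⟩ : ∃ η : Fin n → F, ∀ m, η m = hermForm n F q (b m) (act g (b i)) :=
    ⟨_, fun _ => rfl⟩
  obtain ⟨m₀, hm₀i, hm₀j, hm₀⟩ : ∃ m, m ≠ i ∧ m ≠ j ∧ η m ≠ 0 := by
    by_contra hcon
    push Not at hcon
    refine hopp.symm.supp (S := {i, j}) (by
      have : ({i, j} : Finset (Fin n)).card ≤ 2 := Finset.card_le_two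
      omega) (i := i) fun k hk => ?_
    simp only [Finset.mem_insert, Finset.mem_singleton, not_or] at hk
    have := hcon k hk.1 hk.2
    rw [hη] at this
    exact (hermForm_eq_zero_comm hF).1 this
  obtain ⟨r, hr⟩ : ∃ r, r = (η m₀)⁻¹ • (act g (b m₀) - b m₀) := ⟨_, rfl⟩
  have hgb : ∀ m, m ≠ i → m ≠ j → act g (b m) = b m + η m • r := by
    intro m hmi hmj
    have hx := h.fx (η m₀ • b m - η m • b m₀)
      (by rw [hermForm_sub_left, hermForm_smul_left, hermForm_smul_left, IsON.ne hon hmi,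
        IsON.ne hon hm₀i]; ring)
      (by rw [hermForm_sub_left, hermForm_smul_left, hermForm_smul_left, IsON.ne hon hmj,
        IsON.ne hon hm₀j]; ring)
      (by rw [hermForm_sub_left, hermForm_smul_left, hermForm_smul_left, ← hη, ← hη]; ring)
    rw [act_sub, act_smul, act_smul] at hx
    have e1 : η m₀ • act g (b m) = η m₀ • (b m + η m • r) := by
      rw [hr, smul_add, smul_comm (η m₀) (η m), smul_smul (η m₀), mul_inv_cancel₀ hm₀, one_smul,
        smul_sub]
      rw [sub_eq_iff_eq_add] at hx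
      rw [hx]
      abel
    exact smul_right_injective _ hm₀ e1
  have hfr : ∀ m, m ≠ i → m ≠ j → hermForm n F q r (b m) =
      (-(hermForm n F q (b m₀) r + η m₀ * hermForm n F q r r) / η m₀) * η m ^ q := by
    intro m hmi hmj
    have e := act_form g (b m₀) (b m)
    rw [hgb m₀ hm₀i hm₀j, hgb m hmi hmj, hermForm_add_left, hermForm_add_right hF,
      hermForm_add_right hF, hermForm_smul_left, hermForm_smul_left, hermForm_smul_right,
      hermForm_smul_right] at e
    field_simp
    linear_combination e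
  refine ⟨r, _, h, fun m hmi hmj => by rw [← hη]; exact hgb m hmi hmj, ?_,
    fun m hmi hmj => by rw [← hη]; exact hfr m hmi hmj⟩
  intro h0
  rw [h0] at hfr
  refine hopp.symm.supp (S := {i, j, m₀}) (by
      have : ({i, j, m₀} : Finset (Fin n)).card ≤ 3 := Finset.card_le_three
      omega) (i := m₀) fun k hk => ?_
  simp only [Finset.mem_insert, Finset.mem_singleton, not_or] at hk
  change hermForm n F q (act g (b m₀)) (b k) = 0
  rw [hgb m₀ hm₀i hm₀j, hermForm_add_left, hermForm_smul_left, hfr k hk.1 hk.2.1,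
    IsON.ne hon (Ne.symm hk.2.2)]; ring

theorem H6.fixed (hF : Fintype.card F = q ^ 2) {r : Fin n → F} {ρ : F} (h : H6 M b g i j c r ρ)
    {a a' : Fin n} (ha : a ≠ i) (ha' : a ≠ j) (hb : a' ≠ i) (hb' : a' ≠ j) :
    act g (hermForm n F q (b a') (act g (b i)) • b a - hermForm n F q (b a) (act g (b i)) • b a') =
    hermForm n F q (b a') (act g (b i)) • b a - hermForm n F q (b a) (act g (b i)) • b a' := by
  rw [act_sub, act_smul, act_smul, h.gb a ha ha', h.gb a' hb hb']
  module

/-- evenness -/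
theorem H6.even (hF : Fintype.card F = q ^ 2) (hq : 3 ≤ q) (h2 : (2 : F) ≠ 0) (hn : 10 ≤ n)
    {r : Fin n → F} {ρ : F} (h : H6 M b g i j c r ρ) {A : Finset (Fin n)} (hA : A.card = 2)
    {k p : Fin n} (hkp : k ≠ p) (hk : k ≠ i ∧ k ≠ j) (hp : p ≠ i ∧ p ≠ j) (hkA : k ∉ A)
    (hpA : p ∉ A) {u v : SU n F q} (hu : Tau b A u)
    (hv : Tau (fun i => Uni.act g (b i)) {k, p} v) : Even (orderOf (u * v)) := by
  classical
  by_contra hodd
  have hopp := h.h5.frm.opp hF hq (by omega) h.h5.gM h.h5.gn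
  have hon := h.h5.frm.on
  obtain ⟨η, hη⟩ : ∃ η : Fin n → F, ∀ m, η m = hermForm n F q (b m) (act g (b i)) :=
    ⟨_, fun _ => rfl⟩
  have hgb : ∀ m, m ≠ i → m ≠ j → act g (b m) = b m + η m • r := fun m h1 h2 => by
    rw [hη]; exact h.gb m h1 h2
  have hrb : ∀ m, m ≠ i → m ≠ j → hermForm n F q r (b m) = ρ * η m ^ q := fun m h1 h2 => by
    rw [hη]; exact h.rb m h1 h2
  have hbr : ∀ m, m ≠ i → m ≠ j → hermForm n F q (b m) r = ρ ^ q * η m := fun m h1 h2 => by
    rw [← hermForm_symm hF, hrb m h1 h2, mul_pow, pow_q_pow_q hF]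
  obtain ⟨g₂, hg₂M, hg₂, hmono, hmv⟩ := h.h5.frm.odd hF hq h2 hn h.h5.gM hA
    (Finset.card_pair hkp) hu hv hodd
  -- vectors fixed by `g₂`
  have hfix : ∀ x, (∀ l ∈ A, hermForm n F q x (b l) = 0) →
      hermForm n F q x (Uni.act g (b k)) = 0 → hermForm n F q x (Uni.act g (b p)) = 0 →
      Uni.act g₂ x = x := by
    intro x h1 h3 h4
    apply zpowers_fix hg₂
    rw [act_mul, hv.fix, hu.fix h1]
    intro l hl
    rw [Finset.mem_insert, Finset.mem_singleton] at hl
    rcases hl with rfl | rfl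
    · exact h3
    · exact h4
  -- the good indices
  obtain ⟨S, hS⟩ : ∃ S : Finset (Fin n), S = A ∪ {k, p, i, j} := ⟨_, rfl⟩
  have hScard : S.card ≤ 6 := by
    have h1 := Finset.card_union_le A {k, p, i, j}
    have h3 : ({k, p, i, j} : Finset (Fin n)).card ≤ 4 := Finset.card_le_four
    rw [hS]; omega
  have good : ∀ T : Finset (Fin n), T.card ≤ 2 → ∃ a, a ∉ S ∧ a ∉ T ∧ η a ≠ 0 := by
    intro T hT
    by_contra hcon
    push Not at hcon
    have h1 := Finset.card_union_le S T
    refine hopp.symm.supp (S := S ∪ T) (by omega) (i := i) fun m hm => ?_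
    rw [Finset.mem_union, not_or] at hm
    have := hcon m hm.1 hm.2
    rw [hη] at this
    exact (hermForm_eq_zero_comm hF).1 this
  obtain ⟨a, haS, -, ha⟩ := good ∅ (by simp)
  obtain ⟨a', haS', haT', ha'⟩ := good {a} (by simp)
  obtain ⟨a'', haS'', haT'', ha''⟩ := good {a, a'} Finset.card_le_two
  have hSm : ∀ a, a ∉ S → a ∉ A ∧ a ≠ k ∧ a ≠ p ∧ a ≠ i ∧ a ≠ j := by
    intro a ha
    rw [hS, Finset.mem_union, not_or] at ha
    simp only [Finset.mem_insert, Finset.mem_singleton, not_or] at ha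
    exact ⟨ha.1, ha.2.1, ha.2.2.1, ha.2.2.2.1, ha.2.2.2.2⟩
  have hsa := hSm a haS
  have hsa' := hSm a' haS'
  have hsa'' := hSm a'' haS''
  rw [Finset.mem_singleton] at haT'
  rw [Finset.mem_insert, Finset.mem_singleton, not_or] at haT''
  -- `g⁻¹ g₂` fixes the difference vectors
  have hdiff : ∀ a a', a ∉ A ∧ a ≠ k ∧ a ≠ p ∧ a ≠ i ∧ a ≠ j →
      a' ∉ A ∧ a' ≠ k ∧ a' ≠ p ∧ a' ≠ i ∧ a' ≠ j →
      Uni.act (g⁻¹ * g₂) (η a' • b a - η a • b a') = η a' • b a - η a • b a' := by
    intro a a' h1 h3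
    have hgx : Uni.act g (η a' • b a - η a • b a') = η a' • b a - η a • b a' := by
      rw [hη, hη]; exact h.fixed hF h1.2.2.2.1 h1.2.2.2.2 h3.2.2.2.1 h3.2.2.2.2
    have hg₂x : Uni.act g₂ (η a' • b a - η a • b a') = η a' • b a - η a • b a' := by
      apply hfix
      · intro l hl
        rw [hermForm_sub_left, hermForm_smul_left, hermForm_smul_left,
          IsON.ne hon (fun e => h1.1 (by rw [e]; exact hl)),
          IsON.ne hon (fun e => h3.1 (by rw [e]; exact hl))]; ring
      · rw [← hgx, act_form, hermForm_sub_left, hermForm_smul_left, hermForm_smul_left,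
          IsON.ne hon h1.2.1, IsON.ne hon h3.2.1]; ring
      · rw [← hgx, act_form, hermForm_sub_left, hermForm_smul_left, hermForm_smul_left,
          IsON.ne hon h1.2.2.1, IsON.ne hon h3.2.2.1]; ring
    rw [act_mul, hg₂x]
    conv_lhs => rw [← hgx]
    rw [act_inv_act]
  -- hence fixes `b a`
  have hka : Uni.act (g⁻¹ * g₂) (b a) = b a := by
    obtain ⟨t, μ, hμ, ht⟩ := hmono a
    have e1 := hdiff a a' hsa hsa'
    have e2 := hdiff a a'' hsa hsa''
    obtain ⟨t', μ', hμ', ht'⟩ := hmono a'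
    obtain ⟨t'', μ'', hμ'', ht''⟩ := hmono a''
    have inj : ∀ x y s s' : Fin n, ∀ c c' : F, x ≠ y → c ≠ 0 → c' ≠ 0 →
        Uni.act (g⁻¹ * g₂) (b x) = c • b s → Uni.act (g⁻¹ * g₂) (b y) = c' • b s' → s ≠ s' := by
      rintro x y s s' c c' hxy hc hc' h1 h3 rfl
      have e := act_form (g⁻¹ * g₂) (b x) (b y)
      rw [h1, h3, hermForm_smul_left, hermForm_smul_right, IsON.self hon, IsON.ne hon hxy,
        mul_one] at e
      rcases mul_eq_zero.1 e with h | h
      · exact hc h
      · exact pow_ne_zero _ hc' h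
    have i1 := inj a a' t t' μ μ' (Ne.symm haT') hμ hμ' ht ht'
    have i2 := inj a a'' t t'' μ μ'' (Ne.symm haT''.1) hμ hμ'' ht ht''
    rw [act_sub, act_smul, act_smul, ht, ht'] at e1
    rw [act_sub, act_smul, act_smul, ht, ht''] at e2
    have f1 := congrArg (fun x => hermForm n F q x (b t)) e1
    have f2 := congrArg (fun x => hermForm n F q x (b t)) e2
    simp only [hermForm_sub_left, hermForm_smul_left] at f1 f2
    rw [IsON.self hon, IsON.ne hon (Ne.symm i1)] at f1
    rw [IsON.self hon, IsON.ne hon (Ne.symm i2)] at f2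
    by_cases hta : t = a
    · rw [hta, IsON.self hon, IsON.ne hon haT'] at f1
      have : μ = 1 := mul_left_cancel₀ ha' (by linear_combination f1)
      rw [ht, hta, this, one_smul]
    · exfalso
      rw [IsON.ne hon (Ne.symm hta)] at f1 f2
      by_cases h3 : t = a'
      · rw [h3, IsON.ne hon haT''.2] at f2
        have : η a'' * μ = 0 := by linear_combination f2
        rcases mul_eq_zero.1 this with h | h
        · exact ha'' h
        · exact hμ h
      · rw [IsON.ne hon (Ne.symm h3)] at f1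
        have : η a' * μ = 0 := by linear_combination f1
        rcases mul_eq_zero.1 this with h | h
        · exact ha' h
        · exact hμ h
  have hg₂a : Uni.act g₂ (b a) = b a + η a • r := by
    rw [← hgb a hsa.2.2.2.1 hsa.2.2.2.2]
    conv_rhs => rw [← hka]
    rw [← act_mul, mul_inv_cancel_left]
  -- the test vector
  obtain ⟨x, hx⟩ : ∃ x, x = ((1 + ρ ^ q * (η k ^ (q + 1) + η p ^ (q + 1))) / η a) • b a -
      (η k ^ q * ρ ^ q) • b k - (η p ^ q * ρ ^ q) • b p := ⟨_, rfl⟩
  have hxr : hermForm n F q x r = ρ ^ q := by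
    rw [hx, hermForm_sub_left, hermForm_sub_left, hermForm_smul_left, hermForm_smul_left,
      hermForm_smul_left, hbr a hsa.2.2.2.1 hsa.2.2.2.2, hbr k hk.1 hk.2, hbr p hp.1 hp.2,
      pow_succ, pow_succ]
    field_simp
    ring
  have hg₂x : Uni.act g₂ x = x := by
    apply hfix
    · intro l hl
      rw [hx, hermForm_sub_left, hermForm_sub_left, hermForm_smul_left, hermForm_smul_left,
        hermForm_smul_left, IsON.ne hon (fun e => hsa.1 (by rw [e]; exact hl)),
        IsON.ne hon (fun e => hkA (by rw [e]; exact hl)),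
        IsON.ne hon (fun e => hpA (by rw [e]; exact hl))]; ring
    · rw [hgb k hk.1 hk.2, hermForm_add_right hF, hermForm_smul_right, hxr, hx, hermForm_sub_left,
        hermForm_sub_left, hermForm_smul_left, hermForm_smul_left, hermForm_smul_left,
        IsON.ne hon hsa.2.1, IsON.self hon, IsON.ne hon (Ne.symm hkp)]; ring
    · rw [hgb p hp.1 hp.2, hermForm_add_right hF, hermForm_smul_right, hxr, hx, hermForm_sub_left,
        hermForm_sub_left, hermForm_smul_left, hermForm_smul_left, hermForm_smul_left,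
        IsON.ne hon hsa.2.2.1, IsON.self hon, IsON.ne hon hkp]; ring
  have e := act_form g₂ x (b a)
  rw [hg₂x, hg₂a, hermForm_add_right hF, hermForm_smul_right, hxr] at e
  have : η a ^ q * ρ ^ q = 0 := by linear_combination e
  rcases mul_eq_zero.1 this with h' | h'
  · exact pow_ne_zero _ ha h'
  · exact pow_ne_zero _ h.ρ0 h'

theorem norm_pow (hF : Fintype.card F = q ^ 2) (x : F) : (x ^ q) ^ (q + 1) = x ^ (q + 1) := by
  rw [← norm_pow_q hF x, ← pow_mul, ← pow_mul, mul_comm]

theorem norm_neg (hF : Fintype.card F = q ^ 2) (x : F) : (-x) ^ (q + 1) = x ^ (q + 1) := by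
  rw [pow_succ, pow_succ, neg_pow_q hF, neg_mul_neg]

theorem H6.norm_eq (hF : Fintype.card F = q ^ 2) (hq : 3 ≤ q) (h2 : (2 : F) ≠ 0) (hn : 10 ≤ n)
    {r : Fin n → F} {ρ : F} (h : H6 M b g i j c r ρ) {m l : Fin n} (hml : m ≠ l) {β γ : F}
    {T : Finset (Fin n)} (hT : T.card ≤ 3)
    (hx : ∀ k ∉ T, hermForm n F q (β • b m + γ • b l) (act g (b k)) = 0) :
    γ ^ (q + 1) = β ^ (q + 1) ∧ ∀ k₁ k₂ k₃ : Fin n, k₁ ≠ k₂ → k₁ ≠ k₃ → k₂ ≠ k₃ →
      hermForm n F q (β • b m + γ • b l) (act g (b k₁)) = 0 ∨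
      hermForm n F q (β • b m + γ • b l) (act g (b k₂)) = 0 ∨
      hermForm n F q (β • b m + γ • b l) (act g (b k₃)) = 0 := by
  classical
  have hopp := h.h5.frm.opp hF hq (by omega) h.h5.gM h.h5.gn
  have hon := h.h5.frm.on
  have hal := fun {z : SU n F q} => h.h5.frm.align hF hq h2 hn h.h5.gM h.h5.gn (z := z)
  obtain ⟨k, hk⟩ := exists_notMem (S := {m, l, i, j}) (by
    have : ({m, l, i, j} : Finset (Fin n)).card ≤ 4 := Finset.card_le_four
    omega)
  obtain ⟨p, hp⟩ := exists_notMem (S := {m, l, i, j, k}) (by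
    have : ({m, l, i, j, k} : Finset (Fin n)).card ≤ 5 := Finset.card_le_five
    omega)
  simp only [Finset.mem_insert, Finset.mem_singleton, not_or] at hk hp
  obtain ⟨u, hu⟩ := exists_tau hF hon 1 {m, l} (Finset.card_pair hml)
  obtain ⟨v, hv⟩ := exists_tau hF (IsON.act hon g) 1 {k, p} (Finset.card_pair (Ne.symm hp.2.2.2.2))
  have hev := h.even hF hq h2 hn (Finset.card_pair hml) (Ne.symm hp.2.2.2.2) hk.2.2 
    ⟨hp.2.2.1, hp.2.2.2.1⟩ (by
      rw [Finset.mem_insert, Finset.mem_singleton, not_or]; exact ⟨hk.1, hk.2.1⟩) (by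
      rw [Finset.mem_insert, Finset.mem_singleton, not_or]; exact ⟨hp.1, hp.2.1⟩) hu hv
  obtain ⟨z, -, hzz, hcfg, hdt, hdt', hAB⟩ := hopp.even hF hq h2 hn (Finset.card_pair hml)
    (Or.inl (Finset.card_pair (Ne.symm hp.2.2.2.2))) hu hv hev
  obtain ⟨hA', -⟩ := hAB (Finset.card_pair (Ne.symm hp.2.2.2.2))
  have hmz := hA' (Finset.mem_insert_self _ _)
  obtain ⟨j', -, hj'm, c₁, hc₁⟩ := hdt.sw m hmz
  have h1 := (hcfg.sA m j' c₁ hc₁).1 (Finset.mem_insert_self _ _)
  rw [Finset.mem_insert, Finset.mem_singleton] at h1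
  have h3 := h1.resolve_left hj'm
  rw [h3] at hc₁
  obtain ⟨r₁, hr₁, α, hα⟩ := hal hzz hdt.card hdt'.card hmz
  obtain ⟨s, hs, hsr, c', hc'⟩ := hdt'.sw r₁ hr₁
  change Uni.act z (Uni.act g (b r₁)) = c' • Uni.act g (b s) at hc'
  rw [hc₁, hc'] at hα
  have hsupp : ∀ k, k ≠ r₁ → k ≠ s → hermForm n F q (b m - c₁ • b l) (act g (b k)) = 0 := by
    intro k h4 h5
    rw [hα, hermForm_smul_left, hermForm_sub_left, hermForm_smul_left, act_form, act_form,
      IsON.ne hon (Ne.symm h4), IsON.ne hon (Ne.symm h5)]; ring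
  have hγ : γ = -(β * c₁) := by
    by_contra hne
    have hne' : γ + β * c₁ ≠ 0 := fun e => hne (by linear_combination e)
    have hcard : (T ∪ {r₁, s}).card ≤ 5 := by
      have e1 := Finset.card_union_le T {r₁, s}
      have e2 : ({r₁, s} : Finset (Fin n)).card ≤ 2 := Finset.card_le_two
      omega
    refine hopp.supp (S := T ∪ {r₁, s}) (by omega) (i := l) fun k hk => ?_
    change hermForm n F q (b l) (Uni.act g (b k)) = 0
    simp only [Finset.mem_union, Finset.mem_insert, Finset.mem_singleton, not_or] at hk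
    have f1 := hx k hk.1
    have f2 := hsupp k hk.2.1 hk.2.2
    rw [hermForm_add_left, hermForm_smul_left, hermForm_smul_left] at f1
    rw [hermForm_sub_left, hermForm_smul_left] at f2
    have f3 : (γ + β * c₁) * hermForm n F q (b l) (act g (b k)) = 0 := by
      linear_combination f1 - β * f2
    exact (mul_eq_zero.1 f3).resolve_left hne'
  constructor
  · rw [hγ, norm_neg hF, mul_pow, norm_scalar hon hc₁, mul_one]
  · intro k₁ k₂ k₃ h12 h13 h23
    have hz : ∀ k, k ≠ r₁ → k ≠ s → hermForm n F q (β • b m + γ • b l) (act g (b k)) = 0 := by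
      intro k h4 h5
      have f2 := hsupp k h4 h5
      rw [hermForm_sub_left, hermForm_smul_left] at f2
      rw [hermForm_add_left, hermForm_smul_left, hermForm_smul_left, hγ]
      linear_combination β * f2
    by_cases e1 : k₁ = r₁ ∨ k₁ = s
    · by_cases e2 : k₂ = r₁ ∨ k₂ = s
      · right; right
        apply hz
        · rintro rfl
          rcases e1 with rfl | rfl
          · exact h13 rfl
          · rcases e2 with rfl | rfl
            · exact h23 rfl
            · exact h12 rfl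
        · rintro rfl
          rcases e1 with rfl | rfl
          · rcases e2 with rfl | rfl
            · exact h12 rfl
            · exact h23 rfl
          · exact h13 rfl
      · right; left
        rw [not_or] at e2
        exact hz _ e2.1 e2.2
    · left
      rw [not_or] at e1
      exact hz _ e1.1 e1.2

/-- the norms of the entries of `g` with respect to `b` -/
def Qp (b : Fin n → Fin n → F) (g : SU n F q) : Prop :=
  ∀ s, ∃ (ν : F) (l₀ : Fin n), ∀ l, l ≠ l₀ → hermForm n F q (act g (b s)) (b l) ^ (q + 1) = ν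

theorem Qp.mul (hb : IsON q b) (h : Qp b g) {k : SU n F q}
    (hk : k ∈ (Mono b : Subgroup (SU n F q))) : Qp b (g * k) := by
  intro s
  obtain ⟨t, μ, hμ, ht⟩ := hk s
  obtain ⟨ν, l₀, hl₀⟩ := h t
  refine ⟨ν, l₀, fun l hl => ?_⟩
  rw [act_mul, ht, act_smul, hermForm_smul_left, mul_pow, norm_scalar hb ht, one_mul, hl₀ l hl]

/-- all norms -/
structure H7 (M : Subgroup (SU n F q)) (b : Fin n → Fin n → F) (g : SU n F q) (i j : Fin n)
    (c : F) (r : Fin n → F) (ρ ν : F) : Prop where
  h6 : H6 M b g i j c r ρ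
  ν0 : ν ≠ 0
  nη : ∀ m, m ≠ i → m ≠ j → hermForm n F q (b m) (act g (b i)) ^ (q + 1) = ν
  nρ : hermForm n F q r (b i) ^ (q + 1) = ρ ^ (q + 1) * ν
  fi : hermForm n F q (b i) (act g (b i)) ^ (q + 1) = ν ∨
    (hermForm n F q (b i) (act g (b i)) - 1) ^ (q + 1) = ν

theorem H6.exists_H7 (hF : Fintype.card F = q ^ 2) (hq : 3 ≤ q) (h2 : (2 : F) ≠ 0) (hn : 10 ≤ n)
    {r : Fin n → F} {ρ : F} (h : H6 M b g i j c r ρ) : ∃ ν, H7 M b g i j c r ρ ν := by
  classical
  have hopp := h.h5.frm.opp hF hq (by omega) h.h5.gM h.h5.gn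
  have hon := h.h5.frm.on
  have hij := h.h5.ij
  obtain ⟨η, hη⟩ : ∃ η : Fin n → F, ∀ m, η m = hermForm n F q (b m) (act g (b i)) :=
    ⟨_, fun _ => rfl⟩
  have hgb : ∀ m, m ≠ i → m ≠ j → act g (b m) = b m + η m • r := fun m h1 h2 => by
    rw [hη]; exact h.gb m h1 h2
  have hrb : ∀ m, m ≠ i → m ≠ j → hermForm n F q r (b m) = ρ * η m ^ q := fun m h1 h2 => by
    rw [hη]; exact h.rb m h1 h2
  have hbr : ∀ m, m ≠ i → m ≠ j → hermForm n F q (b m) r = ρ ^ q * η m := fun m h1 h2 => by
    rw [← hermForm_symm hF, hrb m h1 h2, mul_pow, pow_q_pow_q hF]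
  obtain ⟨m₀, hm₀i, hm₀j, hm₀⟩ : ∃ m, m ≠ i ∧ m ≠ j ∧ η m ≠ 0 := by
    by_contra hcon
    push Not at hcon
    refine hopp.symm.supp (S := {i, j}) (by
      have : ({i, j} : Finset (Fin n)).card ≤ 2 := Finset.card_le_two
      omega) (i := i) fun k hk => ?_
    simp only [Finset.mem_insert, Finset.mem_singleton, not_or] at hk
    have := hcon k hk.1 hk.2
    rw [hη] at this
    exact (hermForm_eq_zero_comm hF).1 this
  obtain ⟨ν, hν⟩ : ∃ ν, ν = η m₀ ^ (q + 1) := ⟨_, rfl⟩
  have hν0 : ν ≠ 0 := by rw [hν]; exact pow_ne_zero _ hm₀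
  have hnη : ∀ m, m ≠ i → m ≠ j → η m ^ (q + 1) = ν := by
    intro m hmi hmj
    by_cases hmm : m = m₀
    · rw [hmm, hν]
    have := (h.norm_eq hF hq h2 hn (m := m) (l := m₀) hmm (β := η m₀) (γ := -η m) (T := {m, m₀})
      (by
        have : ({m, m₀} : Finset (Fin n)).card ≤ 2 := Finset.card_le_two
        omega) (fun k hk => by
        rw [Finset.mem_insert, Finset.mem_singleton, not_or] at hk
        have e := h.fixed hF hmi hmj hm₀i hm₀j
        rw [← hη, ← hη] at e
        have e1 : η m₀ • b m + -η m • b m₀ = η m₀ • b m - η m • b m₀ := by module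
        rw [e1, ← e, act_form, hermForm_sub_left, hermForm_smul_left, hermForm_smul_left,
          IsON.ne hon (Ne.symm hk.1), IsON.ne hon (Ne.symm hk.2)]; ring)).1
    rw [norm_neg hF] at this
    rw [this, hν]
  have hηm₀ : hermForm n F q (b m₀) (act g (b i)) = η m₀ := (hη m₀).symm
  obtain ⟨ρi, hρi⟩ : ∃ ρi, ρi = hermForm n F q r (b i) := ⟨_, rfl⟩
  have hbri : hermForm n F q (b i) r = ρi ^ q := by rw [hρi, hermForm_symm hF]
  obtain ⟨x, hx⟩ : ∃ x, x = (ρ ^ q * η m₀) • b i + (-ρi ^ q) • b m₀ := ⟨_, rfl⟩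
  have hxr : hermForm n F q x r = 0 := by
    rw [hx, hermForm_add_left, hermForm_smul_left, hermForm_smul_left, hbri, hbr m₀ hm₀i hm₀j]
    ring
  have key := h.norm_eq hF hq h2 hn (m := i) (l := m₀) (Ne.symm hm₀i) (β := ρ ^ q * η m₀)
    (γ := -ρi ^ q) (T := {i, j, m₀}) Finset.card_le_three (fun k hk => by
      simp only [Finset.mem_insert, Finset.mem_singleton, not_or] at hk
      rw [← hx, hgb k hk.1 hk.2.1, hermForm_add_right hF, hermForm_smul_right, hxr, hx,
        hermForm_add_left, hermForm_smul_left, hermForm_smul_left, IsON.ne hon (Ne.symm hk.1),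
        IsON.ne hon (Ne.symm hk.2.2)]; ring)
  rw [← hx] at key
  obtain ⟨key1, key2⟩ := key
  rw [norm_neg hF, norm_pow hF, mul_pow, norm_pow hF, ← hν] at key1
  have hρi0 : ρi ≠ 0 := by
    rintro h0
    rw [h0, zero_pow (by omega)] at key1
    rcases mul_eq_zero.1 key1.symm with h' | h'
    · exact pow_ne_zero _ h.ρ0 h'
    · exact hν0 h'
  refine ⟨ν, h, hν0, fun m h1 h3 => by rw [← hη]; exact hnη m h1 h3, by rw [← hρi]; exact key1, ?_⟩
  -- coordinates of `x`
  have hρ0 := h.ρ0
  have hm0x : hermForm n F q x (act g (b m₀)) ≠ 0 := by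
    rw [hgb m₀ hm₀i hm₀j, hermForm_add_right hF, hermForm_smul_right, hxr, hx,
      hermForm_add_left, hermForm_smul_left, hermForm_smul_left, IsON.ne hon (Ne.symm hm₀i),
      IsON.self hon]
    intro h0
    have : ρi ^ q = 0 := by linear_combination -h0
    exact pow_ne_zero _ hρi0 this
  obtain ⟨φ, hφ⟩ : ∃ φ, φ = hermForm n F q (b i) (act g (b i)) := ⟨_, rfl⟩
  have hxi : hermForm n F q x (act g (b i)) = η m₀ * (ρ ^ q * φ - ρi ^ q) := by
    rw [hx, hermForm_add_left, hermForm_smul_left, hermForm_smul_left, ← hφ, hηm₀]; ring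
  have hc0 := scalar_ne h.h5.cn
  have hxj : c ^ q * hermForm n F q x (act g (b j)) = η m₀ * (ρ ^ q * (φ - 1) - ρi ^ q) := by
    have e1 := h.h5.w
    rw [act_sub, act_smul] at e1
    have e2 : hermForm n F q x (act g (b i)) - c ^ q * hermForm n F q x (act g (b j)) =
        hermForm n F q x (b i) - c ^ q * hermForm n F q x (b j) := by
      have := congrArg (fun y => hermForm n F q x y) e1
      simpa only [hermForm_sub_right hF, hermForm_smul_right] using this
    have e3 : hermForm n F q x (b i) = ρ ^ q * η m₀ := by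
      rw [hx, hermForm_add_left, hermForm_smul_left, hermForm_smul_left, IsON.self hon,
        IsON.ne hon hm₀i]; ring
    have e4 : hermForm n F q x (b j) = 0 := by
      rw [hx, hermForm_add_left, hermForm_smul_left, hermForm_smul_left, IsON.ne hon hij,
        IsON.ne hon hm₀j]; ring
    rw [hxi, e3, e4] at e2
    linear_combination -e2
  rw [← hφ]
  have fin : ∀ y : F, ρ ^ q * y - ρi ^ q = 0 → y ^ (q + 1) = ν := by
    intro y hy
    have e1 : (ρ ^ q * y) ^ (q + 1) = (ρi ^ q) ^ (q + 1) := by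
      congr 1
      linear_combination hy
    rw [mul_pow, norm_pow hF, norm_pow hF, key1] at e1
    exact mul_left_cancel₀ (pow_ne_zero _ hρ0) e1
  rcases key2 i j m₀ hij (Ne.symm hm₀i) (Ne.symm hm₀j) with e | e | e
  · left
    rw [hxi] at e
    exact fin _ ((mul_eq_zero.1 e).resolve_left hm₀)
  · right
    rw [e, mul_zero] at hxj
    exact fin _ ((mul_eq_zero.1 hxj.symm).resolve_left hm₀)
  · exact absurd e hm0x

end

end Cfsg.Agent.H98.UF
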