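import Mathlib
import Cfsg.Agent.H98.UFI

set_option autoImplicit false
set_option linter.unusedSectionVars false
set_option linter.unusedVariables false
set_option linter.style.haveILetI false
set_option maxHeartbeats 1000000

/-!
Frames with monomial point stabilisers do not exist in odd characteristic, `n ≥ 10` (end).
-/

namespace Cfsg.Agent.H98.UF

open scoped Matrix
open Cfsg.Agent.Uni Module
open Cfsg.Agent.USub (XT)

variable {F : Type*} [Field F] [Fintype F] {q n : ℕ}

theorem natCast_pow_q (hF : Fintype.card F = q ^ 2) (m : ℕ) : ((m : ℕ) : F) ^ q = m := by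
  induction m with
  | zero => rw [Nat.cast_zero, zero_pow_q hF]
  | succ m ih => rw [Nat.cast_succ, add_pow_q hF, ih, one_pow]

section
variable {M : Subgroup (SU n F q)} {b : Fin n → Fin n → F} {g : SU n F q} {i j : Fin n} {c : F}

theorem H7.qp (hF : Fintype.card F = q ^ 2)
    {r : Fin n → F} {ρ ν : F} (h : H7 M b g i j c r ρ ν) : Qp b g := by
  have hon := h.h6.h5.frm.on
  have hij := h.h6.h5.ij
  have hcn := h.h6.h5.cn
  have hc0 := scalar_ne hcn
  have hcq : c ^ q = c⁻¹ := by
    rw [pow_succ] at hcn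
    exact eq_inv_of_mul_eq_one_left hcn
  have hcin : (c⁻¹) ^ (q + 1) = 1 := by rw [inv_pow, hcn, inv_one]
  obtain ⟨η, hη⟩ : ∃ η : Fin n → F, ∀ m, η m = hermForm n F q (b m) (act g (b i)) :=
    ⟨_, fun _ => rfl⟩
  have hη' : ∀ m, hermForm n F q (act g (b i)) (b m) = η m ^ q := fun m => by
    rw [hη, hermForm_symm hF]
  have hgb : ∀ m, m ≠ i → m ≠ j → act g (b m) = b m + η m • r := fun m h1 h2 => by
    rw [hη]; exact h.h6.gb m h1 h2
  have hrb : ∀ m, m ≠ i → m ≠ j → hermForm n F q r (b m) = ρ * η m ^ q := fun m h1 h2 => by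
    rw [hη]; exact h.h6.rb m h1 h2
  have hnη : ∀ m, m ≠ i → m ≠ j → η m ^ (q + 1) = ν := fun m h1 h2 => by
    rw [hη]; exact h.nη m h1 h2
  have hw := h.h6.h5.w
  rw [act_sub, act_smul] at hw
  have hgj : act g (b j) = c⁻¹ • (act g (b i) - b i) + b j := by
    have e1 : c • act g (b j) = c • (c⁻¹ • (act g (b i) - b i) + b j) := by
      rw [smul_add, smul_smul, mul_inv_cancel₀ hc0, one_smul]
      have := sub_eq_iff_eq_add.1 hw
      rw [this]; abel
    exact smul_right_injective _ hc0 e1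
  have hij' : c⁻¹ * hermForm n F q (act g (b i)) (b j) = η i ^ q - 1 := by
    have e := act_form g (b i) (b i - c • b j)
    rw [act_sub, act_smul, hw, hermForm_sub_right hF, hermForm_smul_right, hermForm_sub_right hF,
      hermForm_smul_right, IsON.self hon, IsON.ne hon hij, hη' i, hcq] at e
    linear_combination -e
  have hfi := h.fi
  rw [← hη] at hfi
  intro s
  by_cases hsi : s = i
  · subst hsi
    rcases hfi with e | e
    · refine ⟨ν, j, fun l hl => ?_⟩
      rw [hη' l, norm_pow hF]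
      by_cases hls : l = s
      · rw [hls, e]
      · exact hnη l hls hl
    · refine ⟨ν, s, fun l hl => ?_⟩
      by_cases hlj : l = j
      · subst hlj
        have e1 : (c⁻¹ * hermForm n F q (act g (b s)) (b l)) ^ (q + 1) = ν := by
          have : η s ^ q - 1 = (η s - 1) ^ q := by rw [sub_pow_q hF, one_pow]
          rw [hij', this, norm_pow hF, e]
        rwa [mul_pow, hcin, one_mul] at e1
      · rw [hη' l, norm_pow hF]
        exact hnη l hl hlj
  by_cases hsj : s = j
  · subst hsj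
    have e0 : ∀ l, l ≠ i → l ≠ s → hermForm n F q (act g (b s)) (b l) ^ (q + 1) = ν := by
      intro l hli hls
      rw [hgj, hermForm_add_left, hermForm_smul_left, hermForm_sub_left, IsON.ne hon (Ne.symm hli),
        IsON.ne hon (Ne.symm hls), sub_zero, add_zero, mul_pow, hcin, one_mul, hη' l, norm_pow hF]
      exact hnη l hli hls
    rcases hfi with e | e
    · refine ⟨ν, i, fun l hl => ?_⟩
      by_cases hls : l = s
      · rw [hls, hgj, hermForm_add_left, hermForm_smul_left, hermForm_sub_left, IsON.ne hon hij,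
          sub_zero, hij', IsON.self hon, sub_add_cancel, norm_pow hF, e]
      · exact e0 l hl hls
    · refine ⟨ν, s, fun l hl => ?_⟩
      by_cases hli : l = i
      · have : η i ^ q - 1 = (η i - 1) ^ q := by rw [sub_pow_q hF, one_pow]
        rw [hli, hgj, hermForm_add_left, hermForm_smul_left, hermForm_sub_left, IsON.self hon,
          IsON.ne hon (Ne.symm hij), add_zero, mul_pow, hcin, one_mul, hη' i, this, norm_pow hF, e]
      · exact e0 l hli hl
  · refine ⟨ν * ρ ^ (q + 1) * ν, s, fun l hl => ?_⟩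
    rw [hgb s hsi hsj, hermForm_add_left, IsON.ne hon (Ne.symm hl), zero_add, hermForm_smul_left,
      mul_pow, hnη s hsi hsj]
    have hri : hermForm n F q r (b i) ^ (q + 1) = ρ ^ (q + 1) * ν := h.nρ
    by_cases hli : l = i
    · rw [hli, hri]; ring
    by_cases hlj : l = j
    · have hηs : η s ≠ 0 := by
        intro h0
        have := hnη s hsi hsj
        rw [h0, zero_pow (by omega)] at this
        exact h.ν0 this.symm
      have e := act_form g (b s) (b i - c • b j)
      rw [act_sub, act_smul, hw, hgb s hsi hsj, hermForm_add_left, hermForm_smul_left,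
        hermForm_sub_right hF, hermForm_smul_right, hermForm_sub_right hF, hermForm_smul_right,
        IsON.ne hon hsi, IsON.ne hon hsj] at e
      have e1 : η s * (hermForm n F q r (b i) - c ^ q * hermForm n F q r (b j)) = 0 := by
        linear_combination e
      have e2 := (mul_eq_zero.1 e1).resolve_left hηs
      have e3 : hermForm n F q r (b i) ^ (q + 1) = (c ^ q * hermForm n F q r (b j)) ^ (q + 1) := by
        congr 1
        linear_combination e2
      rw [mul_pow, norm_pow hF, hcn, one_mul] at e3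
      rw [hlj, ← e3, hri]; ring
    · rw [hrb l hli hlj, mul_pow, norm_pow hF, hnη l hli hlj]; ring

end

/-- `Qp` holds for all non-monomial elements -/
theorem Frm.qp (hF : Fintype.card F = q ^ 2) (hq : 3 ≤ q) (h2 : (2 : F) ≠ 0) (hn : 10 ≤ n)
    {M : Subgroup (SU n F q)} {b : Fin n → Fin n → F} (h : Frm M b) {g : SU n F q} (hg : g ∈ M)
    (hgn : g ∉ (Mono b : Subgroup (SU n F q))) : Qp b g := by
  obtain ⟨g₁, i, j, c, h5, hmono⟩ := h.exists_H5 hF hq h2 hn hg hgn
  obtain ⟨r, ρ, h6⟩ := h5.exists_H6 hF hq hn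
  obtain ⟨ν, h7⟩ := h6.exists_H7 hF hq h2 hn
  have := (h7.qp hF).mul h.on ((Mono b).inv_mem hmono)
  rwa [mul_inv_rev, inv_inv, mul_inv_cancel_left] at this

theorem tau_notMem (hF : Fintype.card F = q ^ 2) (h2 : (2 : F) ≠ 0) (hn : 10 ≤ n)
    {M : Subgroup (SU n F q)} {b b' : Fin n → Fin n → F} (h : Opp M b b')
    {C : Finset (Fin n)} (hC : C.card ≤ 4) (hC0 : C.Nonempty) {t : SU n F q} (ht : Tau b C t) :
    t ∉ (Mono b' : Subgroup (SU n F q)) := by
  classical
  intro hm
  have htt := ht.sq hF h.l.on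
  obtain ⟨π, c, hπ, hcn, hππ, hcc⟩ := mono_data h.r.on hm htt
  have h1 := count_pairs hF h2 h.r.on hπ hππ hcc (mv b' t)
    (fun i hi => mem_mv.1 hi)
    (fun i hi => by
      refine mem_mv.2 fun e => mem_mv.1 hi ?_
      have e1 := congrArg (Uni.act t) (hπ i)
      rw [act_act_zz htt, act_smul, e, ← hπ] at e1
      exact e1.symm)
    (κ := C) (fun j => b j)
    (fun x hx hJ hk => by
      apply neg_fix h2
      rw [← hx]
      exact (ht.fix fun i hi => hk ⟨i, hi⟩).symm)
  rw [Fintype.card_coe] at h1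
  obtain ⟨k, hk⟩ := hC0
  refine h.supp (S := mv b' t) (by omega) (i := k) fun m hm' => ?_
  rw [mem_mv, not_not] at hm'
  exact (hermForm_eq_zero_comm hF).1 (ht.coord_zero' hF h2 h.l.on hm' hk)

/-- No frames with monomial point stabilisers (odd characteristic). -/
theorem Frm.false_odd (hF : Fintype.card F = q ^ 2) (hq : 3 ≤ q) (h2 : (2 : F) ≠ 0) (hn : 10 ≤ n)
    {M : Subgroup (SU n F q)} {b : Fin n → Fin n → F} (h : Frm M b) {g : SU n F q} (hg : g ∈ M)
    (hgn : g ∉ (Mono b : Subgroup (SU n F q))) : False := by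
  classical
  obtain ⟨g₁, i, j, c, h5, -⟩ := h.exists_H5 hF hq h2 hn hg hgn
  obtain ⟨r, ρ, h6⟩ := h5.exists_H6 hF hq hn
  obtain ⟨ν, h7⟩ := h6.exists_H7 hF hq h2 hn
  have hopp := h.opp hF hq (by omega) h5.gM h5.gn
  have hon := h.on
  obtain ⟨η, hη⟩ : ∃ η : Fin n → F, ∀ m, η m = hermForm n F q (b m) (Uni.act g₁ (b i)) :=
    ⟨_, fun _ => rfl⟩
  have hη' : ∀ m, hermForm n F q (Uni.act g₁ (b i)) (b m) = η m ^ q := fun m => by
    rw [hη, hermForm_symm hF]
  have hgb : ∀ m, m ≠ i → m ≠ j → Uni.act g₁ (b m) = b m + η m • r := fun m h1 h2 => by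
    rw [hη]; exact h6.gb m h1 h2
  have hrb : ∀ m, m ≠ i → m ≠ j → hermForm n F q r (b m) = ρ * η m ^ q := fun m h1 h2 => by
    rw [hη]; exact h6.rb m h1 h2
  have hbr : ∀ m, m ≠ i → m ≠ j → hermForm n F q (b m) r = ρ ^ q * η m := fun m h1 h2 => by
    rw [← hermForm_symm hF, hrb m h1 h2, mul_pow, pow_q_pow_q hF]
  have hnη : ∀ m, m ≠ i → m ≠ j → η m ^ (q + 1) = ν := fun m h1 h2 => by
    rw [hη]; exact h7.nη m h1 h2
  have hνq : ν ^ q = ν := by
    obtain ⟨m, hm⟩ := exists_notMem (S := {i, j}) (by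
      have : ({i, j} : Finset (Fin n)).card ≤ 2 := Finset.card_le_two
      omega)
    rw [Finset.mem_insert, Finset.mem_singleton, not_or] at hm
    rw [← hnη m hm.1 hm.2, norm_pow_q hF]
  have key : ∀ d : ℕ, 0 < d → d ≤ 2 → 1 + ((2 * d : ℕ) : F) * (ν * (ρ + ρ ^ q)) = 0 := by
    intro d hd0 hd
    have hc2 : ({i, j} : Finset (Fin n)).card ≤ 2 := Finset.card_le_two
    have h3 : ((Finset.univ : Finset (Fin n)) \ {i, j}).card = n - ({i, j} : Finset (Fin n)).card := by
      rw [Finset.card_sdiff_of_subset (Finset.subset_univ _), Finset.card_univ, Fintype.card_fin]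
    obtain ⟨C, hCs, hC⟩ := Finset.exists_subset_card_eq (s := (Finset.univ : Finset (Fin n)) \ {i, j})
      (n := 2 * d) (by omega)
    have hCij : ∀ k ∈ C, k ≠ i ∧ k ≠ j := by
      intro k hk
      have := hCs hk
      rw [Finset.mem_sdiff, Finset.mem_insert, Finset.mem_singleton, not_or] at this
      exact this.2
    obtain ⟨t, ht⟩ := exists_tau hF hon d C hC
    have htM := h.mono (ht.mem hon)
    have htn := tau_notMem hF h2 hn hopp (C := C) (by omega) (Finset.card_pos.1 (by omega)) ht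
    have hQ := (h.act h5.gM).qp hF hq h2 hn htM htn
    obtain ⟨ν', l₀, hl₀⟩ := hQ i
    change ∀ l, l ≠ l₀ → hermForm n F q (Uni.act t (Uni.act g₁ (b i))) (Uni.act g₁ (b l)) ^ (q + 1) =
      ν' at hl₀
    obtain ⟨X, hX⟩ : ∃ X, X = ρ ^ q * (((2 * d : ℕ) : F) * ν) := ⟨_, rfl⟩
    have hco : ∀ m, m ≠ i → m ≠ j → hermForm n F q (Uni.act t (Uni.act g₁ (b i)))
        (Uni.act g₁ (b m)) = -2 * η m ^ q * ((if m ∈ C then 1 else 0) + X) := by
      intro m hmi hmj
      rw [ht, hermForm_sub_left, act_form, IsON.ne hon (Ne.symm hmi), hermForm_smul_left,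
        hermForm_sum_left]
      have e1 : ∑ k ∈ C, hermForm n F q (hermForm n F q (Uni.act g₁ (b i)) (b k) • b k)
          (Uni.act g₁ (b m)) = ∑ k ∈ C, ((if k = m then η m ^ q else 0) + η m ^ q * ρ ^ q * ν) := by
        refine Finset.sum_congr rfl fun k hk => ?_
        rw [hermForm_smul_left, hη', hgb m hmi hmj, hermForm_add_right hF, hermForm_smul_right,
          hbr k (hCij k hk).1 (hCij k hk).2, hon k m, ← hnη k (hCij k hk).1 (hCij k hk).2, pow_succ]
        by_cases hkm : k = m
        · rw [if_pos hkm, if_pos hkm, hkm]; ring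
        · rw [if_neg hkm, if_neg hkm]; ring
      rw [e1, Finset.sum_add_distrib, Finset.sum_ite_eq', Finset.sum_const, hC, hX]
      by_cases hm : m ∈ C
      · rw [if_pos hm, if_pos hm, nsmul_eq_mul]; ring
      · rw [if_neg hm, if_neg hm, nsmul_eq_mul]; ring
    obtain ⟨m, hmC, hml⟩ : ∃ m ∈ C, m ≠ l₀ := by
      obtain ⟨x, hx, y, hy, hxy⟩ := Finset.one_lt_card.1 (show 1 < C.card by omega)
      by_cases hxl : x = l₀
      · exact ⟨y, hy, fun e => hxy (hxl.trans e.symm)⟩
      · exact ⟨x, hx, hxl⟩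
    obtain ⟨m', hm'⟩ := exists_notMem (S := C ∪ {i, j, l₀}) (by
      have e1 := Finset.card_union_le C {i, j, l₀}
      have e2 : ({i, j, l₀} : Finset (Fin n)).card ≤ 3 := Finset.card_le_three
      omega)
    simp only [Finset.mem_union, Finset.mem_insert, Finset.mem_singleton, not_or] at hm'
    have f1 := hl₀ m hml
    have f2 := hl₀ m' hm'.2.2.2
    rw [hco m (hCij m hmC).1 (hCij m hmC).2, if_pos hmC, mul_pow, mul_pow, norm_pow hF,
      hnη m (hCij m hmC).1 (hCij m hmC).2] at f1
    rw [hco m' hm'.2.1 hm'.2.2.1, if_neg hm'.1, mul_pow, mul_pow, norm_pow hF,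
      hnη m' hm'.2.1 hm'.2.2.1, ← f1] at f2
    have h20 : (-2 : F) ^ (q + 1) * ν ≠ 0 :=
      mul_ne_zero (pow_ne_zero _ (neg_ne_zero.2 h2)) h7.ν0
    have f3 := mul_left_cancel₀ h20 f2
    rw [zero_add, pow_succ, pow_succ, add_pow_q hF, one_pow] at f3
    have hXq : X ^ q = ρ * (((2 * d : ℕ) : F) * ν) := by
      rw [hX, mul_pow, mul_pow, pow_q_pow_q hF, hνq]
      congr 2
      exact natCast_pow_q hF _
    have f4 : 1 + X + X ^ q = 0 := by linear_combination -f3
    rw [hXq, hX] at f4
    linear_combination f4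
  have k1 := key 1 (by norm_num) (by norm_num)
  have k2 := key 2 (by norm_num) (by norm_num)
  push_cast at k1 k2
  have : (1 : F) = 0 := by linear_combination 2 * k1 - k2
  exact one_ne_zero this

end Cfsg.Agent.H98.UF
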