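import Mathlib
import Cfsg.Agent.H98.UFJ

set_option autoImplicit false
set_option linter.unusedSectionVars false
set_option linter.unusedVariables false
set_option linter.style.haveILetI false
set_option maxHeartbeats 1000000

/-!
Weight reduction for `q ≥ 3`: from one transvection group to all of them.
-/

namespace Cfsg.Agent.H98.UF

open scoped Matrix
open Cfsg.Agent.Uni Module
open Cfsg.Agent.USub (XT xt_smul xt_pair xt_conj xt_zero)

variable {F : Type*} [Field F] [Fintype F] {q n : ℕ}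

/-- norms and traces -/
theorem exists_pair_norm_trace (hF : Fintype.card F = q ^ 2) {m r : F} (hm : m ^ q = m)
    (hm0 : m ≠ 0) (hr : r ^ q = r) : ∃ α β : F, α ^ (q + 1) = m ∧ β ^ (q + 1) = m ∧ α ^ q ≠ α ∧
      α + α ^ q + (β + β ^ q) = r := by
  classical
  obtain ⟨P, hP⟩ : ∃ P, P = Finset.univ.filter fun x : F => x ^ (q + 1) = m := ⟨_, rfl⟩
  have hPm : ∀ x, x ∈ P ↔ x ^ (q + 1) = m := fun x => by rw [hP, Finset.mem_filter]; simp
  have hPc : P.card = q + 1 := by
    have h := card_norm_eq hF (c := m) hm hm0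
    rw [Nat.card_eq_fintype_card, Fintype.card_subtype] at h
    rw [hP]; exact h
  obtain ⟨T, hT⟩ : ∃ T : F → F, ∀ x, T x = x + x ^ q := ⟨_, fun _ => rfl⟩
  have hTq : ∀ x, T x ^ q = T x := fun x => by
    rw [hT, add_pow_q hF, pow_q_pow_q hF, add_comm]
  obtain ⟨K₁, hK₁⟩ : ∃ K₁, K₁ = (P.filter fun x => x ^ q ≠ x).image T := ⟨_, rfl⟩
  obtain ⟨K, hK⟩ : ∃ K, K = P.image T := ⟨_, rfl⟩
  have hfib : ∀ t ∈ K, (P.filter fun x => T x = t).card ≤ 1 + if t ∈ K₁ then 1 else 0 := by
    intro t ht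
    rw [hK, Finset.mem_image] at ht
    obtain ⟨α₀, hα₀, hα₀t⟩ := ht
    have hsub : (P.filter fun x => T x = t) ⊆ {α₀, α₀ ^ q} := by
      intro x hx
      rw [Finset.mem_filter, hPm] at hx
      rw [hPm] at hα₀
      rw [Finset.mem_insert, Finset.mem_singleton]
      have e1 : (x - α₀) * (x - α₀ ^ q) = 0 := by
        have h1 := hx.2
        rw [← hα₀t, hT, hT] at h1
        rw [pow_succ] at hα₀
        have h3 := hx.1
        rw [pow_succ] at h3
        linear_combination x * h1 + hα₀ - h3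
      rcases mul_eq_zero.1 e1 with h | h
      · left; exact sub_eq_zero.1 h
      · right; exact sub_eq_zero.1 h
    by_cases ht : t ∈ K₁
    · rw [if_pos ht]
      exact (Finset.card_le_card hsub).trans Finset.card_le_two
    · rw [if_neg ht]
      have : α₀ ^ q = α₀ := by
        by_contra hne
        apply ht
        rw [hK₁, Finset.mem_image]
        exact ⟨α₀, Finset.mem_filter.2 ⟨hα₀, hne⟩, hα₀t⟩
      rw [this, Finset.pair_eq_singleton] at hsub
      have := Finset.card_le_card hsub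
      rwa [Finset.card_singleton] at this
  have hcount : q + 1 ≤ K.card + K₁.card := by
    rw [← hPc, Finset.card_eq_sum_card_image T P, ← hK]
    refine (Finset.sum_le_sum hfib).trans ?_
    rw [Finset.sum_add_distrib, Finset.sum_const, smul_eq_mul, mul_one, ← Finset.card_filter]
    have : (K.filter fun t => t ∈ K₁).card ≤ K₁.card :=
      Finset.card_le_card fun t ht => (Finset.mem_filter.1 ht).2
    omega
  obtain ⟨Z, hZ⟩ : ∃ Z, Z = Finset.univ.filter fun a : F => a ^ q = a := ⟨_, rfl⟩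
  have hZc : Z.card = q := by rw [hZ]; exact card_fixed' hF
  have hZm : ∀ x, x ∈ Z ↔ x ^ q = x := fun x => by rw [hZ, Finset.mem_filter]; simp
  have h1 : K₁ ⊆ Z := by
    intro t ht
    rw [hK₁, Finset.mem_image] at ht
    obtain ⟨x, -, rfl⟩ := ht
    rw [hZm]; exact hTq x
  have h3 : K.image (fun t => r - t) ⊆ Z := by
    intro t ht
    rw [Finset.mem_image] at ht
    obtain ⟨y, hy, rfl⟩ := ht
    rw [hK, Finset.mem_image] at hy
    obtain ⟨x, -, rfl⟩ := hy
    rw [hZm, sub_pow_q hF, hr, hTq]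
  have h4 : (K.image (fun t => r - t)).card = K.card :=
    Finset.card_image_of_injective _ fun x y hxy => by
      have : r - x = r - y := hxy
      exact (sub_right_inj.1 this)
  have h5 : ¬ Disjoint K₁ (K.image (fun t => r - t)) := by
    intro hd
    have h6 := Finset.card_union_of_disjoint hd
    have h7 := Finset.card_le_card (Finset.union_subset h1 h3)
    omega
  rw [Finset.not_disjoint_iff] at h5
  obtain ⟨t, ht1, ht2⟩ := h5
  rw [hK₁, Finset.mem_image] at ht1
  obtain ⟨α, hα, hαt⟩ := ht1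
  rw [Finset.mem_filter, hPm] at hα
  rw [Finset.mem_image] at ht2
  obtain ⟨y, hy, hyt⟩ := ht2
  rw [hK, Finset.mem_image] at hy
  obtain ⟨β, hβ, hβy⟩ := hy
  rw [hPm] at hβ
  refine ⟨α, β, hα.1, hβ, hα.2, ?_⟩
  rw [← hT, ← hT, hαt, hβy, ← hyt]; ring

theorem xt_transv (hF : Fintype.card F = q ^ 2) {M : Subgroup (SU n F q)} {u : Fin n → F}
    (hu : u ∈ XT M) {a : F} (ha : a ^ q = -a) :
    ∃ s ∈ M, ∀ x, act s x = x + (a * hermForm n F q x u) • u := by
  obtain ⟨s, -, hs⟩ := exists_transv hF hu.1 ha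
  exact ⟨s, hu.2 a ha s hs, hs⟩

/-- One-step move in a hyperbolic plane: changing the coefficient of `u`. -/
theorem xmove (hF : Fintype.card F = q ^ 2) {M : Subgroup (SU n F q)} {u v : Fin n → F}
    (h : Hyp q u v) (hu' : u ∈ XT M)
    {a a' b : F} (hb : b ≠ 0) (hab : a * b ^ q + a ^ q * b = a' * b ^ q + a' ^ q * b) :
    ∃ t ∈ M, act t (a • u + b • v) = a' • u + b • v ∧
      ∀ w, hermForm n F q w u = 0 → hermForm n F q w v = 0 → act t w = w := by
  obtain ⟨hu, hv, huv⟩ := h
  have hvu : hermForm n F q v u = 1 := by rw [← hermForm_symm hF, huv, one_pow]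
  have hbq : b ^ q ≠ 0 := pow_ne_zero _ hb
  obtain ⟨s, hsT, hs⟩ := xt_transv hF (a := (a' - a) / b) hu' (by
    rw [div_pow, sub_pow_q hF]
    field_simp
    linear_combination -hab)
  refine ⟨s, hsT, ?_, ?_⟩
  · rw [hs]
    simp only [hermForm_add_left, hermForm_smul_left, hu, hvu]
    have e : (a' - a) / b * (a * 0 + b * 1) = a' - a := by
      field_simp
      ring
    rw [e]
    module
  · intro w hwu _
    rw [hs, hwu, mul_zero, zero_smul, add_zero]

/-- transitivity on the vectors of given nonzero norm of a hyperbolic plane. -/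
theorem xplane (hF : Fintype.card F = q ^ 2) {M : Subgroup (SU n F q)} {u v : Fin n → F}
    (h : Hyp q u v) (hu' : u ∈ XT M) (hv' : v ∈ XT M)
    {a b a' b' : F} (hab : a * b ^ q + a ^ q * b = a' * b' ^ q + a' ^ q * b')
    (h0 : a * b ^ q + a ^ q * b ≠ 0) :
    ∃ t ∈ M, act t (a • u + b • v) = a' • u + b' • v ∧
      ∀ w, hermForm n F q w u = 0 → hermForm n F q w v = 0 → act t w = w := by
  set c := a * b ^ q + a ^ q * b with hc
  have hcq : c ^ q = c := by
    rw [hc, add_pow_q hF, mul_pow, mul_pow, pow_q_pow_q hF, pow_q_pow_q hF]; ring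
  have hq := two_le_q hF
  have nz : ∀ x y : F, x * y ^ q + x ^ q * y ≠ 0 → x ≠ 0 ∧ y ≠ 0 := by
    intro x y hxy
    constructor
    · rintro rfl
      apply hxy; rw [zero_pow_q hF]; ring
    · rintro rfl
      apply hxy; rw [zero_pow_q hF]; ring
  have hsym := h.symm hF
  -- step with independent coefficients
  have step : ∀ a b a' b' : F, a * b ^ q + a ^ q * b = c → a' * b' ^ q + a' ^ q * b' = c →
      b ^ q * b' - b * b' ^ q ≠ 0 →
      ∃ t ∈ M, act t (a • u + b • v) = a' • u + b' • v ∧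
      ∀ w, hermForm n F q w u = 0 → hermForm n F q w v = 0 → act t w = w := by
    intro a b a' b' h1 h2 h3
    obtain ⟨d, hd1, hd2⟩ := exists_two_trace hF hcq h3
    obtain ⟨ha, hb⟩ := nz a b (by rw [h1]; exact h0)
    obtain ⟨ha', hb'⟩ := nz a' b' (by rw [h2]; exact h0)
    obtain ⟨hd, -⟩ := nz d b (by rw [hd1]; exact h0)
    obtain ⟨t1, ht1, e1, f1⟩ := xmove hF h hu' hb (h1.trans hd1.symm)
    obtain ⟨t2, ht2, e2, f2⟩ := xmove hF hsym hv' (a := b) (a' := b') (b := d) hd (by
      linear_combination hd1 - hd2)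
    obtain ⟨t3, ht3, e3, f3⟩ := xmove hF h hu' hb' (hd2.trans h2.symm)
    refine ⟨t3 * t2 * t1, Subgroup.mul_mem _ (Subgroup.mul_mem _ ht3 ht2) ht1, ?_, ?_⟩
    · rw [act_mul, act_mul, e1, add_comm (d • u), e2, add_comm (b' • v), e3]
    · intro w hwu hwv
      rw [act_mul, act_mul, f1 w hwu hwv, f2 w hwv hwu, f3 w hwu hwv]
  by_cases hbb : b ^ q * b' - b * b' ^ q = 0
  · obtain ⟨ha, hb⟩ := nz a b h0
    obtain ⟨ha', hb'⟩ := nz a' b' (by rw [← hab]; exact h0)
    obtain ⟨y, hy⟩ := exists_pow_q_ne hF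
    have h3 : b ^ q * (b * y) - b * (b * y) ^ q ≠ 0 := by
      rw [mul_pow]
      have : b ^ q * (b * y) - b * (b ^ q * y ^ q) = b ^ q * b * (y - y ^ q) := by ring
      rw [this]
      exact mul_ne_zero (mul_ne_zero (pow_ne_zero _ hb) hb) (sub_ne_zero.2 hy.symm)
    have h4 : (b * y) ^ q * b' - (b * y) * b' ^ q ≠ 0 := by
      rw [mul_pow]
      have hbb' : b * b' ^ q = b ^ q * b' := (sub_eq_zero.1 hbb).symm
      have : b ^ q * y ^ q * b' - b * y * b' ^ q = b ^ q * b' * (y ^ q - y) := by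
        linear_combination (-y) * hbb'
      rw [this]
      exact mul_ne_zero (mul_ne_zero (pow_ne_zero _ hb) hb') (sub_ne_zero.2 hy)
    obtain ⟨d, hd1, -⟩ := exists_two_trace hF hcq h4
    obtain ⟨t1, ht1, e1, f1⟩ := step a b d (b * y) rfl hd1 h3
    obtain ⟨t2, ht2, e2, f2⟩ := step d (b * y) a' b' hd1 hab.symm h4
    refine ⟨t2 * t1, Subgroup.mul_mem _ ht2 ht1, ?_, ?_⟩
    · rw [act_mul, e1, e2]
    · intro w hwu hwv
      rw [act_mul, f1 w hwu hwv, f2 w hwu hwv]
  · exact step a b a' b' rfl hab.symm hbb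

/-- the norm of a weight two vector -/
theorem form_two (hF : Fintype.card F = q ^ 2) {b : Fin n → Fin n → F} (hb : IsON q b)
    {i j : Fin n} (hij : i ≠ j) (x y : F) :
    hermForm n F q (x • b i + y • b j) (x • b i + y • b j) = x ^ (q + 1) + y ^ (q + 1) := by
  rw [hermForm_add_left, hermForm_add_right hF, hermForm_add_right hF, hermForm_smul_left,
    hermForm_smul_left, hermForm_smul_left, hermForm_smul_left, hermForm_smul_right,
    hermForm_smul_right, hermForm_smul_right, hermForm_smul_right, IsON.self hb, IsON.self hb,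
    IsON.ne hb hij, IsON.ne hb (Ne.symm hij)]
  ring

/-- weight two vectors -/
theorem wt2_mem (hF : Fintype.card F = q ^ 2) {M : Subgroup (SU n F q)} {b : Fin n → Fin n → F}
    (hb : IsON q b) (hM : Mono b ≤ M) {v : Fin n → F} (hv : v ∈ XT M) {i j l : Fin n} (hij : i ≠ j)
    (hi : hermForm n F q v (b i) ≠ 0) (hj : hermForm n F q v (b j) ≠ 0)
    (hl : hermForm n F q v (b l) = 0) :
    ∃ x y : F, x ≠ 0 ∧ y ≠ 0 ∧ x • b i + y • b j ∈ XT M := by
  have hli : l ≠ i := by rintro rfl; exact hi hl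
  have hlj : l ≠ j := by rintro rfl; exact hj hl
  obtain ⟨ci, hci⟩ : ∃ c, c = hermForm n F q v (b i) := ⟨_, rfl⟩
  obtain ⟨cj, hcj⟩ : ∃ c, c = hermForm n F q v (b j) := ⟨_, rfl⟩
  rw [← hci] at hi
  rw [← hcj] at hj
  obtain ⟨S, hS⟩ : ∃ S, S = ci ^ (q + 1) + cj ^ (q + 1) := ⟨_, rfl⟩
  have hSq : S ^ q = S := by rw [hS, add_pow_q hF, norm_pow_q hF, norm_pow_q hF]
  have h0 : ∃ α β : F, α ^ (q + 1) = ci ^ (q + 1) * cj ^ (q + 1) ∧
      β ^ (q + 1) = ci ^ (q + 1) * cj ^ (q + 1) ∧ α + α ^ q + (β + β ^ q) = 2 * S ∧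
      α + β - S ≠ 0 := by
    obtain ⟨α, β, h1, h2, h3, h4⟩ := exists_pair_norm_trace hF
      (m := ci ^ (q + 1) * cj ^ (q + 1)) (r := 2 * S)
      (by rw [mul_pow, norm_pow_q hF, norm_pow_q hF])
      (mul_ne_zero (pow_ne_zero _ hi) (pow_ne_zero _ hj)) (by
        rw [two_mul, add_pow_q hF, hSq])
    by_cases h5 : α + β - S = 0
    · refine ⟨α ^ q, β, by rw [norm_pow hF, h1], h2, by rw [pow_q_pow_q hF, ← h4]; ring, ?_⟩
      intro h6
      apply h3
      linear_combination h6 - h5
    · exact ⟨α, β, h1, h2, h4, h5⟩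
  obtain ⟨α, β, h1, h2, h3, h4⟩ := h0
  -- scalars
  obtain ⟨a', ha'⟩ : ∃ a', a' = (α / (ci * cj ^ q)) ^ q := ⟨_, rfl⟩
  obtain ⟨a, ha⟩ : ∃ a, a = (β / (cj * ci ^ q)) ^ q := ⟨_, rfl⟩
  have hcin : ci ^ (q + 1) ≠ 0 := pow_ne_zero _ hi
  have hcjn : cj ^ (q + 1) ≠ 0 := pow_ne_zero _ hj
  have hciq : ci ^ q ≠ 0 := pow_ne_zero _ hi
  have hcjq : cj ^ q ≠ 0 := pow_ne_zero _ hj
  have ha'n : a' ^ (q + 1) = 1 := by
    rw [ha', norm_pow hF, div_pow, mul_pow, norm_pow hF, h1, div_self (mul_ne_zero hcin hcjn)]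
  have han : a ^ (q + 1) = 1 := by
    rw [ha, norm_pow hF, div_pow, mul_pow, norm_pow hF, h2, mul_comm,
      div_self (mul_ne_zero hcjn hcin)]
  have hα : ci * (a' * cj) ^ q = α := by
    rw [ha', mul_pow, pow_q_pow_q hF]; field_simp
  have hβ : cj * (a * ci) ^ q = β := by
    rw [ha, mul_pow, pow_q_pow_q hF]; field_simp
  obtain ⟨k, hk, hkm⟩ := exists_mono hF hb (Equiv.swap i j)
    (α := fun m => if m = i then a else if m = j then a' else 1)
    (fun m => by
      by_cases hmi : m = i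
      · simp only [hmi, if_true]; exact han
      · by_cases hmj : m = j
        · simp only [hmj, if_neg (Ne.symm hij), if_true]; exact ha'n
        · simp only [hmi, hmj, if_false, one_pow]) (l := l)
    (Equiv.swap_apply_of_ne_of_ne hli hlj)
  have hki : act k (b i) = a • b j := by
    have := hkm i (Ne.symm hli)
    rwa [if_pos rfl, Equiv.swap_apply_left] at this
  have hkj : act k (b j) = a' • b i := by
    have := hkm j (Ne.symm hlj)
    rwa [if_neg (Ne.symm hij), if_pos rfl, Equiv.swap_apply_right] at this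
  have hko : ∀ m, m ≠ l → m ≠ i → m ≠ j → act k (b m) = b m := by
    intro m hml hmi hmj
    have := hkm m hml
    rwa [if_neg hmi, if_neg hmj, Equiv.swap_apply_of_ne_of_ne hmi hmj, one_smul] at this
  -- the difference
  have hdiff : v + (-1 : F) • act k v = (ci - a' * cj) • b i + (cj - a * ci) • b j := by
    have e1 : ∀ m, m ≠ i → m ≠ j → hermForm n F q v (b m) • b m -
        hermForm n F q v (b m) • act k (b m) = 0 := by
      intro m hmi hmj
      by_cases hml : m = l
      · rw [hml, hl, zero_smul, zero_smul, sub_zero]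
      · rw [hko m hml hmi hmj, sub_self]
    have e2 : v - act k v = ∑ m, (hermForm n F q v (b m) • b m -
        hermForm n F q v (b m) • act k (b m)) := by
      rw [Finset.sum_sub_distrib, IsON.sum_eq hF hb v]
      congr 1
      conv_lhs => rw [← IsON.sum_eq hF hb v]
      rw [act_sum]
      exact Finset.sum_congr rfl fun m _ => act_smul _ _ _
    have e3 : (∑ m, (hermForm n F q v (b m) • b m - hermForm n F q v (b m) • act k (b m))) =
        ∑ m ∈ ({i, j} : Finset (Fin n)), (hermForm n F q v (b m) • b m -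
        hermForm n F q v (b m) • act k (b m)) := by
      symm
      apply Finset.sum_subset (Finset.subset_univ _)
      intro m _ hm
      rw [Finset.mem_insert, Finset.mem_singleton, not_or] at hm
      exact e1 m hm.1 hm.2
    rw [neg_one_smul, ← sub_eq_add_neg, e2, e3, Finset.sum_pair hij, hki, hkj, ← hci, ← hcj]
    module
  have hfe : hermForm n F q v (v + (-1 : F) • act k v) = S - α - β := by
    rw [hdiff, hermForm_add_right hF, hermForm_smul_right, hermForm_smul_right, ← hci, ← hcj,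
      sub_pow_q hF, sub_pow_q hF, ← hα, ← hβ, hS]
    ring
  have hvk : hermForm n F q v (act k v) = α + β - S := by
    rw [hermForm_add_right hF, hermForm_smul_right, hv.1, neg_pow_q hF, one_pow] at hfe
    linear_combination -hfe
  have hee : hermForm n F q (v + (-1 : F) • act k v) (v + (-1 : F) • act k v) = 0 := by
    rw [hdiff, form_two hF hb hij, pow_succ, pow_succ, sub_pow_q hF, sub_pow_q hF]
    have hα' : ci ^ q * (a' * cj) = α ^ q := by rw [← hα, mul_pow, pow_q_pow_q hF]
    have hβ' : cj ^ q * (a * ci) = β ^ q := by rw [← hβ, mul_pow, pow_q_pow_q hF]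
    have e1 : (a' * cj) ^ q * (a' * cj) = cj ^ (q + 1) := by
      rw [← pow_succ, mul_pow, ha'n, one_mul]
    have e2 : (a * ci) ^ q * (a * ci) = ci ^ (q + 1) := by
      rw [← pow_succ, mul_pow, han, one_mul]
    rw [pow_succ] at e1 e2 hS
    rw [pow_succ] at hS
    linear_combination e1 + e2 - hα - hβ - hα' - hβ' - h3 - 2 * hS
  have hmem := xt_pair hF (xt_conj hv (hM hk)) hv (fun h => h4 (by
    rw [← hvk]; exact (hermForm_eq_zero_comm hF).1 h)) (m := -1) hee
  rw [hdiff] at hmem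
  have hne : (ci - a' * cj) • b i + (cj - a * ci) • b j ≠ 0 := by
    intro h
    rw [← hdiff] at h
    rw [h, hermForm_zero_right hF] at hfe
    apply h4
    linear_combination hfe
  have hnn := hmem.1
  rw [form_two hF hb hij] at hnn
  refine ⟨_, _, ?_, ?_, hmem⟩
  · intro hx
    rw [hx, zero_pow (by omega), zero_add] at hnn
    have hy := eq_zero_of_pow_eq_zero hnn
    apply hne
    rw [hx, hy, zero_smul, zero_smul, add_zero]
  · intro hy
    rw [hy, zero_pow (by omega), add_zero] at hnn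
    have hx := eq_zero_of_pow_eq_zero hnn
    apply hne
    rw [hx, hy, zero_smul, zero_smul, add_zero]

end Cfsg.Agent.H98.UF
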