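import Mathlib
import Cfsg.Agent.H98.UFK

set_option autoImplicit false
set_option linter.unusedSectionVars false
set_option linter.unusedVariables false
set_option linter.style.haveILetI false
set_option maxHeartbeats 1000000

/-!
Weight reduction for `q ≥ 3`: from one transvection group to all of them (end).
-/

namespace Cfsg.Agent.H98.UF

open scoped Matrix
open Cfsg.Agent.Uni Module
open Cfsg.Agent.USub (XT xt_smul xt_pair xt_conj xt_zero)

variable {F : Type*} [Field F] [Fintype F] {q n : ℕ}

/-- all weight two vectors -/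
theorem wt2_all (hF : Fintype.card F = q ^ 2) (hn : 5 ≤ n) {M : Subgroup (SU n F q)}
    {b : Fin n → Fin n → F} (hb : IsON q b) (hM : Mono b ≤ M) {i j : Fin n} (hij : i ≠ j)
    {x y : F} (hx : x ≠ 0) (hy : y ≠ 0) (h : x • b i + y • b j ∈ XT M) {k m : Fin n} (hkm : k ≠ m)
    {x' y' : F} (hxy : x' ^ (q + 1) + y' ^ (q + 1) = 0) : x' • b k + y' • b m ∈ XT M := by
  by_cases hx' : x' = 0
  · rw [hx', zero_pow (by omega), zero_add] at hxy
    rw [hx', eq_zero_of_pow_eq_zero hxy, zero_smul, zero_smul, add_zero]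
    exact xt_zero M hF
  have hxn := h.1
  rw [form_two hF hb hij] at hxn
  obtain ⟨l, hl⟩ := exists_notMem (S := {i, j, k, m}) (by
    have : ({i, j, k, m} : Finset (Fin n)).card ≤ 4 := Finset.card_le_four
    omega)
  simp only [Finset.mem_insert, Finset.mem_singleton, not_or] at hl
  have hy'0 : y' ≠ 0 := by
    rintro rfl
    rw [zero_pow (by omega), add_zero] at hxy
    exact hx' (eq_zero_of_pow_eq_zero hxy)
  obtain ⟨a, ha⟩ : ∃ a, a = y' / (y * (x' / x)) := ⟨_, rfl⟩
  have han : a ^ (q + 1) = 1 := by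
    rw [ha, div_pow, mul_pow, div_pow]
    have h1 : y ^ (q + 1) = -x ^ (q + 1) := by linear_combination hxn
    have h2 : y' ^ (q + 1) = -x' ^ (q + 1) := by linear_combination hxy
    rw [h1, h2]
    have h3 : x ^ (q + 1) ≠ 0 := pow_ne_zero _ hx
    have h4 : x' ^ (q + 1) ≠ 0 := pow_ne_zero _ hx'
    field_simp
  obtain ⟨σ, hσ⟩ : ∃ σ : Equiv.Perm (Fin n), σ = (Equiv.swap i k).trans
    (Equiv.swap (Equiv.swap i k j) m) := ⟨_, rfl⟩
  have hne : k ≠ Equiv.swap i k j := by
    intro h
    have h1 : Equiv.swap i k i = Equiv.swap i k j := by rw [Equiv.swap_apply_left]; exact h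
    exact hij ((Equiv.swap i k).injective h1)
  have hσi : σ i = k := by
    rw [hσ, Equiv.trans_apply, Equiv.swap_apply_left, Equiv.swap_apply_of_ne_of_ne hne hkm]
  have hσj : σ j = m := by
    rw [hσ, Equiv.trans_apply, Equiv.swap_apply_left]
  have hσl : σ l = l := by
    rw [hσ, Equiv.trans_apply, Equiv.swap_apply_of_ne_of_ne hl.1 hl.2.2.1,
      Equiv.swap_apply_of_ne_of_ne _ hl.2.2.2]
    intro h
    have h1 : Equiv.swap i k l = Equiv.swap i k j := by
      rw [Equiv.swap_apply_of_ne_of_ne hl.1 hl.2.2.1]; exact h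
    exact hl.2.1 ((Equiv.swap i k).injective h1)
  obtain ⟨t, ht, htm⟩ := exists_mono hF hb σ (α := fun s => if s = j then a else 1)
    (fun s => by
      by_cases hs : s = j
      · simp only [hs, if_true]; exact han
      · simp only [hs, if_false, one_pow]) hσl
  have e1 := htm i (Ne.symm hl.1)
  rw [if_neg hij, hσi, one_smul] at e1
  have e2 := htm j (Ne.symm hl.2.1)
  rw [if_pos rfl, hσj] at e2
  have h1 := xt_conj (xt_smul hF h (x' / x)) (hM ht)
  rw [smul_add, smul_smul, smul_smul, act_add, act_smul, act_smul, e1, e2, smul_smul,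
    div_mul_cancel₀ _ hx] at h1
  have e3 : x' / x * y * a = y' := by
    rw [ha]; field_simp
  rwa [e3] at h1

/-- the coordinate plane is a hyperbolic plane -/
theorem exists_hyp_pair (hF : Fintype.card F = q ^ 2) {b : Fin n → Fin n → F} (hb : IsON q b)
    {i j : Fin n} (hij : i ≠ j) : ∃ u v : Fin n → F, Hyp q u v ∧
      (∃ x y : F, u = x • b i + y • b j) ∧ (∃ x y : F, v = x • b i + y • b j) ∧
      ∀ x y : F, ∃ r s : F, x • b i + y • b j = r • u + s • v := by
  classical
  have hq := two_le_q hF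
  obtain ⟨P, hP⟩ : ∃ P, P = Finset.univ.filter fun x : F => x ^ (q + 1) = -1 := ⟨_, rfl⟩
  have hPm : ∀ x, x ∈ P ↔ x ^ (q + 1) = -1 := fun x => by rw [hP, Finset.mem_filter]; simp
  have hPc : P.card = q + 1 := by
    have h := card_norm_eq hF (c := (-1 : F)) (by rw [neg_pow_q hF, one_pow])
      (neg_ne_zero.2 one_ne_zero)
    rw [Nat.card_eq_fintype_card, Fintype.card_subtype] at h
    rw [hP]; exact h
  obtain ⟨l, hl, l', hl', hll⟩ := Finset.one_lt_card.1 (show 1 < P.card by omega)
  rw [hPm] at hl hl'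
  have hl'0 : l' ≠ 0 := by
    rintro rfl
    rw [zero_pow (by omega)] at hl'
    exact one_ne_zero (neg_eq_zero.1 hl'.symm)
  have hκ : 1 + l * l' ^ q ≠ 0 := by
    intro h
    rw [pow_succ] at hl'
    apply hll
    have h1 : (l - l') * l' ^ q = 0 := by linear_combination h - hl'
    rcases mul_eq_zero.1 h1 with h2 | h2
    · exact sub_eq_zero.1 h2
    · exact absurd h2 (pow_ne_zero _ hl'0)
  obtain ⟨κ, hκκ⟩ : ∃ κ, κ = ((1 + l * l' ^ q)⁻¹) ^ q := ⟨_, rfl⟩
  have hκ0 : κ ≠ 0 := by rw [hκκ]; exact pow_ne_zero _ (inv_ne_zero hκ)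
  have hκq : κ ^ q = (1 + l * l' ^ q)⁻¹ := by rw [hκκ, pow_q_pow_q hF]
  have e0 : ∀ x y x' y' : F, hermForm n F q (x • b i + y • b j) (x' • b i + y' • b j) =
      x * x' ^ q + y * y' ^ q := by
    intro x y x' y'
    rw [hermForm_add_left, hermForm_add_right hF, hermForm_add_right hF, hermForm_smul_left,
      hermForm_smul_left, hermForm_smul_left, hermForm_smul_left, hermForm_smul_right,
      hermForm_smul_right, hermForm_smul_right, hermForm_smul_right, IsON.self hb, IsON.self hb,
      IsON.ne hb hij, IsON.ne hb (Ne.symm hij)]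
    ring
  refine ⟨(1 : F) • b i + l • b j, κ • b i + (κ * l') • b j, ⟨?_, ?_, ?_⟩, ⟨_, _, rfl⟩, ⟨_, _, rfl⟩,
    fun x y => ?_⟩
  · rw [form_two hF hb hij, hl, one_pow]; ring
  · rw [form_two hF hb hij, mul_pow, hl']; ring
  · rw [e0, one_mul, mul_pow, hκq]
    field_simp
  · have hd : l - l' ≠ 0 := sub_ne_zero.2 hll
    obtain ⟨s, hs⟩ : ∃ s, s = (y - x * l) / (l - l') := ⟨_, rfl⟩
    have e4 : s * (l - l') = y - x * l := by rw [hs, div_mul_cancel₀ _ hd]
    have e3 : -s / κ * κ = -s := div_mul_cancel₀ _ hκ0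
    refine ⟨x + s, -s / κ, ?_⟩
    have e5 : (x + s) • ((1 : F) • b i + l • b j) + (-s / κ) • (κ • b i + (κ * l') • b j) =
        (x + s + (-s / κ * κ)) • b i + ((x + s) * l + (-s / κ * κ) * l') • b j := by module
    rw [e5, e3]
    congr 2
    · ring
    · linear_combination -e4

/-- support -/
noncomputable def sp (q : ℕ) (b : Fin n → Fin n → F) (v : Fin n → F) : Finset (Fin n) := by
  classical
  exact Finset.univ.filter fun i => hermForm n F q v (b i) ≠ 0

theorem mem_sp {b : Fin n → Fin n → F} {v : Fin n → F} {i : Fin n} :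
    i ∈ sp q b v ↔ hermForm n F q v (b i) ≠ 0 := by
  classical
  rw [sp, Finset.mem_filter]
  exact ⟨fun h => h.2, fun h => ⟨Finset.mem_univ _, h⟩⟩

theorem notMem_sp {b : Fin n → Fin n → F} {v : Fin n → F} {i : Fin n} :
    i ∉ sp q b v ↔ hermForm n F q v (b i) = 0 := by
  rw [mem_sp, not_not]

/-- kill a coordinate -/
theorem reduce (hF : Fintype.card F = q ^ 2) {M : Subgroup (SU n F q)}
    {b : Fin n → Fin n → F} (hb : IsON q b)
    (hall : ∀ k m : Fin n, k ≠ m → ∀ x y : F, x ^ (q + 1) + y ^ (q + 1) = 0 →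
      x • b k + y • b m ∈ XT M) {v : Fin n → F} {i j : Fin n} (hij : i ≠ j)
    (hn : hermForm n F q v (b i) ^ (q + 1) + hermForm n F q v (b j) ^ (q + 1) ≠ 0) :
    ∃ g ∈ M, hermForm n F q (act g v) (b j) = 0 ∧ ∀ k, k ≠ i → k ≠ j →
      hermForm n F q (act g v) (b k) = hermForm n F q v (b k) := by
  obtain ⟨u, w, huw, ⟨x₁, y₁, hu⟩, ⟨x₂, y₂, hw⟩, hsp⟩ := exists_hyp_pair hF hb hij
  have huM : u ∈ XT M := by
    have := huw.1
    rw [hu, form_two hF hb hij] at this
    rw [hu]; exact hall i j hij _ _ this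
  have hwM : w ∈ XT M := by
    have := huw.2.1
    rw [hw, form_two hF hb hij] at this
    rw [hw]; exact hall i j hij _ _ this
  obtain ⟨x, hx⟩ : ∃ x, x = hermForm n F q v (b i) := ⟨_, rfl⟩
  obtain ⟨y, hy⟩ : ∃ y, y = hermForm n F q v (b j) := ⟨_, rfl⟩
  rw [← hx, ← hy] at hn
  obtain ⟨μ, hμ⟩ := exists_norm_eq hF (c := x ^ (q + 1) + y ^ (q + 1)) (by
    rw [add_pow_q hF, norm_pow_q hF, norm_pow_q hF])
  obtain ⟨r, s, hrs⟩ := hsp x y
  obtain ⟨r', s', hrs'⟩ := hsp μ 0
  have nrm : ∀ r s : F, hermForm n F q (r • u + s • w) (r • u + s • w) =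
      r * s ^ q + r ^ q * s := by
    intro r s
    have hwu : hermForm n F q w u = 1 := (huw.symm hF).2.2
    rw [hermForm_add_left, hermForm_add_right hF, hermForm_add_right hF, hermForm_smul_left,
      hermForm_smul_left, hermForm_smul_left, hermForm_smul_left, hermForm_smul_right,
      hermForm_smul_right, hermForm_smul_right, hermForm_smul_right, huw.1, huw.2.1, huw.2.2, hwu]
    ring
  have e1 : r * s ^ q + r ^ q * s = x ^ (q + 1) + y ^ (q + 1) := by
    rw [← nrm, ← hrs, form_two hF hb hij]
  have e2 : r' * s' ^ q + r' ^ q * s' = x ^ (q + 1) + y ^ (q + 1) := by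
    rw [← nrm, ← hrs', form_two hF hb hij, hμ, zero_pow (by omega), add_zero]
  obtain ⟨t, ht, et, ft⟩ := xplane hF huw huM hwM (e1.trans e2.symm) (by rw [e1]; exact hn)
  rw [← hrs, ← hrs', zero_smul, add_zero] at et
  obtain ⟨z, hz⟩ : ∃ z, z = v - (x • b i + y • b j) := ⟨_, rfl⟩
  have hzi : hermForm n F q z (b i) = 0 := by
    rw [hz, hermForm_sub_left, hermForm_add_left, hermForm_smul_left, hermForm_smul_left,
      IsON.self hb, IsON.ne hb (Ne.symm hij), ← hx]; ring
  have hzj : hermForm n F q z (b j) = 0 := by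
    rw [hz, hermForm_sub_left, hermForm_add_left, hermForm_smul_left, hermForm_smul_left,
      IsON.self hb, IsON.ne hb hij, ← hy]; ring
  have hzt : act t z = z := by
    apply ft
    · rw [hu, hermForm_add_right hF, hermForm_smul_right, hermForm_smul_right, hzi, hzj]; ring
    · rw [hw, hermForm_add_right hF, hermForm_smul_right, hermForm_smul_right, hzi, hzj]; ring
  have hvt : act t v = z + μ • b i := by
    have : v = z + (x • b i + y • b j) := by rw [hz]; abel
    rw [this, act_add, hzt, et]
  refine ⟨t, ht, ?_, fun k hki hkj => ?_⟩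
  · rw [hvt, hermForm_add_left, hzj, hermForm_smul_left, IsON.ne hb hij]; ring
  · rw [hvt, hermForm_add_left, hermForm_smul_left, IsON.ne hb (Ne.symm hki), hz, hermForm_sub_left,
      hermForm_add_left, hermForm_smul_left, hermForm_smul_left, IsON.ne hb (Ne.symm hki),
      IsON.ne hb (Ne.symm hkj)]; ring

/-- weight reduction -/
theorem all_iso (hF : Fintype.card F = q ^ 2) (hq : 3 ≤ q) {M : Subgroup (SU n F q)}
    {b : Fin n → Fin n → F} (hb : IsON q b)
    (hall : ∀ k m : Fin n, k ≠ m → ∀ x y : F, x ^ (q + 1) + y ^ (q + 1) = 0 →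
      x • b k + y • b m ∈ XT M) : ∀ w : ℕ, ∀ v : Fin n → F, hermForm n F q v v = 0 →
      (sp q b v).card ≤ w → v ∈ XT M := by
  classical
  intro w
  induction w with
  | zero =>
    intro v hv hw
    have h1 : sp q b v = ∅ := Finset.card_eq_zero.1 (by omega)
    have h2 : v = 0 := by
      apply IsON.ext hF hb
      intro i
      rw [hermForm_zero_left, ← notMem_sp, h1]
      exact Finset.notMem_empty i
    rw [h2]; exact xt_zero M hF
  | succ w ih =>
    intro v hv hw
    by_cases hlt : (sp q b v).card ≤ w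
    · exact ih v hv hlt
    have hcard : (sp q b v).card = w + 1 := by omega
    -- reduction
    have red : ∀ (v : Fin n → F) (S : Finset (Fin n)), hermForm n F q v v = 0 → sp q b v ⊆ S →
        S.card = w + 1 → ∀ i ∈ S, ∀ j ∈ S, i ≠ j →
        hermForm n F q v (b i) ^ (q + 1) + hermForm n F q v (b j) ^ (q + 1) ≠ 0 → v ∈ XT M := by
      intro v S hv hvS hS i hi j hj hij hne
      obtain ⟨g, hg, h1, h2⟩ := reduce hF hb hall hij hne
      have h3 : act g v ∈ XT M := by
        apply ih _ (by rw [act_form]; exact hv)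
        have h4 : sp q b (act g v) ⊆ S.erase j := by
          intro k hk
          rw [mem_sp] at hk
          have hkj : k ≠ j := by
            rintro rfl
            exact hk h1
          rw [Finset.mem_erase]
          refine ⟨hkj, ?_⟩
          by_cases hki : k = i
          · rw [hki]; exact hi
          · rw [h2 k hki hkj] at hk
            exact hvS (mem_sp.2 hk)
        have h5 := Finset.card_le_card h4
        rw [Finset.card_erase_of_mem hj, hS] at h5
        exact h5
      have h4 := xt_conj h3 (M.inv_mem hg)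
      rwa [act_inv_act] at h4
    by_cases hex : ∃ i ∈ sp q b v, ∃ j ∈ sp q b v, i ≠ j ∧
        hermForm n F q v (b i) ^ (q + 1) + hermForm n F q v (b j) ^ (q + 1) ≠ 0
    · obtain ⟨i, hi, j, hj, hij, hne⟩ := hex
      exact red v _ hv Finset.Subset.rfl hcard i hi j hj hij hne
    push Not at hex
    -- small supports
    by_cases hw1 : w = 0
    · exfalso
      rw [hw1, zero_add] at hcard
      obtain ⟨i, hi⟩ := Finset.card_eq_one.1 hcard
      have h1 : v = hermForm n F q v (b i) • b i := by
        apply IsON.ext hF hb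
        intro k
        rw [hermForm_smul_left]
        by_cases hk : k = i
        · rw [hk, IsON.self hb, mul_one]
        · rw [IsON.ne hb (Ne.symm hk), mul_zero, ← notMem_sp, hi, Finset.mem_singleton]
          exact hk
      have hi' : i ∈ sp q b v := by rw [hi]; exact Finset.mem_singleton_self i
      rw [mem_sp] at hi'
      rw [h1, hermForm_smul_left, hermForm_smul_right, IsON.self hb, mul_one] at hv
      rcases mul_eq_zero.1 hv with h | h
      · exact hi' h
      · exact pow_ne_zero _ hi' h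
    by_cases hw2 : w = 1
    · rw [hw2] at hcard
      obtain ⟨i, j, hij, hsp⟩ := Finset.card_eq_two.1 hcard
      have hi : i ∈ sp q b v := by rw [hsp]; exact Finset.mem_insert_self _ _
      have hj : j ∈ sp q b v := by
        rw [hsp]; exact Finset.mem_insert_of_mem (Finset.mem_singleton_self _)
      have h1 : v = hermForm n F q v (b i) • b i + hermForm n F q v (b j) • b j := by
        apply IsON.ext hF hb
        intro k
        rw [hermForm_add_left, hermForm_smul_left, hermForm_smul_left]
        by_cases hk : k = i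
        · rw [hk, IsON.self hb, IsON.ne hb (Ne.symm hij)]; ring
        · by_cases hk' : k = j
          · rw [hk', IsON.self hb, IsON.ne hb hij]; ring
          · rw [IsON.ne hb (Ne.symm hk), IsON.ne hb (Ne.symm hk'), mul_zero, mul_zero, add_zero,
              ← notMem_sp, hsp, Finset.mem_insert, Finset.mem_singleton, not_or]
            exact ⟨hk, hk'⟩
      rw [h1]
      exact hall i j hij _ _ (hex i hi j hj hij)
    -- characteristic two
    obtain ⟨i, hi, j, hj, k, hk, hij, hik, hjk⟩ : ∃ i ∈ sp q b v, ∃ j ∈ sp q b v, ∃ k ∈ sp q b v,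
        i ≠ j ∧ i ≠ k ∧ j ≠ k := by
      obtain ⟨i, hi, j, hj, k, hk, hij, hik, hjk⟩ := Finset.two_lt_card.1
        (show 2 < (sp q b v).card by omega)
      exact ⟨i, hi, j, hj, k, hk, hij, hik, hjk⟩
    obtain ⟨N, hN⟩ : ∃ N, N = hermForm n F q v (b i) ^ (q + 1) := ⟨_, rfl⟩
    have n1 := hex i hi j hj hij
    have n2 := hex i hi k hk hik
    have n3 := hex j hj k hk hjk
    have hN0 : N ≠ 0 := by
      rw [hN]; exact pow_ne_zero _ (mem_sp.1 hi)
    have h2 : (2 : F) = 0 := by
      have : (2 : F) * N = 0 := by rw [hN]; linear_combination n1 + n2 - n3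
      exact (mul_eq_zero.1 this).resolve_right hN0
    have hneg : ∀ x : F, -x = x := fun x => by linear_combination -x * h2
    obtain ⟨z, hz1, hz2, -⟩ := exists_gen (F := F) hF hq
    obtain ⟨s', hs'q, hs'0, hs'1⟩ : ∃ s' : F, s' ^ q = s' ∧ s' ≠ 0 ∧ s' ≠ 1 := by
      by_contra hcon
      push Not at hcon
      have h1 : (Finset.univ.filter fun a : F => a ^ q = a) ⊆ {0, 1} := by
        intro a ha
        rw [Finset.mem_filter] at ha
        rw [Finset.mem_insert, Finset.mem_singleton]
        by_cases ha0 : a = 0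
        · left; exact ha0
        · right; exact hcon a ha.2 ha0
      have h3 := Finset.card_le_card h1
      rw [card_fixed' hF] at h3
      have : ({0, 1} : Finset F).card ≤ 2 := Finset.card_le_two
      omega
    obtain ⟨ci, hci⟩ : ∃ c, c = hermForm n F q v (b i) := ⟨_, rfl⟩
    obtain ⟨cj, hcj⟩ : ∃ c, c = hermForm n F q v (b j) := ⟨_, rfl⟩
    rw [← hci] at hN n1
    rw [← hcj] at n1
    have hcjN : cj ^ (q + 1) = N := by
      rw [hN]; linear_combination n1 - ci ^ (q + 1) * h2
    obtain ⟨e, he⟩ : ∃ e, e = ci • b i + (z * cj) • b j := ⟨_, rfl⟩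
    have heM : e ∈ XT M := by
      rw [he]
      apply hall i j hij
      rw [mul_pow, hz1, one_mul]; exact n1
    have hve : hermForm n F q v e = N * (1 + z ^ q) := by
      rw [he, hermForm_add_right hF, hermForm_smul_right, hermForm_smul_right, ← hci, ← hcj, mul_pow]
      rw [pow_succ] at hN hcjN
      linear_combination -hN + z ^ q * hcjN
    have hsq : (s' / N) ^ q = -(s' / N) := by
      rw [hneg, div_pow, hs'q, hN, norm_pow_q hF]
    obtain ⟨t, ht, htv⟩ := xt_transv hF heM hsq
    have htv' : act t v = v + (s' * (1 + z ^ q)) • e := by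
      rw [htv, hve]
      congr 2
      field_simp
    have hspt : sp q b (act t v) ⊆ sp q b v := by
      intro m hm
      by_contra hm'
      have hmi : m ≠ i := by rintro rfl; exact hm' hi
      have hmj : m ≠ j := by rintro rfl; exact hm' hj
      rw [notMem_sp] at hm'
      rw [mem_sp, htv', hermForm_add_left, hm', hermForm_smul_left, he, hermForm_add_left,
        hermForm_smul_left, hermForm_smul_left, IsON.ne hb (Ne.symm hmi),
        IsON.ne hb (Ne.symm hmj)] at hm
      apply hm; ring
    have hti : hermForm n F q (act t v) (b i) = ci * (1 + s' * (1 + z ^ q)) := by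
      rw [htv', hermForm_add_left, ← hci, hermForm_smul_left, he, hermForm_add_left,
        hermForm_smul_left, hermForm_smul_left, IsON.self hb, IsON.ne hb (Ne.symm hij)]
      ring
    have htk : hermForm n F q (act t v) (b k) = hermForm n F q v (b k) := by
      rw [htv', hermForm_add_left, hermForm_smul_left, he, hermForm_add_left,
        hermForm_smul_left, hermForm_smul_left, IsON.ne hb hik, IsON.ne hb hjk]
      ring
    have h3 : act t v ∈ XT M := by
      refine red _ _ (by rw [act_form]; exact hv) hspt hcard i hi k hk hik ?_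
      rw [hti, htk, mul_pow, ← hN, pow_succ (1 + s' * (1 + z ^ q)), add_pow_q hF, one_pow, mul_pow,
        hs'q, add_pow_q hF, one_pow, pow_q_pow_q hF]
      rw [← hci, ← hN] at n2
      have hz0 := scalar_ne hz1
      have hzz : z + z ^ q ≠ 0 := by
        intro h
        apply hz2
        have h4 : z ^ q = z := by linear_combination h - z * h2
        rw [pow_succ, h4] at hz1
        rw [pow_two]; exact hz1
      have h1s : 1 + s' ≠ 0 := by
        intro h
        apply hs'1
        linear_combination h - h2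
      have e1 : N * ((1 + s' * (1 + z)) * (1 + s' * (1 + z ^ q))) +
          hermForm n F q v (b k) ^ (q + 1) = N * (z + z ^ q) * s' * (1 + s') := by
        rw [pow_succ] at hz1
        linear_combination n2 + (N * s' + N * s' ^ 2) * h2 + N * s' ^ 2 * (hz1) 
      rw [e1]
      exact mul_ne_zero (mul_ne_zero (mul_ne_zero hN0 hzz) hs'0) h1s
    have h4 := xt_conj h3 (M.inv_mem ht)
    rwa [act_inv_act] at h4

/-- `q ≥ 3`: one transvection group with a vanishing coordinate gives everything -/
theorem top_of_coord (hF : Fintype.card F = q ^ 2) (hq : 3 ≤ q) (hn : 5 ≤ n)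
    {M : Subgroup (SU n F q)} {b : Fin n → Fin n → F} (hb : IsON q b) (hM : Mono b ≤ M)
    {d : Fin n → F} (hd : d ∈ XT M) (hd0 : d ≠ 0) {l : Fin n} (hl : hermForm n F q d (b l) = 0) :
    M = ⊤ := by
  classical
  obtain ⟨i, j, hij, hi, hj⟩ := exists_two hF hb hd0 (fun j c hc => by
    have h1 := hd.1
    rw [hc, hermForm_smul_left, hermForm_smul_right, IsON.self hb, mul_one] at h1
    apply hd0
    rcases mul_eq_zero.1 h1 with h | h
    · rw [hc, h, zero_smul]
    · rw [hc, pow_eq_zero_iff (q_ne_zero hF) |>.1 h, zero_smul])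
  obtain ⟨x, y, hx, hy, hxy⟩ := wt2_mem hF hb hM hd hij hi hj hl
  refine USub.top_of_xt hF (by omega) (by omega) fun v hv =>
    all_iso hF hq hb (fun k m hkm x' y' hxy' => wt2_all hF hn hb hM hij hx hy hxy hkm hxy')
      _ v hv le_rfl

/-- Monomial groups, odd characteristic -/
theorem mono_max_odd (hF : Fintype.card F = q ^ 2) (hq : 3 ≤ q) (h2 : (2 : F) ≠ 0) (hn : 10 ≤ n)
    {M : Subgroup (SU n F q)} {b : Fin n → Fin n → F} (hb : IsON q b) (hM : Mono b ≤ M)
    (hne : M ≠ Mono b) : M = ⊤ := by
  by_contra htop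
  have hfr : Frm M b := frm_of hF hq hb hM fun d hd ⟨i, hi⟩ => by
    by_contra hd0
    exact htop (top_of_coord hF hq (by omega) hb hM hd hd0 hi)
  obtain ⟨g, hg, hgn⟩ : ∃ g ∈ M, g ∉ (Mono b : Subgroup (SU n F q)) := by
    by_contra hcon
    push Not at hcon
    exact hne (le_antisymm hcon hM)
  exact hfr.false_odd hF hq h2 hn hg hgn

end Cfsg.Agent.H98.UF
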