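import Mathlib
import Cfsg.Agent.H98.UFL

set_option autoImplicit false
set_option linter.unusedSectionVars false
set_option linter.unusedVariables false
set_option linter.style.haveILetI false
set_option maxHeartbeats 1000000

/-!
Characteristic two, `q ≥ 4`: every swap lies in a unique frame group.
-/

namespace Cfsg.Agent.H98.UF

open scoped Matrix
open Cfsg.Agent.Uni Module
open Cfsg.Agent.USub (XT xt_smul xt_pair xt_conj xt_zero)

variable {F : Type*} [Field F] [Fintype F] {q n : ℕ}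

/-- the stabiliser of a line -/
def LS (c : Fin n → F) : Subgroup (SU n F q) where
  carrier := {g | ∃ γ : F, γ ≠ 0 ∧ act g c = γ • c}
  mul_mem' := by
    rintro g h ⟨γ, hγ, e⟩ ⟨δ, hδ, e'⟩
    exact ⟨δ * γ, mul_ne_zero hδ hγ, by rw [act_mul, e', act_smul, e, smul_smul]⟩
  one_mem' := ⟨1, one_ne_zero, by rw [act_one, one_smul]⟩
  inv_mem' := by
    rintro g ⟨γ, hγ, e⟩
    refine ⟨γ⁻¹, inv_ne_zero hγ, ?_⟩
    apply act_inj (g := g).1
    rw [act_act_inv, act_smul, e, smul_smul, inv_mul_cancel₀ hγ, one_smul]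

theorem mem_LS {c : Fin n → F} {g : SU n F q} :
    g ∈ LS c ↔ ∃ γ : F, γ ≠ 0 ∧ act g c = γ • c := Iff.rfl

/-- full transvection group modulo `R` -/
def FT (G : Subgroup (SU n F q)) (R U : Submodule F (Fin n → F)) (d : Fin n → F) : Prop :=
  ∀ s : F, s ^ q = -s → ∃ g ∈ G, Trn R U g d s

section
variable {R U : Submodule F (Fin n → F)} {G : Subgroup (SU n F q)}

theorem FT.conj (hF : Fintype.card F = q ^ 2) (h : Ctx R U G) {d : Fin n → F} (hd : d ∈ U)
    (hft : FT G R U d) {k : SU n F q} (hk : k ∈ G) : FT G R U (act k d) := by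
  intro s hs
  obtain ⟨g, hg, hgd⟩ := hft s hs
  exact ⟨k * g * k⁻¹, G.mul_mem (G.mul_mem hk hg) (G.inv_mem hk), Trn.conj hF h hg hk hd hgd⟩

theorem FT.congr (hF : Fintype.card F = q ^ 2) (h : Ctx R U G) {d d' : Fin n → F} (hd : d ∈ U)
    (hft : FT G R U d') (hdd : d' - d ∈ R) : FT G R U d := by
  intro s hs
  obtain ⟨g, hg, hgd⟩ := hft s hs
  exact ⟨g, hg, Trn.congr hF h (m := 1) hd (by rwa [one_smul]) (by rw [one_pow, mul_one]) hgd⟩

theorem FT.pair (hF : Fintype.card F = q ^ 2) (h : Ctx R U G) {x y : Fin n → F} (hx : x ∈ U)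
    (hy : y ∈ U) (hxx : hermForm n F q x x = 0) (hyy : hermForm n F q y y = 0)
    (hfx : FT G R U x) (hfy : FT G R U y) (hxy : hermForm n F q x y ≠ 0) {m : F}
    (hm : hermForm n F q (y + m • x) (y + m • x) = 0) : FT G R U (y + m • x) := by
  have hyx : hermForm n F q y x ≠ 0 := fun e => hxy ((hermForm_eq_zero_comm hF).1 e)
  have hyx' : hermForm n F q y x ^ q = hermForm n F q x y := hermForm_symm hF y x
  have hs : (m / hermForm n F q y x) ^ q = -(m / hermForm n F q y x) := by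
    rw [hermForm_add_left, hermForm_add_right hF, hermForm_add_right hF, hermForm_smul_left,
      hermForm_smul_left, hermForm_smul_right, hermForm_smul_right, hxx, hyy] at hm
    rw [div_pow, hyx']
    field_simp
    linear_combination hm
  obtain ⟨g, hg, hgx⟩ := hfx _ hs
  have h1 := hgx y hy
  rw [div_mul_cancel₀ _ hyx] at h1
  exact (hfy.conj hF h hy hg).congr hF h (U.add_mem hy (U.smul_mem _ hx)) h1

end

/-- swaps -/
def Sw (b : Fin n → Fin n → F) (i j : Fin n) (l : F) (u : SU n F q) : Prop :=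
  ∀ x, act u x = x + hermForm n F q x (b i + l • b j) • (b i + l • b j)

section
variable {b : Fin n → Fin n → F} {i j : Fin n} {l : F} {u : SU n F q}

theorem form_bb (hF : Fintype.card F = q ^ 2) (hb : IsON q b) (hij : i ≠ j)
    (hl : l ^ (q + 1) = 1) (h2 : (2 : F) = 0) :
    hermForm n F q (b i + l • b j) (b i + l • b j) = 0 := by
  have := form_two hF hb hij 1 l
  rw [one_smul, one_pow, hl] at this
  rw [this]; linear_combination h2

theorem exists_sw (hF : Fintype.card F = q ^ 2) (hb : IsON q b) (h2 : (2 : F) = 0) (hij : i ≠ j)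
    (hl : l ^ (q + 1) = 1) : ∃ u : SU n F q, Sw b i j l u := by
  obtain ⟨u, -, hu⟩ := exists_transv hF (a := 1) (form_bb hF hb hij hl h2)
    (by rw [one_pow]; linear_combination h2)
  refine ⟨u, fun x => ?_⟩
  rw [hu, one_mul]

theorem Sw.left (hF : Fintype.card F = q ^ 2) (hb : IsON q b) (h2 : (2 : F) = 0) (hij : i ≠ j)
    (h : Sw b i j l u) : act u (b i) = l • b j := by
  rw [h, hermForm_add_right hF, hermForm_smul_right, IsON.self hb, IsON.ne hb hij, mul_zero,
    add_zero, one_smul]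
  have : b i + (b i + l • b j) = (2 : F) • b i + l • b j := by module
  rw [this, h2, zero_smul, zero_add]

theorem Sw.right (hF : Fintype.card F = q ^ 2) (hb : IsON q b) (h2 : (2 : F) = 0) (hij : i ≠ j)
    (hl : l ^ (q + 1) = 1) (h : Sw b i j l u) : act u (b j) = l ^ q • b i := by
  rw [h, hermForm_add_right hF, hermForm_smul_right, IsON.self hb, IsON.ne hb (Ne.symm hij),
    zero_add, mul_one]
  have : b j + l ^ q • (b i + l • b j) = l ^ q • b i + (1 + l ^ q * l) • b j := by module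
  rw [this, ← pow_succ, hl]
  have e : (1 + 1 : F) = 0 := by linear_combination h2
  rw [e, zero_smul, add_zero]

theorem Sw.other (hF : Fintype.card F = q ^ 2) (hb : IsON q b) (h : Sw b i j l u) {k : Fin n}
    (hki : k ≠ i) (hkj : k ≠ j) : act u (b k) = b k := by
  rw [h, hermForm_add_right hF, hermForm_smul_right, IsON.ne hb hki, IsON.ne hb hkj, mul_zero,
    add_zero, zero_smul, add_zero]

theorem Sw.mem (hF : Fintype.card F = q ^ 2) (hb : IsON q b) (h2 : (2 : F) = 0) (hij : i ≠ j)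
    (hl : l ^ (q + 1) = 1) (h : Sw b i j l u) : u ∈ (Mono b : Subgroup (SU n F q)) := by
  intro k
  by_cases hki : k = i
  · rw [hki]; exact ⟨j, l, scalar_ne hl, h.left hF hb h2 hij⟩
  · by_cases hkj : k = j
    · rw [hkj]; exact ⟨i, l ^ q, pow_ne_zero _ (scalar_ne hl), h.right hF hb h2 hij hl⟩
    · exact ⟨k, 1, one_ne_zero, by rw [h.other hF hb hki hkj, one_smul]⟩

end

/-- square roots of norm one elements -/
theorem exists_sqrt (hF : Fintype.card F = q ^ 2) (h2 : (2 : F) = 0) {a : F}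
    (ha : a ^ (q + 1) = 1) : ∃ δ : F, δ ^ (q + 1) = 1 ∧ δ ^ 2 = a := by
  -- `q` is even
  have hq : Even q := by
    by_contra hodd
    rw [Nat.not_even_iff_odd] at hodd
    have h1 : ((q : ℕ) : F) ^ 2 = 0 := by
      have := FiniteField.cast_card_eq_zero F
      rw [hF] at this
      push_cast at this
      exact this
    obtain ⟨m, hm⟩ := hodd
    rw [hm] at h1
    push_cast at h1
    rw [h2, zero_mul, zero_add, one_pow] at h1
    exact one_ne_zero h1
  obtain ⟨m, hm⟩ := hq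
  refine ⟨a ^ (m + 1), by rw [← pow_mul, mul_comm, pow_mul, ha, one_pow], ?_⟩
  rw [← pow_mul]
  have : (m + 1) * 2 = (q + 1) + 1 := by omega
  rw [this, pow_succ, ha, one_mul]

/-- Context data for the line of a swap centre. -/
structure SC (M : Subgroup (SU n F q)) (b : Fin n → Fin n → F) (i j : Fin n) (l : F)
    (c : Fin n → F) (R U : Submodule F (Fin n → F)) (G : Subgroup (SU n F q)) : Prop where
  on : IsON q b
  mono : Mono b ≤ M
  ij : i ≠ j
  ln : l ^ (q + 1) = 1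
  hc : c = b i + l • b j
  hR : ∀ v, v ∈ R ↔ ∃ γ : F, v = γ • c
  hU : ∀ v, v ∈ U ↔ hermForm n F q v c = 0
  hG : ∀ g, g ∈ G ↔ g ∈ M ∧ ∃ γ : F, γ ≠ 0 ∧ act g c = γ • c
  ctx : Ctx R U G

theorem exists_SC (hF : Fintype.card F = q ^ 2) (h2 : (2 : F) = 0) {M : Subgroup (SU n F q)}
    {b : Fin n → Fin n → F} (hb : IsON q b) (hM : Mono b ≤ M) {i j : Fin n} (hij : i ≠ j) {l : F}
    (hl : l ^ (q + 1) = 1) : ∃ c R U G, SC M b i j l c R U G := by
  obtain ⟨c, hc⟩ : ∃ c, c = b i + l • b j := ⟨_, rfl⟩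
  have hcc : hermForm n F q c c = 0 := by rw [hc]; exact form_bb hF hb hij hl h2
  obtain ⟨R, hR⟩ : ∃ R, R = Submodule.span F {c} := ⟨_, rfl⟩
  have hRm : ∀ v, v ∈ R ↔ ∃ γ : F, v = γ • c := by
    intro v
    rw [hR, Submodule.mem_span_singleton]
    exact ⟨fun ⟨a, ha⟩ => ⟨a, ha.symm⟩, fun ⟨a, ha⟩ => ⟨a, ha.symm⟩⟩
  have hU : ∀ v, v ∈ perp q R ↔ hermForm n F q v c = 0 := by
    intro v
    rw [hR, mem_perp_span hF]
    simp
  have hG : ∀ g, g ∈ M ⊓ LS c ↔ g ∈ M ∧ ∃ γ : F, γ ≠ 0 ∧ act g c = γ • c := by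
    intro g
    rw [Subgroup.mem_inf, mem_LS]
  refine ⟨c, R, perp q R, M ⊓ LS c, hb, hM, hij, hl, hc, hRm, hU, hG, fun v hv => ?_,
    fun r hr u hu => ?_, fun g hg r hr => ?_, fun g hg u hu => ?_⟩
  · obtain ⟨γ, rfl⟩ := (hRm v).1 hv
    rw [hU, hermForm_smul_left, hcc, mul_zero]
  · obtain ⟨γ, rfl⟩ := (hRm r).1 hr
    rw [hermForm_smul_left, (hermForm_eq_zero_comm hF).1 ((hU u).1 hu), mul_zero]
  · obtain ⟨γ, rfl⟩ := (hRm r).1 hr
    obtain ⟨-, δ, -, hδ⟩ := (hG g).1 hg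
    rw [hRm]
    exact ⟨γ * δ, by rw [act_smul, hδ, smul_smul]⟩
  · obtain ⟨-, δ, hδ0, hδ⟩ := (hG g).1 hg
    rw [hU] at hu ⊢
    have e := act_form g u c
    rw [hδ, hermForm_smul_right, hu] at e
    exact (mul_eq_zero.1 e).resolve_left (pow_ne_zero _ hδ0)

section
variable {M : Subgroup (SU n F q)} {b : Fin n → Fin n → F} {i j : Fin n} {l : F}
  {c : Fin n → F} {R U : Submodule F (Fin n → F)} {G : Subgroup (SU n F q)}

theorem SC.bU (hF : Fintype.card F = q ^ 2) (h : SC M b i j l c R U G) {k : Fin n} (hki : k ≠ i)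
    (hkj : k ≠ j) : b k ∈ U := by
  rw [h.hU, h.hc, hermForm_add_right hF, hermForm_smul_right, IsON.ne h.on hki, IsON.ne h.on hkj]
  ring

/-- the remainder of the expansion along the other indices -/
theorem SC.rem (hF : Fintype.card F = q ^ 2) (h2 : (2 : F) = 0) (h : SC M b i j l c R U G)
    {v : Fin n → F} (hv : v ∈ U) : v - ∑ m ∈ (Finset.univ.erase i).erase j,
      hermForm n F q v (b m) • b m ∈ R := by
  classical
  rw [h.hR]
  refine ⟨hermForm n F q v (b i), ?_⟩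
  have hj : j ∈ (Finset.univ : Finset (Fin n)).erase i :=
    Finset.mem_erase.2 ⟨Ne.symm h.ij, Finset.mem_univ _⟩
  have e1 := IsON.sum_eq hF h.on v
  rw [← Finset.add_sum_erase _ _ (Finset.mem_univ i), ← Finset.add_sum_erase _ _ hj] at e1
  rw [h.hU, h.hc, hermForm_add_right hF, hermForm_smul_right] at hv
  have e2 : hermForm n F q v (b j) = l * hermForm n F q v (b i) := by
    have hl := h.ln
    rw [pow_succ] at hl
    linear_combination l * hv - hermForm n F q v (b j) * hl - l * hermForm n F q v (b i) * h2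
  nth_rw 1 [← e1]
  rw [e2, h.hc]
  module

/-- torus elements in `G` -/
theorem SC.torus (hF : Fintype.card F = q ^ 2) (h2 : (2 : F) = 0) (h : SC M b i j l c R U G)
    {k : Fin n} (hki : k ≠ i) (hkj : k ≠ j) {δ : F} (hδ : δ ^ (q + 1) = 1) :
    ∃ t ∈ G, act t c = δ⁻¹ • c ∧ act t (b k) = δ ^ 2 • b k ∧
      ∀ m, m ≠ i → m ≠ j → m ≠ k → act t (b m) = b m := by
  have hδ0 := scalar_ne hδ
  obtain ⟨t₁, ht₁⟩ := exists_D hF h.on hki hδ
  obtain ⟨t₂, ht₂⟩ := exists_D hF h.on hkj hδ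
  obtain ⟨a1, a2, a3, a4⟩ := D_mem (M := M) h.on hki hδ0 ht₁
  obtain ⟨c1, c2, c3, c4⟩ := D_mem (M := M) h.on hkj hδ0 ht₂
  have hc : act (t₁ * t₂) c = δ⁻¹ • c := by
    rw [h.hc, act_mul, act_add, act_smul, c3 i (Ne.symm hki) h.ij, c2, act_add, act_smul, act_smul,
      a2, a3 j (Ne.symm hkj) (Ne.symm h.ij)]
    module
  refine ⟨t₁ * t₂, ?_, hc, ?_, fun m hmi hmj hmk => ?_⟩
  · rw [h.hG]
    exact ⟨M.mul_mem (h.mono a4) (h.mono c4), δ⁻¹, inv_ne_zero hδ0, hc⟩
  · rw [act_mul, c1, act_smul, a1, smul_smul, pow_two]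
  · rw [act_mul, c3 m hmk hmj, a3 m hmk hmi]

/-- swaps in `G` -/
theorem SC.swap (hF : Fintype.card F = q ^ 2) (h2 : (2 : F) = 0) (h : SC M b i j l c R U G)
    {k m : Fin n} (hkm : k ≠ m) (hk : k ≠ i ∧ k ≠ j) (hm : m ≠ i ∧ m ≠ j) {a : F}
    (ha : a ^ (q + 1) = 1) :
    ∃ t ∈ G, act t c = c ∧ act t (b k) = a • b m ∧ act t (b m) = a⁻¹ • b k ∧
      ∀ p, p ≠ k → p ≠ m → act t (b p) = b p := by
  obtain ⟨t, ht⟩ := exists_sw hF h.on h2 hkm ha
  have haq : a ^ q = a⁻¹ := by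
    rw [pow_succ] at ha; exact eq_inv_of_mul_eq_one_left ha
  have htc : act t c = c := by
    rw [h.hc, act_add, act_smul, ht.other hF h.on (Ne.symm hk.1) (Ne.symm hm.1),
      ht.other hF h.on (Ne.symm hk.2) (Ne.symm hm.2)]
  refine ⟨t, ?_, htc, ht.left hF h.on h2 hkm, ?_, fun p h1 h3 => ht.other hF h.on h1 h3⟩
  · rw [h.hG]
    exact ⟨h.mono (ht.mem hF h.on h2 hkm ha), 1, one_ne_zero, by rw [htc, one_smul]⟩
  · rw [← haq]; exact ht.right hF h.on h2 hkm ha

/-- reflection tori -/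
theorem SC.ref (hF : Fintype.card F = q ^ 2) (h2 : (2 : F) = 0) (h : SC M b i j l c R U G)
    {k : Fin n} (hki : k ≠ i) (hkj : k ≠ j) {a : F} (ha : a ^ (q + 1) = 1) :
    ∃ t ∈ G, Ref R U t (b k) a := by
  classical
  obtain ⟨δ, hδ, hδa⟩ := exists_sqrt hF h2 ha
  obtain ⟨t, ht, htc, htk, hto⟩ := h.torus hF h2 hki hkj hδ
  refine ⟨t, ht, fun v hv => ?_⟩
  have h1 := h.rem hF h2 hv
  obtain ⟨w, hw⟩ : ∃ w, w = ∑ m ∈ (Finset.univ.erase i).erase j,
      hermForm n F q v (b m) • b m := ⟨_, rfl⟩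
  rw [← hw] at h1
  have hk : k ∈ ((Finset.univ : Finset (Fin n)).erase i).erase j :=
    Finset.mem_erase.2 ⟨hkj, Finset.mem_erase.2 ⟨hki, Finset.mem_univ _⟩⟩
  have e1 : act t w = w + ((a - 1) * hermForm n F q v (b k)) • b k := by
    rw [hw, act_sum, ← Finset.add_sum_erase _ _ hk, ← Finset.add_sum_erase _ _ hk]
    have : ∑ x ∈ (((Finset.univ : Finset (Fin n)).erase i).erase j).erase k,
        act t (hermForm n F q v (b x) • b x) =
        ∑ x ∈ (((Finset.univ : Finset (Fin n)).erase i).erase j).erase k,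
        hermForm n F q v (b x) • b x := by
      refine Finset.sum_congr rfl fun m hm => ?_
      rw [Finset.mem_erase, Finset.mem_erase, Finset.mem_erase] at hm
      rw [act_smul, hto m hm.2.2.1 hm.2.1 hm.1]
    rw [this, act_smul, htk, hδa]
    module
  have h3 := h.ctx.gR t ht _ h1
  have h4 := R.sub_mem h3 h1
  convert h4 using 1
  rw [act_sub, e1]
  abel

/-- weight two vectors modulo `c` -/
theorem SC.wt2 (hF : Fintype.card F = q ^ 2) (h2 : (2 : F) = 0) (h : SC M b i j l c R U G)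
    {d : Fin n → F} (hdU : d ∈ U) (hdd : hermForm n F q d d = 0) (hft : FT G R U d) {k m : Fin n}
    (hkm : k ≠ m) (hk : k ≠ i ∧ k ≠ j) (hm : m ≠ i ∧ m ≠ j)
    (hdk : hermForm n F q d (b k) ≠ 0) (hdm : hermForm n F q d (b m) ≠ 0) :
    ∃ x y : F, x ≠ 0 ∧ y ≠ 0 ∧ x ^ (q + 1) + y ^ (q + 1) = 0 ∧ FT G R U (x • b k + y • b m) := by
  classical
  have hb := h.on
  obtain ⟨ci, hci⟩ : ∃ c, c = hermForm n F q d (b k) := ⟨_, rfl⟩
  obtain ⟨cj, hcj⟩ : ∃ c, c = hermForm n F q d (b m) := ⟨_, rfl⟩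
  rw [← hci] at hdk
  rw [← hcj] at hdm
  obtain ⟨S, hS⟩ : ∃ S, S = ci ^ (q + 1) + cj ^ (q + 1) := ⟨_, rfl⟩
  have hSq : S ^ q = S := by rw [hS, add_pow_q hF, norm_pow_q hF, norm_pow_q hF]
  have h0 : ∃ α β : F, α ^ (q + 1) = ci ^ (q + 1) * cj ^ (q + 1) ∧
      β ^ (q + 1) = ci ^ (q + 1) * cj ^ (q + 1) ∧ α + α ^ q + (β + β ^ q) = 2 * S ∧
      α + β - S ≠ 0 := by
    obtain ⟨α, β, h1, h2, h3, h4⟩ := exists_pair_norm_trace hF
      (m := ci ^ (q + 1) * cj ^ (q + 1)) (r := 2 * S)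
      (by rw [mul_pow, norm_pow_q hF, norm_pow_q hF])
      (mul_ne_zero (pow_ne_zero _ hdk) (pow_ne_zero _ hdm)) (by
        rw [two_mul, add_pow_q hF, hSq])
    by_cases h5 : α + β - S = 0
    · refine ⟨α ^ q, β, by rw [norm_pow hF, h1], h2, by rw [pow_q_pow_q hF, ← h4]; ring, ?_⟩
      intro h6
      apply h3
      linear_combination h6 - h5
    · exact ⟨α, β, h1, h2, h4, h5⟩
  obtain ⟨α, β, h1, h3, h4, h5⟩ := h0
  -- scalars
  obtain ⟨a', ha'⟩ : ∃ a', a' = (α / (ci * cj ^ q)) ^ q := ⟨_, rfl⟩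
  obtain ⟨a, ha⟩ : ∃ a, a = (β / (cj * ci ^ q)) ^ q := ⟨_, rfl⟩
  have hcin : ci ^ (q + 1) ≠ 0 := pow_ne_zero _ hdk
  have hcjn : cj ^ (q + 1) ≠ 0 := pow_ne_zero _ hdm
  have hciq : ci ^ q ≠ 0 := pow_ne_zero _ hdk
  have hcjq : cj ^ q ≠ 0 := pow_ne_zero _ hdm
  have ha'n : a' ^ (q + 1) = 1 := by
    rw [ha', norm_pow hF, div_pow, mul_pow, norm_pow hF, h1, div_self (mul_ne_zero hcin hcjn)]
  have han : a ^ (q + 1) = 1 := by
    rw [ha, norm_pow hF, div_pow, mul_pow, norm_pow hF, h3, mul_comm,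
      div_self (mul_ne_zero hcjn hcin)]
  have ha0 := scalar_ne han
  have hα : ci * (a' * cj) ^ q = α := by
    rw [ha', mul_pow, pow_q_pow_q hF]; field_simp
  have hβ : cj * (a * ci) ^ q = β := by
    rw [ha, mul_pow, pow_q_pow_q hF]; field_simp
  -- the monomial element
  obtain ⟨δ, hδ, hδa⟩ := exists_sqrt hF h2 (a := a * a') (by rw [mul_pow, han, ha'n, one_mul])
  obtain ⟨t₁, ht₁, f1, f2, f3, f4⟩ := h.swap hF h2 hkm hk hm han
  obtain ⟨t₂, ht₂, g1, g2, g3⟩ := h.torus hF h2 hk.1 hk.2 hδ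
  obtain ⟨t, ht⟩ : ∃ t, t = t₂ * t₁ := ⟨_, rfl⟩
  have htG : t ∈ G := by rw [ht]; exact G.mul_mem ht₂ ht₁
  have htk : act t (b k) = a • b m := by
    rw [ht, act_mul, f2, act_smul, g3 m hm.1 hm.2 (Ne.symm hkm)]
  have htm : act t (b m) = a' • b k := by
    rw [ht, act_mul, f3, act_smul, g2, smul_smul, hδa, ← mul_assoc, inv_mul_cancel₀ ha0, one_mul]
  have hto : ∀ p, p ≠ i → p ≠ j → p ≠ k → p ≠ m → act t (b p) = b p := by
    intro p h1 h3 h4 h5
    rw [ht, act_mul, f4 p h4 h5, g3 p h1 h3 h4]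
  -- expansions
  have r1 := h.rem hF h2 hdU
  obtain ⟨w, hw⟩ : ∃ w, w = ∑ m ∈ (Finset.univ.erase i).erase j,
      hermForm n F q d (b m) • b m := ⟨_, rfl⟩
  rw [← hw] at r1
  have r2 := h.ctx.gR t htG _ r1
  have hkI : k ∈ ((Finset.univ : Finset (Fin n)).erase i).erase j :=
    Finset.mem_erase.2 ⟨hk.2, Finset.mem_erase.2 ⟨hk.1, Finset.mem_univ _⟩⟩
  have hmI : m ∈ (((Finset.univ : Finset (Fin n)).erase i).erase j).erase k :=
    Finset.mem_erase.2 ⟨Ne.symm hkm, Finset.mem_erase.2 ⟨hm.2, Finset.mem_erase.2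
      ⟨hm.1, Finset.mem_univ _⟩⟩⟩
  obtain ⟨e, he⟩ : ∃ e, e = (ci - a' * cj) • b k + (cj - a * ci) • b m := ⟨_, rfl⟩
  have hwt : w - act t w = e := by
    rw [hw, act_sum, ← Finset.add_sum_erase _ _ hkI, ← Finset.add_sum_erase _ _ hkI,
      ← Finset.add_sum_erase _ _ hmI, ← Finset.add_sum_erase _ _ hmI]
    have : ∑ x ∈ ((((Finset.univ : Finset (Fin n)).erase i).erase j).erase k).erase m,
        act t (hermForm n F q d (b x) • b x) =
        ∑ x ∈ ((((Finset.univ : Finset (Fin n)).erase i).erase j).erase k).erase m,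
        hermForm n F q d (b x) • b x := by
      refine Finset.sum_congr rfl fun p hp => ?_
      rw [Finset.mem_erase, Finset.mem_erase, Finset.mem_erase, Finset.mem_erase] at hp
      rw [act_smul, hto p hp.2.2.2.1 hp.2.2.1 hp.2.1 hp.1]
    rw [this, act_smul, act_smul, htk, htm, ← hci, ← hcj, he]
    module
  have hdiff : (d + (-1 : F) • act t d) - e ∈ R := by
    have := R.sub_mem r1 r2
    convert this using 1
    rw [← hwt, act_sub]
    module
  have hkU := h.bU hF hk.1 hk.2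
  have hmU := h.bU hF hm.1 hm.2
  have heU : e ∈ U := by rw [he]; exact U.add_mem (U.smul_mem _ hkU) (U.smul_mem _ hmU)
  have htdU := h.ctx.gU t htG d hdU
  have hfe : hermForm n F q d e = S - α - β := by
    rw [he, hermForm_add_right hF, hermForm_smul_right, hermForm_smul_right, ← hci, ← hcj,
      sub_pow_q hF, sub_pow_q hF, ← hα, ← hβ, hS]
    ring
  have hdt : hermForm n F q d (act t d) = α + β - S := by
    have e1 := h.ctx.form_right hF hdiff hdU
    rw [hermForm_add_right hF, hermForm_smul_right, hdd, neg_pow_q hF, one_pow, hfe] at e1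
    linear_combination -e1
  have hee : hermForm n F q e e = 0 := by
    rw [he, form_two hF hb hkm, pow_succ, pow_succ, sub_pow_q hF, sub_pow_q hF]
    have hα' : ci ^ q * (a' * cj) = α ^ q := by rw [← hα, mul_pow, pow_q_pow_q hF]
    have hβ' : cj ^ q * (a * ci) = β ^ q := by rw [← hβ, mul_pow, pow_q_pow_q hF]
    have e1 : (a' * cj) ^ q * (a' * cj) = cj ^ (q + 1) := by
      rw [← pow_succ, mul_pow, ha'n, one_mul]
    have e2 : (a * ci) ^ q * (a * ci) = ci ^ (q + 1) := by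
      rw [← pow_succ, mul_pow, han, one_mul]
    rw [pow_succ] at e1 e2 hS
    rw [pow_succ] at hS
    linear_combination e1 + e2 - hα - hβ - hα' - hβ' - h4 - 2 * hS
  have hmm : hermForm n F q (d + (-1 : F) • act t d) (d + (-1 : F) • act t d) = 0 := by
    have e1 := h.ctx.form_left hdiff (U.add_mem hdU (U.smul_mem (-1) htdU))
    have e2 := h.ctx.form_right hF hdiff heU
    rw [e1, e2, hee]
  have hFT := FT.pair hF h.ctx htdU hdU (by rw [act_form]; exact hdd) hdd
    (hft.conj hF h.ctx hdU htG) hft (fun e1 => h5 (by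
      rw [← hdt]; exact (hermForm_eq_zero_comm hF).1 e1)) hmm
  have hFTe := hFT.congr hF h.ctx heU hdiff
  rw [he] at hFTe hee
  rw [form_two hF hb hkm] at hee
  have hne : e ≠ 0 := by
    intro h0
    rw [h0, hermForm_zero_right hF] at hfe
    apply h5
    linear_combination hfe
  refine ⟨_, _, ?_, ?_, hee, hFTe⟩
  · intro hx
    rw [hx, zero_pow (by omega), zero_add] at hee
    apply hne
    rw [he, hx, eq_zero_of_pow_eq_zero hee, zero_smul, zero_smul, add_zero]
  · intro hy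
    rw [hy, zero_pow (by omega), add_zero] at hee
    apply hne
    rw [he, hy, eq_zero_of_pow_eq_zero hee, zero_smul, zero_smul, add_zero]

/-- the commutator argument -/
theorem SC.false_of_wt2 (hF : Fintype.card F = q ^ 2) (hq : 3 ≤ q) (h2 : (2 : F) = 0) (hn : 5 ≤ n)
    (h : SC M b i j l c R U G) (hfr : Frm M b) {k m : Fin n}
    (hkm : k ≠ m) (hk : k ≠ i ∧ k ≠ j) (hm : m ≠ i ∧ m ≠ j) {x y : F} (hx : x ≠ 0)
    (hxy : x ^ (q + 1) + y ^ (q + 1) = 0) (hft : FT G R U (x • b k + y • b m)) : False := by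
  classical
  have hb := h.on
  have hneg : ∀ z : F, -z = z := fun z => by linear_combination -z * h2
  obtain ⟨N, hN⟩ : ∃ N, N = x ^ (q + 1) := ⟨_, rfl⟩
  have hN0 : N ≠ 0 := by rw [hN]; exact pow_ne_zero _ hx
  have hyN : y ^ (q + 1) = N := by rw [hN]; linear_combination hxy - x ^ (q + 1) * h2
  have hy : y ≠ 0 := by
    rintro rfl
    rw [zero_pow (by omega)] at hyN
    exact hN0 hyN.symm
  obtain ⟨a, ha1, ha2, -⟩ := exists_gen (F := F) hF hq
  have ha0 := scalar_ne ha1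
  have haq : a ^ q = a⁻¹ := by
    rw [pow_succ] at ha1; exact eq_inv_of_mul_eq_one_left ha1
  obtain ⟨X, hXq, hX0, hX1⟩ : ∃ s' : F, s' ^ q = s' ∧ s' ≠ 0 ∧ s' ≠ 1 := by
    by_contra hcon
    push Not at hcon
    have h1 : (Finset.univ.filter fun a : F => a ^ q = a) ⊆ {0, 1} := by
      intro a ha
      rw [Finset.mem_filter] at ha
      rw [Finset.mem_insert, Finset.mem_singleton]
      by_cases ha0 : a = 0
      · left; exact ha0
      · right; exact hcon a ha.2 ha0
    have h3 := Finset.card_le_card h1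
    rw [card_fixed' hF] at h3
    have : ({0, 1} : Finset F).card ≤ 2 := Finset.card_le_two
    omega
  obtain ⟨e, he⟩ : ∃ e, e = x • b k + y • b m := ⟨_, rfl⟩
  rw [← he] at hft
  have hkU := h.bU hF hk.1 hk.2
  have hmU := h.bU hF hm.1 hm.2
  have heU : e ∈ U := by rw [he]; exact U.add_mem (U.smul_mem _ hkU) (U.smul_mem _ hmU)
  have hee : hermForm n F q e e = 0 := by rw [he, form_two hF hb hkm, hxy]
  have hsq : (X / N) ^ q = -(X / N) := by
    rw [hneg, div_pow, hXq, hN, norm_pow_q hF]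
  obtain ⟨g, hg, hgT⟩ := hft _ hsq
  -- make `g` fix `c`
  obtain ⟨-, γ, hγ, hgc⟩ := (h.hG g).1 hg
  obtain ⟨f, hf⟩ : ∃ f, f = g ^ (q ^ 2 - 1) := ⟨_, rfl⟩
  have hq2 : 1 ≤ q ^ 2 := Nat.one_le_pow _ _ (by omega)
  have hfG : f ∈ G := by rw [hf]; exact G.pow_mem hg _
  have hfc : act f c = c := by
    have hp : ∀ r : ℕ, act (g ^ r) c = γ ^ r • c := by
      intro r
      induction r with
      | zero => rw [pow_zero, pow_zero, act_one, one_smul]
      | succ r ih => rw [pow_succ, act_mul, hgc, act_smul, ih, smul_smul, pow_succ, mul_comm]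
    rw [hf, hp, ← hF, FiniteField.pow_card_sub_one_eq_one γ hγ, one_smul]
  have hfT : Trn R U f e (X / N) := by
    have h1 := Trn.pow hF h.ctx hg heU hee hgT (q ^ 2 - 1)
    have h3 : ((q ^ 2 - 1 : ℕ) : F) = 1 := by
      rw [Nat.cast_sub hq2]
      have := FiniteField.cast_card_eq_zero F
      rw [hF] at this
      rw [this, Nat.cast_one, zero_sub, hneg]
    rwa [h3, one_mul, ← hf] at h1
  -- the torus element
  obtain ⟨t, ht⟩ := exists_D hF hb hkm ha1
  obtain ⟨t1, t2, t3, t4⟩ := D_mem (M := M) hb hkm ha0 ht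
  have htc : act t c = c := by
    rw [h.hc, act_add, act_smul, t3 i (Ne.symm hk.1) (Ne.symm hm.1),
      t3 j (Ne.symm hk.2) (Ne.symm hm.2)]
  have htG : t ∈ G := (h.hG t).2 ⟨h.mono t4, 1, one_ne_zero, by rw [htc, one_smul]⟩
  obtain ⟨w, hw⟩ : ∃ w, w = t * f * t⁻¹ * f⁻¹ := ⟨_, rfl⟩
  have hwG : w ∈ G := by
    rw [hw]
    exact G.mul_mem (G.mul_mem (G.mul_mem htG hfG) (G.inv_mem htG)) (G.inv_mem hfG)
  -- a fixed frame vector
  obtain ⟨p, hp⟩ := exists_notMem (S := {i, j, k, m}) (by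
    have : ({i, j, k, m} : Finset (Fin n)).card ≤ 4 := Finset.card_le_four
    omega)
  simp only [Finset.mem_insert, Finset.mem_singleton, not_or] at hp
  have hpe : hermForm n F q (b p) e = 0 := by
    rw [he, hermForm_add_right hF, hermForm_smul_right, hermForm_smul_right, IsON.ne hb hp.2.2.1,
      IsON.ne hb hp.2.2.2]; ring
  obtain ⟨ρ, hρ⟩ : ∃ ρ : F, act f (b p) = b p + ρ • c := by
    have h1 := hfT (b p) (h.bU hF hp.1 hp.2.1)
    rw [hpe, mul_zero, zero_smul, add_zero, h.hR] at h1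
    obtain ⟨ρ, hρ⟩ := h1
    exact ⟨ρ, by rw [← hρ]; abel⟩
  have hfi : act f⁻¹ (b p) = b p - ρ • c := by
    apply act_inj (g := f).1
    rw [act_act_inv, act_sub, act_smul, hfc, hρ]; abel
  have htp : act t (b p) = b p := t3 p hp.2.2.1 hp.2.2.2
  have hti : ∀ v, act t v = v → act t⁻¹ v = v := by
    intro v hv
    apply act_inj (g := t).1
    rw [act_act_inv, hv]
  have hwp : act w (b p) = b p := by
    rw [hw, act_mul, act_mul, act_mul, hfi, hti (b p - ρ • c) (by rw [act_sub, act_smul, htp, htc]),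
      act_sub, act_smul, hfc, hρ, add_sub_cancel_right, htp]
  have hwM := hfr.stab w ((h.hG w).1 hwG).1 p 1 (by rw [hwp, one_smul])
  -- the image of `b k`
  have hTw : act w (b k) - ((b k + (-(X / N) * hermForm n F q (b k) e) • e) + ((X / N) *
      hermForm n F q (b k + (-(X / N) * hermForm n F q (b k) e) • e) (act t e)) • act t e) ∈ R := by
    have h1 := Trn.inv hF h.ctx hfG heU hee hfT
    have h3 := Trn.conj hF h.ctx hfG htG heU hfT
    have htfG : t * f * t⁻¹ ∈ G := G.mul_mem (G.mul_mem htG hfG) (G.inv_mem htG)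
    rw [hw, act_mul]
    exact h.ctx.act_trans htfG (h1 (b k) hkU)
      (h3 _ (U.add_mem hkU (U.smul_mem _ heU)))
  have hte : act t e = (x * a) • b k + (y * a⁻¹) • b m := by
    rw [he, act_add, act_smul, act_smul, t1, t2, smul_smul, smul_smul]
  have hke : hermForm n F q (b k) e = x ^ q := by
    rw [he, hermForm_add_right hF, hermForm_smul_right, hermForm_smul_right, IsON.self hb,
      IsON.ne hb hkm]; ring
  obtain ⟨v₁, hv₁⟩ : ∃ v₁, v₁ = b k + (-(X / N) * hermForm n F q (b k) e) • e := ⟨_, rfl⟩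
  rw [← hv₁] at hTw
  have hv₁' : v₁ = (1 + X) • b k + (X / N * x ^ q * y) • b m := by
    have e1 : -(X / N) * x ^ q * x = X := by
      rw [mul_assoc, ← pow_succ, ← hN, hneg, div_mul_cancel₀ _ hN0]
    have e2 : -(X / N) * x ^ q * y = X / N * x ^ q * y := by rw [hneg]
    rw [hv₁, hke, he, smul_add, smul_smul, smul_smul, e1, e2]
    module
  have hinq : (a⁻¹) ^ q = a := by rw [inv_pow, haq, inv_inv]
  have hft : hermForm n F q v₁ (act t e) = x ^ q * ((1 + X) * a⁻¹ + X * a) := by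
    rw [hv₁', hte, hermForm_add_left, hermForm_add_right hF, hermForm_add_right hF,
      hermForm_smul_left, hermForm_smul_left, hermForm_smul_left, hermForm_smul_left,
      hermForm_smul_right, hermForm_smul_right, hermForm_smul_right, hermForm_smul_right,
      IsON.self hb, IsON.self hb, IsON.ne hb hkm, IsON.ne hb (Ne.symm hkm), mul_pow, mul_pow, haq,
      hinq]
    have e3 : y ^ q * y = N := by rw [← pow_succ, hyN]
    have e4 : X / N * N = X := div_mul_cancel₀ _ hN0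
    linear_combination (X / N * x ^ q * a) * e3 + x ^ q * a * e4
  have hk1 : hermForm n F q (act w (b k)) (b k) = (1 + X) + X * ((1 + X) + X * a ^ 2) := by
    rw [h.ctx.form_left hTw hkU, hermForm_add_left, hermForm_smul_left, hft, hv₁', hte,
      hermForm_add_left, hermForm_add_left, hermForm_smul_left, hermForm_smul_left,
      hermForm_smul_left, hermForm_smul_left, IsON.self hb, IsON.ne hb (Ne.symm hkm)]
    have e3 : x ^ q * x = N := by rw [← pow_succ, hN]
    have e4 : X / N * N = X := div_mul_cancel₀ _ hN0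
    have e5 : a⁻¹ * a = 1 := inv_mul_cancel₀ ha0
    linear_combination (X / N * ((1 + X) * a⁻¹ + X * a) * a) * e3 +
      ((1 + X) * a⁻¹ + X * a) * a * e4 + X * (1 + X) * e5
  have hk2 : hermForm n F q (act w (b k)) (b m) = X / N * x ^ q * y * ((1 + X) * (1 + a⁻¹ ^ 2)) := by
    rw [h.ctx.form_left hTw hmU, hermForm_add_left, hermForm_smul_left, hft, hv₁', hte,
      hermForm_add_left, hermForm_add_left, hermForm_smul_left, hermForm_smul_left,
      hermForm_smul_left, hermForm_smul_left, IsON.self hb, IsON.ne hb hkm]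
    have e5 : a⁻¹ * a = 1 := inv_mul_cancel₀ ha0
    linear_combination (X / N * x ^ q * y * X) * e5
  have h1X : 1 + X ≠ 0 := fun h0 => hX1 (by linear_combination h0 - h2)
  have n1 : hermForm n F q (act w (b k)) (b k) ≠ 0 := by
    rw [hk1]
    have e6 : (1 + X) + X * ((1 + X) + X * a ^ 2) = (1 + X + X * a) ^ 2 := by
      linear_combination (-X * a - X ^ 2 * a) * h2
    rw [e6]
    apply pow_ne_zero
    intro h0
    -- then `a ∈ F_q`
    have e7 : a = (1 + X) / X := by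
      field_simp
      linear_combination h0 - (1 + X) * h2
    have e8 : a ^ q = a := by rw [e7, div_pow, add_pow_q hF, one_pow, hXq]
    rw [pow_succ, e8, ← pow_two] at ha1
    exact ha2 ha1
  have n2 : hermForm n F q (act w (b k)) (b m) ≠ 0 := by
    rw [hk2]
    refine mul_ne_zero (mul_ne_zero (mul_ne_zero (div_ne_zero hX0 hN0) (pow_ne_zero _ hx)) hy)
      (mul_ne_zero h1X ?_)
    intro h0
    have e9 : a⁻¹ ^ 2 = 1 := by linear_combination h0 - h2
    rw [inv_pow, inv_eq_one] at e9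
    exact ha2 e9
  obtain ⟨s, μ, hμ, hs⟩ := hwM k
  by_cases hsk : s = k
  · rw [hs, hsk, hermForm_smul_left, IsON.ne hb hkm, mul_zero] at n2
    exact n2 rfl
  · rw [hs, hermForm_smul_left, IsON.ne hb hsk, mul_zero] at n1
    exact n1 rfl

end

end Cfsg.Agent.H98.UF
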