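import Mathlib
import Cfsg.Agent.H98.UFM

set_option autoImplicit false
set_option linter.unusedSectionVars false
set_option linter.unusedVariables false
set_option linter.style.haveILetI false
set_option maxHeartbeats 1000000

/-!
Characteristic two, `q ≥ 4`: frames with monomial point stabilisers do not exist.
-/

namespace Cfsg.Agent.H98.UF

open scoped Matrix
open Cfsg.Agent.Uni Module
open Cfsg.Agent.USub (XT xt_smul xt_pair xt_conj xt_zero)

variable {F : Type*} [Field F] [Fintype F] {q n : ℕ}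

theorem exists_mono_two (hF : Fintype.card F = q ^ 2) (hn : 5 ≤ n)
    {b : Fin n → Fin n → F} (hb : IsON q b) {i j k m : Fin n} (hij : i ≠ j) (hkm : k ≠ m) {a : F}
    (ha : a ^ (q + 1) = 1) : ∃ t ∈ (Mono b : Subgroup (SU n F q)), act t (b i) = b k ∧
      act t (b j) = a • b m := by
  obtain ⟨l, hl⟩ := exists_notMem (S := {i, j, k, m}) (by
    have : ({i, j, k, m} : Finset (Fin n)).card ≤ 4 := Finset.card_le_four
    omega)
  simp only [Finset.mem_insert, Finset.mem_singleton, not_or] at hl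
  obtain ⟨σ, hσ⟩ : ∃ σ : Equiv.Perm (Fin n), σ = (Equiv.swap i k).trans
    (Equiv.swap (Equiv.swap i k j) m) := ⟨_, rfl⟩
  have hne : k ≠ Equiv.swap i k j := by
    intro h
    have h1 : Equiv.swap i k i = Equiv.swap i k j := by rw [Equiv.swap_apply_left]; exact h
    exact hij ((Equiv.swap i k).injective h1)
  have hσi : σ i = k := by
    rw [hσ, Equiv.trans_apply, Equiv.swap_apply_left, Equiv.swap_apply_of_ne_of_ne hne hkm]
  have hσj : σ j = m := by
    rw [hσ, Equiv.trans_apply, Equiv.swap_apply_left]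
  have hσl : σ l = l := by
    rw [hσ, Equiv.trans_apply, Equiv.swap_apply_of_ne_of_ne hl.1 hl.2.2.1,
      Equiv.swap_apply_of_ne_of_ne _ hl.2.2.2]
    intro h
    have h1 : Equiv.swap i k l = Equiv.swap i k j := by
      rw [Equiv.swap_apply_of_ne_of_ne hl.1 hl.2.2.1]; exact h
    exact hl.2.1 ((Equiv.swap i k).injective h1)
  obtain ⟨t, ht, htm⟩ := exists_mono hF hb σ (α := fun s => if s = j then a else 1)
    (fun s => by
      by_cases hs : s = j
      · simp only [hs, if_true]; exact ha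
      · simp only [hs, if_false, one_pow]) hσl
  have e1 := htm i (Ne.symm hl.1)
  rw [if_neg hij, hσi, one_smul] at e1
  have e2 := htm j (Ne.symm hl.2.1)
  rw [if_pos rfl, hσj] at e2
  exact ⟨t, ht, e1, e2⟩

/-- A swap lies in the monomial group of at most one frame. -/
theorem Frm.swap_unique (hF : Fintype.card F = q ^ 2) (hq : 3 ≤ q) (h2 : (2 : F) = 0) (hn : 6 ≤ n)
    {M : Subgroup (SU n F q)} {b : Fin n → Fin n → F} (h : Frm M b) {g : SU n F q} (hg : g ∈ M)
    (hgn : g ∉ (Mono b : Subgroup (SU n F q))) {i j : Fin n} {l : F} {u : SU n F q} (hij : i ≠ j)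
    (hl : l ^ (q + 1) = 1) (hu : Sw b i j l u)
    (hu' : u ∈ (Mono (fun i => Uni.act g (b i)) : Subgroup (SU n F q))) : False := by
  classical
  have hb := h.on
  have hb' := IsON.act hb g
  have hl0 := scalar_ne hl
  have hneg : ∀ z : F, -z = z := fun z => by linear_combination -z * h2
  obtain ⟨c, R, U, G, hsc⟩ := exists_SC hF h2 hb h.mono hij hl
  have hcc : hermForm n F q c c = 0 := by rw [hsc.hc]; exact form_bb hF hb hij hl h2
  -- a moved vector
  obtain ⟨m, hm⟩ : ∃ m, Uni.act u (Uni.act g (b m)) ≠ Uni.act g (b m) := by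
    by_contra hcon
    push Not at hcon
    have h1 : u = 1 := IsON.act_ext hF hb' fun m => by rw [act_one]; exact hcon m
    have h3 := hu.left hF hb h2 hij
    rw [h1, act_one] at h3
    have h4 : hermForm n F q (b i) (b j) = l := by
      rw [h3, hermForm_smul_left, IsON.self hb, mul_one]
    rw [IsON.ne hb hij] at h4
    exact hl0 h4.symm
  obtain ⟨m', μ, hμ0, hμ⟩ := hu' m
  change Uni.act u (Uni.act g (b m)) = μ • Uni.act g (b m') at hμ
  have hum : Uni.act u (Uni.act g (b m)) = Uni.act g (b m) +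
      hermForm n F q (Uni.act g (b m)) c • c := by rw [hu, hsc.hc]
  have hbm : hermForm n F q (Uni.act g (b m)) (Uni.act g (b m)) = 1 := IsON.self hb' m
  have hmm' : m ≠ m' := by
    rintro rfl
    have e1 : (μ - 1) • Uni.act g (b m) = hermForm n F q (Uni.act g (b m)) c • c := by
      rw [sub_smul, ← hμ, hum, one_smul]; abel
    have e2 : hermForm n F q ((μ - 1) • Uni.act g (b m)) ((μ - 1) • Uni.act g (b m)) = 0 := by
      rw [e1, hermForm_smul_left, hermForm_smul_right, hcc]; ring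
    rw [hermForm_smul_left, hermForm_smul_right, hbm, mul_one] at e2
    have e3 : μ - 1 = 0 := by
      rcases mul_eq_zero.1 e2 with h' | h'
      · exact h'
      · exact eq_zero_of_pow_eq_zero h'
    apply hm
    rw [hμ, sub_eq_zero.1 e3, one_smul]
  obtain ⟨κ, hκ⟩ : ∃ κ, κ = hermForm n F q (Uni.act g (b m)) c := ⟨_, rfl⟩
  rw [← hκ] at hum
  have hκ0 : κ ≠ 0 := by
    intro h0
    rw [h0, zero_smul, add_zero] at hum
    exact hm hum
  have hκc : κ • c = Uni.act g (b m + μ • b m') := by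
    rw [act_add, act_smul, ← hμ, hum]
    have : Uni.act g (b m) + (Uni.act g (b m) + κ • c) = (2 : F) • Uni.act g (b m) + κ • c := by
      module
    rw [this, h2, zero_smul, zero_add]
  have hμn : μ ^ (q + 1) = 1 := norm_scalar hb' hμ
  obtain ⟨k, hk, hki, hkj⟩ := exists_mono_two hF (by omega) hb hij hmm' (a := l⁻¹ * μ)
    (by rw [mul_pow, inv_pow, hl, hμn, inv_one, one_mul])
  have hkc : Uni.act (g * k) c = κ • c := by
    rw [hκc, act_mul, hsc.hc, act_add, act_smul, hki, hkj, smul_smul, ← mul_assoc,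
      mul_inv_cancel₀ hl0, one_mul]
  have hgkM : g * k ∈ M := M.mul_mem hg (h.mono hk)
  have hgkn : g * k ∉ (Mono b : Subgroup (SU n F q)) := by
    intro h'
    apply hgn
    have := (Mono b).mul_mem h' ((Mono b).inv_mem hk)
    rwa [mul_inv_cancel_right] at this
  have hgkG : g * k ∈ G := (hsc.hG _).2 ⟨hgkM, κ, hκ0, hkc⟩
  -- indices
  obtain ⟨I, hI⟩ : ∃ I, I = ((Finset.univ : Finset (Fin n)).erase i).erase j := ⟨_, rfl⟩
  have hIm : ∀ p, p ∈ I ↔ p ≠ j ∧ p ≠ i := by
    intro p
    rw [hI, Finset.mem_erase, Finset.mem_erase]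
    simp
  have hIc : I.card = n - 2 := by
    rw [hI, Finset.card_erase_of_mem (Finset.mem_erase.2 ⟨Ne.symm hij, Finset.mem_univ _⟩),
      Finset.card_erase_of_mem (Finset.mem_univ _), Finset.card_univ, Fintype.card_fin]
    omega
  obtain ⟨p₁, hp₁, p₂, hp₂, p₃, hp₃, h12, h13, h23⟩ := Finset.two_lt_card.1
    (show 2 < I.card by omega)
  have hw := fun {x y : Fin n} (hxy : x ≠ y) => h.weight hF hq (by omega) hgkM hgkn (i := p₁) hxy
  obtain ⟨y₁, hy₁, y₂, hy₂, hy12, n1, n2⟩ : ∃ y₁ ∈ I, ∃ y₂ ∈ I, y₁ ≠ y₂ ∧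
      hermForm n F q (Uni.act (g * k) (b p₁)) (b y₁) ≠ 0 ∧
      hermForm n F q (Uni.act (g * k) (b p₁)) (b y₂) ≠ 0 := by
    by_cases z1 : hermForm n F q (Uni.act (g * k) (b p₁)) (b p₁) = 0
    · exact ⟨p₂, hp₂, p₃, hp₃, h23, fun z2 => hw h12 z1 z2, fun z3 => hw h13 z1 z3⟩
    · by_cases z2 : hermForm n F q (Uni.act (g * k) (b p₁)) (b p₂) = 0
      · exact ⟨p₁, hp₁, p₃, hp₃, h13, z1, fun z3 => hw h23 z2 z3⟩
      · exact ⟨p₁, hp₁, p₂, hp₂, h12, z1, z2⟩
  obtain ⟨d, hdU, hdd, hdR, hft⟩ := refl_group hF hq hsc.ctx hb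
    (I := I) (fun p hp => hsc.bU hF ((hIm p).1 hp).2 ((hIm p).1 hp).1)
    (fun p hp a ha => hsc.ref hF h2 ((hIm p).1 hp).2 ((hIm p).1 hp).1 ha) hgkG hp₁ hy₁ hy₂ hy12 n1 n2
  -- coordinates of `d`
  have hrem := hsc.rem hF h2 hdU
  rw [← hI] at hrem
  obtain ⟨x₁, hx₁, hd₁⟩ : ∃ x ∈ I, hermForm n F q d (b x) ≠ 0 := by
    by_contra hcon
    push Not at hcon
    apply hdR
    rw [Finset.sum_eq_zero (fun p hp => by rw [hcon p hp, zero_smul]), sub_zero] at hrem
    exact hrem
  obtain ⟨x₂, hx₂, hx12, hd₂⟩ : ∃ x ∈ I, x ≠ x₁ ∧ hermForm n F q d (b x) ≠ 0 := by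
    by_contra hcon
    push Not at hcon
    rw [← Finset.add_sum_erase _ _ hx₁, Finset.sum_eq_zero (s := I.erase x₁) (fun p hp => by
      rw [Finset.mem_erase] at hp
      rw [hcon p hp.2 hp.1, zero_smul]), add_zero] at hrem
    have e1 := hsc.ctx.form_left hrem hdU
    have hxU := hsc.bU hF ((hIm x₁).1 hx₁).2 ((hIm x₁).1 hx₁).1
    have e2 := hsc.ctx.form_right hF hrem hxU
    rw [hermForm_smul_left, hdd] at e1
    rw [hermForm_smul_right, IsON.self hb, mul_one] at e2
    rw [e2] at e1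
    rcases mul_eq_zero.1 e1.symm with h' | h'
    · exact hd₁ h'
    · exact pow_ne_zero _ hd₁ h'
  obtain ⟨x, y, hx, hy, hxy, hfte⟩ := hsc.wt2 hF h2 hdU hdd hft (Ne.symm hx12)
    ⟨((hIm x₁).1 hx₁).2, ((hIm x₁).1 hx₁).1⟩ ⟨((hIm x₂).1 hx₂).2, ((hIm x₂).1 hx₂).1⟩ hd₁ hd₂
  exact hsc.false_of_wt2 hF hq h2 (by omega) h (Ne.symm hx12)
    ⟨((hIm x₁).1 hx₁).2, ((hIm x₁).1 hx₁).1⟩ ⟨((hIm x₂).1 hx₂).2, ((hIm x₂).1 hx₂).1⟩ hx hxy hfte

/-- An involution fixing a frame vector lies in the monomial group of at most one frame. -/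
theorem Frm.inv_unique (hF : Fintype.card F = q ^ 2) (hq : 3 ≤ q) (h2 : (2 : F) = 0) (hn : 6 ≤ n)
    {M : Subgroup (SU n F q)} {b : Fin n → Fin n → F} (h : Frm M b) {g : SU n F q} (hg : g ∈ M)
    (hgn : g ∉ (Mono b : Subgroup (SU n F q))) {z : SU n F q}
    (hz' : z ∈ (Mono (fun i => Uni.act g (b i)) : Subgroup (SU n F q))) (hzz : z * z = 1)
    (hz1 : z ≠ 1) {e : Fin n} (he : Uni.act z (b e) = b e) : False := by
  have hb := h.on
  have h' := h.act hg
  have hb' := h'.on
  have hneg : ∀ z : F, -z = z := fun z => by linear_combination -z * h2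
  obtain ⟨π, c, hπ, hcn, hππ, hcc⟩ := mono_data hb' hz' hzz
  obtain ⟨m, hm⟩ : ∃ m, Uni.act z (Uni.act g (b m)) ≠ Uni.act g (b m) := by
    by_contra hcon
    push Not at hcon
    exact hz1 (IsON.act_ext hF hb' fun m => by rw [act_one]; exact hcon m)
  have hπm := hπ m
  change Uni.act z (Uni.act g (b m)) = c m • Uni.act g (b (π m)) at hπm
  have hmm : m ≠ π m := by
    intro hmm
    have h3 := hcc m
    rw [← hmm] at h3
    apply hm
    rw [hπm, ← hmm]
    rcases mul_self_eq_one_iff.1 h3 with h4 | h4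
    · rw [h4, one_smul]
    · rw [h4, hneg, one_smul]
  obtain ⟨u, hu⟩ := exists_sw hF hb' h2 hmm (hcn m)
  have huM' := hu.mem hF hb' h2 hmm (hcn m)
  have hbe : hermForm n F q (b e) (Uni.act g (b m) + c m • Uni.act g (b (π m))) = 0 := by
    have e1 := act_form z (b e) (Uni.act g (b m))
    rw [he, hπm] at e1
    rw [hermForm_add_right hF, e1]
    linear_combination hermForm n F q (b e) (Uni.act g (b m)) * h2
  have hue : Uni.act u (b e) = b e := by
    have := hu (b e)
    change Uni.act u (b e) = b e + hermForm n F q (b e) (Uni.act g (b m) + c m •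
      Uni.act g (b (π m))) • (Uni.act g (b m) + c m • Uni.act g (b (π m))) at this
    rw [this, hbe, zero_smul, add_zero]
  have huM := h.stab u (h'.mono huM') e 1 (by rw [hue, one_smul])
  refine h'.swap_unique hF hq h2 hn (M.inv_mem hg) (fun hgi => hgn ?_) hmm (hcn m) hu ?_
  · have h3 := (Mono _).inv_mem hgi
    rw [inv_inv, mem_Mono_act, inv_mul_cancel, one_mul] at h3
    exact h3
  · have e3 : (fun i => Uni.act g⁻¹ (Uni.act g (b i))) = b := by
      funext i; rw [act_inv_act]
    rw [e3]; exact huM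

theorem Sw.sq (hF : Fintype.card F = q ^ 2) {b : Fin n → Fin n → F} (hb : IsON q b)
    (h2 : (2 : F) = 0) {i j : Fin n} {l : F} (hij : i ≠ j) (hl : l ^ (q + 1) = 1) {u : SU n F q}
    (hu : Sw b i j l u) : u * u = 1 := by
  apply Uni.act_ext
  intro x
  rw [act_mul, act_one, hu, hu x, hermForm_add_left, hermForm_smul_left,
    form_bb hF hb hij hl h2, mul_zero, add_zero]
  have : x + hermForm n F q x (b i + l • b j) • (b i + l • b j) +
      hermForm n F q x (b i + l • b j) • (b i + l • b j) =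
      x + ((2 : F) * hermForm n F q x (b i + l • b j)) • (b i + l • b j) := by module
  rw [this, h2, zero_mul, zero_smul, add_zero]

/-- No frames with monomial point stabilisers (`q ≥ 4` even). -/
theorem Frm.false_even (hF : Fintype.card F = q ^ 2) (hq : 3 ≤ q) (h2 : (2 : F) = 0) (hn : 7 ≤ n)
    {M : Subgroup (SU n F q)} {b : Fin n → Fin n → F} (h : Frm M b) {g : SU n F q} (hg : g ∈ M)
    (hgn : g ∉ (Mono b : Subgroup (SU n F q))) : False := by
  classical
  have hb := h.on
  have h' := h.act hg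
  have hb' := h'.on
  have h1n : (1 : F) ^ (q + 1) = 1 := one_pow _
  -- indices
  obtain ⟨T, -, hT⟩ := Finset.exists_subset_card_eq (s := (Finset.univ : Finset (Fin n))) (n := 4)
    (by rw [Finset.card_univ, Fintype.card_fin]; omega)
  obtain ⟨i, j, k, m, hij, hik, him, hjk, hjm, hkm, -⟩ : ∃ i j k m : Fin n, i ≠ j ∧ i ≠ k ∧ i ≠ m ∧
      j ≠ k ∧ j ≠ m ∧ k ≠ m ∧ True := by
    refine ⟨⟨0, by omega⟩, ⟨1, by omega⟩, ⟨2, by omega⟩, ⟨3, by omega⟩, ?_, ?_, ?_, ?_, ?_, ?_,
      trivial⟩ <;> · rw [Ne, Fin.mk.injEq]; omega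
  obtain ⟨u, hu⟩ := exists_sw hF hb h2 hij h1n
  obtain ⟨v₁, hv₁⟩ := exists_sw hF hb' h2 hij h1n
  obtain ⟨v₂, hv₂⟩ := exists_sw hF hb' h2 hkm h1n
  obtain ⟨c₁, hc₁⟩ : ∃ c, c = Uni.act g (b i) + (1 : F) • Uni.act g (b j) := ⟨_, rfl⟩
  obtain ⟨c₂, hc₂⟩ : ∃ c, c = Uni.act g (b k) + (1 : F) • Uni.act g (b m) := ⟨_, rfl⟩
  have hv₁' : ∀ x, Uni.act v₁ x = x + hermForm n F q x c₁ • c₁ := fun x => by rw [hv₁, hc₁]
  have hv₂' : ∀ x, Uni.act v₂ x = x + hermForm n F q x c₂ • c₂ := fun x => by rw [hv₂, hc₂]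
  have hgne : ∀ {x y : Fin n}, x ≠ y → hermForm n F q (Uni.act g (b x)) (Uni.act g (b y)) = 0 :=
    fun h => IsON.ne hb' h
  have hgs : ∀ x : Fin n, hermForm n F q (Uni.act g (b x)) (Uni.act g (b x)) = 1 :=
    fun x => IsON.self hb' x
  have h12 : hermForm n F q c₁ c₂ = 0 := by
    rw [hc₁, hc₂, hermForm_add_left, hermForm_add_right hF, hermForm_add_right hF,
      hermForm_smul_left, hermForm_smul_left, hermForm_smul_right, hermForm_smul_right,
      hgne hik, hgne him, hgne hjk, hgne hjm]; ring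
  have h21 : hermForm n F q c₂ c₁ = 0 := (hermForm_eq_zero_comm hF).1 h12
  obtain ⟨v, hv⟩ : ∃ v, v = v₁ * v₂ := ⟨_, rfl⟩
  have hvx : ∀ x, Uni.act v x = x + hermForm n F q x c₁ • c₁ + hermForm n F q x c₂ • c₂ := by
    intro x
    rw [hv, act_mul, hv₂', hv₁', hermForm_add_left, hermForm_smul_left, h21, mul_zero, add_zero]
    abel
  have huu := hu.sq hF hb h2 hij h1n
  have hv₁s := hv₁.sq hF hb' h2 hij h1n
  have hv₂s := hv₂.sq hF hb' h2 hkm h1n
  have hcomm : v₁ * v₂ = v₂ * v₁ := by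
    apply Uni.act_ext
    intro x
    rw [act_mul, act_mul, hv₂', hv₁', hv₁', hv₂', hermForm_add_left, hermForm_smul_left, h21,
      hermForm_add_left, hermForm_smul_left, h12]
    simp only [mul_zero, add_zero]
    abel
  have hvv : v * v = 1 := by
    rw [hv]
    calc v₁ * v₂ * (v₁ * v₂) = v₁ * (v₂ * v₁) * v₂ := by group
      _ = v₁ * (v₁ * v₂) * v₂ := by rw [hcomm]
      _ = (v₁ * v₁) * (v₂ * v₂) := by group
      _ = 1 := by rw [hv₁s, hv₂s, one_mul]
  have hvM' : v ∈ (Mono (fun i => Uni.act g (b i)) : Subgroup (SU n F q)) := by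
    rw [hv]
    exact (Mono _).mul_mem (hv₁.mem hF hb' h2 hij h1n) (hv₂.mem hF hb' h2 hkm h1n)
  have huM' := hu.mem hF hb h2 hij h1n
  have hvgi : Uni.act v (Uni.act g (b i)) = Uni.act g (b i) + c₁ := by
    have e1 : hermForm n F q (Uni.act g (b i)) c₁ = 1 := by
      rw [hc₁, hermForm_add_right hF, hermForm_smul_right, hgs, hgne hij]; ring
    have e2 : hermForm n F q (Uni.act g (b i)) c₂ = 0 := by
      rw [hc₂, hermForm_add_right hF, hermForm_smul_right, hgne hik, hgne him]; ring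
    rw [hvx, e1, e2, one_smul, zero_smul, add_zero]
  have hvgk : Uni.act v (Uni.act g (b k)) = Uni.act g (b k) + c₂ := by
    have e1 : hermForm n F q (Uni.act g (b k)) c₁ = 0 := by
      rw [hc₁, hermForm_add_right hF, hermForm_smul_right, hgne (Ne.symm hik),
        hgne (Ne.symm hjk)]; ring
    have e2 : hermForm n F q (Uni.act g (b k)) c₂ = 1 := by
      rw [hc₂, hermForm_add_right hF, hermForm_smul_right, hgs, hgne hkm]; ring
    rw [hvx, e1, e2, one_smul, zero_smul, add_zero]
  have hc₁i : hermForm n F q c₁ (Uni.act g (b i)) = 1 := by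
    rw [hc₁, hermForm_add_left, hermForm_smul_left, hgs, hgne (Ne.symm hij)]; ring
  have hc₂i : hermForm n F q c₂ (Uni.act g (b i)) = 0 := by
    rw [hc₂, hermForm_add_left, hermForm_smul_left, hgne (Ne.symm hik), hgne (Ne.symm him)]; ring
  have hc₂k : hermForm n F q c₂ (Uni.act g (b k)) = 1 := by
    rw [hc₂, hermForm_add_left, hermForm_smul_left, hgs, hgne (Ne.symm hkm)]; ring
  -- the order is even
  have hev : Even (orderOf (u * v)) := by
    by_contra hodd
    rw [Nat.not_even_iff_odd] at hodd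
    obtain ⟨f, -, hf⟩ := odd_conj huu hvv hodd
    obtain ⟨c, hc⟩ : ∃ c, c = b i + (1 : F) • b j := ⟨_, rfl⟩
    have hvf : ∀ x, Uni.act v x = x + hermForm n F q x (Uni.act f c) • Uni.act f c := by
      intro x
      rw [← hf, act_mul, act_mul, hu, ← hc, act_add, act_act_inv, act_smul, ← act_form f,
        act_act_inv]
    have e1 := hvf (Uni.act g (b i))
    have e2 := hvf (Uni.act g (b k))
    rw [hvgi] at e1
    rw [hvgk] at e2
    have e3 := add_left_cancel e1
    have e4 := add_left_cancel e2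
    obtain ⟨α, hα⟩ : ∃ α, α = hermForm n F q (Uni.act g (b i)) (Uni.act f c) := ⟨_, rfl⟩
    obtain ⟨β, hβ⟩ : ∃ β, β = hermForm n F q (Uni.act g (b k)) (Uni.act f c) := ⟨_, rfl⟩
    rw [← hα] at e3
    rw [← hβ] at e4
    rw [e3, hermForm_smul_left] at hc₁i
    rw [e4, hermForm_smul_left] at hc₂i
    have hβ0 : β = 0 := by
      rcases mul_eq_zero.1 hc₂i with h5 | h5
      · exact h5
      · rw [h5, mul_zero] at hc₁i; exact absurd hc₁i zero_ne_one
    rw [e4, hβ0, zero_smul, hermForm_zero_left] at hc₂k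
    exact zero_ne_one hc₂k
  obtain ⟨z, hz, hz1, hzz, hzu, hzv⟩ := even_inv huu hvv hev
  have hzM : z ∈ M := by
    have : Subgroup.zpowers (u * v) ≤ M := by
      rw [Subgroup.zpowers_le]
      exact M.mul_mem (h.mono huM') (h'.mono hvM')
    exact this hz
  have hzi : z⁻¹ = z := inv_eq_of_mul_eq_one_left hzz
  have hzb : z ∈ (Mono b : Subgroup (SU n F q)) := by
    by_contra hzb
    refine h.swap_unique hF hq h2 (by omega) hzM hzb hij h1n hu ?_
    rw [mem_Mono_act]
    have : z⁻¹ * u * z = u := by rw [mul_assoc, ← hzu, inv_mul_cancel_left]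
    rw [this]; exact huM'
  have hv1 : v ≠ 1 := by
    intro h0
    rw [h0, act_one] at hvgk
    have : c₂ = 0 := by
      have := hvgk
      rwa [eq_comm, add_eq_left] at this
    rw [this, hermForm_zero_left] at hc₂k
    exact zero_ne_one hc₂k
  have hzb' : z ∈ (Mono (fun i => Uni.act g (b i)) : Subgroup (SU n F q)) := by
    by_contra hzb'
    obtain ⟨e, he⟩ := exists_notMem (S := {i, j, k, m}) (by
      have : ({i, j, k, m} : Finset (Fin n)).card ≤ 4 := Finset.card_le_four
      omega)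
    simp only [Finset.mem_insert, Finset.mem_singleton, not_or] at he
    refine h'.inv_unique hF hq h2 (by omega) hzM hzb' (z := v) ?_ hvv hv1 (e := e) ?_
    · rw [mem_Mono_act]
      have : z⁻¹ * v * z = v := by rw [mul_assoc, ← hzv, inv_mul_cancel_left]
      rw [this]; exact hvM'
    · change Uni.act v (Uni.act g (b e)) = Uni.act g (b e)
      rw [hvx, hc₁, hc₂, hermForm_add_right hF, hermForm_add_right hF, hermForm_smul_right,
        hermForm_smul_right, hgne he.1, hgne he.2.1, hgne he.2.2.1, hgne he.2.2.2]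
      simp
  -- a fixed vector
  obtain ⟨e, he⟩ : ∃ e, Uni.act z (b e) = b e := by
    by_contra hcon
    push Not at hcon
    obtain ⟨π, c, hπ, hcn, hππ, hcc⟩ := mono_data hb hzb hzz
    have hneg : ∀ z : F, -z = z := fun z => by linear_combination -z * h2
    have hπne : ∀ e, π e ≠ e := by
      intro e he
      apply hcon e
      have h3 := hcc e
      rw [he] at h3
      rw [hπ, he]
      rcases mul_self_eq_one_iff.1 h3 with h4 | h4
      · rw [h4, one_smul]
      · rw [h4, hneg, one_smul]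
    obtain ⟨S, hS⟩ : ∃ S : Finset (Fin n), S = Finset.univ.filter fun i => i < π i := ⟨_, rfl⟩
    have hSm : ∀ i, i ∈ S ↔ i < π i := fun i => by rw [hS]; simp
    have hun : (Finset.univ : Finset (Fin n)) ⊆ S ∪ S.image π := by
      intro x _
      rw [Finset.mem_union]
      rcases lt_or_gt_of_ne (hπne x) with h3 | h3
      · right
        rw [Finset.mem_image]
        exact ⟨π x, by rw [hSm, hππ]; exact h3, hππ x⟩
      · left; rw [hSm]; exact h3
    have hcard := Finset.card_le_card hun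
    have hcu := Finset.card_union_le S (S.image π)
    have hci : (S.image π).card ≤ S.card := Finset.card_image_le
    rw [Finset.card_univ, Fintype.card_fin] at hcard
    let tv : Fin 3 → Fin n → F := ![b i + (1 : F) • b j, c₁, c₂]
    let Φ : (S → F) →ₗ[F] (Fin 3 → F) :=
      { toFun := fun α p => hermForm n F q (∑ l : S, α l • b l) (tv p)
        map_add' := fun α β => by
          funext p
          change hermForm n F q (∑ l : S, (α l + β l) • b l) (tv p) =
            hermForm n F q (∑ l : S, α l • b l) (tv p) + hermForm n F q (∑ l : S, β l • b l) (tv p)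
          rw [← hermForm_add_left, ← Finset.sum_add_distrib]
          simp only [add_smul]
        map_smul' := fun a α => by
          funext p
          change hermForm n F q (∑ l : S, (a * α l) • b l) (tv p) =
            a * hermForm n F q (∑ l : S, α l • b l) (tv p)
          rw [← hermForm_smul_left, Finset.smul_sum]
          simp only [smul_smul] }
    have hker : LinearMap.ker Φ ≠ ⊥ := by
      apply LinearMap.ker_ne_bot_of_finrank_lt
      rw [Module.finrank_fintype_fun_eq_card, Module.finrank_fintype_fun_eq_card,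
        Fintype.card_coe, Fintype.card_fin]
      omega
    obtain ⟨α, hα, hα0⟩ := (Submodule.ne_bot_iff _).1 hker
    obtain ⟨x, hx⟩ : ∃ x, x = ∑ l : S, α l • b l := ⟨_, rfl⟩
    have hΦ : Φ α = 0 := hα
    have t0 : hermForm n F q x (b i + (1 : F) • b j) = 0 := by rw [hx]; exact congrFun hΦ 0
    have t1 : hermForm n F q x c₁ = 0 := by rw [hx]; exact congrFun hΦ 1
    have t2 : hermForm n F q x c₂ = 0 := by rw [hx]; exact congrFun hΦ 2
    have hzx : Uni.act z x = x := by
      apply zpowers_fix hz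
      rw [act_mul, hvx, t1, t2, zero_smul, zero_smul, add_zero, add_zero, hu, t0, zero_smul,
        add_zero]
    apply hα0
    funext p
    have hco : ∀ y : Fin n, y ∉ S → hermForm n F q x (b y) = 0 := by
      intro y hy
      rw [hx, hermForm_sum_left]
      apply Finset.sum_eq_zero
      intro l _
      rw [hermForm_smul_left, IsON.ne hb (fun e => hy (by rw [← e]; exact l.2)), mul_zero]
    have hxp : hermForm n F q x (b p) = α p := by
      rw [hx, hermForm_sum_left, Finset.sum_eq_single p]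
      · rw [hermForm_smul_left, IsON.self hb, mul_one]
      · intro l _ hl
        rw [hermForm_smul_left, IsON.ne hb (fun e => hl (Subtype.ext e)), mul_zero]
      · intro h0; exact absurd (Finset.mem_univ _) h0
    have e5 := act_form z x (b p)
    rw [hzx, hπ, hermForm_smul_right, hxp, hco] at e5
    · rw [mul_zero] at e5
      exact e5.symm
    · rw [hSm, hππ, not_lt]
      exact ((hSm _).1 p.2).le
  exact h.inv_unique hF hq h2 (by omega) hg hgn hzb' hzz hz1 he

/-- Monomial groups, `q ≥ 3`. -/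
theorem mono_max (hF : Fintype.card F = q ^ 2) (hq : 3 ≤ q) (hn : 10 ≤ n)
    {M : Subgroup (SU n F q)} {b : Fin n → Fin n → F} (hb : IsON q b) (hM : Mono b ≤ M)
    (hne : M ≠ Mono b) : M = ⊤ := by
  by_contra htop
  have hfr : Frm M b := frm_of hF hq hb hM fun d hd ⟨i, hi⟩ => by
    by_contra hd0
    exact htop (top_of_coord hF hq (by omega) hb hM hd hd0 hi)
  obtain ⟨g, hg, hgn⟩ : ∃ g ∈ M, g ∉ (Mono b : Subgroup (SU n F q)) := by
    by_contra hcon
    push Not at hcon
    exact hne (le_antisymm hcon hM)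
  by_cases h2 : (2 : F) = 0
  · exact hfr.false_even hF hq h2 (by omega) hg hgn
  · exact hfr.false_odd hF hq h2 hn hg hgn

end Cfsg.Agent.H98.UF
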