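import Mathlib
import Cfsg.Agent.H98.UFN

set_option autoImplicit false
set_option linter.unusedSectionVars false
set_option linter.unusedVariables false
set_option linter.style.haveILetI false
set_option maxHeartbeats 1000000

/-!
Monomial groups over the field with four elements.
-/

namespace Cfsg.Agent.H98.UF

open scoped Matrix
open Cfsg.Agent.Uni Module
open Cfsg.Agent.USub (XT xt_smul xt_pair xt_conj xt_zero)

variable {F : Type*} [Field F] [Fintype F] {n : ℕ}

/-- data on the field with four elements -/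
structure F4 (F : Type*) [Field F] (ω : F) : Prop where
  two : (2 : F) = 0
  om : ω ^ 2 + ω + 1 = 0
  all : ∀ x : F, x ≠ 0 → x = 1 ∨ x = ω ∨ x = ω ^ 2
  cube : ∀ x : F, x ≠ 0 → x ^ 3 = 1

theorem exists_F4 (hF : Fintype.card F = 2 ^ 2) : ∃ ω : F, F4 F ω := by
  classical
  have h2 : (2 : F) = 0 := by
    have := FiniteField.cast_card_eq_zero F
    rw [hF] at this
    push_cast at this
    have h : (2 : F) ^ 2 = 0 := by exact_mod_cast this
    exact eq_zero_of_pow_eq_zero h
  have hcube : ∀ x : F, x ≠ 0 → x ^ 3 = 1 := by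
    intro x hx
    have := FiniteField.pow_card_sub_one_eq_one x hx
    rwa [hF] at this
  obtain ⟨ω, hω0, hω1⟩ : ∃ ω : F, ω ≠ 0 ∧ ω ≠ 1 := by
    by_contra hcon
    push Not at hcon
    have h1 : (Finset.univ : Finset F) ⊆ {0, 1} := by
      intro x _
      rw [Finset.mem_insert, Finset.mem_singleton]
      by_cases hx : x = 0
      · left; exact hx
      · right; exact hcon x hx
    have h3 := Finset.card_le_card h1
    rw [Finset.card_univ, hF] at h3
    have : ({0, 1} : Finset F).card ≤ 2 := Finset.card_le_two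
    omega
  have hom : ω ^ 2 + ω + 1 = 0 := by
    have h1 := hcube ω hω0
    have h3 : (ω - 1) * (ω ^ 2 + ω + 1) = 0 := by linear_combination h1
    exact (mul_eq_zero.1 h3).resolve_left (sub_ne_zero.2 hω1)
  refine ⟨ω, h2, hom, fun x hx => ?_, hcube⟩
  have h1 := hcube x hx
  have h3 : (x - 1) * ((x - ω) * (x - ω ^ 2)) = 0 := by
    linear_combination h1 - x ^ 2 * hom + ω * x * hom - hcube ω hω0
  rcases mul_eq_zero.1 h3 with h | h
  · left; exact sub_eq_zero.1 h
  · rcases mul_eq_zero.1 h with h | h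
    · right; left; exact sub_eq_zero.1 h
    · right; right; exact sub_eq_zero.1 h

section
variable {ω : F}

theorem F4.ne_zero (h : F4 F ω) : ω ≠ 0 := by
  rintro rfl
  have := h.om
  rw [zero_pow (by norm_num), zero_add, zero_add] at this
  exact one_ne_zero this

theorem F4.ne_one (h : F4 F ω) : ω ≠ 1 := by
  rintro rfl
  have := h.om
  have h1 : (1 : F) = 0 := by linear_combination this - h.two
  exact one_ne_zero h1

theorem F4.neg (h : F4 F ω) (x : F) : -x = x := by linear_combination -x * h.two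

theorem F4.om3 (h : F4 F ω) : ω ^ 3 = 1 := h.cube ω h.ne_zero

theorem F4.sq_ne (h : F4 F ω) : 1 + ω ≠ 0 := by
  intro h0
  apply h.ne_one
  linear_combination h0 - h.two

theorem F4.sq_ne' (h : F4 F ω) : 1 + ω ^ 2 ≠ 0 := by
  intro h0
  apply h.ne_zero
  linear_combination h.om - h0

end

theorem card_sp (hF : Fintype.card F = 2 ^ 2) {ω : F} (h4 : F4 F ω) {b : Fin n → Fin n → F}
    (hb : IsON 2 b) (v : Fin n → F) : hermForm n F 2 v v = ((sp 2 b v).card : F) := by
  classical
  rw [IsON.form_eq hF hb v v]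
  have h1 : ∀ i, hermForm n F 2 v (b i) * hermForm n F 2 v (b i) ^ 2 =
      if i ∈ sp 2 b v then 1 else 0 := by
    intro i
    by_cases hi : i ∈ sp 2 b v
    · rw [if_pos hi, ← pow_succ', h4.cube _ (mem_sp.1 hi)]
    · rw [if_neg hi, notMem_sp.1 hi, zero_mul]
  rw [Finset.sum_congr rfl fun i _ => h1 i, Finset.sum_ite_mem, Finset.univ_inter,
    Finset.sum_const, nsmul_eq_mul, mul_one]

theorem even_of_iso (hF : Fintype.card F = 2 ^ 2) {ω : F} (h4 : F4 F ω) {b : Fin n → Fin n → F}
    (hb : IsON 2 b) {v : Fin n → F} (hv : hermForm n F 2 v v = 0) : Even (sp 2 b v).card := by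
  by_contra hodd
  rw [Nat.not_even_iff_odd] at hodd
  obtain ⟨m, hm⟩ := hodd
  rw [card_sp hF h4 hb, hm] at hv
  push_cast at hv
  rw [h4.two] at hv
  have : (1 : F) = 0 := by linear_combination hv
  exact one_ne_zero this

theorem iso_of_even (hF : Fintype.card F = 2 ^ 2) {ω : F} (h4 : F4 F ω) {b : Fin n → Fin n → F}
    (hb : IsON 2 b) {v : Fin n → F} (hv : Even (sp 2 b v).card) : hermForm n F 2 v v = 0 := by
  obtain ⟨m, hm⟩ := hv
  rw [card_sp hF h4 hb, hm, Nat.cast_add, ← two_mul, h4.two, zero_mul]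

theorem norm1 {ω : F} (h4 : F4 F ω) {a : F} (ha : a ≠ 0) : a ^ (2 + 1) = 1 := h4.cube a ha

/-- one coordinate diagonal moves -/
theorem diag1 (hF : Fintype.card F = 2 ^ 2) {ω : F} (h4 : F4 F ω) {b : Fin n → Fin n → F}
    (hb : IsON 2 b) {v : Fin n → F} {p l : Fin n} (hpl : p ≠ l)
    (hl : hermForm n F 2 v (b l) = 0) {a : F} (ha : a ≠ 0) :
    ∃ t ∈ (Mono b : Subgroup (SU n F 2)), act t v = v + ((a - 1) * hermForm n F 2 v (b p)) • b p := by
  obtain ⟨t, ht⟩ := exists_D hF hb hpl (norm1 h4 ha)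
  refine ⟨t, (D_mem (M := ⊤) hb hpl ha ht).2.2.2, ?_⟩
  rw [ht, hl, mul_zero, zero_smul, add_zero]

/-- weight two vectors -/
theorem wt2_xt (hF : Fintype.card F = 2 ^ 2) {ω : F} (h4 : F4 F ω) {M : Subgroup (SU n F 2)}
    {b : Fin n → Fin n → F} (hb : IsON 2 b) (hM : Mono b ≤ M) {i j : Fin n} (hij : i ≠ j) {l : F}
    (hl : l ≠ 0) : b i + l • b j ∈ XT M := by
  refine ⟨form_bb hF hb hij (norm1 h4 hl) h4.two, fun c hc g hg => ?_⟩
  have hc1 : c = 0 ∨ c = 1 := by
    by_cases h0 : c = 0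
    · left; exact h0
    · right
      have h1 : c * (c - 1) = 0 := by linear_combination hc - h4.two * c + 2 * c * 0 + c * h4.two * 0
      exact sub_eq_zero.1 ((mul_eq_zero.1 h1).resolve_left h0)
  rcases hc1 with h | h
  · have : g = 1 := by
      apply Uni.act_ext
      intro x
      rw [hg, h, zero_mul, zero_smul, add_zero, act_one]
    rw [this]; exact M.one_mem
  · apply hM
    exact Sw.mem hF hb h4.two hij (norm1 h4 hl) (u := g) (fun x => by rw [hg, h, one_mul])

theorem co_add {q : ℕ} {b : Fin n → Fin n → F} (hb : IsON q b) {v : Fin n → F} {c : F}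
    {p m : Fin n} (h : p ≠ m) : hermForm n F q (v + c • b p) (b m) = hermForm n F q v (b m) := by
  rw [hermForm_add_left, hermForm_smul_left, IsON.ne hb h, mul_zero, add_zero]

theorem co_self {q : ℕ} {b : Fin n → Fin n → F} (hb : IsON q b) {v : Fin n → F} {c : F}
    {p : Fin n} : hermForm n F q (v + c • b p) (b p) = hermForm n F q v (b p) + c := by
  rw [hermForm_add_left, hermForm_smul_left, IsON.self hb, mul_one]

/-- from a vector with a vanishing coordinate to weight four -/
theorem to_four (hF : Fintype.card F = 2 ^ 2) {ω : F} (h4 : F4 F ω) {M : Subgroup (SU n F 2)}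
    {b : Fin n → Fin n → F} (hb : IsON 2 b) (hM : Mono b ≤ M) {v : Fin n → F} (hv : v ∈ XT M)
    {l p q₁ q₂ q₃ : Fin n} (hl : hermForm n F 2 v (b l) = 0) (hp : p ∈ sp 2 b v)
    (h1 : q₁ ∈ sp 2 b v) (h2 : q₂ ∈ sp 2 b v) (h3 : q₃ ∈ sp 2 b v) (hp1 : p ≠ q₁) (hp2 : p ≠ q₂)
    (hp3 : p ≠ q₃) (h12 : q₁ ≠ q₂) (h13 : q₁ ≠ q₃) (h23 : q₂ ≠ q₃) :
    ∃ e ∈ XT M, sp 2 b e = {p, q₁, q₂, q₃} := by
  classical
  rw [mem_sp] at hp h1 h2 h3
  have hpl : p ≠ l := by rintro rfl; exact hp hl
  have h1l : q₁ ≠ l := by rintro rfl; exact h1 hl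
  have h2l : q₂ ≠ l := by rintro rfl; exact h2 hl
  have h3l : q₃ ≠ l := by rintro rfl; exact h3 hl
  have hω := h4.ne_zero
  have hω2 : ω ^ 2 ≠ 0 := pow_ne_zero _ hω
  obtain ⟨t₀, ht₀, e₀⟩ := diag1 hF h4 hb hpl hl hω
  obtain ⟨t₁, ht₁, e₁⟩ := diag1 hF h4 hb (v := act t₀ v) h1l (by rw [e₀, co_add hb hpl, hl]) hω2
  obtain ⟨t₂, ht₂, e₂⟩ := diag1 hF h4 hb (v := act t₁ (act t₀ v)) h2l
    (by rw [e₁, co_add hb h1l, e₀, co_add hb hpl, hl]) hω2
  obtain ⟨t₃, ht₃, e₃⟩ := diag1 hF h4 hb (v := act t₂ (act t₁ (act t₀ v))) h3l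
    (by rw [e₂, co_add hb h2l, e₁, co_add hb h1l, e₀, co_add hb hpl, hl]) hω2
  obtain ⟨t, ht⟩ : ∃ t, t = t₃ * (t₂ * (t₁ * t₀)) := ⟨_, rfl⟩
  have htM : t ∈ (Mono b : Subgroup (SU n F 2)) := by
    rw [ht]
    exact (Mono b).mul_mem ht₃ ((Mono b).mul_mem ht₂ ((Mono b).mul_mem ht₁ ht₀))
  have htv : act t v = v + ((ω - 1) * hermForm n F 2 v (b p)) • b p +
      ((ω ^ 2 - 1) * hermForm n F 2 v (b q₁)) • b q₁ +
      ((ω ^ 2 - 1) * hermForm n F 2 v (b q₂)) • b q₂ +
      ((ω ^ 2 - 1) * hermForm n F 2 v (b q₃)) • b q₃ := by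
    rw [ht, act_mul, act_mul, act_mul, e₃, e₂, co_add hb h23, e₁, co_add hb h12, co_add hb h13, e₀,
      co_add hb hp1, co_add hb hp2, co_add hb hp3]
  have hcu : ∀ m, hermForm n F 2 v (b m) ≠ 0 → hermForm n F 2 (b m) v * hermForm n F 2 v (b m) = 1 := by
    intro m hm
    rw [← hermForm_symm hF v (b m), ← pow_succ, h4.cube _ hm]
  have hf : hermForm n F 2 (act t v) v = 1 := by
    rw [htv, hermForm_add_left, hermForm_add_left, hermForm_add_left, hermForm_add_left,
      hermForm_smul_left, hermForm_smul_left, hermForm_smul_left, hermForm_smul_left, hv.1]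
    linear_combination (ω - 1) * hcu p hp + (ω ^ 2 - 1) * hcu q₁ h1 + (ω ^ 2 - 1) * hcu q₂ h2 +
      (ω ^ 2 - 1) * hcu q₃ h3 + h4.om - (3 - ω ^ 2) * h4.two
  have hf' : hermForm n F 2 v (act t v) = 1 := by
    rw [← hermForm_symm hF, hf, one_pow]
  have hiso : hermForm n F 2 (v + (1 : F) • act t v) (v + (1 : F) • act t v) = 0 := by
    rw [one_smul, hermForm_add_left, hermForm_add_right hF, hermForm_add_right hF, act_form, hf, hf',
      hv.1]
    linear_combination h4.two
  have hmem := xt_pair hF (xt_conj hv (hM htM)) hv (by rw [hf]; exact one_ne_zero) (m := 1) hiso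
  refine ⟨_, hmem, ?_⟩
  ext m
  rw [mem_sp, one_smul, hermForm_add_left]
  simp only [Finset.mem_insert, Finset.mem_singleton]
  have n1 := h4.sq_ne
  have n2 := h4.sq_ne'
  by_cases mp : m = p
  · subst mp
    rw [htv, co_add hb (Ne.symm hp3), co_add hb (Ne.symm hp2), co_add hb (Ne.symm hp1), co_self hb]
    constructor
    · intro _; left; rfl
    · intro _ h0
      have : (1 + ω) * hermForm n F 2 v (b m) = 0 := by linear_combination h0
      rcases mul_eq_zero.1 this with h | h
      · exact n1 h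
      · exact hp h
  by_cases m1 : m = q₁
  · subst m1
    rw [htv, co_add hb (Ne.symm h13), co_add hb (Ne.symm h12), co_self hb, co_add hb hp1]
    constructor
    · intro _; right; left; rfl
    · intro _ h0
      have : (1 + ω ^ 2) * hermForm n F 2 v (b m) = 0 := by linear_combination h0
      rcases mul_eq_zero.1 this with h | h
      · exact n2 h
      · exact h1 h
  by_cases m2 : m = q₂
  · subst m2
    rw [htv, co_add hb (Ne.symm h23), co_self hb, co_add hb h12, co_add hb hp2]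
    constructor
    · intro _; right; right; left; rfl
    · intro _ h0
      have : (1 + ω ^ 2) * hermForm n F 2 v (b m) = 0 := by linear_combination h0
      rcases mul_eq_zero.1 this with h | h
      · exact n2 h
      · exact h2 h
  by_cases m3 : m = q₃
  · subst m3
    rw [htv, co_self hb, co_add hb h23, co_add hb h13, co_add hb hp3]
    constructor
    · intro _; right; right; right; rfl
    · intro _ h0
      have : (1 + ω ^ 2) * hermForm n F 2 v (b m) = 0 := by linear_combination h0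
      rcases mul_eq_zero.1 this with h | h
      · exact n2 h
      · exact h3 h
  rw [htv, co_add hb (Ne.symm m3), co_add hb (Ne.symm m2), co_add hb (Ne.symm m1),
    co_add hb (Ne.symm mp)]
  constructor
  · intro h0
    exfalso
    apply h0
    linear_combination hermForm n F 2 v (b m) * h4.two
  · rintro (h | h | h | h)
    · exact absurd h mp
    · exact absurd h m1
    · exact absurd h m2
    · exact absurd h m3

/-- from full support to a vanishing coordinate -/
theorem kill_full (hF : Fintype.card F = 2 ^ 2) {ω : F} (h4 : F4 F ω) {M : Subgroup (SU n F 2)}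
    (hn : 10 ≤ n) {b : Fin n → Fin n → F} (hb : IsON 2 b) (hM : Mono b ≤ M) {v : Fin n → F}
    (hv : v ∈ XT M) (hfull : ∀ i, hermForm n F 2 v (b i) ≠ 0) :
    ∃ e ∈ XT M, (∃ l, hermForm n F 2 e (b l) = 0) ∧ 4 ≤ (sp 2 b e).card := by
  classical
  have hω := h4.ne_zero
  have hω2 : ω ^ 2 ≠ 0 := pow_ne_zero _ hω
  have hinv : (ω ^ 2)⁻¹ = ω := inv_eq_of_mul_eq_one_right (by linear_combination h4.om3)
  have step : ∀ (v : Fin n → F) (i p : Fin n), i ≠ p → ∃ t ∈ (Mono b : Subgroup (SU n F 2)),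
      act t v = v + ((ω ^ 2 - 1) * hermForm n F 2 v (b i)) • b i +
        ((ω - 1) * hermForm n F 2 v (b p)) • b p := by
    intro v i p hip
    obtain ⟨t, ht⟩ := exists_D hF hb hip (norm1 h4 hω2)
    refine ⟨t, (D_mem (M := ⊤) hb hip hω2 ht).2.2.2, ?_⟩
    rw [ht, hinv]
  have idx : ∀ k : ℕ, k < 9 → k < n := fun k hk => by omega
  obtain ⟨ix, hix⟩ : ∃ ix : Fin 9 → Fin n, Function.Injective ix :=
    ⟨Fin.castLE (by omega), Fin.castLE_injective _⟩
  have hne : ∀ {x y : Fin 9}, x ≠ y → ix x ≠ ix y := fun h h' => h (hix h')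
  obtain ⟨t₀, ht₀, e₀⟩ := step v (ix 0) (ix 4) (hne (by decide))
  obtain ⟨t₁, ht₁, e₁⟩ := step (act t₀ v) (ix 1) (ix 4) (hne (by decide))
  obtain ⟨t₂, ht₂, e₂⟩ := step (act t₁ (act t₀ v)) (ix 2) (ix 4) (hne (by decide))
  obtain ⟨t₃, ht₃, e₃⟩ := step (act t₂ (act t₁ (act t₀ v))) (ix 3) (ix 4) (hne (by decide))
  obtain ⟨t, ht⟩ : ∃ t, t = t₃ * (t₂ * (t₁ * t₀)) := ⟨_, rfl⟩
  have htM : t ∈ (Mono b : Subgroup (SU n F 2)) := by
    rw [ht]
    exact (Mono b).mul_mem ht₃ ((Mono b).mul_mem ht₂ ((Mono b).mul_mem ht₁ ht₀))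
  obtain ⟨c, hc⟩ : ∃ c : Fin 9 → F, ∀ x, c x = hermForm n F 2 v (b (ix x)) := ⟨_, fun _ => rfl⟩
  have hc0 : ∀ x, c x ≠ 0 := fun x => by rw [hc]; exact hfull _
  have v0 : act t₀ v = v + ((ω ^ 2 - 1) * c 0) • b (ix 0) + ((ω - 1) * c 4) • b (ix 4) := by
    rw [e₀, hc, hc]
  have v1 : act t₁ (act t₀ v) = v + ((ω ^ 2 - 1) * c 0) • b (ix 0) +
      ((ω ^ 2 - 1) * c 1) • b (ix 1) + ((ω ^ 2 - 1) * c 4) • b (ix 4) := by
    rw [e₁, v0, co_add hb (hne (by decide)), co_add hb (hne (by decide)), co_self hb,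
      co_add hb (hne (by decide)), ← hc, ← hc]
    module
  have v2 : act t₂ (act t₁ (act t₀ v)) = v + ((ω ^ 2 - 1) * c 0) • b (ix 0) +
      ((ω ^ 2 - 1) * c 1) • b (ix 1) + ((ω ^ 2 - 1) * c 2) • b (ix 2) := by
    rw [e₂, v1, co_add hb (hne (by decide)), co_add hb (hne (by decide)),
      co_add hb (hne (by decide)), co_self hb, co_add hb (hne (by decide)),
      co_add hb (hne (by decide)), ← hc, ← hc]
    have e : ((ω ^ 2 - 1) * c 4) • b (ix 4) + ((ω - 1) * (c 4 + (ω ^ 2 - 1) * c 4)) • b (ix 4) =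
        (0 : Fin n → F) := by
      rw [← add_smul]
      have : (ω ^ 2 - 1) * c 4 + (ω - 1) * (c 4 + (ω ^ 2 - 1) * c 4) = 0 := by
        linear_combination c 4 * h4.om3
      rw [this, zero_smul]
    have e' : ∀ x y z w u s : Fin n → F, z + s = 0 → x + y + w + z + u + s = x + y + w + u := by
      intro x y z w u s h
      have : x + y + w + z + u + s = x + y + w + u + (z + s) := by abel
      rw [this, h, add_zero]
    exact e' _ _ _ _ _ _ e
  have htv : act t v = v + ((ω ^ 2 - 1) * c 0) • b (ix 0) +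
      ((ω ^ 2 - 1) * c 1) • b (ix 1) + ((ω ^ 2 - 1) * c 2) • b (ix 2) +
      ((ω ^ 2 - 1) * c 3) • b (ix 3) + ((ω - 1) * c 4) • b (ix 4) := by
    rw [ht, act_mul, act_mul, act_mul, e₃, v2, co_add hb (hne (by decide)),
      co_add hb (hne (by decide)), co_add hb (hne (by decide)), co_add hb (hne (by decide)),
      co_add hb (hne (by decide)), co_add hb (hne (by decide)), ← hc, ← hc]
  have hcu : ∀ x, hermForm n F 2 (b (ix x)) v * c x = 1 := by
    intro x
    rw [hc, ← hermForm_symm hF v (b (ix x)), ← pow_succ, h4.cube _ (hfull _)]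
  have hf : hermForm n F 2 (act t v) v = ω ^ 2 := by
    rw [htv, hermForm_add_left, hermForm_add_left, hermForm_add_left, hermForm_add_left,
      hermForm_add_left, hermForm_smul_left, hermForm_smul_left, hermForm_smul_left,
      hermForm_smul_left, hermForm_smul_left, hv.1]
    linear_combination (ω ^ 2 - 1) * hcu 0 + (ω ^ 2 - 1) * hcu 1 + (ω ^ 2 - 1) * hcu 2 +
      (ω ^ 2 - 1) * hcu 3 + (ω - 1) * hcu 4 + h4.om + (ω ^ 2 - 3) * h4.two
  have hf' : hermForm n F 2 v (act t v) = ω := by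
    rw [← hermForm_symm hF, hf]
    linear_combination ω * h4.om3
  have hiso : hermForm n F 2 (v + ω • act t v) (v + ω • act t v) = 0 := by
    rw [hermForm_add_left, hermForm_add_right hF, hermForm_add_right hF, hermForm_smul_left,
      hermForm_smul_left, hermForm_smul_right, hermForm_smul_right, act_form, hf, hf', hv.1]
    linear_combination 2 * h4.om3 + h4.two
  have hmem := xt_pair hF (xt_conj hv (hM htM)) hv (by rw [hf]; exact hω2) (m := ω) hiso
  refine ⟨_, hmem, ⟨ix 0, ?_⟩, ?_⟩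
  · rw [hermForm_add_left, hermForm_smul_left, htv, co_add hb (hne (by decide)),
      co_add hb (hne (by decide)), co_add hb (hne (by decide)), co_add hb (hne (by decide)),
      co_self hb, ← hc]
    linear_combination c 0 * h4.om3 + c 0 * h4.two
  · have hsub : ({ix 5, ix 6, ix 7, ix 8} : Finset (Fin n)) ⊆ sp 2 b (v + ω • act t v) := by
      have key : ∀ x : Fin 9, x ≠ 0 → x ≠ 1 → x ≠ 2 → x ≠ 3 → x ≠ 4 →
          ix x ∈ sp 2 b (v + ω • act t v) := by
        intro x h0 h1 h2 h3 h5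
        rw [mem_sp, hermForm_add_left, hermForm_smul_left, htv, co_add hb (hne (Ne.symm h5)),
          co_add hb (hne (Ne.symm h3)), co_add hb (hne (Ne.symm h2)), co_add hb (hne (Ne.symm h1)),
          co_add hb (hne (Ne.symm h0)), ← hc]
        intro h6
        have : (1 + ω) * c x = 0 := by linear_combination h6
        rcases mul_eq_zero.1 this with h | h
        · exact h4.sq_ne h
        · exact hc0 x h
      intro y hy
      simp only [Finset.mem_insert, Finset.mem_singleton] at hy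
      rcases hy with rfl | rfl | rfl | rfl
      · exact key 5 (by decide) (by decide) (by decide) (by decide) (by decide)
      · exact key 6 (by decide) (by decide) (by decide) (by decide) (by decide)
      · exact key 7 (by decide) (by decide) (by decide) (by decide) (by decide)
      · exact key 8 (by decide) (by decide) (by decide) (by decide) (by decide)
    have hcard : ({ix 5, ix 6, ix 7, ix 8} : Finset (Fin n)).card = 4 := by
      rw [Finset.card_insert_of_notMem, Finset.card_insert_of_notMem, Finset.card_pair]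
      · exact hne (by decide)
      · simp only [Finset.mem_insert, Finset.mem_singleton, not_or]
        exact ⟨hne (by decide), hne (by decide)⟩
      · simp only [Finset.mem_insert, Finset.mem_singleton, not_or]
        exact ⟨hne (by decide), hne (by decide), hne (by decide)⟩
    rw [← hcard]
    exact Finset.card_le_card hsub

/-- a vector of weight at least four gives one of weight four -/
theorem exists_four (hF : Fintype.card F = 2 ^ 2) {ω : F} (h4 : F4 F ω) {M : Subgroup (SU n F 2)}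
    (hn : 10 ≤ n) {b : Fin n → Fin n → F} (hb : IsON 2 b) (hM : Mono b ≤ M) {v : Fin n → F}
    (hv : v ∈ XT M) (hw : 3 ≤ (sp 2 b v).card) : ∃ e ∈ XT M, (sp 2 b e).card = 4 := by
  classical
  have h0 : ∃ e ∈ XT M, (∃ l, hermForm n F 2 e (b l) = 0) ∧ 4 ≤ (sp 2 b e).card := by
    by_cases hex : ∃ l, hermForm n F 2 v (b l) = 0
    · refine ⟨v, hv, hex, ?_⟩
      obtain ⟨m, hm⟩ := even_of_iso hF h4 hb hv.1
      omega
    · push Not at hex
      exact kill_full hF h4 hn hb hM hv hex
  obtain ⟨e, he, ⟨l, hl⟩, hc⟩ := h0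
  obtain ⟨Q, hQ, hQc⟩ := Finset.exists_subset_card_eq hc
  obtain ⟨p, q₁, q₂, q₃, hp1, hp2, hp3, h12, h13, h23, hQe⟩ := Finset.card_eq_four.1 hQc
  obtain ⟨f, hf, hfs⟩ := to_four hF h4 hb hM he hl (p := p) (q₁ := q₁) (q₂ := q₂) (q₃ := q₃)
    (hQ (by rw [hQe]; simp)) (hQ (by rw [hQe]; simp)) (hQ (by rw [hQe]; simp))
    (hQ (by rw [hQe]; simp)) hp1 hp2 hp3 h12 h13 h23
  exact ⟨f, hf, by rw [hfs, ← hQe, hQc]⟩

end Cfsg.Agent.H98.UF
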