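import Mathlib
import Cfsg.Agent.H98.UFO

set_option autoImplicit false
set_option linter.unusedSectionVars false
set_option linter.unusedVariables false
set_option linter.style.haveILetI false
set_option maxHeartbeats 1000000

/-!
Monomial groups over the field with four elements (end).
-/

namespace Cfsg.Agent.H98.UF

open scoped Matrix
open Cfsg.Agent.Uni Module
open Cfsg.Agent.USub (XT xt_smul xt_pair xt_conj xt_zero)

variable {F : Type*} [Field F] [Fintype F] {n : ℕ}

/-- all vectors of the same support -/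
theorem good_self (hF : Fintype.card F = 2 ^ 2) {ω : F} (h4 : F4 F ω) {M : Subgroup (SU n F 2)}
    {b : Fin n → Fin n → F} (hb : IsON 2 b) (hM : Mono b ≤ M) {e : Fin n → F} (he : e ∈ XT M)
    {l : Fin n} (hl : hermForm n F 2 e (b l) = 0) {v : Fin n → F} (hv : sp 2 b v = sp 2 b e) :
    v ∈ XT M := by
  classical
  obtain ⟨t, ht, htm⟩ := exists_mono hF hb (Equiv.refl _)
    (α := fun m => if m ∈ sp 2 b e then hermForm n F 2 v (b m) / hermForm n F 2 e (b m) else 1)
    (fun m => by
      by_cases hm : m ∈ sp 2 b e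
      · simp only [hm, if_true]
        apply norm1 h4
        exact div_ne_zero (mem_sp.1 (by rw [hv]; exact hm)) (mem_sp.1 hm)
      · simp only [hm, if_false, one_pow]) (l := l) rfl
  have hte : act t e = v := by
    rw [← IsON.sum_eq hF hb e, act_sum, ← IsON.sum_eq hF hb v]
    refine Finset.sum_congr rfl fun m _ => ?_
    rw [act_smul]
    by_cases hml : m = l
    · rw [hml, hl, zero_smul]
      have : l ∉ sp 2 b v := by rw [hv, notMem_sp]; exact hl
      rw [notMem_sp.1 this, zero_smul]
    · rw [htm m hml, smul_smul]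
      by_cases hm : m ∈ sp 2 b e
      · simp only [hm, if_true, Equiv.refl_apply]
        rw [mul_div_cancel₀ _ (mem_sp.1 hm)]
      · simp only [hm, if_false, Equiv.refl_apply, mul_one]
        have h1 : m ∉ sp 2 b v := by rw [hv]; exact hm
        rw [notMem_sp.1 hm, notMem_sp.1 h1]
  rw [← hte]
  exact xt_conj he (hM ht)

/-- exchanging an index -/
theorem good_exch (hF : Fintype.card F = 2 ^ 2) {ω : F} (h4 : F4 F ω) {M : Subgroup (SU n F 2)}
    {b : Fin n → Fin n → F} (hb : IsON 2 b) (hM : Mono b ≤ M) {Q : Finset (Fin n)}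
    (hQ : ∀ v, sp 2 b v = Q → v ∈ XT M) {i j : Fin n} (hi : i ∈ Q) (hj : j ∉ Q) {v : Fin n → F}
    (hv : sp 2 b v = insert j (Q.erase i)) : v ∈ XT M := by
  classical
  have hij : i ≠ j := by rintro rfl; exact hj hi
  obtain ⟨u, hu⟩ := exists_sw hF hb h4.two hij (one_pow (2 + 1))
  have huM := hu.mem hF hb h4.two hij (one_pow (2 + 1))
  have ui := hu.left hF hb h4.two hij
  have uj := hu.right hF hb h4.two hij (one_pow (2 + 1))
  rw [one_smul] at ui
  rw [one_pow, one_smul] at uj
  have hsp : sp 2 b (act u v) = Q := by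
    ext m
    by_cases hmi : m = i
    · rw [hmi, mem_sp, ← uj, act_form, ← mem_sp, hv]
      exact ⟨fun _ => hi, fun _ => Finset.mem_insert_self _ _⟩
    · by_cases hmj : m = j
      · rw [hmj, mem_sp, ← ui, act_form, ← mem_sp, hv]
        constructor
        · intro h
          rw [Finset.mem_insert, Finset.mem_erase] at h
          rcases h with h | h
          · exact absurd h hij
          · exact absurd rfl h.1
        · intro h; exact absurd h hj
      · rw [mem_sp, ← hu.other hF hb hmi hmj, act_form, ← mem_sp, hv, Finset.mem_insert,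
          Finset.mem_erase]
        constructor
        · rintro (h | h)
          · exact absurd h hmj
          · exact h.2
        · intro h; exact Or.inr ⟨hmi, h⟩
  have h1 := xt_conj (hQ _ hsp) (M.inv_mem (hM huM))
  rwa [act_inv_act] at h1

/-- all supports of the same size -/
theorem good_all (hF : Fintype.card F = 2 ^ 2) {ω : F} (h4 : F4 F ω) {M : Subgroup (SU n F 2)}
    {b : Fin n → Fin n → F} (hb : IsON 2 b) (hM : Mono b ≤ M) :
    ∀ r : ℕ, ∀ Q P : Finset (Fin n), Q.card = P.card → (Q \ P).card = r →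
      (∀ v, sp 2 b v = Q → v ∈ XT M) → ∀ v, sp 2 b v = P → v ∈ XT M := by
  classical
  intro r
  induction r with
  | zero =>
    intro Q P hc hr hQ
    have h1 : Q ⊆ P := Finset.sdiff_eq_empty_iff_subset.1 (Finset.card_eq_zero.1 hr)
    have h2 : Q = P := Finset.eq_of_subset_of_card_le h1 hc.ge
    rwa [← h2]
  | succ r ih =>
    intro Q P hc hr hQ
    obtain ⟨i, hi⟩ : (Q \ P).Nonempty := Finset.card_pos.1 (by omega)
    have h1 : (P \ Q).card = (Q \ P).card := by
      have e1 := Finset.card_sdiff_add_card_inter Q P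
      have e2 := Finset.card_sdiff_add_card_inter P Q
      rw [Finset.inter_comm] at e2
      omega
    obtain ⟨j, hj⟩ : (P \ Q).Nonempty := Finset.card_pos.1 (by omega)
    rw [Finset.mem_sdiff] at hi hj
    refine ih (insert j (Q.erase i)) P ?_ ?_ fun v hv => good_exch hF h4 hb hM hQ hi.1 hj.2 hv
    · rw [Finset.card_insert_of_notMem, Finset.card_erase_of_mem hi.1, ← hc]
      · have := Finset.card_pos.2 ⟨i, hi.1⟩
        omega
      · rw [Finset.mem_erase, not_and_or]; right; exact hj.2
    · have h2 : insert j (Q.erase i) \ P = (Q \ P).erase i := by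
        ext m
        rw [Finset.mem_sdiff, Finset.mem_insert, Finset.mem_erase, Finset.mem_erase,
          Finset.mem_sdiff]
        constructor
        · rintro ⟨h | h, h'⟩
          · rw [h] at h'; exact absurd hj.1 h'
          · exact ⟨h.1, h.2, h'⟩
        · rintro ⟨h, h', h''⟩
          exact ⟨Or.inr ⟨h, h'⟩, h''⟩
      rw [h2, Finset.card_erase_of_mem (Finset.mem_sdiff.2 hi), hr]
      omega

/-- all isotropic vectors -/
theorem all_two (hF : Fintype.card F = 2 ^ 2) {ω : F} (h4 : F4 F ω) {M : Subgroup (SU n F 2)}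
    {b : Fin n → Fin n → F} (hb : IsON 2 b) (hM : Mono b ≤ M)
    (hfour : ∀ v, (sp 2 b v).card = 4 → v ∈ XT M) :
    ∀ w : ℕ, ∀ v : Fin n → F, hermForm n F 2 v v = 0 → (sp 2 b v).card ≤ w → v ∈ XT M := by
  classical
  intro w
  induction w using Nat.strong_induction_on with
  | _ w ih =>
    intro v hv hw
    obtain ⟨k, hk⟩ := even_of_iso hF h4 hb hv
    by_cases hk0 : k = 0
    · have h1 : sp 2 b v = ∅ := Finset.card_eq_zero.1 (by omega)
      have h2 : v = 0 := by
        apply IsON.ext hF hb
        intro i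
        rw [hermForm_zero_left, ← notMem_sp, h1]
        exact Finset.notMem_empty i
      rw [h2]; exact xt_zero M hF
    by_cases hk1 : k = 1
    · obtain ⟨i, j, hij, hsp⟩ := Finset.card_eq_two.1 (show (sp 2 b v).card = 2 by omega)
      have hi : i ∈ sp 2 b v := by rw [hsp]; exact Finset.mem_insert_self _ _
      have hj : j ∈ sp 2 b v := by
        rw [hsp]; exact Finset.mem_insert_of_mem (Finset.mem_singleton_self _)
      rw [mem_sp] at hi hj
      have h1 : v = hermForm n F 2 v (b i) • (b i +
          (hermForm n F 2 v (b j) / hermForm n F 2 v (b i)) • b j) := by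
        rw [smul_add, smul_smul, mul_div_cancel₀ _ hi]
        apply IsON.ext hF hb
        intro k
        rw [hermForm_add_left, hermForm_smul_left, hermForm_smul_left]
        by_cases hk : k = i
        · rw [hk, IsON.self hb, IsON.ne hb (Ne.symm hij)]; ring
        · by_cases hk' : k = j
          · rw [hk', IsON.self hb, IsON.ne hb hij]; ring
          · rw [IsON.ne hb (Ne.symm hk), IsON.ne hb (Ne.symm hk'), mul_zero, mul_zero, add_zero,
              ← notMem_sp, hsp, Finset.mem_insert, Finset.mem_singleton, not_or]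
            exact ⟨hk, hk'⟩
      rw [h1]
      exact xt_smul hF (wt2_xt hF h4 hb hM hij (div_ne_zero hj hi)) _
    by_cases hk2 : k = 2
    · exact hfour v (by omega)
    -- split off a vector of weight four
    obtain ⟨Q, hQ, hQc⟩ := Finset.exists_subset_card_eq (show 4 ≤ (sp 2 b v).card by omega)
    obtain ⟨p, r, s, t, hpr, hps, hpt, hrs, hrt, hst, hQe⟩ := Finset.card_eq_four.1 hQc
    have hp : p ∈ sp 2 b v := hQ (by rw [hQe]; simp)
    have hr : r ∈ sp 2 b v := hQ (by rw [hQe]; simp)
    have hs : s ∈ sp 2 b v := hQ (by rw [hQe]; simp)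
    have ht : t ∈ sp 2 b v := hQ (by rw [hQe]; simp)
    obtain ⟨c, hc⟩ : ∃ c : Fin n → F, ∀ m, c m = hermForm n F 2 v (b m) := ⟨_, fun _ => rfl⟩
    rw [mem_sp, ← hc] at hp hr hs ht
    obtain ⟨x, hx⟩ : ∃ x, x = (0 : Fin n → F) + (ω ^ 2 * c p) • b p + (ω * c r) • b r + c s • b s +
      c t • b t := ⟨_, rfl⟩
    obtain ⟨y, hy⟩ : ∃ y, y = v + (ω ^ 2 * c p) • b p + (ω * c r) • b r + c s • b s +
      c t • b t := ⟨_, rfl⟩
    have hω := h4.ne_zero
    have hx0 : ∀ m, m ≠ p → m ≠ r → m ≠ s → m ≠ t → hermForm n F 2 x (b m) = 0 := by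
      intro m h1 h2 h3 h5
      rw [hx, co_add hb (Ne.symm h5), co_add hb (Ne.symm h3), co_add hb (Ne.symm h2),
        co_add hb (Ne.symm h1), hermForm_zero_left]
    have hxp : hermForm n F 2 x (b p) = ω ^ 2 * c p := by
      rw [hx, co_add hb (Ne.symm hpt), co_add hb (Ne.symm hps), co_add hb (Ne.symm hpr), co_self hb,
        hermForm_zero_left, zero_add]
    have hxr : hermForm n F 2 x (b r) = ω * c r := by
      rw [hx, co_add hb (Ne.symm hrt), co_add hb (Ne.symm hrs), co_self hb, co_add hb hpr,
        hermForm_zero_left, zero_add]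
    have hxs : hermForm n F 2 x (b s) = c s := by
      rw [hx, co_add hb (Ne.symm hst), co_self hb, co_add hb hrs, co_add hb hps,
        hermForm_zero_left, zero_add]
    have hxt : hermForm n F 2 x (b t) = c t := by
      rw [hx, co_self hb, co_add hb hst, co_add hb hrt, co_add hb hpt,
        hermForm_zero_left, zero_add]
    have hyx : y = v + x := by rw [hy, hx]; abel
    have hyco : ∀ m, hermForm n F 2 y (b m) = c m + hermForm n F 2 x (b m) := by
      intro m; rw [hyx, hermForm_add_left, hc]
    have hspx : sp 2 b x = {p, r, s, t} := by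
      ext m
      rw [mem_sp]
      simp only [Finset.mem_insert, Finset.mem_singleton]
      constructor
      · intro h
        by_contra hcon
        rw [not_or, not_or, not_or] at hcon
        exact h (hx0 m hcon.1 hcon.2.1 hcon.2.2.1 hcon.2.2.2)
      · rintro (h | h | h | h)
        · rw [h, hxp]; exact mul_ne_zero (pow_ne_zero _ hω) hp
        · rw [h, hxr]; exact mul_ne_zero hω hr
        · rw [h, hxs]; exact hs
        · rw [h, hxt]; exact ht
    have hspy : sp 2 b y = ((sp 2 b v).erase s).erase t := by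
      ext m
      rw [mem_sp, hyco, Finset.mem_erase, Finset.mem_erase, mem_sp, ← hc]
      by_cases mp : m = p
      · rw [mp, hxp]
        constructor
        · intro _; exact ⟨hpt, hps, hp⟩
        · intro _ h0
          have : (1 + ω ^ 2) * c p = 0 := by linear_combination h0
          rcases mul_eq_zero.1 this with h | h
          · exact h4.sq_ne' h
          · exact hp h
      by_cases mr : m = r
      · rw [mr, hxr]
        constructor
        · intro _; exact ⟨hrt, hrs, hr⟩
        · intro _ h0
          have : (1 + ω) * c r = 0 := by linear_combination h0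
          rcases mul_eq_zero.1 this with h | h
          · exact h4.sq_ne h
          · exact hr h
      by_cases ms : m = s
      · rw [ms, hxs]
        constructor
        · intro h; exfalso; apply h; linear_combination c s * h4.two
        · rintro ⟨-, h, -⟩; exact absurd rfl h
      by_cases mt : m = t
      · rw [mt, hxt]
        constructor
        · intro h; exfalso; apply h; linear_combination c t * h4.two
        · rintro ⟨h, -⟩; exact absurd rfl h
      rw [hx0 m mp mr ms mt, add_zero]
      exact ⟨fun h => ⟨mt, ms, h⟩, fun h => h.2.2⟩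
    have hxM : x ∈ XT M := hfour x (by rw [hspx, ← hQe, hQc])
    have hsS : s ∈ sp 2 b v := by rw [mem_sp, ← hc]; exact hs
    have htS : t ∈ sp 2 b v := by rw [mem_sp, ← hc]; exact ht
    have hyc : (sp 2 b y).card = (sp 2 b v).card - 2 := by
      rw [hspy, Finset.card_erase_of_mem (Finset.mem_erase.2 ⟨Ne.symm hst, htS⟩),
        Finset.card_erase_of_mem hsS]
      omega
    have hyi : hermForm n F 2 y y = 0 := iso_of_even hF h4 hb ⟨k - 1, by omega⟩
    have hyM : y ∈ XT M := ih (sp 2 b y).card (by omega) y hyi le_rfl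
    have hxy : hermForm n F 2 y x ≠ 0 := by
      rw [IsON.form_eq hF hb y x]
      have h1 : ∑ i, hermForm n F 2 y (b i) * hermForm n F 2 x (b i) ^ 2 =
          ∑ i ∈ ({p, r} : Finset (Fin n)), hermForm n F 2 y (b i) * hermForm n F 2 x (b i) ^ 2 := by
        symm
        apply Finset.sum_subset (Finset.subset_univ _)
        intro m _ hm
        rw [Finset.mem_insert, Finset.mem_singleton, not_or] at hm
        by_cases ms : m = s
        · have : s ∉ sp 2 b y := by
            rw [hspy, Finset.mem_erase, Finset.mem_erase]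
            rintro ⟨-, h, -⟩; exact h rfl
          rw [ms, notMem_sp.1 this, zero_mul]
        · by_cases mt : m = t
          · have : t ∉ sp 2 b y := by
              rw [hspy, Finset.mem_erase]
              rintro ⟨h, -⟩; exact h rfl
            rw [mt, notMem_sp.1 this, zero_mul]
          · rw [hx0 m hm.1 hm.2 ms mt]; ring
      rw [h1, Finset.sum_pair hpr, hyco, hyco, hxp, hxr]
      have c1 := h4.cube _ hp
      have c2 := h4.cube _ hr
      have h3 : (c p + ω ^ 2 * c p) * (ω ^ 2 * c p) ^ 2 + (c r + ω * c r) * (ω * c r) ^ 2 = 1 := by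
        linear_combination (ω ^ 4 + ω ^ 6) * c1 + (ω ^ 2 + ω ^ 3) * c2 +
          (ω + ω ^ 3 + 2) * h4.om3 + h4.om
      rw [h3]; exact one_ne_zero
    have hvyx : v = y + (1 : F) • x := by
      rw [hyx, one_smul]
      have : v + x + x = v + (2 : F) • x := by module
      rw [this, h4.two, zero_smul, add_zero]
    rw [hvyx]
    refine xt_pair hF hxM hyM (fun h => hxy ((hermForm_eq_zero_comm hF).1 h)) ?_
    rw [← hvyx]; exact hv

/-- a small transvection set forces a monomial element -/
theorem mono_of_small (hF : Fintype.card F = 2 ^ 2) {ω : F} (h4 : F4 F ω) {M : Subgroup (SU n F 2)}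
    (hn : 5 ≤ n) {b : Fin n → Fin n → F} (hb : IsON 2 b) (hM : Mono b ≤ M)
    (hsm : ∀ v ∈ XT M, (sp 2 b v).card ≤ 2) {g : SU n F 2} (hg : g ∈ M) :
    g ∈ (Mono b : Subgroup (SU n F 2)) := by
  classical
  by_contra hgn
  obtain ⟨i, hi⟩ : ∃ i, ∀ j, ∀ c : F, act g (b i) ≠ c • b j := by
    by_contra h
    push Not at h
    apply hgn
    intro i
    obtain ⟨j, c, hc⟩ := h i
    refine ⟨j, c, ?_, hc⟩
    rintro rfl
    have := norm_scalar hb hc
    rw [zero_pow (by omega)] at this
    exact zero_ne_one this
  obtain ⟨y, hy⟩ : ∃ y : Fin n → Fin n → F, ∀ j, y j = act g (b j) := ⟨_, fun _ => rfl⟩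
  obtain ⟨p₁, p₂, hp, n1, n2⟩ := exists_two hF hb (act_ne_zero (g := g) (IsON.ne_zero hb i)) hi
  rw [← hy] at n1 n2
  have hω := h4.ne_zero
  have hω2 : ω ^ 2 ≠ 0 := pow_ne_zero _ hω
  have hlam : ∀ j, j ≠ i → ∀ l : F, l ≠ 0 → (sp 2 b (y i + l • y j)).card ≤ 2 := by
    intro j hj l hl
    have h1 := xt_conj (wt2_xt hF h4 hb hM (Ne.symm hj) hl) hg
    rw [act_add, act_smul, ← hy, ← hy] at h1
    exact hsm _ h1
  have hco : ∀ j (l : F) m, hermForm n F 2 (y i + l • y j) (b m) =
      hermForm n F 2 (y i) (b m) + l * hermForm n F 2 (y j) (b m) := by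
    intro j l m
    rw [hermForm_add_left, hermForm_smul_left]
  -- the support of `y i` is small
  obtain ⟨W, hW⟩ : ∃ W, W = sp 2 b (y i) := ⟨_, rfl⟩
  have hWc : W.card ≤ 4 := by
    obtain ⟨j, hj⟩ := exists_notMem (S := {i}) (by rw [Finset.card_singleton]; omega)
    rw [Finset.mem_singleton] at hj
    have h1 : W ⊆ sp 2 b (y i + (1 : F) • y j) ∪ sp 2 b (y i + ω • y j) := by
      intro m hm
      rw [Finset.mem_union]
      by_contra hcon
      rw [not_or, notMem_sp, notMem_sp, hco, hco] at hcon
      rw [hW, mem_sp] at hm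
      obtain ⟨h1, h3⟩ := hcon
      have h5 : (1 + ω) * hermForm n F 2 (y j) (b m) = 0 := by
        linear_combination h3 - h1 + hermForm n F 2 (y j) (b m) * h4.two
      have h6 := (mul_eq_zero.1 h5).resolve_left h4.sq_ne
      rw [h6, mul_zero, add_zero] at h1
      exact hm h1
    have h3 := Finset.card_le_card h1
    have h5 := Finset.card_union_le (sp 2 b (y i + (1 : F) • y j)) (sp 2 b (y i + ω • y j))
    have h6 := hlam j hj 1 one_ne_zero
    have h7 := hlam j hj ω hω
    omega
  -- all supports are contained in `W`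
  have hsub : ∀ j, ∀ m, m ∉ W → hermForm n F 2 (y j) (b m) = 0 := by
    intro j m hm
    by_cases hji : j = i
    · rw [hji, ← notMem_sp, ← hW]; exact hm
    by_contra hne
    have hm0 : hermForm n F 2 (y i) (b m) = 0 := by rw [← notMem_sp, ← hW]; exact hm
    have hmp1 : m ≠ p₁ := by rintro rfl; exact n1 hm0
    have hmp2 : m ≠ p₂ := by rintro rfl; exact n2 hm0
    -- a good scalar
    have key : ∀ l : F, l ≠ 0 → hermForm n F 2 (y i + l • y j) (b p₁) ≠ 0 →
        hermForm n F 2 (y i + l • y j) (b p₂) ≠ 0 → False := by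
      intro l hl h1 h3
      have h5 : ({m, p₁, p₂} : Finset (Fin n)) ⊆ sp 2 b (y i + l • y j) := by
        intro x hx
        simp only [Finset.mem_insert, Finset.mem_singleton] at hx
        rcases hx with rfl | rfl | rfl
        · rw [mem_sp, hco, hm0, zero_add]; exact mul_ne_zero hl hne
        · rw [mem_sp]; exact h1
        · rw [mem_sp]; exact h3
      have h6 := Finset.card_le_card h5
      rw [Finset.card_insert_of_notMem (by
        rw [Finset.mem_insert, Finset.mem_singleton, not_or]; exact ⟨hmp1, hmp2⟩),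
        Finset.card_pair hp] at h6
      have h7 := hlam j hji l hl
      omega
    -- two bad scalars for the same coordinate are impossible
    have bad : ∀ p, hermForm n F 2 (y i) (b p) ≠ 0 → ∀ l l' : F, l ≠ l' →
        hermForm n F 2 (y i + l • y j) (b p) = 0 → hermForm n F 2 (y i + l' • y j) (b p) = 0 →
        False := by
      intro p hp0 l l' hll h1 h3
      rw [hco] at h1 h3
      have h5 : (l - l') * hermForm n F 2 (y j) (b p) = 0 := by linear_combination h1 - h3
      have h6 := (mul_eq_zero.1 h5).resolve_left (sub_ne_zero.2 hll)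
      rw [h6, mul_zero, add_zero] at h1
      exact hp0 h1
    have d1 : (1 : F) ≠ ω := Ne.symm h4.ne_one
    have d2 : (1 : F) ≠ ω ^ 2 := by
      intro h
      apply h4.sq_ne'
      linear_combination -h + h4.two
    have d3 : ω ≠ ω ^ 2 := by
      intro h
      apply h4.ne_one
      apply mul_left_cancel₀ hω
      linear_combination -h
    by_cases a1 : hermForm n F 2 (y i + (1 : F) • y j) (b p₁) = 0
    · by_cases c1 : hermForm n F 2 (y i + ω • y j) (b p₂) = 0
      · exact key (ω ^ 2) hω2 (fun h => bad p₁ n1 _ _ d2 a1 h) (fun h => bad p₂ n2 _ _ d3 c1 h)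
      · exact key ω hω (fun h => bad p₁ n1 _ _ d1 a1 h) c1
    · by_cases c1 : hermForm n F 2 (y i + (1 : F) • y j) (b p₂) = 0
      · by_cases a2 : hermForm n F 2 (y i + ω • y j) (b p₁) = 0
        · exact key (ω ^ 2) hω2 (fun h => bad p₁ n1 _ _ d3 a2 h) (fun h => bad p₂ n2 _ _ d2 c1 h)
        · exact key ω hω a2 (fun h => bad p₂ n2 _ _ d1 c1 h)
      · exact key 1 one_ne_zero a1 c1
  obtain ⟨m, hm⟩ := exists_notMem (S := W) (by omega)
  apply IsON.ne_zero hb m
  apply IsON.ext hF (IsON.act hb g)
  intro j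
  rw [hermForm_zero_left]
  change hermForm n F 2 (b m) (act g (b j)) = 0
  rw [← hy]
  exact (hermForm_eq_zero_comm hF).1 (hsub j m hm)

/-- Monomial groups, `q = 2`. -/
theorem mono_max_two (hF : Fintype.card F = 2 ^ 2) (hn : 10 ≤ n) {M : Subgroup (SU n F 2)}
    {b : Fin n → Fin n → F} (hb : IsON 2 b) (hM : Mono b ≤ M) (hne : M ≠ Mono b) : M = ⊤ := by
  classical
  obtain ⟨ω, h4⟩ := exists_F4 hF
  obtain ⟨g, hg, hgn⟩ : ∃ g ∈ M, g ∉ (Mono b : Subgroup (SU n F 2)) := by
    by_contra hcon
    push Not at hcon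
    exact hne (le_antisymm hcon hM)
  obtain ⟨v, hv, hvc⟩ : ∃ v ∈ XT M, 3 ≤ (sp 2 b v).card := by
    by_contra hcon
    push Not at hcon
    exact hgn (mono_of_small hF h4 (by omega) hb hM (fun v hv => by have := hcon v hv; omega) hg)
  obtain ⟨e, he, hec⟩ := exists_four hF h4 hn hb hM hv hvc
  obtain ⟨l, hl⟩ := exists_notMem (S := sp 2 b e) (by omega)
  rw [notMem_sp] at hl
  have hfour : ∀ v, (sp 2 b v).card = 4 → v ∈ XT M := by
    intro v hv
    exact good_all hF h4 hb hM _ (sp 2 b e) (sp 2 b v) (by omega) rfl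
      (fun w hw => good_self hF h4 hb hM he hl hw) v rfl
  exact USub.top_of_xt hF (by omega) (by omega) fun v hv =>
    all_two hF h4 hb hM hfour _ v hv le_rfl

/-- Monomial groups are maximal, `n ≥ 10`. -/
theorem mono_maximal {q : ℕ} (hF : Fintype.card F = q ^ 2) (hn : 10 ≤ n)
    {M : Subgroup (SU n F q)} {b : Fin n → Fin n → F} (hb : IsON q b) (hM : Mono b ≤ M)
    (hne : M ≠ Mono b) : M = ⊤ := by
  by_cases hq : 3 ≤ q
  · exact mono_max hF hq hn hb hM hne
  · have hq2 := two_le_q hF
    obtain rfl : q = 2 := by omega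
    exact mono_max_two hF hn hb hM hne

end Cfsg.Agent.H98.UF
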