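import Mathlib
import Cfsg.Agent.H98.UFP

set_option autoImplicit false
set_option linter.unusedSectionVars false
set_option linter.unusedVariables false
set_option linter.style.haveILetI false
set_option maxHeartbeats 1000000

/-!
Decompositions into blocks of dimension at least two.
-/

namespace Cfsg.Agent.H98.UF

open scoped Matrix
open Cfsg.Agent.Uni Module
open Cfsg.Agent.USub (XT xt_smul xt_pair xt_conj xt_zero)

variable {F : Type*} [Field F] [Fintype F] {q n t k : ℕ}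

/-- the blocks -/
def Dk (q : ℕ) (b : Fin n → Fin n → F) (e : Fin n ≃ Fin t × Fin k) (i : Fin t) :
    Submodule F (Fin n → F) where
  carrier := {v | ∀ r, (e r).1 ≠ i → hermForm n F q v (b r) = 0}
  add_mem' := fun ha hb r hr => by rw [hermForm_add_left, ha r hr, hb r hr, add_zero]
  zero_mem' := fun r _ => hermForm_zero_left _
  smul_mem' := fun c v hv r hr => by rw [hermForm_smul_left, hv r hr, mul_zero]

theorem mem_Dk {b : Fin n → Fin n → F} {e : Fin n ≃ Fin t × Fin k} {i : Fin t} {v : Fin n → F} :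
    v ∈ Dk q b e i ↔ ∀ r, (e r).1 ≠ i → hermForm n F q v (b r) = 0 := Iff.rfl

structure Dec (M : Subgroup (SU n F q)) (b : Fin n → Fin n → F) (e : Fin n ≃ Fin t × Fin k) :
    Prop where
  on : IsON q b
  mem : ∀ g : SU n F q, (∃ σ : Equiv.Perm (Fin t), ∀ i, ∀ v ∈ Dk q b e i,
    act g v ∈ Dk q b e (σ i)) → g ∈ M

section
variable {b : Fin n → Fin n → F} {e : Fin n ≃ Fin t × Fin k}

theorem b_mem_Dk (hb : IsON q b) (p : Fin n) : b p ∈ Dk q b e (e p).1 := by
  intro r hr
  exact IsON.ne hb (fun h => hr (by rw [h]))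

theorem b_mem_Dk' (hb : IsON q b) {p : Fin n} {i : Fin t} (h : (e p).1 = i) :
    b p ∈ Dk q b e i := by rw [← h]; exact b_mem_Dk hb p

theorem Dk_orth (hF : Fintype.card F = q ^ 2) (hb : IsON q b) {i j : Fin t} (hij : i ≠ j)
    {v w : Fin n → F} (hv : v ∈ Dk q b e i) (hw : w ∈ Dk q b e j) : hermForm n F q v w = 0 := by
  rw [IsON.form_eq hF hb]
  apply Finset.sum_eq_zero
  intro r _
  by_cases hr : (e r).1 = i
  · rw [hw r (by rw [hr]; exact hij), zero_pow (q_ne_zero hF), mul_zero]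
  · rw [hv r hr, zero_mul]

/-- vectors orthogonal to a block -/
theorem mem_perp_Dk (hF : Fintype.card F = q ^ 2) (hb : IsON q b) {i : Fin t} {v : Fin n → F} :
    v ∈ perp q (Dk q b e i) ↔ ∀ r, (e r).1 = i → hermForm n F q v (b r) = 0 := by
  rw [mem_perp]
  constructor
  · intro h r hr
    exact h _ (b_mem_Dk' hb hr)
  · intro h w hw
    rw [IsON.form_eq hF hb]
    apply Finset.sum_eq_zero
    intro r _
    by_cases hr : (e r).1 = i
    · rw [h r hr, zero_mul]
    · rw [hw r hr, zero_pow (q_ne_zero hF), mul_zero]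

theorem nd_Dk (hF : Fintype.card F = q ^ 2) (hb : IsON q b) (i : Fin t) : ND q (Dk q b e i) := by
  intro x hx hxy
  apply IsON.ext hF hb
  intro r
  rw [hermForm_zero_left]
  by_cases hr : (e r).1 = i
  · exact hxy _ (b_mem_Dk' hb hr)
  · exact hx r hr

theorem Dk_le_perp (hF : Fintype.card F = q ^ 2) (hb : IsON q b) {i j : Fin t} (hij : i ≠ j)
    {v : Fin n → F} (hv : v ∈ Dk q b e i) : v ∈ perp q (Dk q b e j) :=
  mem_perp.2 fun w hw => Dk_orth hF hb hij hv hw

theorem perp_perp_Dk (hF : Fintype.card F = q ^ 2) (hb : IsON q b) {i : Fin t} {v : Fin n → F}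
    (hv : v ∈ Dk q b e i) : v ∈ perp q (perp q (Dk q b e i)) := by
  rw [perp_perp hF]; exact hv

theorem finrank_Dk (hF : Fintype.card F = q ^ 2) (hb : IsON q b) (i : Fin t) :
    finrank F (Dk q b e i) = k := by
  obtain ⟨w, hw⟩ : ∃ w : Fin k → Fin n → F, ∀ a, w a = b (e.symm (i, a)) := ⟨_, fun _ => rfl⟩
  have hw' : IsON q w := by
    intro a a'
    rw [hw, hw, hb]
    by_cases h : a = a'
    · rw [if_pos h, if_pos (by rw [h])]
    · rw [if_neg h, if_neg]
      intro h'
      have := congrArg e h'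
      rw [Equiv.apply_symm_apply, Equiv.apply_symm_apply, Prod.mk.injEq] at this
      exact h this.2
  have hspan : Submodule.span F (Set.range w) = Dk q b e i := by
    apply le_antisymm
    · rw [Submodule.span_le]
      rintro _ ⟨a, rfl⟩
      rw [hw]
      exact b_mem_Dk' hb (by rw [Equiv.apply_symm_apply])
    · intro v hv
      rw [← IsON.sum_eq hF hb v]
      refine Submodule.sum_mem _ fun r _ => ?_
      by_cases hr : (e r).1 = i
      · apply Submodule.smul_mem
        apply Submodule.subset_span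
        refine ⟨(e r).2, ?_⟩
        rw [hw, ← hr, Prod.mk.eta, Equiv.symm_apply_apply]
      · rw [hv r hr, zero_smul]; exact Submodule.zero_mem _
  rw [← hspan, finrank_span_eq_card (hw'.linearIndependent hF), Fintype.card_fin]

variable {M : Subgroup (SU n F q)}

/-- moving inside one block, `k ≥ 3` -/
theorem Dec.move3 (hF : Fintype.card F = q ^ 2) (h : Dec M b e) (hk : 3 ≤ k) {i : Fin t}
    {c c' : Fin n → F} (hc : c ∈ Dk q b e i) (hc' : c' ∈ Dk q b e i) (hc0 : c ≠ 0) (hc'0 : c' ≠ 0)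
    (hcc : hermForm n F q c c = hermForm n F q c' c') :
    ∃ g ∈ M, act g c = c' ∧ ∀ y ∈ perp q (Dk q b e i), act g y = y := by
  have hb := h.on
  have hnd := nd_Dk (e := e) hF hb i
  have hfr := finrank_Dk (e := e) hF hb i
  obtain ⟨g₀, hg₀, hg₀c⟩ := USub.exists_GU_fix hF (hnd.perp hF) (perp_perp_Dk hF hb hc)
    (perp_perp_Dk hF hb hc') hc0 hc'0 hcc
  -- an anisotropic vector orthogonal to `c'`
  obtain ⟨u, hu, huc, huu⟩ : ∃ u ∈ Dk q b e i, hermForm n F q c' u = 0 ∧
      hermForm n F q u u ≠ 0 := by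
    by_cases hcc' : hermForm n F q c' c' = 0
    · obtain ⟨y, hy, hyp⟩ := USub.exists_hyp_in hF hnd hc' hc'0 hcc'
      obtain ⟨u, hu, hu1, -, hu2⟩ := USub.exists_neg_one_perp hF hnd (by rw [hfr]; exact hk) hc' hy hyp
      exact ⟨u, hu, (hermForm_eq_zero_comm hF).1 hu1, by rw [hu2]; exact neg_ne_zero.2 one_ne_zero⟩
    · have hle : Submodule.span F {c'} ≤ Dk q b e i := by
        rw [Submodule.span_le]; simpa using hc'
      have hfr' := finrank_inf_perp hF (nd_span_unit hcc') hle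
      rw [finrank_span_singleton hc'0, hfr] at hfr'
      obtain ⟨u, hu, huu⟩ := (hnd.inf_perp hF (nd_span_unit hcc') hle).exists_unit hF (by
        intro h0
        rw [h0, finrank_bot] at hfr'
        omega)
      exact ⟨u, hu.1, (hermForm_eq_zero_comm hF).1 ((mem_perp_span hF).1 hu.2 c' rfl),
        by rw [huu]; exact one_ne_zero⟩
  obtain ⟨g, hg⟩ := USub.exists_SU_adjust hF g₀ huu
  have hfix : ∀ y ∈ perp q (Dk q b e i), act g y = y := by
    intro y hy
    have h1 := hg₀ y hy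
    rw [hg y (by rw [h1]; exact hy u hu), h1]
  refine ⟨g, h.mem g ⟨1, fun l v hv => ?_⟩, by rw [hg c (by rw [hg₀c]; exact huc), hg₀c], hfix⟩
  rw [Equiv.Perm.one_apply]
  by_cases hl : l = i
  · subst hl
    intro r hr
    have h1 : b r ∈ perp q (Dk q b e l) := Dk_le_perp hF hb hr (b_mem_Dk hb r)
    rw [← hfix _ h1, act_form]
    exact hv r hr
  · rw [hfix _ (Dk_le_perp hF hb hl hv)]; exact hv

/-- moving inside one block, `t ≥ 3` -/
theorem Dec.moveT (hF : Fintype.card F = q ^ 2) (h : Dec M b e) {i l : Fin t} (hil : i ≠ l)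
    (hk : 0 < k)
    {c c' : Fin n → F} (hc : c ∈ Dk q b e i) (hc' : c' ∈ Dk q b e i) (hc0 : c ≠ 0) (hc'0 : c' ≠ 0)
    (hcc : hermForm n F q c c = hermForm n F q c' c') :
    ∃ g ∈ M, act g c = c' ∧ ∀ y ∈ perp q (Dk q b e i), y ∈ perp q (Dk q b e l) → act g y = y := by
  have hb := h.on
  have hnd := nd_Dk (e := e) hF hb i
  obtain ⟨g₀, hg₀, hg₀c⟩ := USub.exists_GU_fix hF (hnd.perp hF) (perp_perp_Dk hF hb hc)
    (perp_perp_Dk hF hb hc') hc0 hc'0 hcc
  obtain ⟨s, hs⟩ : ∃ s, s = e.symm (l, ⟨0, hk⟩) := ⟨_, rfl⟩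
  have hsl : (e s).1 = l := by rw [hs, Equiv.apply_symm_apply]
  obtain ⟨g, hg⟩ := USub.exists_SU_adjust hF g₀ (e := b s) (by rw [IsON.self hb]; exact one_ne_zero)
  have hform : ∀ v w, hermForm n F q (gact g₀ v) (gact g₀ w) = hermForm n F q v w :=
    fun v w => gact_form g₀ v w
  -- `g₀` preserves the block `i`
  have hpres : ∀ v, gact g₀ v ∈ Dk q b e i ↔ v ∈ Dk q b e i := by
    intro v
    constructor
    · intro hv r hr
      have h1 : b r ∈ perp q (Dk q b e i) := Dk_le_perp hF hb hr (b_mem_Dk hb r)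
      rw [← hform, hg₀ _ h1]; exact hv r hr
    · intro hv r hr
      have h1 : b r ∈ perp q (Dk q b e i) := Dk_le_perp hF hb hr (b_mem_Dk hb r)
      rw [← hg₀ _ h1, hform]; exact hv r hr
  have hgi : ∀ v ∈ Dk q b e i, act g v = gact g₀ v := by
    intro v hv
    apply hg
    exact (hpres v).2 hv s (by rw [hsl]; exact Ne.symm hil)
  have hfix : ∀ y ∈ perp q (Dk q b e i), y ∈ perp q (Dk q b e l) → act g y = y := by
    intro y hy hyl
    have h1 := hg₀ y hy
    rw [hg y (by rw [h1]; exact hyl _ (b_mem_Dk' hb hsl)), h1]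
  refine ⟨g, h.mem g ⟨1, fun m v hv => ?_⟩, by rw [hgi c hc, hg₀c], hfix⟩
  rw [Equiv.Perm.one_apply]
  by_cases hm : m = i
  · subst hm
    rw [hgi v hv]
    exact (hpres v).2 hv
  by_cases hml : m = l
  · subst hml
    intro r hr
    by_cases hri : (e r).1 = i
    · obtain ⟨w, hw⟩ : ∃ w, gact g₀ w = b r := ⟨gact g₀⁻¹ (b r), gact_gact_inv g₀ (b r)⟩
      have hwi : w ∈ Dk q b e i := by
        rw [← hpres, hw]; exact b_mem_Dk' hb hri
      rw [← hw, ← hgi w hwi, act_form]
      exact Dk_orth hF hb (Ne.symm hil) hv hwi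
    · have h1 : b r ∈ perp q (Dk q b e i) := Dk_le_perp hF hb hri (b_mem_Dk hb r)
      have h2 : b r ∈ perp q (Dk q b e m) := Dk_le_perp hF hb hr (b_mem_Dk hb r)
      rw [← hfix _ h1 h2, act_form]
      exact hv r hr
  · rw [hfix v (Dk_le_perp hF hb hm hv) (Dk_le_perp hF hb hml hv)]
    exact hv

/-- moving inside one block -/
theorem Dec.move (hF : Fintype.card F = q ^ 2) (h : Dec M b e) (hk0 : 0 < k)
    (hkt : 3 ≤ k ∨ 3 ≤ t) {i j : Fin t} (hij : i ≠ j)
    {c c' : Fin n → F} (hc : c ∈ Dk q b e i) (hc' : c' ∈ Dk q b e i) (hc0 : c ≠ 0) (hc'0 : c' ≠ 0)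
    (hcc : hermForm n F q c c = hermForm n F q c' c') :
    ∃ g ∈ M, act g c = c' ∧ ∀ y ∈ Dk q b e j, act g y = y := by
  have hb := h.on
  rcases hkt with hk | ht
  · obtain ⟨g, hg, h1, h2⟩ := h.move3 hF hk hc hc' hc0 hc'0 hcc
    exact ⟨g, hg, h1, fun y hy => h2 y (Dk_le_perp hF hb (Ne.symm hij) hy)⟩
  · obtain ⟨l, hl⟩ := exists_notMem (S := {i, j}) (by
      have : ({i, j} : Finset (Fin t)).card ≤ 2 := Finset.card_le_two
      omega)
    rw [Finset.mem_insert, Finset.mem_singleton, not_or] at hl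
    obtain ⟨g, hg, h1, h2⟩ := h.moveT hF (Ne.symm hl.1) hk0 hc hc' hc0 hc'0 hcc
    exact ⟨g, hg, h1, fun y hy => h2 y (Dk_le_perp hF hb (Ne.symm hij) hy)
      (Dk_le_perp hF hb (Ne.symm hl.2) hy)⟩

/-- permuting the blocks -/
theorem Dec.perm (hF : Fintype.card F = q ^ 2) (h : Dec M b e) (σ : Equiv.Perm (Fin t)) :
    ∃ g ∈ M, ∀ i, ∀ v ∈ Dk q b e i, act g v ∈ Dk q b e (σ i) := by
  classical
  have hb := h.on
  by_cases hn : 0 < n
  swap
  · refine ⟨1, M.one_mem, fun i v hv r hr => ?_⟩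
    have := r.2
    omega
  obtain ⟨π, hπ⟩ : ∃ π : Equiv.Perm (Fin n), ∀ r, (e (π r)).1 = σ (e r).1 := by
    refine ⟨(e.trans (Equiv.prodCongr σ (Equiv.refl _))).trans e.symm, fun r => ?_⟩
    rw [Equiv.trans_apply, Equiv.apply_symm_apply, Equiv.trans_apply, Equiv.prodCongr_apply]
    rfl
  obtain ⟨g₀, hg₀⟩ := exists_GU_of_ON hF (v := b) (w := fun r => b (π r)) hb (by
    intro i j
    rw [hb]
    by_cases hij : i = j
    · rw [if_pos hij, if_pos (by rw [hij])]
    · rw [if_neg hij, if_neg (fun h => hij (π.injective h))]) le_rfl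
  have hg₀' : ∀ r, gact g₀ (b r) = b (π r) := hg₀
  obtain ⟨s, hs⟩ : ∃ s : Fin n, True := ⟨⟨0, hn⟩, trivial⟩
  obtain ⟨g, hg⟩ := USub.exists_SU_adjust hF g₀ (e := b s) (by rw [IsON.self hb]; exact one_ne_zero)
  have hgr : ∀ r, π r ≠ s → act g (b r) = b (π r) := by
    intro r hr
    rw [hg (b r) (by rw [hg₀']; exact IsON.ne hb hr), hg₀']
  -- all images are in the right block
  have hblk : ∀ r, act g (b r) ∈ Dk q b e (σ (e r).1) := by
    intro r
    by_cases hr : π r = s
    · intro m hm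
      obtain ⟨m', rfl⟩ := π.surjective m
      have hne : m' ≠ r := by
        rintro rfl
        exact hm (hπ m')
      have h1 : π m' ≠ s := fun h => hne (π.injective (h.trans hr.symm))
      rw [← hgr m' h1, act_form, IsON.ne hb (Ne.symm hne)]
    · rw [hgr r hr]
      exact b_mem_Dk' hb (hπ r)
  have hall : ∀ i, ∀ v ∈ Dk q b e i, act g v ∈ Dk q b e (σ i) := by
    intro i v hv
    rw [← IsON.sum_eq hF hb v, act_sum]
    refine Submodule.sum_mem _ fun r _ => ?_
    rw [act_smul]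
    by_cases hr : (e r).1 = i
    · rw [← hr]; exact Submodule.smul_mem _ _ (hblk r)
    · rw [hv r hr, zero_smul]; exact Submodule.zero_mem _
  exact ⟨g, h.mem g ⟨σ, hall⟩, hall⟩

/-- isotropic vectors of a block -/
theorem Dec.iso (hF : Fintype.card F = q ^ 2) (h : Dec M b e) {i : Fin t} {v : Fin n → F}
    (hv : v ∈ Dk q b e i) (hvv : hermForm n F q v v = 0) : v ∈ XT M := by
  refine ⟨hvv, fun c hc g hg => h.mem g ⟨1, fun l w hw => ?_⟩⟩
  rw [Equiv.Perm.one_apply, hg]
  by_cases hl : l = i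
  · subst hl
    exact Submodule.add_mem _ hw (Submodule.smul_mem _ _ hv)
  · rw [Dk_orth hF h.on hl hw hv, mul_zero, zero_smul, add_zero]; exact hw

end

end Cfsg.Agent.H98.UF
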