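import Mathlib
import Cfsg.Agent.H98.UFQ

set_option autoImplicit false
set_option linter.unusedSectionVars false
set_option linter.unusedVariables false
set_option linter.style.haveILetI false
set_option maxHeartbeats 1000000

/-!
Stabilisers of decompositions into blocks of dimension at least two are maximal.
-/

namespace Cfsg.Agent.H98.UF

open scoped Matrix
open Cfsg.Agent.Uni Module
open Cfsg.Agent.USub (XT xt_smul xt_pair xt_conj xt_zero)

variable {F : Type*} [Field F] [Fintype F] {q n t k : ℕ}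

theorem exists_two_norm (hF : Fintype.card F = q ^ 2) : ∃ l l' : F, l ^ (q + 1) = -1 ∧
    l' ^ (q + 1) = -1 ∧ l ≠ l' := by
  classical
  have hq := two_le_q hF
  obtain ⟨P, hP⟩ : ∃ P, P = Finset.univ.filter fun x : F => x ^ (q + 1) = -1 := ⟨_, rfl⟩
  have hPm : ∀ x, x ∈ P ↔ x ^ (q + 1) = -1 := fun x => by rw [hP, Finset.mem_filter]; simp
  have hPc : P.card = q + 1 := by
    have h := card_norm_eq hF (c := (-1 : F)) (by rw [neg_pow_q hF, one_pow])
      (neg_ne_zero.2 one_ne_zero)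
    rw [Nat.card_eq_fintype_card, Fintype.card_subtype] at h
    rw [hP]; exact h
  obtain ⟨l, hl, l', hl', hll⟩ := Finset.one_lt_card.1 (show 1 < P.card by omega)
  rw [hPm] at hl hl'
  exact ⟨l, l', hl, hl', hll⟩

section
variable {b : Fin n → Fin n → F} {e : Fin n ≃ Fin t × Fin k} {M : Subgroup (SU n F q)}

theorem iso_two (hF : Fintype.card F = q ^ 2) (hb : IsON q b) {p r : Fin n} (hpr : p ≠ r) {l : F}
    (hl : l ^ (q + 1) = -1) : hermForm n F q (b p + l • b r) (b p + l • b r) = 0 := by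
  have := form_two hF hb hpr 1 l
  rw [one_smul, one_pow, hl] at this
  rw [this]; ring

/-- a partner in the same block -/
theorem exists_partner (hk : 2 ≤ k) (e : Fin n ≃ Fin t × Fin k) (p : Fin n) :
    ∃ r, r ≠ p ∧ (e r).1 = (e p).1 := by
  obtain ⟨a, ha⟩ : ∃ a : Fin k, a ≠ (e p).2 := by
    by_cases h : (e p).2 = ⟨0, by omega⟩
    · exact ⟨⟨1, by omega⟩, by rw [h, Ne, Fin.mk.injEq]; omega⟩
    · exact ⟨⟨0, by omega⟩, Ne.symm h⟩
  refine ⟨e.symm ((e p).1, a), fun h => ha ?_, by rw [Equiv.apply_symm_apply]⟩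
  have := congrArg (fun x => (e x).2) h
  simp only [Equiv.apply_symm_apply] at this
  exact this

/-- a nonzero vector lies in at most one block -/
theorem Dk_unique (hF : Fintype.card F = q ^ 2) (hb : IsON q b) {i j : Fin t} {v : Fin n → F}
    (hv0 : v ≠ 0) (hi : v ∈ Dk q b e i) (hj : v ∈ Dk q b e j) : i = j := by
  by_contra hij
  apply hv0
  apply IsON.ext hF hb
  intro r
  rw [hermForm_zero_left]
  by_cases hr : (e r).1 = i
  · exact hj r (by rw [hr]; exact hij)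
  · exact hi r hr

/-- a small transvection set forces the decomposition to be preserved -/
theorem Dec.claimA (hF : Fintype.card F = q ^ 2) (h : Dec M b e) (hk : 2 ≤ k)
    (hsm : ∀ v ∈ XT M, ∃ i, v ∈ Dk q b e i) {g : SU n F q} (hg : g ∈ M) :
    ∃ σ : Equiv.Perm (Fin t), ∀ i, ∀ v ∈ Dk q b e i, act g v ∈ Dk q b e (σ i) := by
  classical
  have hb := h.on
  obtain ⟨l, l', hl, hl', hll⟩ := exists_two_norm (F := F) hF
  have hl'0 : l' ≠ 0 := by
    rintro rfl
    rw [zero_pow (by omega)] at hl'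
    exact one_ne_zero (neg_eq_zero.1 hl'.symm)
  have hκ : 1 + l * l' ^ q ≠ 0 := by
    intro h
    rw [pow_succ] at hl'
    apply hll
    have h1 : (l - l') * l' ^ q = 0 := by linear_combination h - hl'
    rcases mul_eq_zero.1 h1 with h2 | h2
    · exact sub_eq_zero.1 h2
    · exact absurd h2 (pow_ne_zero _ hl'0)
  -- two indices in the same block
  have pair : ∀ p r : Fin n, p ≠ r → (e p).1 = (e r).1 → ∃ j, act g (b p) ∈ Dk q b e j ∧
      act g (b r) ∈ Dk q b e j := by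
    intro p r hpr hblk
    have hx : ∀ m : F, m ^ (q + 1) = -1 → ∃ j, act g (b p + m • b r) ∈ Dk q b e j := by
      intro m hm
      apply hsm
      refine xt_conj (h.iso hF (i := (e p).1) ?_ (iso_two hF hb hpr hm)) hg
      exact Submodule.add_mem _ (b_mem_Dk hb p) (Submodule.smul_mem _ _ (b_mem_Dk' hb hblk.symm))
    obtain ⟨j, hj⟩ := hx l hl
    obtain ⟨j', hj'⟩ := hx l' hl'
    have hjj : j = j' := by
      by_contra hne
      have h1 := Dk_orth hF hb hne hj hj'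
      rw [act_form, hermForm_add_left, hermForm_add_right hF, hermForm_add_right hF,
        hermForm_smul_left, hermForm_smul_left, hermForm_smul_right, hermForm_smul_right,
        IsON.self hb, IsON.self hb, IsON.ne hb hpr, IsON.ne hb (Ne.symm hpr)] at h1
      apply hκ
      linear_combination h1
    rw [← hjj] at hj'
    have h2 : act g (b r) ∈ Dk q b e j := by
      have h3 := Submodule.smul_mem _ ((l - l')⁻¹) (Submodule.sub_mem _ hj hj')
      have h4 : (l - l')⁻¹ • (act g (b p + l • b r) - act g (b p + l' • b r)) = act g (b r) := by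
        rw [← act_sub, ← act_smul]
        congr 1
        have : b p + l • b r - (b p + l' • b r) = (l - l') • b r := by module
        rw [this, smul_smul, inv_mul_cancel₀ (sub_ne_zero.2 hll), one_smul]
      rwa [h4] at h3
    refine ⟨j, ?_, h2⟩
    have h3 := Submodule.sub_mem _ hj (Submodule.smul_mem _ l h2)
    have h4 : act g (b p + l • b r) - l • act g (b r) = act g (b p) := by
      rw [← act_smul, ← act_sub]
      congr 1
      abel
    rwa [h4] at h3
  -- the image block of each index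
  have himg : ∀ p, ∃ j, act g (b p) ∈ Dk q b e j := by
    intro p
    obtain ⟨r, hr, hb⟩ := exists_partner hk e p
    obtain ⟨j, hj, -⟩ := pair p r (Ne.symm hr) hb.symm
    exact ⟨j, hj⟩
  choose τ hτ using himg
  have hττ : ∀ p r, (e p).1 = (e r).1 → τ p = τ r := by
    intro p r hpr
    by_cases hne : p = r
    · rw [hne]
    obtain ⟨j, hj, hj'⟩ := pair p r hne hpr
    have h1 := Dk_unique hF hb (act_ne_zero (IsON.ne_zero hb p)) hj (hτ p)
    have h2 := Dk_unique hF hb (act_ne_zero (IsON.ne_zero hb r)) hj' (hτ r)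
    rw [← h1, ← h2]
  obtain ⟨s, hs⟩ : ∃ s : Fin t → Fin t, ∀ p, s (e p).1 = τ p := by
    refine ⟨fun i => τ (e.symm (i, ⟨0, by omega⟩)), fun p => ?_⟩
    apply hττ
    rw [Equiv.apply_symm_apply]
  have hsurj : Function.Surjective s := by
    intro j
    by_contra hcon
    push Not at hcon
    obtain ⟨m, hm⟩ : ∃ m, m = e.symm (j, ⟨0, by omega⟩) := ⟨_, rfl⟩
    have hmj : (e m).1 = j := by rw [hm, Equiv.apply_symm_apply]
    apply IsON.ne_zero hb m
    apply IsON.ext hF (IsON.act hb g)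
    intro r
    rw [hermForm_zero_left]
    refine Dk_orth hF hb (i := j) (j := τ r) ?_ (b_mem_Dk' hb hmj) (hτ r)
    rw [← hs]
    exact Ne.symm (hcon _)
  refine ⟨Equiv.ofBijective s (Finite.injective_iff_bijective.1
    (Finite.injective_iff_surjective.2 hsurj)), fun i v hv => ?_⟩
  rw [Equiv.ofBijective_apply]
  rw [← IsON.sum_eq hF hb v, act_sum]
  refine Submodule.sum_mem _ fun r _ => ?_
  rw [act_smul]
  by_cases hr : (e r).1 = i
  · rw [← hr, hs]; exact Submodule.smul_mem _ _ (hτ r)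
  · rw [hv r hr, zero_smul]; exact Submodule.zero_mem _

/-- an isotropic weight two vector of a block, not orthogonal to a given vector -/
theorem exists_probe (hF : Fintype.card F = q ^ 2) (hb : IsON q b) (hk : 2 ≤ k) {v : Fin n → F}
    {m : Fin n} (hm : hermForm n F q v (b m) ≠ 0) :
    ∃ d ∈ Dk q b e (e m).1, hermForm n F q d d = 0 ∧ hermForm n F q v d ≠ 0 := by
  obtain ⟨r, hr, hblk⟩ := exists_partner hk e m
  obtain ⟨l, l', hl, hl', hll⟩ := exists_two_norm (F := F) hF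
  have hmem : ∀ l : F, b m + l • b r ∈ Dk q b e (e m).1 := fun l =>
    Submodule.add_mem _ (b_mem_Dk hb m) (Submodule.smul_mem _ _ (b_mem_Dk' hb hblk))
  by_cases h1 : hermForm n F q v (b m + l • b r) = 0
  · refine ⟨_, hmem l', iso_two hF hb (Ne.symm hr) hl', fun h2 => ?_⟩
    rw [hermForm_add_right hF, hermForm_smul_right] at h1 h2
    have h3 : (l ^ q - l' ^ q) * hermForm n F q v (b r) = 0 := by linear_combination h1 - h2
    have h4 : l ^ q - l' ^ q ≠ 0 := by
      rw [← sub_pow_q hF]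
      exact pow_ne_zero _ (sub_ne_zero.2 hll)
    have h5 := (mul_eq_zero.1 h3).resolve_left h4
    rw [h5, mul_zero, add_zero] at h1
    exact hm h1
  · exact ⟨_, hmem l, iso_two hF hb (Ne.symm hr) hl, h1⟩

/-- the transvection set contains a vector outside of the blocks with two components -/
theorem exists_comp (hF : Fintype.card F = q ^ 2) (hb : IsON q b) {v : Fin n → F}
    (ht : 0 < t) (hv : ∀ i, v ∉ Dk q b e i) : ∃ m m' : Fin n, (e m).1 ≠ (e m').1 ∧
      hermForm n F q v (b m) ≠ 0 ∧ hermForm n F q v (b m') ≠ 0 := by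
  have h1 : ∀ i, ∃ r, (e r).1 ≠ i ∧ hermForm n F q v (b r) ≠ 0 := by
    intro i
    have := hv i
    rw [mem_Dk] at this
    push Not at this
    exact this
  obtain ⟨m, -, hm⟩ := h1 ⟨0, ht⟩
  obtain ⟨m', hm', hm''⟩ := h1 (e m).1
  exact ⟨m, m', Ne.symm hm', hm, hm''⟩

/-- Step 1 for `q ≥ 3`. -/
theorem Dec.step1 (hF : Fintype.card F = q ^ 2) (hq : 3 ≤ q) (h : Dec M b e) (hk : 2 ≤ k)
    {v : Fin n → F} (hv : v ∈ XT M) {m m' : Fin n} (hmm : (e m).1 ≠ (e m').1)
    (hm : hermForm n F q v (b m) ≠ 0) (hm' : hermForm n F q v (b m') ≠ 0) :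
    ∃ i j, i ≠ j ∧ ∃ z₁ ∈ Dk q b e i, ∃ z₂ ∈ Dk q b e j, z₁ ≠ 0 ∧ z₂ ≠ 0 ∧
      hermForm n F q z₁ z₁ = 0 ∧ hermForm n F q z₂ z₂ = 0 ∧ z₁ + z₂ ∈ XT M := by
  classical
  have hb := h.on
  obtain ⟨d, hd, hdd, hvd⟩ := exists_probe (e := e) hF hb hk hm
  obtain ⟨d', hd', hdd', hvd'⟩ := exists_probe (e := e) hF hb hk hm'
  have hdd12 : hermForm n F q d d' = 0 := Dk_orth hF hb hmm hd hd'
  have hdd21 : hermForm n F q d' d = 0 := (hermForm_eq_zero_comm hF).1 hdd12
  obtain ⟨δ, hδ0, hδ⟩ := exists_skew (F := F) (q := q) hF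
  obtain ⟨N₁, hN₁⟩ : ∃ N, N = hermForm n F q v d ^ (q + 1) := ⟨_, rfl⟩
  obtain ⟨N₂, hN₂⟩ : ∃ N, N = hermForm n F q v d' ^ (q + 1) := ⟨_, rfl⟩
  have hN₁0 : N₁ ≠ 0 := by rw [hN₁]; exact pow_ne_zero _ hvd
  have hN₂0 : N₂ ≠ 0 := by rw [hN₂]; exact pow_ne_zero _ hvd'
  obtain ⟨a, haq, ha0, ha⟩ : ∃ a : F, a ^ q = a ∧ a ≠ 0 ∧ N₁ + a * N₂ ≠ 0 := by
    by_contra hcon
    push Not at hcon
    have h1 : (Finset.univ.filter fun a : F => a ^ q = a) ⊆ {0, -N₁ / N₂} := by
      intro a ha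
      rw [Finset.mem_filter] at ha
      rw [Finset.mem_insert, Finset.mem_singleton]
      by_cases ha0 : a = 0
      · left; exact ha0
      · right
        have := hcon a ha.2 ha0
        field_simp
        linear_combination this
    have h3 := Finset.card_le_card h1
    rw [card_fixed' hF] at h3
    have : ({0, -N₁ / N₂} : Finset F).card ≤ 2 := Finset.card_le_two
    omega
  have hδa : (δ * a) ^ q = -(δ * a) := by rw [mul_pow, hδ, haq]; ring
  obtain ⟨g₁, hg₁, e₁⟩ := xt_transv hF (h.iso hF hd hdd) hδ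
  obtain ⟨g₂, hg₂, e₂⟩ := xt_transv hF (h.iso hF hd' hdd') hδa
  obtain ⟨y, hy⟩ : ∃ y, y = act g₂ (act g₁ v) := ⟨_, rfl⟩
  have hyM : y ∈ XT M := by rw [hy]; exact xt_conj (xt_conj hv hg₁) hg₂
  obtain ⟨z₁, hz₁⟩ : ∃ z, z = (δ * hermForm n F q v d) • d := ⟨_, rfl⟩
  obtain ⟨z₂, hz₂⟩ : ∃ z, z = (δ * a * hermForm n F q v d') • d' := ⟨_, rfl⟩
  have hyv : y = v + (z₁ + z₂) := by
    rw [hy, e₂, e₁, hermForm_add_left, hermForm_smul_left, hdd12, mul_zero, add_zero, hz₁, hz₂]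
    abel
  have hvz : hermForm n F q v (z₁ + z₂) = -(δ * (N₁ + a * N₂)) := by
    rw [hermForm_add_right hF, hz₁, hz₂, hermForm_smul_right, hermForm_smul_right, mul_pow,
      mul_pow (δ * a), hδ, hδa, hN₁, hN₂, pow_succ, pow_succ]
    ring
  have hzz : hermForm n F q (z₁ + z₂) (z₁ + z₂) = 0 := by
    rw [hz₁, hz₂, hermForm_add_left, hermForm_add_right hF, hermForm_add_right hF,
      hermForm_smul_left, hermForm_smul_left, hermForm_smul_left, hermForm_smul_left,
      hermForm_smul_right, hermForm_smul_right, hermForm_smul_right, hermForm_smul_right,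
      hdd, hdd', hdd12, hdd21]
    ring
  have hvy : hermForm n F q v y ≠ 0 := by
    rw [hyv, hermForm_add_right hF, hv.1, zero_add, hvz]
    exact neg_ne_zero.2 (mul_ne_zero hδ0 ha)
  have hsub : y + (-1 : F) • v = z₁ + z₂ := by rw [hyv]; module
  have hmem := xt_pair hF hv hyM hvy (m := -1) (by rw [hsub]; exact hzz)
  rw [hsub] at hmem
  have hd0 : d ≠ 0 := fun h0 => hvd (by rw [h0, hermForm_zero_right hF])
  have hd'0 : d' ≠ 0 := fun h0 => hvd' (by rw [h0, hermForm_zero_right hF])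
  refine ⟨_, _, hmm, z₁, ?_, z₂, ?_, ?_, ?_, ?_, ?_, hmem⟩
  · rw [hz₁]; exact Submodule.smul_mem _ _ hd
  · rw [hz₂]; exact Submodule.smul_mem _ _ hd'
  · rw [hz₁]; exact smul_ne_zero (mul_ne_zero hδ0 hvd) hd0
  · rw [hz₂]; exact smul_ne_zero (mul_ne_zero (mul_ne_zero hδ0 ha0) hvd') hd'0
  · rw [hz₁, hermForm_smul_left, hermForm_smul_right, hdd]; ring
  · rw [hz₂, hermForm_smul_left, hermForm_smul_right, hdd']; ring

/-- Step 1 for `q = 2`, `k ≥ 3`. -/
theorem Dec.step1' {M : Subgroup (SU n F 2)} (hF : Fintype.card F = 2 ^ 2) (h : Dec M b e)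
    (hk : 3 ≤ k)
    {v : Fin n → F} (hv : v ∈ XT M) {m m' : Fin n} (hmm : (e m).1 ≠ (e m').1)
    (hm : hermForm n F 2 v (b m) ≠ 0) (hm' : hermForm n F 2 v (b m') ≠ 0) :
    ∃ i j, i ≠ j ∧ ∃ z₁ ∈ Dk 2 b e i, ∃ z₂ ∈ Dk 2 b e j, z₁ ≠ 0 ∧ z₂ ≠ 0 ∧
      hermForm n F 2 z₁ z₁ = 0 ∧ hermForm n F 2 z₂ z₂ = 0 ∧ z₁ + z₂ ∈ XT M := by
  classical
  have hb := h.on
  obtain ⟨ω, h4⟩ := exists_F4 hF
  obtain ⟨d, hd, hdd, hvd⟩ := exists_probe (e := e) hF hb (by omega) hm
  have hd0 : d ≠ 0 := fun h0 => hvd (by rw [h0, hermForm_zero_right hF])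
  obtain ⟨j, hj⟩ : ∃ j, j = (e m').1 := ⟨_, rfl⟩
  rw [← hj] at hmm
  -- the component in the block `j`
  obtain ⟨c, hcj, w, hw, hvc⟩ := (nd_Dk (e := e) hF hb j).exists_add hF v
  have hc0 : c ≠ 0 := by
    rintro rfl
    apply hm'
    rw [hvc, zero_add]
    exact hw _ (b_mem_Dk' hb hj.symm)
  have hnd := nd_Dk (e := e) hF hb j
  have hfr := finrank_Dk (e := e) hF hb j
  obtain ⟨z₂, hz₂, hz₂0, hzz₂, hcz₂⟩ : ∃ z ∈ Dk 2 b e j, z ≠ 0 ∧ hermForm n F 2 z z = 0 ∧
      hermForm n F 2 c z = 0 ∧ c + z ≠ 0 := by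
    by_cases hcc : hermForm n F 2 c c = 0
    · refine ⟨ω • c, Submodule.smul_mem _ _ hcj, smul_ne_zero h4.ne_zero hc0, ?_, ?_, ?_⟩
      · rw [hermForm_smul_left, hermForm_smul_right, hcc]; ring
      · rw [hermForm_smul_right, hcc]; ring
      · have : c + ω • c = (1 + ω) • c := by module
        rw [this]; exact smul_ne_zero h4.sq_ne hc0
    · have hle : Submodule.span F {c} ≤ Dk 2 b e j := by
        rw [Submodule.span_le]; simpa using hcj
      have hfr' := finrank_inf_perp hF (nd_span_unit hcc) hle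
      rw [finrank_span_singleton hc0, hfr] at hfr'
      obtain ⟨u, hu, hu0, huu⟩ := (hnd.inf_perp hF (nd_span_unit hcc) hle).exists_isotropic hF
        (by omega)
      have huc : hermForm n F 2 u c = 0 := (mem_perp_span hF).1 hu.2 c rfl
      have hcu : hermForm n F 2 c u = 0 := (hermForm_eq_zero_comm hF).1 huc
      refine ⟨u, hu.1, hu0, huu, hcu, fun h0 => hcc ?_⟩
      have : hermForm n F 2 (c + u) c = 0 := by rw [h0, hermForm_zero_left]
      rwa [hermForm_add_left, huc, add_zero] at this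
  obtain ⟨hcz₂, hcz0⟩ := hcz₂
  have hz₂c : hermForm n F 2 z₂ c = 0 := (hermForm_eq_zero_comm hF).1 hcz₂
  obtain ⟨g₂, hg₂, hg₂c, hg₂f⟩ := h.move3 hF hk (i := j) hcj (Submodule.add_mem _ hcj hz₂) hc0 hcz0
    (by rw [hermForm_add_left, hermForm_add_right hF, hermForm_add_right hF, hcz₂, hz₂c, hzz₂]; ring)
  obtain ⟨g₁, hg₁, e₁⟩ := xt_transv hF (h.iso hF hd hdd) (a := 1) (by
    rw [one_pow, h4.neg])
  obtain ⟨z₁, hz₁⟩ : ∃ z, z = hermForm n F 2 v d • d := ⟨_, rfl⟩
  have hdj : d ∈ perp 2 (Dk 2 b e j) := Dk_le_perp hF hb hmm hd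
  obtain ⟨y, hy⟩ : ∃ y, y = act g₂ (act g₁ v) := ⟨_, rfl⟩
  have hyM : y ∈ XT M := by rw [hy]; exact xt_conj (xt_conj hv hg₁) hg₂
  have hyv : y = v + (z₁ + z₂) := by
    rw [hy, e₁, act_add, one_mul, act_smul, hg₂f d hdj, hz₁]
    conv_lhs => rw [hvc, act_add, hg₂c, hg₂f w hw, ← hvc]
    rw [hvc]
    abel
  have hwz : hermForm n F 2 w z₂ = 0 := hw z₂ hz₂
  have hvz₂ : hermForm n F 2 v z₂ = 0 := by rw [hvc, hermForm_add_left, hcz₂, hwz, add_zero]
  have hvz : hermForm n F 2 v (z₁ + z₂) = 1 := by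
    rw [hermForm_add_right hF, hvz₂, add_zero, hz₁, hermForm_smul_right, ← pow_succ, h4.cube _ hvd]
  have hdz : hermForm n F 2 d z₂ = 0 := hdj z₂ hz₂
  have hzd : hermForm n F 2 z₂ d = 0 := (hermForm_eq_zero_comm hF).1 hdz
  have hzz : hermForm n F 2 (z₁ + z₂) (z₁ + z₂) = 0 := by
    rw [hz₁, hermForm_add_left, hermForm_add_right hF, hermForm_add_right hF,
      hermForm_smul_left, hermForm_smul_left, hermForm_smul_right, hermForm_smul_right,
      hdd, hdz, hzd, hzz₂]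
    ring
  have hvy : hermForm n F 2 v y ≠ 0 := by
    rw [hyv, hermForm_add_right hF, hv.1, zero_add, hvz]
    exact one_ne_zero
  have hsub : y + (-1 : F) • v = z₁ + z₂ := by rw [hyv]; module
  have hmem := xt_pair hF hv hyM hvy (m := -1) (by rw [hsub]; exact hzz)
  rw [hsub] at hmem
  refine ⟨_, _, hmm, z₁, ?_, z₂, hz₂, ?_, hz₂0, ?_, hzz₂, hmem⟩
  · rw [hz₁]; exact Submodule.smul_mem _ _ hd
  · rw [hz₁]; exact smul_ne_zero hvd hd0
  · rw [hz₁, hermForm_smul_left, hermForm_smul_right, hdd]; ring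

end

end Cfsg.Agent.H98.UF
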