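import Mathlib
import Cfsg.Agent.H98.UFR

set_option autoImplicit false
set_option linter.unusedSectionVars false
set_option linter.unusedVariables false
set_option linter.style.haveILetI false
set_option maxHeartbeats 1000000

/-!
Stabilisers of decompositions into blocks of dimension at least two are maximal (end).
-/

namespace Cfsg.Agent.H98.UF

open scoped Matrix
open Cfsg.Agent.Uni Module
open Cfsg.Agent.USub (XT xt_smul xt_pair xt_conj xt_zero)

variable {F : Type*} [Field F] [Fintype F] {q n t k : ℕ}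

section
variable {b : Fin n → Fin n → F} {e : Fin n ≃ Fin t × Fin k} {M : Subgroup (SU n F q)}

/-- Step 2: from isotropic components to anisotropic components. -/
theorem Dec.step2 (hF : Fintype.card F = q ^ 2) (h : Dec M b e) (hk : 2 ≤ k)
    (hkt : 3 ≤ k ∨ 3 ≤ t) {i j : Fin t} (hij : i ≠ j) {z₁ z₂ : Fin n → F}
    (hz₁ : z₁ ∈ Dk q b e i) (hz₂ : z₂ ∈ Dk q b e j) (hz₁0 : z₁ ≠ 0) (hz₂0 : z₂ ≠ 0)
    (hzz₁ : hermForm n F q z₁ z₁ = 0) (hzz₂ : hermForm n F q z₂ z₂ = 0) (hz : z₁ + z₂ ∈ XT M) :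
    ∃ w₁ ∈ Dk q b e i, ∃ w₂ ∈ Dk q b e j, hermForm n F q w₁ w₁ ≠ 0 ∧ w₁ + w₂ ∈ XT M := by
  have hb := h.on
  -- all vectors with isotropic components
  have hall : ∀ x ∈ Dk q b e i, ∀ y ∈ Dk q b e j, x ≠ 0 → y ≠ 0 → hermForm n F q x x = 0 →
      hermForm n F q y y = 0 → x + y ∈ XT M := by
    intro x hx y hy hx0 hy0 hxx hyy
    obtain ⟨g₁, hg₁, e₁, f₁⟩ := h.move hF (by omega) hkt hij hz₁ hx hz₁0 hx0 (by rw [hzz₁, hxx])
    obtain ⟨g₂, hg₂, e₂, f₂⟩ := h.move hF (by omega) hkt (Ne.symm hij) hz₂ hy hz₂0 hy0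
      (by rw [hzz₂, hyy])
    have h1 := xt_conj (xt_conj hz hg₁) hg₂
    rwa [act_add, e₁, f₁ z₂ hz₂, act_add, f₂ x hx, e₂] at h1
  obtain ⟨u₁, hu₁, hu₁0, huu₁⟩ := (nd_Dk (e := e) hF hb i).exists_isotropic hF
    (by rw [finrank_Dk hF hb]; exact hk)
  obtain ⟨u₂, hu₂, hu₂0, huu₂⟩ := (nd_Dk (e := e) hF hb j).exists_isotropic hF
    (by rw [finrank_Dk hF hb]; exact hk)
  obtain ⟨v₁, hv₁, hyp₁⟩ := USub.exists_hyp_in hF (nd_Dk (e := e) hF hb i) hu₁ hu₁0 huu₁
  obtain ⟨v₂, hv₂, hyp₂⟩ := USub.exists_hyp_in hF (nd_Dk (e := e) hF hb j) hu₂ hu₂0 huu₂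
  have hv₁0 : v₁ ≠ 0 := (hyp₁.symm hF).left_ne
  have hv₂0 : v₂ ≠ 0 := (hyp₂.symm hF).left_ne
  obtain ⟨m, hm⟩ := exists_trace_eq hF (c := (1 : F)) (one_pow q)
  obtain ⟨δ, hδ0, hδ⟩ := exists_skew (F := F) (q := q) hF
  have hm0 : m ≠ 0 := by
    rintro rfl
    rw [zero_pow_q hF, add_zero] at hm
    exact zero_ne_one hm
  have hmq0 : m ^ q ≠ 0 := pow_ne_zero _ hm0
  obtain ⟨κ, hκ⟩ : ∃ κ, κ = δ / m ^ q - 1 := ⟨_, rfl⟩
  have hκ0 : κ ≠ 0 := by
    intro h0
    rw [h0] at hκ
    have h1 : δ = m ^ q := by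
      field_simp at hκ
      linear_combination -hκ
    have h2 : m = -m ^ q := by
      have := hδ
      rw [h1, pow_q_pow_q hF] at this
      exact this
    rw [h2] at hm
    rw [neg_pow_q hF, pow_q_pow_q hF] at hm
    have h3 : (0 : F) = 1 := by
      rw [← hm]
      linear_combination h2
    exact zero_ne_one h3
  have hκ1 : (1 + κ) * m ^ q = δ := by rw [hκ]; field_simp; ring
  have hκq0 : κ ^ q ≠ 0 := pow_ne_zero _ hκ0
  -- the two vectors
  have hz := hall u₁ hu₁ u₂ hu₂ hu₁0 hu₂0 huu₁ huu₂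
  have hz' := hall v₁ hv₁ (κ ^ q • v₂) (Submodule.smul_mem _ _ hv₂) hv₁0
    (smul_ne_zero hκq0 hv₂0) hyp₁.2.1 (by
      rw [hermForm_smul_left, hermForm_smul_right, hyp₂.2.1]; ring)
  have o : ∀ x ∈ Dk q b e i, ∀ y ∈ Dk q b e j, hermForm n F q x y = 0 ∧ hermForm n F q y x = 0 :=
    fun x hx y hy => ⟨Dk_orth hF hb hij hx hy, Dk_orth hF hb (Ne.symm hij) hy hx⟩
  have hf : hermForm n F q (u₁ + u₂) (v₁ + κ ^ q • v₂) = 1 + κ := by
    rw [hermForm_add_left, hermForm_add_right hF, hermForm_add_right hF, hermForm_smul_right,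
      hermForm_smul_right, pow_q_pow_q hF, hyp₁.2.2, hyp₂.2.2, (o u₁ hu₁ v₂ hv₂).1,
      (o v₁ hv₁ u₂ hu₂).2]
    ring
  have hf' : hermForm n F q (v₁ + κ ^ q • v₂) (u₁ + u₂) = (1 + κ) ^ q := by
    rw [← hermForm_symm hF, hf]
  have h1κ : 1 + κ ≠ 0 := by
    intro h0
    rw [h0, zero_mul] at hκ1
    exact hδ0 hκ1.symm
  have hiso : hermForm n F q ((u₁ + u₂) + m • (v₁ + κ ^ q • v₂))
      ((u₁ + u₂) + m • (v₁ + κ ^ q • v₂)) = 0 := by
    have h1 : (1 + κ) ^ q * m = -δ := by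
      have := congrArg (fun x => x ^ q) hκ1
      simp only [mul_pow] at this
      rw [pow_q_pow_q hF, hδ] at this
      exact this
    have gen : ∀ X Y : Fin n → F, hermForm n F q X X = 0 → hermForm n F q Y Y = 0 →
        hermForm n F q X Y = 1 + κ → hermForm n F q Y X = (1 + κ) ^ q →
        hermForm n F q (X + m • Y) (X + m • Y) = 0 := by
      intro X Y a1 a2 a3 a4
      rw [hermForm_add_left, hermForm_add_right hF, hermForm_add_right hF, hermForm_smul_left,
        hermForm_smul_left, hermForm_smul_right, hermForm_smul_right, a1, a2, a3, a4]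
      linear_combination hκ1 + h1
    exact gen _ _ hz.1 hz'.1 hf hf'
  have hmem := xt_pair hF hz' hz (by rw [hf']; exact pow_ne_zero _ h1κ) hiso
  refine ⟨u₁ + m • v₁, Submodule.add_mem _ hu₁ (Submodule.smul_mem _ _ hv₁),
    u₂ + (m * κ ^ q) • v₂, Submodule.add_mem _ hu₂ (Submodule.smul_mem _ _ hv₂), ?_, ?_⟩
  · rw [hermForm_add_left, hermForm_add_right hF, hermForm_add_right hF, hermForm_smul_left,
      hermForm_smul_left, hermForm_smul_right, hermForm_smul_right, huu₁, hyp₁.2.1, hyp₁.2.2,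
      (hyp₁.symm hF).2.2]
    have : (0 : F) + m ^ q * 1 + (m * 1 + m * (m ^ q * 0)) = 1 := by linear_combination hm
    rw [this]; exact one_ne_zero
  · have : (u₁ + m • v₁) + (u₂ + (m * κ ^ q) • v₂) = (u₁ + u₂) + m • (v₁ + κ ^ q • v₂) := by module
    rw [this]; exact hmem

/-- all weight two vectors -/
theorem Dec.step3 (hF : Fintype.card F = q ^ 2) (h : Dec M b e) (hk : 2 ≤ k)
    (hkt : 3 ≤ k ∨ 3 ≤ t) {i j : Fin t} (hij : i ≠ j) {w₁ w₂ : Fin n → F}
    (hw₁ : w₁ ∈ Dk q b e i) (hw₂ : w₂ ∈ Dk q b e j) (hw₁0 : hermForm n F q w₁ w₁ ≠ 0)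
    (hw : w₁ + w₂ ∈ XT M) {p r : Fin n} (hpr : p ≠ r) {x y : F}
    (hxy : x ^ (q + 1) + y ^ (q + 1) = 0) : x • b p + y • b r ∈ XT M := by
  classical
  have hb := h.on
  by_cases hblk : (e p).1 = (e r).1
  · refine h.iso hF (i := (e p).1) ?_ (by rw [form_two hF hb hpr, hxy])
    exact Submodule.add_mem _ (Submodule.smul_mem _ _ (b_mem_Dk hb p))
      (Submodule.smul_mem _ _ (b_mem_Dk' hb hblk.symm))
  by_cases hx : x = 0
  · rw [hx, zero_pow (by omega), zero_add] at hxy
    rw [hx, eq_zero_of_pow_eq_zero hxy, zero_smul, zero_smul, add_zero]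
    exact xt_zero M hF
  have hy : y ≠ 0 := by
    rintro rfl
    rw [zero_pow (by omega), add_zero] at hxy
    exact hx (eq_zero_of_pow_eq_zero hxy)
  -- permute the blocks
  obtain ⟨σ, hσi, hσj⟩ : ∃ σ : Equiv.Perm (Fin t), σ i = (e p).1 ∧ σ j = (e r).1 := by
    refine ⟨(Equiv.swap i (e p).1).trans (Equiv.swap (Equiv.swap i (e p).1 j) (e r).1), ?_, ?_⟩
    · have hne : (e p).1 ≠ Equiv.swap i (e p).1 j := by
        intro h
        have h1 : Equiv.swap i (e p).1 i = Equiv.swap i (e p).1 j := by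
          rw [Equiv.swap_apply_left]; exact h
        exact hij ((Equiv.swap i (e p).1).injective h1)
      rw [Equiv.trans_apply, Equiv.swap_apply_left, Equiv.swap_apply_of_ne_of_ne hne hblk]
    · rw [Equiv.trans_apply, Equiv.swap_apply_left]
  obtain ⟨g, hg, hgD⟩ := h.perm hF σ
  have h1 := xt_conj hw hg
  rw [act_add] at h1
  have hg₁ := hgD i w₁ hw₁
  have hg₂ := hgD j w₂ hw₂
  rw [hσi] at hg₁
  rw [hσj] at hg₂
  -- scale
  have hn₁ : hermForm n F q (act g w₁) (act g w₁) ≠ 0 := by rw [act_form]; exact hw₁0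
  have hn₂ : hermForm n F q (act g w₂) (act g w₂) = -hermForm n F q (act g w₁) (act g w₁) := by
    have h2 := h1.1
    rw [hermForm_add_left, hermForm_add_right hF, hermForm_add_right hF,
      Dk_orth hF hb hblk hg₁ hg₂, Dk_orth hF hb (Ne.symm hblk) hg₂ hg₁] at h2
    linear_combination h2
  obtain ⟨μ, hμ⟩ := exists_norm_eq hF (c := x ^ (q + 1) / hermForm n F q (act g w₁) (act g w₁)) (by
    rw [div_pow, norm_pow_q hF, hermForm_self_pow_q hF])
  have hμn : μ ^ (q + 1) * hermForm n F q (act g w₁) (act g w₁) = x ^ (q + 1) := by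
    rw [hμ, div_mul_cancel₀ _ hn₁]
  have hμ0 : μ ≠ 0 := by
    rintro rfl
    rw [zero_pow (by omega), zero_mul] at hμn
    exact pow_ne_zero _ hx hμn.symm
  have h3 := xt_smul hF h1 μ
  rw [smul_add] at h3
  have e1 : hermForm n F q (μ • act g w₁) (μ • act g w₁) = x ^ (q + 1) := by
    rw [hermForm_smul_left, hermForm_smul_right, ← mul_assoc, ← pow_succ', hμn]
  have e2 : hermForm n F q (μ • act g w₂) (μ • act g w₂) = y ^ (q + 1) := by
    rw [hermForm_smul_left, hermForm_smul_right, ← mul_assoc, ← pow_succ', hn₂]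
    linear_combination -hμn - hxy
  have ex : hermForm n F q (x • b p) (x • b p) = x ^ (q + 1) := by
    rw [hermForm_smul_left, hermForm_smul_right, IsON.self hb, mul_one, pow_succ']
  have ey : hermForm n F q (y • b r) (y • b r) = y ^ (q + 1) := by
    rw [hermForm_smul_left, hermForm_smul_right, IsON.self hb, mul_one, pow_succ']
  have ne1 : μ • act g w₁ ≠ 0 := by
    intro h0
    rw [h0, hermForm_zero_left] at e1
    exact pow_ne_zero _ hx e1.symm
  have ne2 : μ • act g w₂ ≠ 0 := by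
    intro h0
    rw [h0, hermForm_zero_left] at e2
    exact pow_ne_zero _ hy e2.symm
  obtain ⟨g₁, hg₁M, a₁, f₁⟩ := h.move hF (by omega) hkt hblk (Submodule.smul_mem _ μ hg₁)
    (Submodule.smul_mem _ x (b_mem_Dk hb p)) ne1 (smul_ne_zero hx (IsON.ne_zero hb p))
    (by rw [e1, ex])
  obtain ⟨g₂, hg₂M, a₂, f₂⟩ := h.move hF (by omega) hkt (Ne.symm hblk) (Submodule.smul_mem _ μ hg₂)
    (Submodule.smul_mem _ y (b_mem_Dk hb r)) ne2 (smul_ne_zero hy (IsON.ne_zero hb r))
    (by rw [e2, ey])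
  have h4 := xt_conj (xt_conj h3 hg₁M) hg₂M
  rwa [act_add, a₁, f₁ _ (Submodule.smul_mem _ μ hg₂), act_add,
    f₂ _ (Submodule.smul_mem _ x (b_mem_Dk hb p)), a₂] at h4

/-- `q = 2`: the monomial group -/
theorem Dec.mono_le {M : Subgroup (SU n F 2)} (hF : Fintype.card F = 2 ^ 2) (h : Dec M b e)
    (hall : ∀ p r : Fin n, p ≠ r → ∀ x y : F, x ^ (2 + 1) + y ^ (2 + 1) = 0 →
      x • b p + y • b r ∈ XT M) : Mono b ≤ M := by
  classical
  have hb := h.on
  obtain ⟨ω, h4⟩ := exists_F4 hF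
  have key : ∀ m : ℕ, ∀ g : SU n F 2, g ∈ (Mono b : Subgroup (SU n F 2)) →
      (Finset.univ.filter fun r => ∀ c : F, act g (b r) ≠ c • b r).card ≤ m → g ∈ M := by
    intro m
    induction m with
    | zero =>
      intro g hg hm
      have h1 : ∀ r, ∃ c : F, act g (b r) = c • b r := by
        intro r
        by_contra hcon
        push Not at hcon
        have h2 : r ∈ (Finset.univ.filter fun r => ∀ c : F, act g (b r) ≠ c • b r) :=
          Finset.mem_filter.2 ⟨Finset.mem_univ _, hcon⟩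
        have := Finset.card_pos.2 ⟨r, h2⟩
        omega
      refine h.mem g ⟨1, fun i v hv => ?_⟩
      rw [Equiv.Perm.one_apply, ← IsON.sum_eq hF hb v, act_sum]
      refine Submodule.sum_mem _ fun r _ => ?_
      by_cases hr : (e r).1 = i
      · obtain ⟨c, hc⟩ := h1 r
        rw [act_smul, hc]
        exact Submodule.smul_mem _ _ (Submodule.smul_mem _ _ (b_mem_Dk' hb hr))
      · rw [hv r hr, zero_smul, act_zero]; exact Submodule.zero_mem _
    | succ m ih =>
      intro g hg hm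
      by_cases hm' : (Finset.univ.filter fun r => ∀ c : F, act g (b r) ≠ c • b r).card ≤ m
      · exact ih g hg hm'
      obtain ⟨i, hi⟩ : (Finset.univ.filter fun r => ∀ c : F, act g (b r) ≠ c • b r).Nonempty :=
        Finset.card_pos.1 (by omega)
      rw [Finset.mem_filter] at hi
      obtain ⟨j, c, hc, hj⟩ := hg i
      have hij : i ≠ j := by
        rintro rfl
        exact hi.2 c hj
      obtain ⟨u, hu⟩ := exists_sw hF hb h4.two hij (one_pow (2 + 1))
      have huM : u ∈ M := by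
        have h1 := hall i j hij 1 1 (by rw [one_pow]; linear_combination h4.two)
        rw [one_smul] at h1
        refine h1.2 1 (by rw [one_pow, h4.neg]) u fun x => ?_
        rw [hu, one_mul]
      have huMono := hu.mem hF hb h4.two hij (one_pow (2 + 1))
      have uj := hu.right hF hb h4.two hij (one_pow (2 + 1))
      rw [one_pow, one_smul] at uj
      have h1 : u * g ∈ M := by
        apply ih _ ((Mono b).mul_mem huMono hg)
        have hsub : (Finset.univ.filter fun r => ∀ c : F, act (u * g) (b r) ≠ c • b r) ⊆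
            (Finset.univ.filter fun r => ∀ c : F, act g (b r) ≠ c • b r).erase i := by
          intro r hr
          rw [Finset.mem_filter] at hr
          rw [Finset.mem_erase, Finset.mem_filter]
          refine ⟨?_, Finset.mem_univ _, ?_⟩
          · rintro rfl
            exact hr.2 c (by rw [act_mul, hj, act_smul, uj])
          · intro d hd
            have hri : r ≠ i := by
              rintro rfl
              exact hi.2 d hd
            have hrj : r ≠ j := by
              rintro rfl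
              have e1 := act_form g (b i) (b r)
              rw [hj, hd, hermForm_smul_left, hermForm_smul_right, IsON.self hb,
                IsON.ne hb hij, mul_one] at e1
              rcases mul_eq_zero.1 e1 with h' | h'
              · exact hc h'
              · have hd0 : d = 0 := eq_zero_of_pow_eq_zero h'
                rw [hd0, zero_smul] at hd
                exact act_ne_zero (IsON.ne_zero hb r) hd
            exact hr.2 d (by rw [act_mul, hd, act_smul, hu.other hF hb hri hrj])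
        have h2 := Finset.card_le_card hsub
        rw [Finset.card_erase_of_mem (Finset.mem_filter.2 ⟨Finset.mem_univ _, hi.2⟩)] at h2
        omega
      have h2 := M.mul_mem (M.inv_mem huM) h1
      rwa [inv_mul_cancel_left] at h2
  intro g hg
  exact key _ g hg le_rfl

/-- Decompositions into blocks of dimension at least two. -/
theorem Dec.maximal (hF : Fintype.card F = q ^ 2) (h : Dec M b e) (hk : 2 ≤ k) (hn : 10 ≤ n)
    (hex : ¬ (k = 2 ∧ q = 2)) (hkt : 3 ≤ k ∨ 3 ≤ t) (ht : 0 < t)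
    (hne : ∃ g ∈ M, ¬ ∃ σ : Equiv.Perm (Fin t), ∀ i, ∀ v ∈ Dk q b e i,
      act g v ∈ Dk q b e (σ i)) : M = ⊤ := by
  classical
  have hb := h.on
  obtain ⟨v, hv, hvn⟩ : ∃ v ∈ XT M, ∀ i, v ∉ Dk q b e i := by
    by_contra hcon
    push Not at hcon
    obtain ⟨g, hg, hgn⟩ := hne
    exact hgn (h.claimA hF hk hcon hg)
  obtain ⟨m, m', hmm, hm, hm'⟩ := exists_comp hF hb ht hvn
  have hq := two_le_q hF
  by_cases hq3 : 3 ≤ q
  · obtain ⟨i, j, hij, z₁, hz₁, z₂, hz₂, hz₁0, hz₂0, hzz₁, hzz₂, hz⟩ :=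
      h.step1 hF hq3 hk hv hmm hm hm'
    obtain ⟨w₁, hw₁, w₂, hw₂, hw₁0, hw⟩ := h.step2 hF hk hkt hij hz₁ hz₂ hz₁0 hz₂0 hzz₁ hzz₂ hz
    exact USub.top_of_xt hF (by omega) (by omega) fun v hv =>
      all_iso hF hq3 hb (fun p r hpr x y hxy => h.step3 hF hk hkt hij hw₁ hw₂ hw₁0 hw hpr hxy)
        _ v hv le_rfl
  · obtain rfl : q = 2 := by omega
    have hk3 : 3 ≤ k := by
      by_contra hlt
      exact hex ⟨by omega, rfl⟩
    obtain ⟨i, j, hij, z₁, hz₁, z₂, hz₂, hz₁0, hz₂0, hzz₁, hzz₂, hz⟩ :=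
      h.step1' hF hk3 hv hmm hm hm'
    obtain ⟨w₁, hw₁, w₂, hw₂, hw₁0, hw⟩ := h.step2 hF hk hkt hij hz₁ hz₂ hz₁0 hz₂0 hzz₁ hzz₂ hz
    have hMono := h.mono_le hF fun p r hpr x y hxy => h.step3 hF hk hkt hij hw₁ hw₂ hw₁0 hw hpr hxy
    refine mono_max_two hF hn hb hMono ?_
    -- `M` is not monomial
    rintro rfl
    obtain ⟨ω, h4⟩ := exists_F4 hF
    obtain ⟨p, hp⟩ : ∃ p : Fin 3 → Fin n, ∀ a, p a = e.symm (⟨0, ht⟩, ⟨a, by omega⟩) :=
      ⟨_, fun _ => rfl⟩
    have hpne : ∀ {a a' : Fin 3}, a ≠ a' → p a ≠ p a' := by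
      intro a a' haa h'
      rw [hp, hp] at h'
      have := congrArg e h'
      rw [Equiv.apply_symm_apply, Equiv.apply_symm_apply, Prod.mk.injEq] at this
      have h9 : (a : ℕ) = (a' : ℕ) := congrArg (fun x : Fin k => (x : ℕ)) this.2
      exact haa (Fin.ext h9)
    have hpD : ∀ a, b (p a) ∈ Dk 2 b e ⟨0, ht⟩ := by
      intro a
      apply b_mem_Dk' hb
      rw [hp, Equiv.apply_symm_apply]
    have hne01 := hpne (show (0 : Fin 3) ≠ 1 by decide)
    have hne02 := hpne (show (0 : Fin 3) ≠ 2 by decide)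
    have hne12 := hpne (show (1 : Fin 3) ≠ 2 by decide)
    obtain ⟨c, hc⟩ : ∃ c, c = b (p 0) + b (p 1) + b (p 2) := ⟨_, rfl⟩
    have hcc : hermForm n F 2 c c = 1 := by
      rw [hc]
      simp only [hermForm_add_left, hermForm_add_right hF, IsON.self hb, IsON.ne hb hne01,
        IsON.ne hb hne02, IsON.ne hb hne12, IsON.ne hb (Ne.symm hne01), IsON.ne hb (Ne.symm hne02),
        IsON.ne hb (Ne.symm hne12)]
      linear_combination h4.two
    have hc0 : c ≠ 0 := by
      intro h0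
      rw [h0, hermForm_zero_left] at hcc
      exact zero_ne_one hcc
    obtain ⟨g, hg, hgc, -⟩ := h.move3 hF hk3 (hpD 0) (c' := c)
      (by rw [hc]; exact Submodule.add_mem _ (Submodule.add_mem _ (hpD 0) (hpD 1)) (hpD 2))
      (IsON.ne_zero hb _) hc0 (by rw [hcc, IsON.self hb])
    obtain ⟨r, μ, hμ, hr⟩ := hg (p 0)
    rw [hgc] at hr
    have c0 : hermForm n F 2 c (b (p 0)) = 1 := by
      rw [hc, hermForm_add_left, hermForm_add_left, IsON.self hb, IsON.ne hb (Ne.symm hne01),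
        IsON.ne hb (Ne.symm hne02)]; ring
    have c1 : hermForm n F 2 c (b (p 1)) = 1 := by
      rw [hc, hermForm_add_left, hermForm_add_left, IsON.self hb, IsON.ne hb hne01,
        IsON.ne hb (Ne.symm hne12)]; ring
    by_cases h0 : r = p 0
    · rw [hr, h0, hermForm_smul_left, IsON.ne hb hne01, mul_zero] at c1
      exact zero_ne_one c1
    · rw [hr, hermForm_smul_left, IsON.ne hb h0, mul_zero] at c0
      exact zero_ne_one c0

end

end Cfsg.Agent.H98.UF
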