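import Mathlib
import Cfsg.Agent.H98.UFS
import Cfsg.Agent.USub.XT

set_option autoImplicit false
set_option linter.unusedSectionVars false
set_option linter.unusedVariables false
set_option linter.style.haveILetI false
set_option maxHeartbeats 1000000

/-!
Stabilisers of nondegenerate decompositions in the special unitary group are maximal.
-/

namespace Cfsg.Agent.H98.UF

open scoped Matrix
open Cfsg.Geo
open Cfsg.Agent.Uni Module
open Cfsg.Agent.USub (XT xt_smul xt_pair xt_conj xt_zero)
open Cfsg.Agent.UCase (SG suHom suHom_mem suHom_mulVec)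

variable {F : Type*} [Field F] [Fintype F] {q n t k : ℕ}

theorem card_mul {D : Fin t → Submodule F (Fin n → F)} (hD : IsMDecomposition k D) : n = t * k := by
  classical
  have hint : DirectSum.IsInternal D :=
    DirectSum.isInternal_submodule_of_iSupIndep_of_iSup_eq_top hD.indep hD.iSup_eq_top
  let b₀ : Module.Basis (Σ _ : Fin t, Fin k) F (Fin n → F) :=
    hint.collectedBasis (fun j => Module.finBasisOfFinrankEq F (D j) (hD.finrank_eq j))
  have h1 : Fintype.card (Σ _ : Fin t, Fin k) = Fintype.card (Fin n) := by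
    rw [← Module.finrank_eq_card_basis b₀, Module.finrank_fintype_fun_eq_card]
  rw [Fintype.card_sigma, Fintype.card_fin] at h1
  simpa using h1.symm

theorem nd_of (hF : Fintype.card F = q ^ 2) {W : Submodule F (Fin n → F)}
    (h : IsNondegenerateOn (hermForm n F q) W) : ND q W := by
  intro x hx hxy
  by_contra hx0
  obtain ⟨-, y, hy, hne⟩ := h x hx hx0
  exact hne (hxy y hy)

theorem exists_frame (hF : Fintype.card F = q ^ 2) {D : Fin t → Submodule F (Fin n → F)}
    (hD : IsNondegenerateMDecomposition (hermForm n F q) k D) :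
    ∃ (b : Fin n → Fin n → F) (e : Fin n ≃ Fin t × Fin k), IsON q b ∧ ∀ i, D i = Dk q b e i := by
  classical
  have h0 : ∀ i, ∃ b : Fin k → Fin n → F, IsON q b ∧ (∀ j, b j ∈ D i) ∧
      Submodule.span F (Set.range b) = D i := fun i =>
    ND.exists_ON hF k (nd_of hF (hD.nondegenerate i)) (hD.decomp.finrank_eq i)
  choose b' h1 h2 h3 using h0
  have h4 : ∀ i i' j j', i ≠ i' → hermForm n F q (b' i j) (b' i' j') = 0 :=
    fun i i' j j' hii' => hD.orthogonal i i' hii' _ (h2 i j) _ (h2 i' j')
  have hcard := card_mul hD.decomp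
  obtain ⟨e⟩ : Nonempty (Fin n ≃ Fin t × Fin k) := ⟨Fintype.equivOfCardEq (by
    rw [Fintype.card_prod, Fintype.card_fin, Fintype.card_fin, Fintype.card_fin, hcard])⟩
  obtain ⟨b, hb⟩ : ∃ b : Fin n → Fin n → F, ∀ r, b r = b' (e r).1 (e r).2 := ⟨_, fun _ => rfl⟩
  have hon : IsON q b := by
    intro r s
    rw [hb, hb]
    by_cases h : (e r).1 = (e s).1
    · rw [h, h1 (e s).1]
      by_cases h' : (e r).2 = (e s).2
      · rw [if_pos h', if_pos (e.injective (Prod.ext h h'))]
      · rw [if_neg h', if_neg (fun h0 => h' (by rw [h0]))]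
    · rw [h4 _ _ _ _ h, if_neg (fun h0 => h (by rw [h0]))]
  refine ⟨b, e, hon, fun i => le_antisymm ?_ ?_⟩
  · rw [← h3 i, Submodule.span_le]
    rintro _ ⟨a, rfl⟩ r hr
    rw [hb]
    exact h4 _ _ _ _ (Ne.symm hr)
  · intro v hv
    rw [← IsON.sum_eq hF hon v]
    refine Submodule.sum_mem _ fun r _ => ?_
    by_cases hr : (e r).1 = i
    · apply Submodule.smul_mem
      rw [hb, ← hr]
      exact h2 _ _
    · rw [hv r hr, zero_smul]; exact Submodule.zero_mem _

theorem mem_comap_dec {D : Fin t → Submodule F (Fin n → F)} (hD : IsMDecomposition k D)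
    {g : SU n F q} : g ∈ (decompositionStabilizer D ⊓ SG n F q).comap (suHom n F q) ↔
      ∃ σ : Equiv.Perm (Fin t), ∀ i, ∀ v ∈ D i, act g v ∈ D (σ i) := by
  rw [Subgroup.mem_comap, Subgroup.mem_inf]
  constructor
  · rintro ⟨⟨σ, hσ⟩, -⟩
    refine ⟨σ, fun i v hv => ?_⟩
    rw [← hσ i]
    exact ⟨v, hv, by rw [Matrix.toLin'_apply, suHom_mulVec]⟩
  · rintro ⟨σ, hσ⟩
    refine ⟨⟨σ, fun i => ?_⟩, suHom_mem g⟩
    apply Submodule.eq_of_le_of_finrank_eq
    · rintro _ ⟨v, hv, rfl⟩
      rw [Matrix.toLin'_apply, suHom_mulVec]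
      exact hσ i v hv
    · have hinj : Function.Injective (Matrix.toLin' ((suHom n F q g : GL (Fin n) F) :
          Matrix (Fin n) (Fin n) F)) := by
        intro x y hxy
        rw [Matrix.toLin'_apply, Matrix.toLin'_apply, suHom_mulVec, suHom_mulVec] at hxy
        exact act_inj.1 hxy
      rw [← LinearEquiv.finrank_eq (Submodule.equivMapOfInjective _ hinj (D i)), hD.finrank_eq,
        hD.finrank_eq]

/-- monomial elements permute the blocks, `k = 1` -/
theorem mono_perm (hF : Fintype.card F = q ^ 2) {b : Fin n → Fin n → F} {e : Fin n ≃ Fin t × Fin k}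
    (hb : IsON q b) (hk : k = 1) {g : SU n F q} (hg : g ∈ (Mono b : Subgroup (SU n F q))) :
    ∃ σ : Equiv.Perm (Fin t), ∀ i, ∀ v ∈ Dk q b e i, act g v ∈ Dk q b e (σ i) := by
  classical
  subst hk
  choose π c hc hπ using hg
  have he : ∀ r s : Fin n, (e r).1 = (e s).1 → r = s := by
    intro r s h
    exact e.injective (Prod.ext h (Subsingleton.elim _ _))
  obtain ⟨s, hs⟩ : ∃ s : Fin t → Fin t, ∀ p, s (e p).1 = (e (π p)).1 := by
    refine ⟨fun i => (e (π (e.symm (i, 0)))).1, fun p => ?_⟩
    have : e.symm ((e p).1, 0) = p := by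
      apply he
      rw [Equiv.apply_symm_apply]
    simp only [this]
  have hsurj : Function.Surjective s := by
    intro j
    by_contra hcon
    push Not at hcon
    obtain ⟨m, hm⟩ : ∃ m, m = e.symm (j, 0) := ⟨_, rfl⟩
    have hmj : (e m).1 = j := by rw [hm, Equiv.apply_symm_apply]
    apply IsON.ne_zero hb m
    apply IsON.ext hF (IsON.act hb g)
    intro r
    rw [hermForm_zero_left]
    change hermForm n F q (b m) (act g (b r)) = 0
    rw [hπ, hermForm_smul_right, IsON.ne hb, mul_zero]
    rintro rfl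
    exact hcon (e r).1 (by rw [hs, hmj])
  refine ⟨Equiv.ofBijective s (Finite.injective_iff_bijective.1
    (Finite.injective_iff_surjective.2 hsurj)), fun i v hv => ?_⟩
  rw [Equiv.ofBijective_apply]
  rw [← IsON.sum_eq hF hb v, act_sum]
  refine Submodule.sum_mem _ fun r _ => ?_
  rw [act_smul]
  by_cases hr : (e r).1 = i
  · rw [← hr, hs, hπ]
    exact Submodule.smul_mem _ _ (Submodule.smul_mem _ _ (b_mem_Dk hb _))
  · rw [hv r hr, zero_smul]; exact Submodule.zero_mem _

/-- **Stabilisers of nondegenerate decompositions are maximal in the special unitary group**,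
`n ≥ 10`. -/
theorem decomposition_maximal (hF : Fintype.card F = q ^ 2) (hn : 10 ≤ n)
    (D : Fin t → Submodule F (Fin n → F))
    (hD : IsNondegenerateMDecomposition (hermForm n F q) k D) (hex : ¬ (k = 2 ∧ q = 2)) :
    IsMaximalIn (SG n F q) (decompositionStabilizer D ⊓ SG n F q) := by
  classical
  obtain ⟨b, e, hb, hDk⟩ := exists_frame hF hD
  have hcard := card_mul hD.decomp
  refine USub.isMaximalIn_of_su inf_le_right (fun hle =>
    UCase.not_le_decompositionStabilizer hF (by omega) (by omega) D hD.decomp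
      (hle.trans inf_le_left)) fun M hM hne => ?_
  have hstab : ∀ g : SU n F q, (∃ σ : Equiv.Perm (Fin t), ∀ i, ∀ v ∈ Dk q b e i,
      act g v ∈ Dk q b e (σ i)) → g ∈ (decompositionStabilizer D ⊓ SG n F q).comap (suHom n F q) := by
    rintro g ⟨σ, hσ⟩
    rw [mem_comap_dec hD.decomp]
    exact ⟨σ, fun i v hv => by rw [hDk] at hv ⊢; exact hσ i v hv⟩
  by_cases hk : 2 ≤ k
  · have hdec : Dec M b e := ⟨hb, fun g hg => hM (hstab g hg)⟩
    refine hdec.maximal hF hk hn hex ?_ (by have := hD.decomp.two_le; omega) ?_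
    · by_contra hcon
      push Not at hcon
      have h1 : t * k ≤ 2 * 2 := Nat.mul_le_mul (by omega) (by omega)
      omega
    · by_contra hcon
      push Not at hcon
      exact hne (le_antisymm (fun g hg => hstab g (hcon g hg)) hM)
  · have hk1 : k = 1 := by have := hD.decomp.pos; omega
    have hmono : Mono b ≤ (decompositionStabilizer D ⊓ SG n F q).comap (suHom n F q) :=
      fun g hg => hstab g (mono_perm hF hb hk1 hg)
    exact mono_maximal hF hn hb (hmono.trans hM) fun h => hne (le_antisymm (by rw [h]; exact hmono) hM)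

end Cfsg.Agent.H98.UF
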