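import Mathlib
import Cfsg.Agent.H98.UFT

set_option autoImplicit false
set_option linter.unusedSectionVars false
set_option linter.unusedVariables false
set_option linter.style.haveILetI false
set_option maxHeartbeats 1000000

/-!
Stabilisers of decompositions into blocks of dimension at least two, small dimensions.
-/

namespace Cfsg.Agent.H98.UF

open scoped Matrix
open Cfsg.Geo
open Cfsg.Agent.Uni Module
open Cfsg.Agent.USub (XT xt_smul xt_pair xt_conj xt_zero)
open Cfsg.Agent.UCase (SG suHom suHom_mem suHom_mulVec)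

variable {F : Type*} [Field F] [Fintype F] {q n t k : ℕ}

section
variable {b : Fin n → Fin n → F} {e : Fin n ≃ Fin t × Fin k} {M : Subgroup (SU n F q)}

theorem Dec.all_pairs (hF : Fintype.card F = q ^ 2) (h : Dec M b e) (hk : 2 ≤ k)
    (hkt : 3 ≤ k ∨ 3 ≤ t) {i j : Fin t} (hij : i ≠ j) {z₁ z₂ : Fin n → F}
    (hz₁ : z₁ ∈ Dk q b e i) (hz₂ : z₂ ∈ Dk q b e j) (hz₁0 : z₁ ≠ 0) (hz₂0 : z₂ ≠ 0)
    (hzz₁ : hermForm n F q z₁ z₁ = 0) (hzz₂ : hermForm n F q z₂ z₂ = 0) (hz : z₁ + z₂ ∈ XT M)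
    {x y : Fin n → F} (hx : x ∈ Dk q b e i) (hy : y ∈ Dk q b e j) (hx0 : x ≠ 0) (hy0 : y ≠ 0)
    (hxx : hermForm n F q x x = 0) (hyy : hermForm n F q y y = 0) : x + y ∈ XT M := by
  obtain ⟨g₁, hg₁, e₁, f₁⟩ := h.move hF (by omega) hkt hij hz₁ hx hz₁0 hx0 (by rw [hzz₁, hxx])
  obtain ⟨g₂, hg₂, e₂, f₂⟩ := h.move hF (by omega) hkt (Ne.symm hij) hz₂ hy hz₂0 hy0
    (by rw [hzz₂, hyy])
  have h1 := xt_conj (xt_conj hz hg₁) hg₂
  rwa [act_add, e₁, f₁ z₂ hz₂, act_add, f₂ x hx, e₂] at h1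

/-- Decompositions into blocks of dimension at least two, all dimensions. -/
theorem Dec.maximal' (hF : Fintype.card F = q ^ 2) (h : Dec M b e) (hk : 2 ≤ k) (hn : 5 ≤ n)
    (hcard : n = t * k) (hex : ¬ (k = 2 ∧ q = 2)) (hkt : 3 ≤ k ∨ 3 ≤ t) (ht : 0 < t)
    (hne : ∃ g ∈ M, ¬ ∃ σ : Equiv.Perm (Fin t), ∀ i, ∀ v ∈ Dk q b e i,
      act g v ∈ Dk q b e (σ i)) : M = ⊤ := by
  classical
  have hb := h.on
  obtain ⟨v, hv, hvn⟩ : ∃ v ∈ XT M, ∀ i, v ∉ Dk q b e i := by
    by_contra hcon
    push Not at hcon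
    obtain ⟨g, hg, hgn⟩ := hne
    exact hgn (h.claimA hF hk hcon hg)
  obtain ⟨m, m', hmm, hm, hm'⟩ := exists_comp hF hb ht hvn
  have hq := two_le_q hF
  by_cases hq3 : 3 ≤ q
  · obtain ⟨i, j, hij, z₁, hz₁, z₂, hz₂, hz₁0, hz₂0, hzz₁, hzz₂, hz⟩ :=
      h.step1 hF hq3 hk hv hmm hm hm'
    obtain ⟨w₁, hw₁, w₂, hw₂, hw₁0, hw⟩ := h.step2 hF hk hkt hij hz₁ hz₂ hz₁0 hz₂0 hzz₁ hzz₂ hz
    exact USub.top_of_xt hF (by omega) (by omega) fun v hv =>
      all_iso hF hq3 hb (fun p r hpr x y hxy => h.step3 hF hk hkt hij hw₁ hw₂ hw₁0 hw hpr hxy)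
        _ v hv le_rfl
  · obtain rfl : q = 2 := by omega
    have hk3 : 3 ≤ k := by
      by_contra hlt
      exact hex ⟨by omega, rfl⟩
    obtain ⟨i, j, hij, z₁, hz₁, z₂, hz₂, hz₁0, hz₂0, hzz₁, hzz₂, hz⟩ :=
      h.step1' hF hk3 hv hmm hm hm'
    obtain ⟨w₁, hw₁, w₂, hw₂, hw₁0, hw⟩ := h.step2 hF hk hkt hij hz₁ hz₂ hz₁0 hz₂0 hzz₁ hzz₂ hz
    have hMono := h.mono_le hF fun p r hpr x y hxy => h.step3 hF hk hkt hij hw₁ hw₂ hw₁0 hw hpr hxy
    obtain ⟨ω, h4⟩ := exists_F4 hF
    -- six indices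
    obtain ⟨p, hp⟩ : ∃ p : Fin 3 → Fin n, ∀ a, p a = e.symm (i, ⟨a, by omega⟩) :=
      ⟨_, fun _ => rfl⟩
    obtain ⟨r, hr⟩ : ∃ r : Fin 3 → Fin n, ∀ a, r a = e.symm (j, ⟨a, by omega⟩) :=
      ⟨_, fun _ => rfl⟩
    have hpD : ∀ a, b (p a) ∈ Dk 2 b e i := by
      intro a; apply b_mem_Dk' hb; rw [hp, Equiv.apply_symm_apply]
    have hrD : ∀ a, b (r a) ∈ Dk 2 b e j := by
      intro a; apply b_mem_Dk' hb; rw [hr, Equiv.apply_symm_apply]
    have hpne : ∀ {a a' : Fin 3}, a ≠ a' → p a ≠ p a' := by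
      intro a a' haa h'
      rw [hp, hp] at h'
      have := congrArg e h'
      rw [Equiv.apply_symm_apply, Equiv.apply_symm_apply, Prod.mk.injEq] at this
      have h9 : (a : ℕ) = (a' : ℕ) := congrArg (fun x : Fin k => (x : ℕ)) this.2
      exact haa (Fin.ext h9)
    have hrne : ∀ {a a' : Fin 3}, a ≠ a' → r a ≠ r a' := by
      intro a a' haa h'
      rw [hr, hr] at h'
      have := congrArg e h'
      rw [Equiv.apply_symm_apply, Equiv.apply_symm_apply, Prod.mk.injEq] at this
      have h9 : (a : ℕ) = (a' : ℕ) := congrArg (fun x : Fin k => (x : ℕ)) this.2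
      exact haa (Fin.ext h9)
    have hpr : ∀ a a' : Fin 3, p a ≠ r a' := by
      intro a a' h'
      rw [hp, hr] at h'
      have := congrArg e h'
      rw [Equiv.apply_symm_apply, Equiv.apply_symm_apply, Prod.mk.injEq] at this
      exact hij this.1
    have hiso : ∀ s s' : Fin n, s ≠ s' → hermForm n F 2 (b s + b s') (b s + b s') = 0 := by
      intro s s' hs
      have h1 := form_two hF hb hs 1 1
      rw [one_smul, one_smul] at h1
      rw [h1, one_pow]
      linear_combination h4.two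
    have hnz : ∀ s s' : Fin n, s ≠ s' → b s + b s' ≠ 0 := by
      intro s s' hs h0
      have h1 : hermForm n F 2 (b s + b s') (b s) = 1 := by
        rw [hermForm_add_left, IsON.self hb, IsON.ne hb (Ne.symm hs), add_zero]
      rw [h0, hermForm_zero_left] at h1
      exact zero_ne_one h1
    have p01 := hpne (show (0 : Fin 3) ≠ 1 by decide)
    have p02 := hpne (show (0 : Fin 3) ≠ 2 by decide)
    have p12 := hpne (show (1 : Fin 3) ≠ 2 by decide)
    have r01 := hrne (show (0 : Fin 3) ≠ 1 by decide)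
    have hE := h.all_pairs hF hk hkt hij hz₁ hz₂ hz₁0 hz₂0 hzz₁ hzz₂ hz
      (Submodule.add_mem _ (hpD 0) (hpD 1)) (Submodule.add_mem _ (hrD 0) (hrD 1))
      (hnz _ _ p01) (hnz _ _ r01) (hiso _ _ p01) (hiso _ _ r01)
    obtain ⟨E, hEe⟩ : ∃ E, E = b (p 0) + b (p 1) + (b (r 0) + b (r 1)) := ⟨_, rfl⟩
    rw [← hEe] at hE
    have hl : hermForm n F 2 E (b (p 2)) = 0 := by
      rw [hEe, hermForm_add_left, hermForm_add_left, hermForm_add_left, IsON.ne hb p02,
        IsON.ne hb p12, IsON.ne hb (Ne.symm (hpr 2 0)), IsON.ne hb (Ne.symm (hpr 2 1))]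
      ring
    have hsp : sp 2 b E = {p 0, p 1, r 0, r 1} := by
      ext s
      rw [mem_sp]
      simp only [Finset.mem_insert, Finset.mem_singleton]
      rw [hEe, hermForm_add_left, hermForm_add_left, hermForm_add_left, hb, hb, hb, hb]
      by_cases s0 : p 0 = s
      · rw [if_pos s0, if_neg (by rw [← s0]; exact Ne.symm p01),
          if_neg (by rw [← s0]; exact Ne.symm (hpr 0 0)), if_neg (by rw [← s0]; exact Ne.symm (hpr 0 1))]
        simp [s0]
      · by_cases s1 : p 1 = s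
        · rw [if_pos s1, if_neg s0,
            if_neg (by rw [← s1]; exact Ne.symm (hpr 1 0)),
            if_neg (by rw [← s1]; exact Ne.symm (hpr 1 1))]
          simp [s1]
        · by_cases s2 : r 0 = s
          · rw [if_pos s2, if_neg s0, if_neg s1, if_neg (by rw [← s2]; exact Ne.symm r01)]
            simp [s2]
          · by_cases s3 : r 1 = s
            · rw [if_pos s3, if_neg s0, if_neg s1, if_neg s2]
              simp [s3]
            · rw [if_neg s0, if_neg s1, if_neg s2, if_neg s3]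
              constructor
              · intro h0; exact absurd (by ring) h0
              · rintro (h | h | h | h)
                · exact absurd h.symm s0
                · exact absurd h.symm s1
                · exact absurd h.symm s2
                · exact absurd h.symm s3
    have hcard4 : (sp 2 b E).card = 4 := by
      rw [hsp]
      rw [Finset.card_insert_of_notMem, Finset.card_insert_of_notMem, Finset.card_insert_of_notMem,
        Finset.card_singleton]
      · simpa using r01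
      · simp only [Finset.mem_insert, Finset.mem_singleton, not_or]
        exact ⟨hpr 1 0, hpr 1 1⟩
      · simp only [Finset.mem_insert, Finset.mem_singleton, not_or]
        exact ⟨p01, hpr 0 0, hpr 0 1⟩
    have hfour : ∀ v, (sp 2 b v).card = 4 → v ∈ XT M := by
      intro v hv
      exact good_all hF h4 hb hMono _ (sp 2 b E) (sp 2 b v) (by omega) rfl
        (fun w hw => good_self hF h4 hb hMono hE hl hw) v rfl
    exact USub.top_of_xt hF (by omega) (by omega) fun v hv =>
      all_two hF h4 hb hMono hfour _ v hv le_rfl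

end

/-- **Stabilisers of nondegenerate decompositions are maximal in the special unitary group**,
blocks of dimension at least two, `n ≥ 5`. -/
theorem decomposition_maximal_two (hF : Fintype.card F = q ^ 2) (hn : 5 ≤ n) (hk : 2 ≤ k)
    (D : Fin t → Submodule F (Fin n → F))
    (hD : IsNondegenerateMDecomposition (hermForm n F q) k D) (hex : ¬ (k = 2 ∧ q = 2)) :
    IsMaximalIn (SG n F q) (decompositionStabilizer D ⊓ SG n F q) := by
  classical
  obtain ⟨b, e, hb, hDk⟩ := exists_frame hF hD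
  have hcard := card_mul hD.decomp
  refine USub.isMaximalIn_of_su inf_le_right (fun hle =>
    UCase.not_le_decompositionStabilizer hF (by omega) (by omega) D hD.decomp
      (hle.trans inf_le_left)) fun M hM hne => ?_
  have hstab : ∀ g : SU n F q, (∃ σ : Equiv.Perm (Fin t), ∀ i, ∀ v ∈ Dk q b e i,
      act g v ∈ Dk q b e (σ i)) → g ∈ (decompositionStabilizer D ⊓ SG n F q).comap (suHom n F q) := by
    rintro g ⟨σ, hσ⟩
    rw [mem_comap_dec hD.decomp]
    exact ⟨σ, fun i v hv => by rw [hDk] at hv ⊢; exact hσ i v hv⟩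
  have hdec : Dec M b e := ⟨hb, fun g hg => hM (hstab g hg)⟩
  refine hdec.maximal' hF hk hn hcard hex ?_ (by have := hD.decomp.two_le; omega) ?_
  · by_contra hcon
    push Not at hcon
    have h1 : t * k ≤ 2 * 2 := Nat.mul_le_mul (by omega) (by omega)
    omega
  · by_contra hcon
    push Not at hcon
    exact hne (le_antisymm (fun g hg => hstab g (hcon g hg)) hM)

end Cfsg.Agent.H98.UF
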