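import Mathlib
import Cfsg.Agent.H98.UFN

set_option autoImplicit false
set_option linter.unusedSectionVars false
set_option linter.unusedVariables false
set_option linter.style.haveILetI false
set_option maxHeartbeats 1000000

/-!
Characteristic two, `q ≥ 4`: frames with monomial point stabilisers do not exist, `n ≥ 6`.
-/

namespace Cfsg.Agent.H98.UF

open scoped Matrix
open Cfsg.Agent.Uni Module
open Cfsg.Agent.USub (XT xt_smul xt_pair xt_conj xt_zero)

variable {F : Type*} [Field F] [Fintype F] {q n : ℕ}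

/-- No frames with monomial point stabilisers (`q ≥ 4` even), `n ≥ 6`. -/
theorem Frm.false_even6 (hF : Fintype.card F = q ^ 2) (hq : 3 ≤ q) (h2 : (2 : F) = 0) (hn : 6 ≤ n)
    {M : Subgroup (SU n F q)} {b : Fin n → Fin n → F} (h : Frm M b) {g : SU n F q} (hg : g ∈ M)
    (hgn : g ∉ (Mono b : Subgroup (SU n F q))) : False := by
  classical
  have hb := h.on
  have h' := h.act hg
  have hb' := h'.on
  have h1n : (1 : F) ^ (q + 1) = 1 := one_pow _
  -- indices
  obtain ⟨T, -, hT⟩ := Finset.exists_subset_card_eq (s := (Finset.univ : Finset (Fin n))) (n := 4)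
    (by rw [Finset.card_univ, Fintype.card_fin]; omega)
  obtain ⟨i, j, k, m, hij, hik, him, hjk, hjm, hkm, -⟩ : ∃ i j k m : Fin n, i ≠ j ∧ i ≠ k ∧ i ≠ m ∧
      j ≠ k ∧ j ≠ m ∧ k ≠ m ∧ True := by
    refine ⟨⟨0, by omega⟩, ⟨1, by omega⟩, ⟨2, by omega⟩, ⟨3, by omega⟩, ?_, ?_, ?_, ?_, ?_, ?_,
      trivial⟩ <;> · rw [Ne, Fin.mk.injEq]; omega
  obtain ⟨u, hu⟩ := exists_sw hF hb h2 hij h1n
  obtain ⟨v₁, hv₁⟩ := exists_sw hF hb' h2 hij h1n
  obtain ⟨v₂, hv₂⟩ := exists_sw hF hb' h2 hkm h1n
  obtain ⟨c₁, hc₁⟩ : ∃ c, c = Uni.act g (b i) + (1 : F) • Uni.act g (b j) := ⟨_, rfl⟩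
  obtain ⟨c₂, hc₂⟩ : ∃ c, c = Uni.act g (b k) + (1 : F) • Uni.act g (b m) := ⟨_, rfl⟩
  have hv₁' : ∀ x, Uni.act v₁ x = x + hermForm n F q x c₁ • c₁ := fun x => by rw [hv₁, hc₁]
  have hv₂' : ∀ x, Uni.act v₂ x = x + hermForm n F q x c₂ • c₂ := fun x => by rw [hv₂, hc₂]
  have hgne : ∀ {x y : Fin n}, x ≠ y → hermForm n F q (Uni.act g (b x)) (Uni.act g (b y)) = 0 :=
    fun h => IsON.ne hb' h
  have hgs : ∀ x : Fin n, hermForm n F q (Uni.act g (b x)) (Uni.act g (b x)) = 1 :=
    fun x => IsON.self hb' x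
  have h12 : hermForm n F q c₁ c₂ = 0 := by
    rw [hc₁, hc₂, hermForm_add_left, hermForm_add_right hF, hermForm_add_right hF,
      hermForm_smul_left, hermForm_smul_left, hermForm_smul_right, hermForm_smul_right,
      hgne hik, hgne him, hgne hjk, hgne hjm]; ring
  have h21 : hermForm n F q c₂ c₁ = 0 := (hermForm_eq_zero_comm hF).1 h12
  obtain ⟨v, hv⟩ : ∃ v, v = v₁ * v₂ := ⟨_, rfl⟩
  have hvx : ∀ x, Uni.act v x = x + hermForm n F q x c₁ • c₁ + hermForm n F q x c₂ • c₂ := by
    intro x
    rw [hv, act_mul, hv₂', hv₁', hermForm_add_left, hermForm_smul_left, h21, mul_zero, add_zero]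
    abel
  have huu := hu.sq hF hb h2 hij h1n
  have hv₁s := hv₁.sq hF hb' h2 hij h1n
  have hv₂s := hv₂.sq hF hb' h2 hkm h1n
  have hcomm : v₁ * v₂ = v₂ * v₁ := by
    apply Uni.act_ext
    intro x
    rw [act_mul, act_mul, hv₂', hv₁', hv₁', hv₂', hermForm_add_left, hermForm_smul_left, h21,
      hermForm_add_left, hermForm_smul_left, h12]
    simp only [mul_zero, add_zero]
    abel
  have hvv : v * v = 1 := by
    rw [hv]
    calc v₁ * v₂ * (v₁ * v₂) = v₁ * (v₂ * v₁) * v₂ := by group
      _ = v₁ * (v₁ * v₂) * v₂ := by rw [hcomm]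
      _ = (v₁ * v₁) * (v₂ * v₂) := by group
      _ = 1 := by rw [hv₁s, hv₂s, one_mul]
  have hvM' : v ∈ (Mono (fun i => Uni.act g (b i)) : Subgroup (SU n F q)) := by
    rw [hv]
    exact (Mono _).mul_mem (hv₁.mem hF hb' h2 hij h1n) (hv₂.mem hF hb' h2 hkm h1n)
  have huM' := hu.mem hF hb h2 hij h1n
  obtain ⟨e₀, he₀⟩ := exists_notMem (S := {i, j, k, m}) (by
    have : ({i, j, k, m} : Finset (Fin n)).card ≤ 4 := Finset.card_le_four
    omega)
  simp only [Finset.mem_insert, Finset.mem_singleton, not_or] at he₀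
  have hve₀ : Uni.act v (Uni.act g (b e₀)) = Uni.act g (b e₀) := by
    rw [hvx, hc₁, hc₂, hermForm_add_right hF, hermForm_add_right hF, hermForm_smul_right,
      hermForm_smul_right, hgne he₀.1, hgne he₀.2.1, hgne he₀.2.2.1, hgne he₀.2.2.2]
    simp
  obtain ⟨c, hc⟩ : ∃ c, c = b i + (1 : F) • b j := ⟨_, rfl⟩
  have hux : ∀ x, Uni.act u x = x + hermForm n F q x c • c := fun x => by rw [hu, hc]
  have hvgi : Uni.act v (Uni.act g (b i)) = Uni.act g (b i) + c₁ := by
    have e1 : hermForm n F q (Uni.act g (b i)) c₁ = 1 := by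
      rw [hc₁, hermForm_add_right hF, hermForm_smul_right, hgs, hgne hij]; ring
    have e2 : hermForm n F q (Uni.act g (b i)) c₂ = 0 := by
      rw [hc₂, hermForm_add_right hF, hermForm_smul_right, hgne hik, hgne him]; ring
    rw [hvx, e1, e2, one_smul, zero_smul, add_zero]
  have hvgk : Uni.act v (Uni.act g (b k)) = Uni.act g (b k) + c₂ := by
    have e1 : hermForm n F q (Uni.act g (b k)) c₁ = 0 := by
      rw [hc₁, hermForm_add_right hF, hermForm_smul_right, hgne (Ne.symm hik),
        hgne (Ne.symm hjk)]; ring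
    have e2 : hermForm n F q (Uni.act g (b k)) c₂ = 1 := by
      rw [hc₂, hermForm_add_right hF, hermForm_smul_right, hgs, hgne hkm]; ring
    rw [hvx, e1, e2, one_smul, zero_smul, add_zero]
  have hc₁i : hermForm n F q c₁ (Uni.act g (b i)) = 1 := by
    rw [hc₁, hermForm_add_left, hermForm_smul_left, hgs, hgne (Ne.symm hij)]; ring
  have hc₂i : hermForm n F q c₂ (Uni.act g (b i)) = 0 := by
    rw [hc₂, hermForm_add_left, hermForm_smul_left, hgne (Ne.symm hik), hgne (Ne.symm him)]; ring
  have hc₂k : hermForm n F q c₂ (Uni.act g (b k)) = 1 := by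
    rw [hc₂, hermForm_add_left, hermForm_smul_left, hgs, hgne (Ne.symm hkm)]; ring
  have hv1 : v ≠ 1 := by
    intro h0
    rw [h0, act_one] at hvgk
    have : c₂ = 0 := by
      have := hvgk
      rwa [eq_comm, add_eq_left] at this
    rw [this, hermForm_zero_left] at hc₂k
    exact zero_ne_one hc₂k
  have hnc : u * v ≠ v * u := by
    intro huv
    have hvM := h'.mono hvM'
    have hvb : v ∈ (Mono b : Subgroup (SU n F q)) := by
      by_contra hvb
      refine h.swap_unique hF hq h2 hn hvM hvb hij h1n hu ?_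
      rw [mem_Mono_act]
      have : v⁻¹ * u * v = u := by rw [mul_assoc, huv, inv_mul_cancel_left]
      rw [this]; exact huM'
    refine h'.inv_unique hF hq h2 hn (M.inv_mem hg) (fun hgi => hgn ?_) (z := v) ?_ hvv hv1
      (e := e₀) ?_
    · have h3 := (Mono _).inv_mem hgi
      rw [inv_inv, mem_Mono_act, inv_mul_cancel, one_mul] at h3
      exact h3
    · have e3 : (fun i => Uni.act g⁻¹ (Uni.act g (b i))) = b := by
        funext i; rw [act_inv_act]
      rw [e3]; exact hvb
    · exact hve₀
  -- the order is even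
  have hev : Even (orderOf (u * v)) := by
    by_contra hodd
    rw [Nat.not_even_iff_odd] at hodd
    obtain ⟨f, -, hf⟩ := odd_conj huu hvv hodd
    have hvf : ∀ x, Uni.act v x = x + hermForm n F q x (Uni.act f c) • Uni.act f c := by
      intro x
      rw [← hf, act_mul, act_mul, hu, ← hc, act_add, act_act_inv, act_smul, ← act_form f,
        act_act_inv]
    have e1 := hvf (Uni.act g (b i))
    have e2 := hvf (Uni.act g (b k))
    rw [hvgi] at e1
    rw [hvgk] at e2
    have e3 := add_left_cancel e1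
    have e4 := add_left_cancel e2
    obtain ⟨α, hα⟩ : ∃ α, α = hermForm n F q (Uni.act g (b i)) (Uni.act f c) := ⟨_, rfl⟩
    obtain ⟨β, hβ⟩ : ∃ β, β = hermForm n F q (Uni.act g (b k)) (Uni.act f c) := ⟨_, rfl⟩
    rw [← hα] at e3
    rw [← hβ] at e4
    rw [e3, hermForm_smul_left] at hc₁i
    rw [e4, hermForm_smul_left] at hc₂i
    have hβ0 : β = 0 := by
      rcases mul_eq_zero.1 hc₂i with h5 | h5
      · exact h5
      · rw [h5, mul_zero] at hc₁i; exact absurd hc₁i zero_ne_one
    rw [e4, hβ0, zero_smul, hermForm_zero_left] at hc₂k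
    exact zero_ne_one hc₂k
  obtain ⟨z, hz, hz1, hzz, hzu, hzv⟩ := even_inv huu hvv hev
  have hzM : z ∈ M := by
    have : Subgroup.zpowers (u * v) ≤ M := by
      rw [Subgroup.zpowers_le]
      exact M.mul_mem (h.mono huM') (h'.mono hvM')
    exact this hz
  have hzi : z⁻¹ = z := inv_eq_of_mul_eq_one_left hzz
  have hzb : z ∈ (Mono b : Subgroup (SU n F q)) := by
    by_contra hzb
    refine h.swap_unique hF hq h2 (by omega) hzM hzb hij h1n hu ?_
    rw [mem_Mono_act]
    have : z⁻¹ * u * z = u := by rw [mul_assoc, ← hzu, inv_mul_cancel_left]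
    rw [this]; exact huM'
  have hzb' : z ∈ (Mono (fun i => Uni.act g (b i)) : Subgroup (SU n F q)) := by
    by_contra hzb'
    obtain ⟨e, he⟩ := exists_notMem (S := {i, j, k, m}) (by
      have : ({i, j, k, m} : Finset (Fin n)).card ≤ 4 := Finset.card_le_four
      omega)
    simp only [Finset.mem_insert, Finset.mem_singleton, not_or] at he
    refine h'.inv_unique hF hq h2 (by omega) hzM hzb' (z := v) ?_ hvv hv1 (e := e) ?_
    · rw [mem_Mono_act]
      have : z⁻¹ * v * z = v := by rw [mul_assoc, ← hzv, inv_mul_cancel_left]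
      rw [this]; exact hvM'
    · change Uni.act v (Uni.act g (b e)) = Uni.act g (b e)
      rw [hvx, hc₁, hc₂, hermForm_add_right hF, hermForm_add_right hF, hermForm_smul_right,
        hermForm_smul_right, hgne he.1, hgne he.2.1, hgne he.2.2.1, hgne he.2.2.2]
      simp
  -- a fixed vector
  obtain ⟨e, he⟩ : ∃ e, Uni.act z (b e) = b e := by
    by_contra hcon
    push Not at hcon
    obtain ⟨π, c', hπ, hcn, hππ, hcc⟩ := mono_data hb hzb hzz
    have hneg : ∀ z : F, -z = z := fun z => by linear_combination -z * h2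
    have hπne : ∀ e, π e ≠ e := by
      intro e he
      apply hcon e
      have h3 := hcc e
      rw [he] at h3
      rw [hπ, he]
      rcases mul_self_eq_one_iff.1 h3 with h4 | h4
      · rw [h4, one_smul]
      · rw [h4, hneg, one_smul]
    obtain ⟨S, hS⟩ : ∃ S : Finset (Fin n), S = Finset.univ.filter fun i => i < π i := ⟨_, rfl⟩
    have hSm : ∀ i, i ∈ S ↔ i < π i := fun i => by rw [hS]; simp
    have hπi : Function.Injective π := fun x y hxy => by rw [← hππ x, hxy, hππ]
    have h2S : 2 * S.card ≤ n := by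
      have hd : Disjoint S (S.image π) := by
        rw [Finset.disjoint_left]
        intro x hx hx'
        obtain ⟨y, hy, rfl⟩ := Finset.mem_image.1 hx'
        rw [hSm] at hx hy
        rw [hππ] at hx
        exact lt_asymm hx hy
      have h3 := Finset.card_union_of_disjoint hd
      rw [Finset.card_image_of_injective _ hπi] at h3
      have h4 := Finset.card_le_univ (S ∪ S.image π)
      rw [Fintype.card_fin] at h4
      omega
    obtain ⟨K, hK⟩ : ∃ K : Submodule F (Fin n → F), K = LinearMap.ker (actL z - LinearMap.id) :=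
      ⟨_, rfl⟩
    have hKm : ∀ x, x ∈ K ↔ Uni.act z x = x := by
      intro x
      rw [hK, LinearMap.mem_ker, LinearMap.sub_apply, LinearMap.id_apply, sub_eq_zero]
      rfl
    have hKle : Module.finrank F K ≤ S.card := by
      let Φ : K →ₗ[F] (S → F) :=
        { toFun := fun x l => hermForm n F q x (b l)
          map_add' := fun x y => by funext l; exact hermForm_add_left _ _ _
          map_smul' := fun a x => by funext l; exact hermForm_smul_left _ _ _ }
      have hΦ : Function.Injective Φ := by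
        rw [← LinearMap.ker_eq_bot, LinearMap.ker_eq_bot']
        intro x hx
        have hx0 : ∀ l ∈ S, hermForm n F q (x : Fin n → F) (b l) = 0 := fun l hl =>
          congrFun hx ⟨l, hl⟩
        apply Subtype.ext
        apply IsON.ext hF hb
        intro l
        change hermForm n F q (x : Fin n → F) (b l) = hermForm n F q 0 (b l)
        rw [hermForm_zero_left]
        by_cases hl : l ∈ S
        · exact hx0 l hl
        · have hl' : π l ∈ S := by
            rw [hSm, hππ]
            rw [hSm, not_lt] at hl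
            exact lt_of_le_of_ne hl (hπne l)
          have e5 := act_form z (x : Fin n → F) (b l)
          rw [(hKm x).1 x.2, hπ, hermForm_smul_right, hx0 _ hl', mul_zero] at e5
          exact e5.symm
      have := LinearMap.finrank_le_finrank_of_injective hΦ
      rwa [Module.finrank_fintype_fun_eq_card, Fintype.card_coe] at this
    obtain ⟨P, hP⟩ : ∃ P : Submodule F (Fin n → F), P = perp q (Submodule.span F {c, c₁, c₂}) :=
      ⟨_, rfl⟩
    have hPm : ∀ x, x ∈ P ↔ hermForm n F q x c = 0 ∧ hermForm n F q x c₁ = 0 ∧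
        hermForm n F q x c₂ = 0 := by
      intro x
      rw [hP, mem_perp_span hF]
      simp
    have hPK : P ≤ K := by
      intro x hx
      rw [hPm] at hx
      rw [hKm]
      apply zpowers_fix hz
      rw [act_mul, hvx, hx.2.1, hx.2.2, zero_smul, zero_smul, add_zero, add_zero, hux, hx.1,
        zero_smul, add_zero]
    have hPge : n ≤ Module.finrank F P + 3 := by
      have h3 := finrank_perp hF (Submodule.span F ({c, c₁, c₂} : Set (Fin n → F)))
      rw [← hP] at h3
      have h4 : Module.finrank F (Submodule.span F ({c, c₁, c₂} : Set (Fin n → F))) ≤ 3 := by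
        have h5 := finrank_span_finset_le_card (R := F) ({c, c₁, c₂} : Finset (Fin n → F))
        rw [Set.finrank] at h5
        have h6 : (({c, c₁, c₂} : Finset (Fin n → F)) : Set (Fin n → F)) = {c, c₁, c₂} := by simp
        rw [h6] at h5
        exact h5.trans Finset.card_le_three
      omega
    have hPK' := Submodule.finrank_mono hPK
    have hEq : P = K := Submodule.eq_of_le_of_finrank_le hPK (by omega)
    have hcne : hermForm n F q (b i) c = 1 := by
      rw [hc, hermForm_add_right hF, hermForm_smul_right, IsON.self hb, IsON.ne hb hij]; ring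
    have hcK : c ∈ K := by
      rw [hKm]
      have h3 : Uni.act (z * u) (b i) = Uni.act (u * z) (b i) := by rw [hzu]
      rw [act_mul, act_mul, hux, hux, hcne, one_smul, act_add] at h3
      obtain ⟨κ, hκ⟩ : ∃ κ, κ = hermForm n F q (Uni.act z (b i)) c := ⟨_, rfl⟩
      rw [← hκ] at h3
      have h4 : Uni.act z c = κ • c := add_left_cancel h3
      have hc0 : c ≠ 0 := by
        intro h0
        rw [h0, hermForm_zero_right hF] at hcne
        exact zero_ne_one hcne
      have h5 : (κ * κ) • c = c := by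
        rw [mul_smul, ← h4, ← act_smul, ← h4, ← act_mul, hzz, act_one]
      have h6 : (κ * κ - 1) • c = 0 := by rw [sub_smul, h5, one_smul, sub_self]
      have h7 : κ * κ = 1 := sub_eq_zero.1 ((smul_eq_zero.1 h6).resolve_right hc0)
      rcases mul_self_eq_one_iff.1 h7 with h8 | h8
      · rw [h4, h8, one_smul]
      · rw [h4, h8, hneg, one_smul]
    rw [← hEq, hPm] at hcK
    have hc1 := (hermForm_eq_zero_comm hF).1 hcK.2.1
    have hc2 := (hermForm_eq_zero_comm hF).1 hcK.2.2
    apply hnc
    apply Uni.act_ext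
    intro x
    rw [act_mul, act_mul, hvx, hux, hux, hvx, hermForm_add_left, hermForm_add_left,
      hermForm_add_left, hermForm_add_left, hermForm_smul_left, hermForm_smul_left,
      hermForm_smul_left, hermForm_smul_left, hc1, hc2, hcK.2.1, hcK.2.2]
    simp only [mul_zero, add_zero]
    abel
  exact h.inv_unique hF hq h2 (by omega) hg hgn hzb' hzz hz1 he


end Cfsg.Agent.H98.UF
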