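import Mathlib
import Cfsg.Agent.H98.UFG
import Cfsg.Agent.H98.UFM

set_option autoImplicit false
set_option linter.unusedSectionVars false
set_option linter.unusedVariables false
set_option linter.unusedSimpArgs false
set_option linter.style.haveILetI false
set_option maxHeartbeats 1000000

/-!
Odd characteristic, `n = 6`: frames with monomial point stabilisers. Basic facts.
-/

namespace Cfsg.Agent.H98.UF

open scoped Matrix
open Cfsg.Agent.Uni Module
open Cfsg.Agent.USub (XT xt_smul xt_pair xt_conj xt_zero)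

variable {F : Type*} [Field F] [Fintype F] {q n : ℕ}

/-- The determinant of a monomial element. -/
theorem mono_det (hF : Fintype.card F = q ^ 2) {b : Fin n → Fin n → F} (hb : IsON q b)
    {x : SU n F q} {σ : Equiv.Perm (Fin n)} {c : Fin n → F}
    (hx : ∀ i, act x (b i) = c i • b (σ i)) :
    ((Equiv.Perm.sign σ : ℤ) : F) * ∏ i, c i = 1 := by
  classical
  obtain ⟨P, hP⟩ : ∃ P : Matrix (Fin n) (Fin n) F, P = Matrix.of fun r i => b i r := ⟨_, rfl⟩
  obtain ⟨X, hX⟩ : ∃ X : Matrix (Fin n) (Fin n) F, X =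
    ((x : Matrix.SpecialLinearGroup (Fin n) F) : Matrix (Fin n) (Fin n) F) := ⟨_, rfl⟩
  obtain ⟨A, hA⟩ : ∃ A : Matrix (Fin n) (Fin n) F, A =
    ((σ⁻¹).toPEquiv.toMatrix : Matrix (Fin n) (Fin n) F) * Matrix.diagonal c := ⟨_, rfl⟩
  have hXdet : X.det = 1 := by rw [hX]; exact Matrix.SpecialLinearGroup.det_coe _
  have hmul : X * P = P * A := by
    ext r i
    have h1 : (X * P) r i = act x (b i) r := by
      rw [act_def, ← hX, hP]
      rfl
    rw [h1, hx, Matrix.mul_apply, Finset.sum_eq_single (σ i)]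
    · rw [hA, Matrix.mul_diagonal, PEquiv.toMatrix_apply, hP]
      simp [mul_comm]
    · intro l _ hl
      rw [hA, Matrix.mul_diagonal, PEquiv.toMatrix_apply]
      have : i ∉ (σ⁻¹).toPEquiv l := by
        rw [Equiv.toPEquiv_apply, Option.mem_some_iff]
        intro h
        apply hl
        rw [← h]
        simp
      rw [if_neg this]
      simp
    · intro h; exact absurd (Finset.mem_univ _) h
  have hPdet : P.det ≠ 0 := by
    have hG : P.transpose * P.map (conjHom hF) = 1 := by
      ext i j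
      have hij : (P.transpose * P.map (conjHom hF)) i j = hermForm n F q (b i) (b j) := by
        rw [Matrix.mul_apply, hermForm_def, hP]
        rfl
      rw [hij, hb, Matrix.one_apply]
    intro h0
    have := congrArg Matrix.det hG
    rw [Matrix.det_mul, Matrix.det_transpose, h0, zero_mul, Matrix.det_one] at this
    exact zero_ne_one this
  have hdet := congrArg Matrix.det hmul
  rw [Matrix.det_mul, Matrix.det_mul, hXdet, one_mul] at hdet
  have h1 : A.det = 1 := by
    have : P.det * A.det = P.det * 1 := by rw [mul_one, ← hdet]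
    exact mul_left_cancel₀ hPdet this
  rw [hA, Matrix.det_mul, Matrix.det_diagonal, Matrix.det_permutation, Equiv.Perm.sign_inv] at h1
  exact h1

section
variable {M : Subgroup (SU n F q)} {b b' : Fin n → Fin n → F}

/-- An element diagonal in one frame, monomial in the opposite one and fixing a line of it is
scalar. -/
theorem Opp.scalar (hF : Fintype.card F = q ^ 2) (hn : 5 ≤ n) (h : Opp M b b') {t : SU n F q}
    (ht : t ∈ (Mono b : Subgroup (SU n F q))) {α : Fin n → F}
    (hα : ∀ l, act t (b' l) = α l • b' l) {k : Fin n} {c : F}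
    (hk : act t (b k) = c • b k) : ∀ l, α l = c := by
  classical
  by_contra hcon
  push Not at hcon
  obtain ⟨l₀, hl₀⟩ := hcon
  have hb := h.l.on
  have hb' := h.r.on
  have hco := fun v l => coord_diag hF hb' hα v l
  have hz : ∀ l, α l ≠ c → hermForm n F q (b k) (b' l) = 0 := by
    intro l hl
    have h1 := hco (b k) l
    rw [hk, hermForm_smul_left] at h1
    have h2 : (α l - c) * hermForm n F q (b k) (b' l) = 0 := by linear_combination -h1
    exact (mul_eq_zero.1 h2).resolve_left (sub_ne_zero.2 hl)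
  have hother : ∀ l, l ≠ l₀ → α l = c := by
    intro l hl
    by_contra h1
    exact h.wr k l l₀ hl (hz l h1) (hz l₀ hl₀)
  have hform : ∀ x, act t x - c • x = ((α l₀ - c) * hermForm n F q x (b' l₀)) • b' l₀ := by
    intro x
    apply IsON.ext hF hb'
    intro l
    rw [hermForm_sub_left, hermForm_smul_left, hermForm_smul_left, hco]
    by_cases hl : l = l₀
    · rw [hl, IsON.self hb']; ring
    · rw [hother l hl, IsON.ne hb' (Ne.symm hl)]; ring
  have hall : ∀ m, hermForm n F q (b m) (b' l₀) = 0 := by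
    intro m
    by_contra hm
    obtain ⟨m', d, hd, hm'⟩ := ht m
    have h1 := hform (b m)
    rw [hm'] at h1
    have hγ : (α l₀ - c) * hermForm n F q (b m) (b' l₀) ≠ 0 :=
      mul_ne_zero (sub_ne_zero.2 hl₀) hm
    obtain ⟨j₁, hj₁⟩ := exists_notMem (S := {m, m'}) (by
      have : ({m, m'} : Finset (Fin n)).card ≤ 2 := Finset.card_le_two
      omega)
    obtain ⟨j₂, hj₂⟩ := exists_notMem (S := {m, m', j₁}) (by
      have : ({m, m', j₁} : Finset (Fin n)).card ≤ 3 := Finset.card_le_three
      omega)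
    simp only [Finset.mem_insert, Finset.mem_singleton, not_or] at hj₁ hj₂
    have hz' : ∀ j, j ≠ m → j ≠ m' → hermForm n F q (b' l₀) (b j) = 0 := by
      intro j hjm hjm'
      have h2 := congrArg (fun v => hermForm n F q v (b j)) h1
      simp only [hermForm_sub_left, hermForm_smul_left, IsON.ne hb (Ne.symm hjm),
        IsON.ne hb (Ne.symm hjm'), mul_zero, sub_zero] at h2
      exact (mul_eq_zero.1 h2.symm).resolve_left hγ
    exact h.wl l₀ j₁ j₂ (Ne.symm hj₂.2.2) (hz' j₁ hj₁.1 hj₁.2) (hz' j₂ hj₂.1 hj₂.2.1)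
  exact IsON.ne_zero hb' l₀ (IsON.ext hF hb fun m => by
    rw [hermForm_zero_left]; exact (hermForm_eq_zero_comm hF).1 (hall m))

/-- An involution fixes a line of its frame, `n = 6`. -/
theorem exists_fixed_line (hF : Fintype.card F = q ^ 2) (h2 : (2 : F) ≠ 0) (hn : n = 6)
    (hb : IsON q b) {z : SU n F q} (hz : z ∈ (Mono b : Subgroup (SU n F q)))
    (hzz : z * z = 1) : ∃ k, ∃ c : F, act z (b k) = c • b k := by
  classical
  by_contra hcon
  push Not at hcon
  obtain ⟨π, c, hπ, hcn, hππ, hcc⟩ := mono_data hb hz hzz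
  have hne : ∀ i, π i ≠ i := fun i hi => hcon i (c i) (by rw [hπ, hi])
  obtain ⟨m, hm⟩ := parity hF h2 hb hπ hππ hcc hcn (fun i hi => absurd hi (hne i))
  rw [Finset.filter_true_of_mem (fun i _ => hne i), Finset.card_univ, Fintype.card_fin] at hm
  omega

/-- Elements with at most two nontrivial eigenvalues on one frame, monomial in the opposite one. -/
theorem Opp.two_eig (hF : Fintype.card F = q ^ 2) (hn : 6 ≤ n) (h : Opp M b b') {s : SU n F q}
    (hs : s ∈ (Mono b : Subgroup (SU n F q))) {x y : Fin n} (hxy : x ≠ y) {α β : F}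
    (hsx : act s (b' x) = α • b' x) (hsy : act s (b' y) = β • b' y)
    (hs1 : ∀ l, l ≠ x → l ≠ y → act s (b' l) = b' l) : s = 1 := by
  classical
  have hb := h.l.on
  have hb' := h.r.on
  obtain ⟨γ, hγx, hγy, hγ1⟩ : ∃ γ : Fin n → F, γ x = α ∧ γ y = β ∧ ∀ l, l ≠ x → l ≠ y → γ l = 1 :=
    ⟨fun l => if l = x then α else if l = y then β else 1, by simp, by simp [Ne.symm hxy],
      fun l h1 h2 => by simp [h1, h2]⟩
  have hα : ∀ l, act s (b' l) = γ l • b' l := by
    intro l
    by_cases h1 : l = x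
    · rw [h1, hγx]; exact hsx
    · by_cases h2 : l = y
      · rw [h2, hγy]; exact hsy
      · rw [hγ1 l h1 h2, one_smul]; exact hs1 l h1 h2
  by_cases hfix : ∃ k, ∃ c : F, act s (b k) = c • b k
  · obtain ⟨k, c, hk⟩ := hfix
    have hsc := h.scalar hF (by omega) hs hα hk
    obtain ⟨l, hl⟩ := exists_notMem (S := {x, y}) (by
      have : ({x, y} : Finset (Fin n)).card ≤ 2 := Finset.card_le_two
      omega)
    simp only [Finset.mem_insert, Finset.mem_singleton, not_or] at hl
    have h1 := hsc l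
    rw [hγ1 l hl.1 hl.2] at h1
    apply IsON.act_ext hF hb'
    intro m
    rw [act_one, hα m, hsc m, ← h1, one_smul]
  · exfalso
    push Not at hfix
    have hco := fun v l => coord_diag hF hb' hα v l
    have hform : ∀ v, act s v - v = ((α - 1) * hermForm n F q v (b' x)) • b' x +
        ((β - 1) * hermForm n F q v (b' y)) • b' y := by
      intro v
      apply IsON.ext hF hb'
      intro l
      rw [hermForm_sub_left, hco, hermForm_add_left, hermForm_smul_left, hermForm_smul_left]
      by_cases h1 : l = x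
      · rw [h1, IsON.self hb', IsON.ne hb' (Ne.symm hxy), hγx]; ring
      · by_cases h2 : l = y
        · rw [h2, IsON.self hb', IsON.ne hb' hxy, hγy]; ring
        · rw [IsON.ne hb' (Ne.symm h1), IsON.ne hb' (Ne.symm h2), hγ1 l h1 h2]; ring
    have hmv : ∀ m, ∃ m', m' ≠ m ∧ ∃ d : F, act s (b m) = d • b m' := by
      intro m
      obtain ⟨m', d, hd, hm'⟩ := hs m
      refine ⟨m', fun e => hfix m d (by rw [hm', e]), d, hm'⟩
    obtain ⟨m, -⟩ : ∃ m : Fin n, m = m := ⟨⟨0, by omega⟩, rfl⟩
    obtain ⟨m', hmm, d, hm'⟩ := hmv m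
    obtain ⟨p, hp⟩ := exists_notMem (S := {m, m'}) (by
      have : ({m, m'} : Finset (Fin n)).card ≤ 2 := Finset.card_le_two
      omega)
    simp only [Finset.mem_insert, Finset.mem_singleton, not_or] at hp
    obtain ⟨p', hpp, e, hp'⟩ := hmv p
    obtain ⟨α₁, hα₁⟩ : ∃ a, a = (α - 1) * hermForm n F q (b m) (b' x) := ⟨_, rfl⟩
    obtain ⟨β₁, hβ₁⟩ : ∃ a, a = (β - 1) * hermForm n F q (b m) (b' y) := ⟨_, rfl⟩
    obtain ⟨α₂, hα₂⟩ : ∃ a, a = (α - 1) * hermForm n F q (b p) (b' x) := ⟨_, rfl⟩
    obtain ⟨β₂, hβ₂⟩ : ∃ a, a = (β - 1) * hermForm n F q (b p) (b' y) := ⟨_, rfl⟩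
    have e1 : d • b m' - b m = α₁ • b' x + β₁ • b' y := by
      rw [← hm', hform, ← hα₁, ← hβ₁]
    have e2 : e • b p' - b p = α₂ • b' x + β₂ • b' y := by
      rw [← hp', hform, ← hα₂, ← hβ₂]
    have hδ : α₁ * β₂ - α₂ * β₁ ≠ 0 := by
      intro h0
      have e3 : β₂ • (d • b m' - b m) = β₁ • (e • b p' - b p) := by
        have : β₂ * α₁ = β₁ * α₂ := by linear_combination h0
        rw [e1, e2, smul_add, smul_add, smul_smul, smul_smul, smul_smul, smul_smul, this,
          mul_comm β₂ β₁]
      have e4 : α₂ • (d • b m' - b m) = α₁ • (e • b p' - b p) := by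
        have : α₂ * β₁ = α₁ * β₂ := by linear_combination -h0
        rw [e1, e2, smul_add, smul_add, smul_smul, smul_smul, smul_smul, smul_smul, this,
          mul_comm α₂ α₁]
      have e5 := congrArg (fun v => hermForm n F q v (b p)) e3
      have e6 := congrArg (fun v => hermForm n F q v (b p)) e4
      simp only [hermForm_smul_left, hermForm_sub_left, IsON.self hb, IsON.ne hb (Ne.symm hp.1),
        IsON.ne hb (Ne.symm hp.2), IsON.ne hb hpp, mul_zero, sub_zero, zero_sub, mul_neg,
        mul_one] at e5 e6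
      have hβ0 : β₁ = 0 := neg_eq_zero.1 e5.symm
      have hα0 : α₁ = 0 := neg_eq_zero.1 e6.symm
      rw [hα0, hβ0, zero_smul, zero_smul, add_zero] at e1
      have e7 := congrArg (fun v => hermForm n F q v (b m)) e1
      simp only [hermForm_smul_left, hermForm_sub_left, IsON.self hb, IsON.ne hb hmm, mul_zero,
        zero_sub, hermForm_zero_left] at e7
      exact one_ne_zero (neg_eq_zero.1 e7)
    have e7 : (α₁ * β₂ - α₂ * β₁) • b' x = β₂ • (d • b m' - b m) - β₁ • (e • b p' - b p) := by
      rw [e1, e2]; module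
    obtain ⟨j₁, hj₁⟩ := exists_notMem (S := {m, m', p, p'}) (by
      have : ({m, m', p, p'} : Finset (Fin n)).card ≤ 4 := Finset.card_le_four
      omega)
    obtain ⟨j₂, hj₂⟩ := exists_notMem (S := {m, m', p, p', j₁}) (by
      have : ({m, m', p, p', j₁} : Finset (Fin n)).card ≤ 5 := Finset.card_le_five
      omega)
    simp only [Finset.mem_insert, Finset.mem_singleton, not_or] at hj₁ hj₂
    have hz' : ∀ j, j ≠ m → j ≠ m' → j ≠ p → j ≠ p' → hermForm n F q (b' x) (b j) = 0 := by
      intro j h1 h2 h3 h4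
      have h5 := congrArg (fun v => hermForm n F q v (b j)) e7
      simp only [hermForm_sub_left, hermForm_smul_left, IsON.ne hb (Ne.symm h1),
        IsON.ne hb (Ne.symm h2), IsON.ne hb (Ne.symm h3), IsON.ne hb (Ne.symm h4), mul_zero,
        sub_zero] at h5
      exact (mul_eq_zero.1 h5).resolve_left hδ
    exact h.wl x j₁ j₂ (Ne.symm hj₂.2.2.2.2) (hz' j₁ hj₁.1 hj₁.2.1 hj₁.2.2.1 hj₁.2.2.2)
      (hz' j₂ hj₂.1 hj₂.2.1 hj₂.2.2.1 hj₂.2.2.2.1)

/-- Involutions are not diagonal. -/
theorem Opp.nondiag (hF : Fintype.card F = q ^ 2) (h2 : (2 : F) ≠ 0) (hn : n = 6)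
    (h : Opp M b b') {z : SU n F q} (hz : z ∈ (Mono b' : Subgroup (SU n F q)))
    (hzz : z * z = 1) (hz1 : z ≠ 1) (hz2 : ∃ v, act z v ≠ -v) :
    ∃ x, ∀ c : F, act z (b x) ≠ c • b x := by
  by_contra hcon
  push Not at hcon
  choose α hα using hcon
  obtain ⟨k, c, hk⟩ := exists_fixed_line hF h2 hn h.r.on hz hzz
  have hsc := h.symm.scalar hF (by omega) hz hα hk
  have hzc : ∀ v, act z v = c • v := by
    intro v
    apply IsON.ext hF h.l.on
    intro l
    rw [coord_diag hF h.l.on hα, hsc, hermForm_smul_left]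
  have hcc : c * c = 1 := by
    have h1 : act z (act z (b k)) = b k := act_act_zz hzz _
    rw [hzc, hzc, smul_smul] at h1
    have h3 := congrArg (fun v => hermForm n F q v (b k)) h1
    simp only [hermForm_smul_left, IsON.self h.l.on, mul_one] at h3
    exact h3
  rcases mul_self_eq_one_iff.1 hcc with h1 | h1
  · apply hz1
    apply Uni.act_ext
    intro x
    rw [hzc, h1, one_smul, act_one]
  · obtain ⟨v, hv⟩ := hz2
    exact hv (by rw [hzc, h1, neg_one_smul])

end

end Cfsg.Agent.H98.UF
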