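import Mathlib
import Cfsg.Agent.H98.UFX

set_option autoImplicit false
set_option linter.unusedSectionVars false
set_option linter.unusedVariables false
set_option linter.unusedSimpArgs false
set_option linter.style.haveILetI false
set_option maxHeartbeats 1000000

/-!
Odd characteristic, `n = 6`: frames with monomial point stabilisers do not exist.
-/

namespace Cfsg.Agent.H98.UF

open scoped Matrix
open Cfsg.Agent.Uni Module
open Cfsg.Agent.USub (XT xt_smul xt_pair xt_conj xt_zero)

variable {F : Type*} [Field F] [Fintype F] {q n : ℕ}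

section
variable {M : Subgroup (SU n F q)} {b b' : Fin n → Fin n → F}

theorem neg_form_zero (h2 : (2 : F) ≠ 0) {c : F} (h : c = -c) : c = 0 := by
  have : (2 : F) * c = 0 := by linear_combination h
  exact (mul_eq_zero.1 this).resolve_left h2

theorem one_pow_q' {c : F} (h : c = 1 ∨ c = -1) (hF : Fintype.card F = q ^ 2) : c ^ q = c := by
  rcases h with h | h
  · rw [h, one_pow]
  · rw [h]
    have h1 : (-1 : F) ^ (q + 1) = 1 := neg_one_pow_succ hF
    rw [pow_succ] at h1
    linear_combination -h1

/-- An involution with two different signs on fixed lines does not lie in two frame groups. -/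
theorem Opp.signs (hF : Fintype.card F = q ^ 2) (hq : 3 ≤ q) (h2 : (2 : F) ≠ 0) (hn : n = 6)
    (h : Opp M b b') {z : SU n F q} (hz : z ∈ (Mono b : Subgroup (SU n F q)))
    (hz' : z ∈ (Mono b' : Subgroup (SU n F q))) (hzz : z * z = 1) (hz1 : z ≠ 1)
    (hz2 : ∃ v, act z v ≠ -v) {i j k : Fin n} (hjk : j ≠ k) {s : F}
    (hs : s = 1 ∨ s = -1) (hi : act z (b i) = s • b i) (hj : act z (b j) = -s • b j)
    (hk : act z (b k) = -s • b k) : False := by
  classical
  have hb := h.l.on
  have hb' := h.r.on
  have hsq : s * s = 1 := mul_self_eq_one_iff.2 hs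
  -- the centraliser
  have hcen : ∀ x ∈ M, x * z = z * x → x ∈ (Mono b : Subgroup (SU n F q)) := by
    intro x hx hxz
    by_contra hxn
    have hzx : act z (act x (b i)) = s • act x (b i) := by
      rw [← act_mul, ← hxz, act_mul, hi, act_smul]
    have hco : ∀ m, act z (b m) = -s • b m → hermForm n F q (act x (b i)) (b m) = 0 := by
      intro m hm
      have e := act_form z (act x (b i)) (b m)
      have hsn : -s = 1 ∨ -s = -1 := by
        rcases hs with h | h
        · right; rw [h]
        · left; rw [h, neg_neg]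
      rw [hzx, hm, hermForm_smul_left, hermForm_smul_right, one_pow_q' hsn hF] at e
      apply neg_form_zero h2
      linear_combination -e - hsq * hermForm n F q (act x (b i)) (b m)
    exact h.l.weight hF hq (by omega) hx hxn hjk (hco j hj) (hco k hk)
  -- a transposition in the other frame
  obtain ⟨x, hx⟩ := h.symm.nondiag hF h2 hn hz hzz hz1 hz2
  obtain ⟨π, c, hπ, hcn, hππ, hcc⟩ := mono_data hb' hz' hzz
  have hπx : π x ≠ x := fun e => hx (c x) (by rw [hπ, e])
  obtain ⟨u, hu⟩ := exists_tau hF hb' 1 {x, π x} (Finset.card_pair (Ne.symm hπx))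
  have hπC : ∀ l, l ∈ ({x, π x} : Finset (Fin n)) ↔ π l ∈ ({x, π x} : Finset (Fin n)) := by
    intro l
    simp only [Finset.mem_insert, Finset.mem_singleton]
    constructor
    · rintro (e | e)
      · right; rw [e]
      · left; rw [e, hππ]
    · rintro (e | e)
      · right; rw [← e, hππ]
      · left; rw [← hππ l, e, hππ]
  have hcomm : u * z = z * u := by
    apply IsON.act_ext hF hb'
    intro l
    rw [act_mul, act_mul]
    by_cases hl : l ∈ ({x, π x} : Finset (Fin n))
    · rw [hu.neg hb' hl, act_neg, hπ, act_smul, hu.neg hb' ((hπC l).1 hl), smul_neg]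
    · rw [hu.pos hb' hl, hπ, act_smul, hu.pos hb' (fun e => hl ((hπC l).2 e))]
  have huM := h.r.mono (hu.mem hb')
  have hub := hcen u huM hcomm
  obtain ⟨m, d, hm⟩ := exists_fixed_line hF h2 hn hb hub (hu.sq hF hb')
  have hsc := h.scalar hF (by omega) hub
    (α := fun l => if l ∈ ({x, π x} : Finset (Fin n)) then -1 else 1) (fun l => by
      by_cases hl : l ∈ ({x, π x} : Finset (Fin n))
      · simp only [hl, if_true, neg_one_smul]; exact hu.neg hb' hl
      · simp only [hl, if_false, one_smul]; exact hu.pos hb' hl) hm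
  obtain ⟨y, hy⟩ := exists_notMem (S := {x, π x}) (by
    have : ({x, π x} : Finset (Fin n)).card ≤ 2 := Finset.card_le_two
    omega)
  have h3 := hsc x
  have h4 := hsc y
  simp only [hy, if_false, Finset.mem_insert, true_or, if_true] at h3 h4
  apply h2
  linear_combination h4 - h3

/-- An involution in two frame groups has at most two fixed lines. -/
theorem Opp.three (hF : Fintype.card F = q ^ 2) (hq : 3 ≤ q) (h2 : (2 : F) ≠ 0) (hn : n = 6)
    (h : Opp M b b') {z : SU n F q} (hz : z ∈ (Mono b : Subgroup (SU n F q)))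
    (hz' : z ∈ (Mono b' : Subgroup (SU n F q))) (hzz : z * z = 1) (hz1 : z ≠ 1)
    (hz2 : ∃ v, act z v ≠ -v) {i j k : Fin n} (hij : i ≠ j) (hik : i ≠ k) (hjk : j ≠ k)
    (hi : ∃ c : F, act z (b i) = c • b i) (hj : ∃ c : F, act z (b j) = c • b j)
    (hk : ∃ c : F, act z (b k) = c • b k) : False := by
  classical
  have hb := h.l.on
  obtain ⟨π, c, hπ, hcn, hππ, hcc⟩ := mono_data hb hz hzz
  have hfix : ∀ l, (∃ c : F, act z (b l) = c • b l) → π l = l := by
    rintro l ⟨d, hd⟩
    by_contra hne
    rw [hπ] at hd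
    have h3 := congrArg (fun v => hermForm n F q v (b (π l))) hd
    simp only [hermForm_smul_left, IsON.self hb, IsON.ne hb (Ne.symm hne), mul_zero,
      mul_one] at h3
    have h4 := hcc l
    rw [h3, zero_mul] at h4
    exact zero_ne_one h4
  have hi' := hfix i hi
  have hj' := hfix j hj
  have hk' := hfix k hk
  obtain ⟨x, hx⟩ := h.nondiag hF h2 hn hz' hzz hz1 hz2
  have hπx : π x ≠ x := fun e => hx (c x) (by rw [hπ, e])
  have hπi : Function.Injective π := fun x y hxy => by rw [← hππ x, hxy, hππ]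
  have hxf : ∀ l, π l = l → x ≠ l ∧ π x ≠ l := by
    intro l hl
    refine ⟨fun e => hπx (by rw [e, hl]), fun e => hπx ?_⟩
    have : π x = π l := by rw [e, hl]
    rw [hπi this, hl]
  obtain ⟨m, hm⟩ := exists_notMem (S := {i, j, k, x, π x}) (by
    have : ({i, j, k, x, π x} : Finset (Fin n)).card ≤ 5 := Finset.card_le_five
    omega)
  simp only [Finset.mem_insert, Finset.mem_singleton, not_or] at hm
  have hS : ({i, j, k, m, x, π x} : Finset (Fin n)) = Finset.univ := by
    apply Finset.eq_univ_of_card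
    rw [Fintype.card_fin, Finset.card_insert_of_notMem, Finset.card_insert_of_notMem,
      Finset.card_insert_of_notMem, Finset.card_insert_of_notMem, Finset.card_insert_of_notMem,
      Finset.card_singleton]
    · omega
    · simpa using Ne.symm hπx
    · simp only [Finset.mem_insert, Finset.mem_singleton, not_or]
      exact ⟨hm.2.2.2.1, hm.2.2.2.2⟩
    · simp only [Finset.mem_insert, Finset.mem_singleton, not_or]
      exact ⟨Ne.symm hm.2.2.1, Ne.symm (hxf k hk').1, Ne.symm (hxf k hk').2⟩
    · simp only [Finset.mem_insert, Finset.mem_singleton, not_or]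
      exact ⟨hjk, Ne.symm hm.2.1, Ne.symm (hxf j hj').1, Ne.symm (hxf j hj').2⟩
    · simp only [Finset.mem_insert, Finset.mem_singleton, not_or]
      exact ⟨hij, hik, Ne.symm hm.1, Ne.symm (hxf i hi').1, Ne.symm (hxf i hi').2⟩
  have hmem : ∀ l, l = i ∨ l = j ∨ l = k ∨ l = m ∨ l = x ∨ l = π x := by
    intro l
    have : l ∈ ({i, j, k, m, x, π x} : Finset (Fin n)) := by rw [hS]; exact Finset.mem_univ l
    simpa using this
  have hm' : π m = m := by
    rcases hmem (π m) with e | e | e | e | e | e
    · exfalso; apply hm.1; rw [← hππ m, e, hi']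
    · exfalso; apply hm.2.1; rw [← hππ m, e, hj']
    · exfalso; apply hm.2.2.1; rw [← hππ m, e, hk']
    · exact e
    · exfalso; apply hm.2.2.2.2; rw [← hππ m, e]
    · exfalso; apply hm.2.2.2.1; exact hπi e
  have hsq : ∀ l, π l = l → c l = 1 ∨ c l = -1 := by
    intro l hl
    have h3 := hcc l
    rw [hl] at h3
    exact mul_self_eq_one_iff.1 h3
  -- the determinant
  have hdet := mono_det hF hb (x := z) (σ := Equiv.swap x (π x)) (c := c) (by
    intro l
    rcases hmem l with e | e | e | e | e | e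
    · rw [e, Equiv.swap_apply_of_ne_of_ne (Ne.symm (hxf i hi').1) (Ne.symm (hxf i hi').2), hπ, hi']
    · rw [e, Equiv.swap_apply_of_ne_of_ne (Ne.symm (hxf j hj').1) (Ne.symm (hxf j hj').2), hπ, hj']
    · rw [e, Equiv.swap_apply_of_ne_of_ne (Ne.symm (hxf k hk').1) (Ne.symm (hxf k hk').2), hπ, hk']
    · rw [e, Equiv.swap_apply_of_ne_of_ne (Ne.symm (hxf m hm').1) (Ne.symm (hxf m hm').2), hπ, hm']
    · rw [e, Equiv.swap_apply_left, hπ]
    · rw [e, Equiv.swap_apply_right, hπ, hππ])
  rw [Equiv.Perm.sign_swap (Ne.symm hπx), ← hS, Finset.prod_insert, Finset.prod_insert,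
    Finset.prod_insert, Finset.prod_insert, Finset.prod_insert, Finset.prod_singleton, hcc] at hdet
  rotate_left
  · simpa using Ne.symm hπx
  · simp only [Finset.mem_insert, Finset.mem_singleton, not_or]
    exact ⟨hm.2.2.2.1, hm.2.2.2.2⟩
  · simp only [Finset.mem_insert, Finset.mem_singleton, not_or]
    exact ⟨Ne.symm hm.2.2.1, Ne.symm (hxf k hk').1, Ne.symm (hxf k hk').2⟩
  · simp only [Finset.mem_insert, Finset.mem_singleton, not_or]
    exact ⟨hjk, Ne.symm hm.2.1, Ne.symm (hxf j hj').1, Ne.symm (hxf j hj').2⟩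
  · simp only [Finset.mem_insert, Finset.mem_singleton, not_or]
    exact ⟨hij, hik, Ne.symm hm.1, Ne.symm (hxf i hi').1, Ne.symm (hxf i hi').2⟩
  have hprod : c i * c j * c k * c m = -1 := by
    push_cast at hdet
    linear_combination -hdet
  have key : ∀ e f₁ f₂, f₁ ≠ f₂ → π e = e → π f₁ = f₁ → π f₂ = f₂ → c f₁ = -c e → c f₂ = -c e →
      False := by
    intro e f₁ f₂ hff he hf₁ hf₂ h3 h4
    refine h.signs hF hq h2 hn hz hz' hzz hz1 hz2 (i := e) hff (hsq e he) ?_ ?_ ?_
    · rw [hπ, he]
    · rw [hπ, hf₁, h3]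
    · rw [hπ, hf₂, h4]
  have hcomp : ∀ l l', π l = l → π l' = l' → c l = c l' ∨ c l = -c l' := by
    intro l l' hl hl'
    have h3 := hsq l hl
    have h4 := hsq l' hl'
    rcases h3 with h3 | h3 <;> rcases h4 with h4 | h4
    · left; rw [h3, h4]
    · right; rw [h3, h4, neg_neg]
    · right; rw [h3, h4]
    · left; rw [h3, h4]
  have hmi : i ≠ m := Ne.symm hm.1
  have hmj : j ≠ m := Ne.symm hm.2.1
  have hmk : k ≠ m := Ne.symm hm.2.2.1
  rcases hcomp j i hj' hi' with h3 | h3 <;> rcases hcomp k i hk' hi' with h4 | h4 <;>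
    rcases hcomp m i hm' hi' with h5 | h5
  · have h6 : c i * c i = 1 := mul_self_eq_one_iff.2 (hsq i hi')
    rw [h3, h4, h5] at hprod
    apply h2
    linear_combination (1 : F) * hprod - (c i * c i + 1) * h6
  · exact key m i j hij hm' hi' hj' (by rw [h5, neg_neg]) (by rw [h5, neg_neg, h3])
  · exact key k i j hij hk' hi' hj' (by rw [h4, neg_neg]) (by rw [h4, neg_neg, h3])
  · exact key i k m hmk hi' hk' hm' h4 h5
  · exact key j i k hik hj' hi' hk' (by rw [h3, neg_neg]) (by rw [h3, neg_neg, h4])
  · exact key i j m hmj hi' hj' hm' h3 h5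
  · exact key i j k hjk hi' hj' hk' h3 h4
  · exact key i j k hjk hi' hj' hk' h3 h4

end

end Cfsg.Agent.H98.UF
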