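import Mathlib
import Cfsg.Agent.H98.UFY

set_option autoImplicit false
set_option linter.unusedSectionVars false
set_option linter.unusedVariables false
set_option linter.unusedSimpArgs false
set_option linter.style.haveILetI false
set_option maxHeartbeats 1000000

/-!
Odd characteristic, `n = 6`: frames with monomial point stabilisers do not exist.
-/

namespace Cfsg.Agent.H98.UF

open scoped Matrix
open Cfsg.Agent.Uni Module
open Cfsg.Agent.USub (XT xt_smul xt_pair xt_conj xt_zero)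

variable {F : Type*} [Field F] [Fintype F] {q n : ℕ}

/-- The involution with one transposition and one sign. -/
structure Vinv (b' : Fin 6 → Fin 6 → F) (v : SU 6 F q) : Prop where
  h0 : act v (b' 0) = b' 1
  h1 : act v (b' 1) = b' 0
  h2 : act v (b' 2) = -b' 2
  h3 : ∀ l, l ≠ 0 → l ≠ 1 → l ≠ 2 → act v (b' l) = b' l
  mem : v ∈ (Mono b' : Subgroup (SU 6 F q))

theorem exists_Vinv (hF : Fintype.card F = q ^ 2) {b' : Fin 6 → Fin 6 → F} (hb : IsON q b') :
    ∃ v : SU 6 F q, Vinv b' v := by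
  obtain ⟨v, hv, hvm⟩ := exists_mono hF hb (Equiv.swap 0 1) (α := fun _ => 1)
    (fun _ => one_pow _) (l := 2) (Equiv.swap_apply_of_ne_of_ne (by decide) (by decide))
  have hs2 : Equiv.swap (0 : Fin 6) 1 2 = 2 := by decide
  obtain ⟨j, c, hc, hj⟩ := hv 2
  have hvm' : ∀ m, m ≠ 2 → act v (b' m) = b' (Equiv.swap 0 1 m) := fun m hm => by
    rw [hvm m hm, one_smul]
  have hss : ∀ j : Fin 6, Equiv.swap (0 : Fin 6) 1 (Equiv.swap (0 : Fin 6) 1 j) = j := by decide
  have hj2 : j = 2 := by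
    by_contra hne
    have h1 : Equiv.swap (0 : Fin 6) 1 j ≠ 2 := by
      intro h
      apply hne
      rw [← hss j, h, hs2]
    have h2 := hvm' _ h1
    rw [hss] at h2
    have h3 := act_form v (b' 2) (b' (Equiv.swap (0 : Fin 6) 1 j))
    rw [hj, h2, hermForm_smul_left, IsON.self hb, mul_one, IsON.ne hb (Ne.symm h1)] at h3
    exact hc h3
  rw [hj2] at hj
  have hdet := mono_det hF hb (x := v) (σ := Equiv.swap 0 1) (c := fun i => if i = 2 then c else 1)
    (by
      intro i
      by_cases hi : i = 2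
      · rw [hi, hs2]; simp only [if_true]; exact hj
      · simp only [hi, if_false, one_smul]; exact hvm' i hi)
  rw [Equiv.Perm.sign_swap (by decide), Finset.prod_ite_eq' Finset.univ (2 : Fin 6) (fun _ => c),
    if_pos (Finset.mem_univ _)] at hdet
  have hc1 : c = -1 := by
    push_cast at hdet
    linear_combination -hdet
  refine ⟨v, ⟨?_, ?_, ?_, ?_, hv⟩⟩
  · rw [hvm' 0 (by decide), Equiv.swap_apply_left]
  · rw [hvm' 1 (by decide), Equiv.swap_apply_right]
  · rw [hj, hc1, neg_one_smul]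
  · intro l h0 h1 h2
    rw [hvm' l h2, Equiv.swap_apply_of_ne_of_ne h0 h1]

section
variable {M : Subgroup (SU 6 F q)} {b b' : Fin 6 → Fin 6 → F} {v : SU 6 F q}

theorem Vinv.vv (hv : Vinv b' v) (l : Fin 6) : act v (act v (b' l)) = b' l := by
  by_cases h0 : l = 0
  · rw [h0, hv.h0, hv.h1]
  · by_cases h1 : l = 1
    · rw [h1, hv.h1, hv.h0]
    · by_cases h2 : l = 2
      · rw [h2, hv.h2, act_neg, hv.h2, neg_neg]
      · rw [hv.h3 l h0 h1 h2, hv.h3 l h0 h1 h2]

theorem Vinv.sq (hF : Fintype.card F = q ^ 2) (hb : IsON q b') (hv : Vinv b' v) : v * v = 1 := by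
  apply IsON.act_ext hF hb
  intro l
  rw [act_mul, act_one, hv.vv]

theorem Vinv.fix (hF : Fintype.card F = q ^ 2) (hb : IsON q b') (hv : Vinv b' v)
    {x : Fin 6 → F} (h1 : hermForm 6 F q x (b' 0) = hermForm 6 F q x (b' 1))
    (h2 : hermForm 6 F q x (b' 2) = 0) : act v x = x := by
  apply IsON.ext hF hb
  intro l
  rw [← hv.vv l, act_form, hv.vv l]
  by_cases e0 : l = 0
  · rw [e0, hv.h0, h1]
  · by_cases e1 : l = 1
    · rw [e1, hv.h1, h1]
    · by_cases e2 : l = 2
      · rw [e2, hv.h2, hermForm_neg_right hF, h2, neg_zero]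
      · rw [hv.h3 l e0 e1 e2]

/-- The centraliser of `v`. -/
theorem Vinv.centr (hF : Fintype.card F = q ^ 2) (hq : 3 ≤ q) (h2 : (2 : F) ≠ 0)
    (h : Frm M b') (hv : Vinv b' v) {x : SU 6 F q} (hx : x ∈ M) (hxv : x * v = v * x) :
    x ∈ (Mono b' : Subgroup (SU 6 F q)) := by
  by_contra hxn
  have e1 : act v (act x (b' 2)) = -act x (b' 2) := by
    rw [← act_mul, ← hxv, act_mul, hv.h2, act_neg]
  have hco : ∀ l, act v (b' l) = b' l → hermForm 6 F q (act x (b' 2)) (b' l) = 0 := by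
    intro l hl
    have e := act_form v (act x (b' 2)) (b' l)
    rw [e1, hl, hermForm_neg_left] at e
    exact neg_form_zero h2 e.symm
  exact h.weight hF hq (by norm_num) hx hxn (i := 2) (j := 3) (k := 4) (by decide)
    (hco 3 (hv.h3 3 (by decide) (by decide) (by decide)))
    (hco 4 (hv.h3 4 (by decide) (by decide) (by decide)))

/-- the involutions -/
structure Zinv (b b' : Fin 6 → Fin 6 → F) (v : SU 6 F q) (j : Fin 6) (z : SU 6 F q) : Prop where
  m : z ∈ (Mono b : Subgroup (SU 6 F q))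
  m' : z ∈ (Mono b' : Subgroup (SU 6 F q))
  zz : z * z = 1
  z1 : z ≠ 1
  z2 : ∃ x, act z x ≠ -x
  zv : z * v = v * z
  st : ∀ i k, ∀ c : F, act z (b i) = c • b k →
    (i ∈ ({0, j} : Finset (Fin 6)) ↔ k ∈ ({0, j} : Finset (Fin 6)))

theorem exists_Zinv (hF : Fintype.card F = q ^ 2) (hq : 3 ≤ q) (h2 : (2 : F) ≠ 0)
    (h : Frm M b) {g : SU 6 F q} (hg : g ∈ M) (hgn : g ∉ (Mono b : Subgroup (SU 6 F q)))
    (hv : Vinv (fun i => act g (b i)) v) {j : Fin 6} (hj : j ≠ 0) :
    ∃ z, Zinv b (fun i => act g (b i)) v j z := by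
  classical
  have hb := h.on
  have h' := h.act hg
  have hb' := h'.on
  have hC : ({0, j} : Finset (Fin 6)).card = 2 := Finset.card_pair (Ne.symm hj)
  obtain ⟨u, hu⟩ := exists_tau hF hb 1 {0, j} hC
  have huu := hu.sq hF hb
  have hvv := hv.sq hF hb'
  have huM := h.mono (hu.mem hb)
  have hvM := h'.mono hv.mem
  have hzp : Subgroup.zpowers (u * v) ≤ M := by
    rw [Subgroup.zpowers_le]
    exact M.mul_mem huM hvM
  -- the order is even
  have hev : Even (orderOf (u * v)) := by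
    by_contra hodd
    rw [Nat.not_even_iff_odd] at hodd
    obtain ⟨f, hf, hfu⟩ := odd_conj huu hvv hodd
    have hfM := hzp hf
    have hvf : ∀ l, act v (act f (b l)) = act f (act u (b l)) := by
      intro l
      rw [← hfu, act_mul, act_mul, act_inv_act]
    by_cases hfg : f⁻¹ * g ∈ (Mono b : Subgroup (SU 6 F q))
    · obtain ⟨m, c, hc, hm⟩ := hfg 0
      have e1 : act g (b 0) = c • act f (b m) := by
        have := congrArg (act f) hm
        rwa [act_mul, act_act_inv, act_smul] at this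
      have e2 : act v (act g (b 0)) = act g (b 1) := hv.h0
      have h01 : hermForm 6 F q (act g (b 1)) (act g (b 0)) = 0 := by
        rw [act_form]; exact IsON.ne hb (by decide)
      have e3 : hermForm 6 F q (act v (act g (b 0))) (act g (b 0)) = 0 := by rw [e2, h01]
      have e4 : hermForm 6 F q (act g (b 0)) (act g (b 0)) = 1 := by
        rw [act_form]; exact IsON.self hb 0
      rw [e1, act_smul, hvf] at e3
      rw [e1] at e4
      by_cases hmC : m ∈ ({0, j} : Finset (Fin 6))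
      · rw [hu.neg hb hmC, act_neg, smul_neg, hermForm_neg_left, e4] at e3
        exact one_ne_zero (neg_eq_zero.1 e3)
      · rw [hu.pos hb hmC, e4] at e3
        exact one_ne_zero e3
    · have hco : ∀ l ∉ ({0, j} : Finset (Fin 6)),
          hermForm 6 F q (act (f⁻¹ * g) (b 2)) (b l) = 0 := by
        intro l hl
        have e1 : act v (act f (b l)) = act f (b l) := by rw [hvf, hu.pos hb hl]
        have e2 : act v (act g (b 2)) = -act g (b 2) := hv.h2
        have e3 := act_form v (act g (b 2)) (act f (b l))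
        rw [e1, e2, hermForm_neg_left] at e3
        have e4 := neg_form_zero h2 e3.symm
        rw [act_mul, ← act_form f, act_act_inv]
        exact e4
      obtain ⟨j₁, hj₁⟩ := exists_notMem (S := ({0, j} : Finset (Fin 6))) (by omega)
      obtain ⟨j₂, hj₂⟩ := exists_notMem (S := ({0, j, j₁} : Finset (Fin 6))) (by
        have : ({0, j, j₁} : Finset (Fin 6)).card ≤ 3 := Finset.card_le_three
        omega)
      have hj₂' : j₂ ∉ ({0, j} : Finset (Fin 6)) := by
        simp only [Finset.mem_insert, Finset.mem_singleton, not_or] at hj₂ ⊢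
        exact ⟨hj₂.1, hj₂.2.1⟩
      have hj₁₂ : j₁ ≠ j₂ := by
        simp only [Finset.mem_insert, Finset.mem_singleton, not_or] at hj₂
        exact Ne.symm hj₂.2.2
      exact h.weight hF hq (by norm_num) (M.mul_mem (M.inv_mem hfM) hg) hfg hj₁₂
        (hco j₁ hj₁) (hco j₂ hj₂')
  obtain ⟨z, hz, hz1, hzz, hzu, hzv⟩ := even_inv huu hvv hev
  have hzM := hzp hz
  refine ⟨z, ⟨h.centr hF hq h2 (by norm_num) hu ⟨0, by simp⟩ (by omega) hzM hzu,
    hv.centr hF hq h2 h' hzM hzv, hzz, hz1, ?_, hzv, fun i k c hc => hu.stab h2 hb hzu hc⟩⟩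
  -- a common fixed vector
  obtain ⟨c₁, hc₁⟩ : ∃ c, c = act g (b 0) - act g (b 1) := ⟨_, rfl⟩
  obtain ⟨P, hP⟩ : ∃ P : Submodule F (Fin 6 → F), P = perp q (Submodule.span F
      {b 0, b j, c₁, act g (b 2)}) := ⟨_, rfl⟩
  have hPm : ∀ x, x ∈ P ↔ hermForm 6 F q x (b 0) = 0 ∧ hermForm 6 F q x (b j) = 0 ∧
      hermForm 6 F q x c₁ = 0 ∧ hermForm 6 F q x (act g (b 2)) = 0 := by
    intro x
    rw [hP, mem_perp_span hF]
    simp
  have hPge : 6 ≤ Module.finrank F P + 4 := by
    have h3 := finrank_perp hF (Submodule.span F ({b 0, b j, c₁, act g (b 2)} : Set (Fin 6 → F)))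
    rw [← hP] at h3
    have h4 : Module.finrank F (Submodule.span F
        ({b 0, b j, c₁, act g (b 2)} : Set (Fin 6 → F))) ≤ 4 := by
      have h5 := finrank_span_finset_le_card (R := F)
        ({b 0, b j, c₁, act g (b 2)} : Finset (Fin 6 → F))
      rw [Set.finrank] at h5
      have h6 : (({b 0, b j, c₁, act g (b 2)} : Finset (Fin 6 → F)) : Set (Fin 6 → F)) =
        {b 0, b j, c₁, act g (b 2)} := by simp
      rw [h6] at h5
      exact h5.trans Finset.card_le_four
    omega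
  have hPne : P ≠ ⊥ := by
    intro h0
    rw [h0, finrank_bot] at hPge
    omega
  obtain ⟨x, hxP, hx0⟩ := (Submodule.ne_bot_iff _).1 hPne
  rw [hPm] at hxP
  refine ⟨x, fun hzx => hx0 ?_⟩
  have hux : act u x = x := hu.fix (fun i hi => by
    rcases Finset.mem_insert.1 hi with e | e
    · rw [e]; exact hxP.1
    · rw [Finset.mem_singleton.1 e]; exact hxP.2.1)
  have hvx : act v x = x := by
    refine hv.fix hF hb' ?_ hxP.2.2.2
    have h7 := hxP.2.2.1
    rw [hc₁, hermForm_sub_right hF] at h7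
    exact sub_eq_zero.1 h7
  have hzx' : act z x = x := zpowers_fix hz (by rw [act_mul, hvx, hux])
  rw [hzx'] at hzx
  exact neg_fix h2 hzx

/-- the shape of the involutions on the second frame -/
structure Shp (b' : Fin 6 → Fin 6 → F) (z : SU 6 F q) (w x y : Fin 6) : Prop where
  ex : ∃ e₂ e₃ c d d' : F, e₂ * e₂ = 1 ∧ e₃ * e₃ = 1 ∧ c * c = 1 ∧ d * d' = 1 ∧
    act z (b' 2) = e₂ • b' 2 ∧ act z (b' w) = e₃ • b' w ∧ act z (b' 0) = c • b' 1 ∧
    act z (b' 1) = c • b' 0 ∧ act z (b' x) = d • b' y ∧ act z (b' y) = d' • b' x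

def Wf : Fin 3 → Fin 6 := ![3, 4, 5]
def Xf : Fin 3 → Fin 6 := ![4, 3, 3]
def Yf : Fin 3 → Fin 6 := ![5, 5, 4]

theorem exists_Shp (hF : Fintype.card F = q ^ 2) (hq : 3 ≤ q) (h2 : (2 : F) ≠ 0)
    (h : Opp M b b') (hv : Vinv b' v) {j : Fin 6} {z : SU 6 F q} (hz : Zinv b b' v j z) :
    ∃ w : Fin 3, Shp b' z (Wf w) (Xf w) (Yf w) := by
  classical
  have hb' := h.r.on
  obtain ⟨π, c, hπ, hcn, hππ, hcc⟩ := mono_data hb' hz.m' hz.zz
  have hc0 : ∀ l, c l ≠ 0 := by
    intro l e
    have := hcc l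
    rw [e, zero_mul] at this
    exact zero_ne_one this
  have hvz : ∀ l, act v (act z (b' l)) = act z (act v (b' l)) := fun l => by
    rw [← act_mul, ← hz.zv, act_mul]
  have hneg : ∀ l, act v (b' l) = -b' l → l = 2 := by
    intro l hl
    by_contra hne
    by_cases h0 : l = 0
    · rw [h0, hv.h0] at hl
      have := congrArg (fun v => hermForm 6 F q v (b' 1)) hl
      simp only [hermForm_neg_left, IsON.self hb', IsON.ne hb' (show (0 : Fin 6) ≠ 1 by decide),
        neg_zero] at this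
      exact one_ne_zero this
    · by_cases h1 : l = 1
      · rw [h1, hv.h1] at hl
        have := congrArg (fun v => hermForm 6 F q v (b' 0)) hl
        simp only [hermForm_neg_left, IsON.self hb', IsON.ne hb' (show (1 : Fin 6) ≠ 0 by decide),
          neg_zero] at this
        exact one_ne_zero this
      · rw [hv.h3 l h0 h1 hne] at hl
        exact IsON.ne_zero hb' l (neg_fix h2 hl)
  have hpos : ∀ l, act v (b' l) = b' l → l ≠ 0 ∧ l ≠ 1 ∧ l ≠ 2 := by
    intro l hl
    refine ⟨?_, ?_, ?_⟩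
    · intro h0
      rw [h0, hv.h0] at hl
      have := congrArg (fun v => hermForm 6 F q v (b' 1)) hl
      simp only [IsON.self hb', IsON.ne hb' (show (0 : Fin 6) ≠ 1 by decide)] at this
      exact one_ne_zero this
    · intro h0
      rw [h0, hv.h1] at hl
      have := congrArg (fun v => hermForm 6 F q v (b' 0)) hl
      simp only [IsON.self hb', IsON.ne hb' (show (1 : Fin 6) ≠ 0 by decide)] at this
      exact one_ne_zero this
    · intro h0
      rw [h0, hv.h2] at hl
      exact IsON.ne_zero hb' 2 (neg_fix h2 hl.symm)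
  have hcan : ∀ (a : F) (x y : Fin 6 → F), a ≠ 0 → a • x = a • y → x = y := by
    intro a x y ha hxy
    have := congrArg (fun v => a⁻¹ • v) hxy
    simpa only [smul_smul, inv_mul_cancel₀ ha, one_smul] using this
  have p2 : π 2 = 2 := by
    apply hneg
    have := hvz 2
    rw [hv.h2, act_neg, hπ, act_smul, ← smul_neg] at this
    exact hcan _ _ _ (hc0 2) this
  have p3 : ∀ l, l ≠ 0 → l ≠ 1 → l ≠ 2 → π l ≠ 0 ∧ π l ≠ 1 ∧ π l ≠ 2 := by
    intro l l0 l1 l2
    apply hpos
    have := hvz l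
    rw [hv.h3 l l0 l1 l2, hπ, act_smul] at this
    exact hcan _ _ _ (hc0 l) this
  have hπi : Function.Injective π := fun x y hxy => by rw [← hππ x, hxy, hππ]
  have hfx : ∀ l, π l = l → ∃ d : F, act z (b' l) = d • b' l := fun l hl => ⟨c l, by rw [hπ, hl]⟩
  have hthree : ∀ i k l : Fin 6, i ≠ k → i ≠ l → k ≠ l → π i = i → π k = k → π l = l → False :=
    fun i k l hik hil hkl hi hk hl => h.symm.three hF hq h2 rfl hz.m' hz.m hz.zz hz.z1 hz.z2
      hik hil hkl (hfx i hi) (hfx k hk) (hfx l hl)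
  have hnot : ∀ l, (l = 0 ∨ l = 1) → π l = 0 ∨ π l = 1 := by
    intro l hl
    by_contra hcon
    push Not at hcon
    by_cases h5 : π l = 2
    · have : π (π l) = π 2 := by rw [h5]
      rw [hππ, p2] at this
      rcases hl with e | e <;> rw [e] at this <;> exact absurd this (by decide)
    · have := p3 (π l) hcon.1 hcon.2 h5
      rw [hππ] at this
      rcases hl with e | e
      · exact this.1 e
      · exact this.2.1 e
  have p0 : π 0 = 1 := by
    rcases hnot 0 (Or.inl rfl) with e | e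
    · exfalso
      have e1 : π 1 = 1 := by
        rcases hnot 1 (Or.inr rfl) with e' | e'
        · exact absurd (hπi (e'.trans e.symm)) (by decide)
        · exact e'
      exact hthree 0 1 2 (by decide) (by decide) (by decide) e e1 p2
    · exact e
  have p1 : π 1 = 0 := by rw [← p0, hππ]
  have e01 : c 1 = c 0 := by
    have h5 := hvz 0
    rw [hv.h0, hπ 0, hπ 1, p0, p1, act_smul, hv.h1] at h5
    have h6 := congrArg (fun v => hermForm 6 F q v (b' 0)) h5
    simp only [hermForm_smul_left, IsON.self hb', mul_one] at h6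
    exact h6.symm
  have hsq : ∀ l, π l = l → c l * c l = 1 := by
    intro l hl
    have h3 := hcc l
    rwa [hl] at h3
  have hc01 : c 0 * c 0 = 1 := by
    have := hcc 0
    rwa [p0, e01] at this
  have hfin : ∀ w x y : Fin 6, π w = w → π x = y → Shp b' z w x y := by
    intro w x y hw hx
    have hy : π y = x := by rw [← hx, hππ]
    refine ⟨c 2, c w, c 0, c x, c y, hsq 2 p2, hsq w hw, hc01, ?_, ?_, ?_, ?_, ?_, ?_, ?_⟩
    · have := hcc x
      rwa [hx] at this
    · rw [hπ, p2]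
    · rw [hπ, hw]
    · rw [hπ, p0]
    · rw [hπ, p1, e01]
    · rw [hπ, hx]
    · rw [hπ, hy]
  have hin : ∀ l : Fin 6, l = 3 ∨ l = 4 ∨ l = 5 → π l = 3 ∨ π l = 4 ∨ π l = 5 := by
    intro l hl
    have h3 := p3 l (by rcases hl with e | e | e <;> rw [e] <;> decide)
      (by rcases hl with e | e | e <;> rw [e] <;> decide)
      (by rcases hl with e | e | e <;> rw [e] <;> decide)
    have h4 : ∀ m : Fin 6, m ≠ 0 ∧ m ≠ 1 ∧ m ≠ 2 → m = 3 ∨ m = 4 ∨ m = 5 := by decide
    exact h4 _ h3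
  rcases hin 3 (Or.inl rfl) with e | e | e
  · rcases hin 4 (Or.inr (Or.inl rfl)) with e' | e' | e'
    · exact absurd (hπi (e'.trans e.symm)) (by decide)
    · exact (hthree 2 3 4 (by decide) (by decide) (by decide) p2 e e').elim
    · exact ⟨0, hfin 3 4 5 e e'⟩
  · have e4 : π 4 = 3 := by rw [← e, hππ]
    rcases hin 5 (Or.inr (Or.inr rfl)) with e' | e' | e'
    · exact absurd (hπi (e'.trans e4.symm)) (by decide)
    · exact absurd (hπi (e'.trans e.symm)) (by decide)
    · exact ⟨2, hfin 5 3 4 e' e⟩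
  · have e5 : π 5 = 3 := by rw [← e, hππ]
    rcases hin 4 (Or.inr (Or.inl rfl)) with e' | e' | e'
    · exact absurd (hπi (e'.trans e5.symm)) (by decide)
    · exact ⟨1, hfin 4 3 5 e' e⟩
    · exact absurd (hπi (e'.trans e.symm)) (by decide)

/-- No frames with monomial point stabilisers (`q` odd), `n = 6`. -/
theorem Frm.false_odd6 (hF : Fintype.card F = q ^ 2) (hq : 3 ≤ q) (h2 : (2 : F) ≠ 0)
    (h : Frm M b) {g : SU 6 F q} (hg : g ∈ M) (hgn : g ∉ (Mono b : Subgroup (SU 6 F q))) :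
    False := by
  classical
  have hb := h.on
  have h' := h.act hg
  have hb' := h'.on
  have hopp := h.opp hF hq (by norm_num) hg hgn
  obtain ⟨v, hv⟩ := exists_Vinv hF hb'
  have key : ∀ j : Fin 4, ∃ z, Zinv b (fun i => Uni.act g (b i)) v (Fin.castLE (by norm_num) j.succ) z ∧
      ∃ w : Fin 3, Shp (fun i => Uni.act g (b i)) z (Wf w) (Xf w) (Yf w) := by
    intro j
    obtain ⟨z, hz⟩ := exists_Zinv hF hq h2 h hg hgn hv
      (j := Fin.castLE (by norm_num) j.succ) (by revert j; decide)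
    exact ⟨z, hz, exists_Shp hF hq h2 hopp hv hz⟩
  choose Z hZ W hW using key
  obtain ⟨j, j', hjj, hWW⟩ := Fintype.exists_ne_map_eq_of_card_lt W (by simp)
  obtain ⟨w, hw⟩ : ∃ w, w = W j := ⟨_, rfl⟩
  have s1 := hW j
  have s2 := hW j'
  rw [← hWW] at s2
  rw [← hw] at s1 s2
  obtain ⟨e₂, e₃, c, d, d', he₂, he₃, hc, hd, a1, a2, a3, a4, a5, a6⟩ := s1.ex
  obtain ⟨f₂, f₃, c', r, r', hf₂, hf₃, hc', hr, b1, b2, b3, b4, b5, b6⟩ := s2.ex
  have z1 := hZ j
  have z2 := hZ j'
  obtain ⟨k, hk⟩ : ∃ k : Fin 6, k = Fin.castLE (by norm_num) j.succ := ⟨_, rfl⟩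
  obtain ⟨k', hk'⟩ : ∃ k : Fin 6, k = Fin.castLE (by norm_num) j'.succ := ⟨_, rfl⟩
  have hdec0 : ∀ j : Fin 4, (Fin.castLE (show 5 ≤ 6 by norm_num) j.succ : Fin 6) ≠ 0 := by decide
  have hdec1 : ∀ j j' : Fin 4, (Fin.castLE (show 5 ≤ 6 by norm_num) j.succ : Fin 6) =
      Fin.castLE (show 5 ≤ 6 by norm_num) j'.succ → j = j' := by decide
  have hk0 : k ≠ 0 := by rw [hk]; exact hdec0 j
  have hk0' : k' ≠ 0 := by rw [hk']; exact hdec0 j'
  have hkk : k ≠ k' := by
    rw [hk, hk']
    exact fun e => hjj (hdec1 j j' e)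
  rw [← hk] at z1
  rw [← hk'] at z2
  obtain ⟨z, hz⟩ : ∃ z, z = Z j := ⟨_, rfl⟩
  obtain ⟨y, hy⟩ : ∃ z, z = Z j' := ⟨_, rfl⟩
  rw [← hz] at z1 a1 a2 a3 a4 a5 a6
  rw [← hy] at z2 b1 b2 b3 b4 b5 b6
  have hcover : ∀ w : Fin 3, ∀ l : Fin 6, l = 2 ∨ l = Wf w ∨ l = 0 ∨ l = 1 ∨ l = Xf w ∨
      l = Yf w := by decide
  have hXY : ∀ w : Fin 3, Xf w ≠ Yf w := by decide
  -- the product
  have t1 : Uni.act (z * y) (Uni.act g (b 2)) = (f₂ * e₂) • Uni.act g (b 2) := by
    rw [act_mul, b1, act_smul, a1, smul_smul]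
  have t2 : Uni.act (z * y) (Uni.act g (b (Wf w))) = (f₃ * e₃) • Uni.act g (b (Wf w)) := by
    rw [act_mul, b2, act_smul, a2, smul_smul]
  have t3 : Uni.act (z * y) (Uni.act g (b 0)) = (c' * c) • Uni.act g (b 0) := by
    rw [act_mul, b3, act_smul, a4, smul_smul]
  have t4 : Uni.act (z * y) (Uni.act g (b 1)) = (c' * c) • Uni.act g (b 1) := by
    rw [act_mul, b4, act_smul, a3, smul_smul]
  have t5 : Uni.act (z * y) (Uni.act g (b (Xf w))) = (r * d') • Uni.act g (b (Xf w)) := by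
    rw [act_mul, b5, act_smul, a6, smul_smul]
  have t6 : Uni.act (z * y) (Uni.act g (b (Yf w))) = (r' * d) • Uni.act g (b (Yf w)) := by
    rw [act_mul, b6, act_smul, a5, smul_smul]
  have sq : ∀ {l : Fin 6} {α : F}, Uni.act (z * y) (Uni.act g (b l)) = α • Uni.act g (b l) →
      Uni.act (z * y * (z * y)) (Uni.act g (b l)) = (α * α) • Uni.act g (b l) := by
    intro l α hl
    rw [act_mul, hl, act_smul, hl, smul_smul]
  have hzyb : z * y ∈ (Mono b : Subgroup (SU 6 F q)) := (Mono b).mul_mem z1.m z2.m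
  have hs1 : z * y * (z * y) = 1 := by
    refine hopp.two_eig hF (by norm_num) ((Mono b).mul_mem hzyb hzyb) (hXY w) (sq t5) (sq t6) ?_
    intro l hlx hly
    rcases hcover w l with e | e | e | e | e | e
    · rw [e]
      have : (f₂ * e₂) * (f₂ * e₂) = 1 := by linear_combination (f₂ * f₂) * he₂ + hf₂
      have h5 := sq t1
      rwa [this, one_smul] at h5
    · rw [e]
      have : (f₃ * e₃) * (f₃ * e₃) = 1 := by linear_combination (f₃ * f₃) * he₃ + hf₃
      have h5 := sq t2
      rwa [this, one_smul] at h5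
    · rw [e]
      have : (c' * c) * (c' * c) = 1 := by linear_combination (c' * c') * hc + hc'
      have h5 := sq t3
      rwa [this, one_smul] at h5
    · rw [e]
      have : (c' * c) * (c' * c) = 1 := by linear_combination (c' * c') * hc + hc'
      have h5 := sq t4
      rwa [this, one_smul] at h5
    · exact absurd e hlx
    · exact absurd e hly
  -- the product is scalar
  have hdiag : ∀ l, ∃ α : F, Uni.act (z * y) (Uni.act g (b l)) = α • Uni.act g (b l) := by
    intro l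
    rcases hcover w l with e | e | e | e | e | e <;> rw [e]
    · exact ⟨_, t1⟩
    · exact ⟨_, t2⟩
    · exact ⟨_, t3⟩
    · exact ⟨_, t4⟩
    · exact ⟨_, t5⟩
    · exact ⟨_, t6⟩
  choose α hα using hdiag
  obtain ⟨m, a, hm⟩ := exists_fixed_line hF h2 rfl hb hzyb hs1
  have hsc := hopp.scalar hF (by norm_num) hzyb hα hm
  have hzy : ∀ x, Uni.act z (Uni.act y x) = a • x := by
    intro x
    rw [← act_mul]
    apply IsON.ext hF hb'
    intro l
    have := coord_diag hF hb' hα x l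
    rw [this, hsc, hermForm_smul_left]
  have hyz : ∀ x, Uni.act y x = a • Uni.act z x := by
    intro x
    rw [← act_smul, ← hzy x, act_act_zz z1.zz]
  have ha0 : a ≠ 0 := by
    intro e
    have := hyz (b 0)
    rw [e, zero_smul] at this
    exact act_ne_zero (IsON.ne_zero hb 0) this
  -- fixed lines
  have g0 : ∃ c : F, Uni.act z (b 0) = c • b 0 := by
    obtain ⟨l, c₀, hc₀, hl⟩ := z1.m 0
    have i1 := (z1.st 0 l c₀ hl).1 (by simp)
    have i2 := (z2.st 0 l (a * c₀) (by rw [hyz, hl, smul_smul])).1 (by simp)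
    simp only [Finset.mem_insert, Finset.mem_singleton] at i1 i2
    rcases i1 with e | e
    · exact ⟨c₀, by rw [hl, e]⟩
    · rcases i2 with e' | e'
      · exact ⟨c₀, by rw [hl, e']⟩
      · exact absurd (e.symm.trans e') hkk
  obtain ⟨c₀, hg0⟩ := g0
  have hc₀ : c₀ ≠ 0 := by
    intro e
    rw [e, zero_smul] at hg0
    exact act_ne_zero (IsON.ne_zero hb 0) hg0
  have gk : ∀ (k : Fin 6) (z : SU 6 F q), z ∈ (Mono b : Subgroup (SU 6 F q)) →
      (∃ c : F, c ≠ 0 ∧ Uni.act z (b 0) = c • b 0) → k ≠ 0 →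
      (∀ i l, ∀ c : F, Uni.act z (b i) = c • b l →
        (i ∈ ({0, k} : Finset (Fin 6)) ↔ l ∈ ({0, k} : Finset (Fin 6)))) →
      ∃ c : F, Uni.act z (b k) = c • b k := by
    rintro k z hz ⟨c₀, hc₀, h0⟩ hk0 hst
    obtain ⟨l, c₁, hc₁, hl⟩ := hz k
    have i1 := (hst k l c₁ hl).1 (by simp)
    simp only [Finset.mem_insert, Finset.mem_singleton] at i1
    rcases i1 with e | e
    · exfalso
      have := act_form z (b k) (b 0)
      rw [hl, h0, e, hermForm_smul_left, hermForm_smul_right, IsON.self hb, IsON.ne hb hk0] at this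
      have h5 := mul_ne_zero (pow_ne_zero q hc₀) (mul_ne_zero hc₁ (one_ne_zero (α := F)))
      apply h5
      linear_combination this
    · exact ⟨c₁, by rw [hl, e]⟩
  have g1 := gk k z z1.m ⟨c₀, hc₀, hg0⟩ hk0 z1.st
  have g2 : ∃ c : F, Uni.act z (b k') = c • b k' := by
    obtain ⟨c₂, hc₂⟩ := gk k' y z2.m ⟨a * c₀, mul_ne_zero ha0 hc₀, by
      rw [hyz, hg0, smul_smul]⟩ hk0' z2.st
    refine ⟨a⁻¹ * c₂, ?_⟩
    rw [hyz] at hc₂
    have := congrArg (fun v => a⁻¹ • v) hc₂
    simpa only [smul_smul, inv_mul_cancel₀ ha0, one_smul] using this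
  exact hopp.three hF hq h2 rfl z1.m z1.m' z1.zz z1.z1 z1.z2 (Ne.symm hk0) (Ne.symm hk0') hkk
    ⟨c₀, hg0⟩ g1 g2

end

end Cfsg.Agent.H98.UF
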