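import Mathlib
import Cfsg.Agent.H98.UFT
import Cfsg.Agent.H98.UFV
import Cfsg.Agent.H98.UFZ

set_option autoImplicit false
set_option linter.unusedSectionVars false
set_option linter.unusedVariables false
set_option linter.style.haveILetI false
set_option maxHeartbeats 1000000

/-!
Stabilisers of orthonormal frames in the six-dimensional special unitary group, `q ≥ 3`.
-/

namespace Cfsg.Agent.H98.UF

open scoped Matrix
open Cfsg.Geo
open Cfsg.Agent.Uni Module
open Cfsg.Agent.UCase (SG suHom suHom_mem suHom_mulVec)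

variable {F : Type*} [Field F] [Fintype F] {q t : ℕ}

/-- Monomial groups, `n = 6`, `q ≥ 3`. -/
theorem mono_max6 (hF : Fintype.card F = q ^ 2) (hq : 3 ≤ q)
    {M : Subgroup (SU 6 F q)} {b : Fin 6 → Fin 6 → F} (hb : IsON q b) (hM : Mono b ≤ M)
    (hne : M ≠ Mono b) : M = ⊤ := by
  by_contra htop
  have hfr : Frm M b := frm_of hF hq hb hM fun d hd ⟨i, hi⟩ => by
    by_contra hd0
    exact htop (top_of_coord hF hq (by norm_num) hb hM hd hd0 hi)
  obtain ⟨g, hg, hgn⟩ : ∃ g ∈ M, g ∉ (Mono b : Subgroup (SU 6 F q)) := by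
    by_contra hcon
    push Not at hcon
    exact hne (le_antisymm hcon hM)
  by_cases h2 : (2 : F) = 0
  · exact hfr.false_even6 hF hq h2 (by norm_num) hg hgn
  · exact hfr.false_odd6 hF hq h2 hg hgn

/-- **Stabilisers of orthonormal frames are maximal in the special unitary group**,
`n = 6`, `q ≥ 3`. -/
theorem decomposition_maximal_six (hF : Fintype.card F = q ^ 2) (hq : 3 ≤ q)
    (D : Fin t → Submodule F (Fin 6 → F))
    (hD : IsNondegenerateMDecomposition (hermForm 6 F q) 1 D) :
    IsMaximalIn (SG 6 F q) (decompositionStabilizer D ⊓ SG 6 F q) := by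
  classical
  obtain ⟨b, e, hb, hDk⟩ := exists_frame hF hD
  refine USub.isMaximalIn_of_su inf_le_right (fun hle =>
    UCase.not_le_decompositionStabilizer hF (by norm_num) (by norm_num) D hD.decomp
      (hle.trans inf_le_left)) fun M hM hne => ?_
  have hstab : ∀ g : SU 6 F q, (∃ σ : Equiv.Perm (Fin t), ∀ i, ∀ v ∈ Dk q b e i,
      act g v ∈ Dk q b e (σ i)) → g ∈ (decompositionStabilizer D ⊓ SG 6 F q).comap (suHom 6 F q) := by
    rintro g ⟨σ, hσ⟩
    rw [mem_comap_dec hD.decomp]
    exact ⟨σ, fun i v hv => by rw [hDk] at hv ⊢; exact hσ i v hv⟩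
  have hmono : Mono b ≤ (decompositionStabilizer D ⊓ SG 6 F q).comap (suHom 6 F q) :=
    fun g hg => hstab g (mono_perm hF hb rfl hg)
  exact mono_max6 hF hq hb (hmono.trans hM) fun h => hne (le_antisymm (by rw [h]; exact hmono) hM)

end Cfsg.Agent.H98.UF
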