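import Cfsg.Agent.GeoMax.OUFin
import Cfsg.Agent.H98.SFA

/-!
Unitary structures on an orthogonal space of dimension at least ten.
-/

set_option autoImplicit false
set_option linter.unusedSectionVars false

namespace Cfsg.Agent.H98.UO

open QuadraticMap Module Cfsg.Agent.Orth Cfsg.Agent.GeoMax.Ort Cfsg.Agent.GeoMax
open Cfsg.Agent.GeoMax.Ort.Ux (line mem_line self_mem PK PK.symm PK.θ_left PK.add PK.sub PK.smul PK.of_mem PK.perp PK.of_perp PK.of_line finrank_line exists_perp_ne)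

variable {F V : Type*} [Field F] [AddCommGroup V] [Module F V]

/-- A small functional is represented by a vector of arbitrary norm (sharp bound). -/
theorem rep2 [Finite F] [FiniteDimensional F V] {Q : QuadraticForm F V} (hQ : (polarBilin Q).Nondegenerate)
    (X : Submodule F V) (hX : finrank F X + finrank F (X ⊓ perp Q X : Submodule F V) + 2 ≤ finrank F V) (y : V) (c : F) :
    ∃ x, Q x = c ∧ ∀ w ∈ X, polar Q x w = polar Q y w := by
  have hP := finrank_perp hQ X
  obtain ⟨C, hC⟩ := Submodule.exists_isCompl (X ⊓ perp Q X)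
  obtain ⟨U, hU⟩ : ∃ U, U = C ⊓ perp Q X := ⟨_, rfl⟩
  have hle : X ⊓ perp Q X ≤ perp Q X := inf_le_right
  have hRU : (X ⊓ perp Q X) ⊔ U = perp Q X := by
    rw [hU, ← sup_inf_assoc_of_le C hle, hC.sup_eq_top, top_inf_eq]
  have hRU' : (X ⊓ perp Q X) ⊓ U = ⊥ := by
    rw [eq_bot_iff, hU, ← inf_assoc, hC.inf_eq_bot]
    exact inf_le_left
  have hUP : U ≤ perp Q X := by rw [hU]; exact inf_le_right
  have hUU : U ⊓ perp Q U = ⊥ := by
    rw [eq_bot_iff]
    rintro x ⟨hx, hx'⟩
    have h1 : x ∈ perp Q (perp Q X) := by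
      intro u hu
      change polar Q u x = 0
      rw [← hRU] at hu
      obtain ⟨r, hr, w, hw, rfl⟩ := Submodule.mem_sup.1 hu
      rw [pal, (show polar Q r x = 0 from hUP hx r hr.1), zero_add]
      exact hx' w hw
    rw [perp_perp hQ] at h1
    rw [← hRU']
    exact ⟨⟨h1, hUP hx⟩, hx⟩
  have h1 := Submodule.finrank_sup_add_finrank_inf_eq (X ⊓ perp Q X) U
  rw [hRU, hRU', finrank_bot] at h1
  have hcompl : IsCompl U (perp Q U) := by
    refine ⟨disjoint_iff.2 hUU, codisjoint_iff.2 ?_⟩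
    refine Submodule.eq_top_of_finrank_eq ?_
    have h2 := Submodule.finrank_sup_add_finrank_inf_eq U (perp Q U)
    have h3 := finrank_perp hQ U
    rw [hUU, finrank_bot] at h2
    omega
  obtain ⟨u, hu, y', hy', hyy⟩ : ∃ u ∈ U, ∃ y' ∈ perp Q U, u + y' = y := by
    have : y ∈ U ⊔ perp Q U := by rw [hcompl.sup_eq_top]; trivial
    exact Submodule.mem_sup.1 this
  obtain ⟨z, hz⟩ := exists_q_eq (nondegenerate_restrict hUU) (by omega) (c - Q y')
  refine ⟨y' + z, ?_, fun w hw => ?_⟩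
  · have h2 : polar Q y' (z : V) = 0 := by
      rw [pc]; exact hy' z z.2
    have h3 : Q (z : V) = c - Q y' := hz
    rw [qadd, h2, h3]; ring
  · have h2 : polar Q (z : V) w = 0 := by rw [pc]; exact hUP z.2 w hw
    have h3 : polar Q u w = 0 := by rw [pc]; exact hUP hu w hw
    rw [pal, h2, ← hyy, pal, h3]; ring

theorem repV2 [Finite F] [FiniteDimensional F V] {Q : QuadraticForm F V} (hQ : (polarBilin Q).Nondegenerate)
    (l : List V) (hl : 2 * l.length + 2 ≤ finrank F V) (y : V) (c : F) :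
    ∃ x, Q x = c ∧ ∀ w ∈ l, polar Q x w = polar Q y w := by
  have h1 := Symp.finrank_span_list_le (K := F) l
  have h2 := Submodule.finrank_mono (inf_le_left : Submodule.span F {x | x ∈ l} ⊓ perp Q (Submodule.span F {x | x ∈ l}) ≤ _)
  obtain ⟨x, hx, hxl⟩ := rep2 hQ (Submodule.span F {x | x ∈ l}) (by omega) y c
  exact ⟨x, hx, fun w hw => hxl w (Submodule.subset_span hw)⟩

variable {Q : QuadraticForm F V} {θ : V →ₗ[F] V} {τ ν : F}

/-- The radical of `⟨v, w, t⟩` over the big field. -/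
theorem rad_le (h : Ux Q θ τ ν) {v w t : V} (hw : Q w = 0) (ht : Q t = 0) (hwv : PK Q θ w v)
    (htv : PK Q θ t v) (hwt : ¬ PK Q θ w t) {u : V} (hu : u ∈ Submodule.span F {x | x ∈ [v, θ v, w, θ w, t, θ t]})
    (hu' : ∀ z ∈ Submodule.span F {x | x ∈ [v, θ v, w, θ w, t, θ t]}, polar Q z u = 0) : u ∈ line θ v := by
  have e : ({x | x ∈ [v, θ v, w, θ w, t, θ t]} : Set V) = {v, θ v} ∪ ({w, θ w} ∪ {t, θ t}) := by
    ext z
    simp only [List.mem_cons, List.not_mem_nil, or_false, Set.mem_ofPred_eq, Set.mem_union, Set.mem_insert_iff,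
      Set.mem_singleton_iff]
    tauto
  have hmem : ∀ z ∈ [v, θ v, w, θ w, t, θ t], z ∈ Submodule.span F {x | x ∈ [v, θ v, w, θ w, t, θ t]} :=
    fun z hz => Submodule.subset_span hz
  have hPK : ∀ z ∈ [v, w, t], PK Q θ u z := by
    intro z hz
    constructor
    · rw [pc]; exact hu' _ (hmem z (by simp at hz ⊢; tauto))
    · rw [pc]; exact hu' _ (hmem (θ z) (by simp at hz ⊢; rcases hz with rfl | rfl | rfl <;> simp))
  rw [e, Submodule.span_union, Submodule.span_union, Submodule.mem_sup] at hu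
  obtain ⟨y, hy, z, hz, rfl⟩ := hu
  obtain ⟨z1, hz1, z2, hz2, rfl⟩ := Submodule.mem_sup.1 hz
  obtain ⟨a, b, rfl⟩ := Submodule.mem_span_pair.1 hy
  obtain ⟨c, d, rfl⟩ := Submodule.mem_span_pair.1 hz1
  obtain ⟨f, g, rfl⟩ := Submodule.mem_span_pair.1 hz2
  have hvw := hwv.symm h
  have hvt := htv.symm h
  have hww : PK Q θ w w := PK.of_line h hw self_mem
  have htt : PK Q θ t t := PK.of_line h ht self_mem
  have hu1 : PK Q θ (f • t + g • θ t) w := by
    have h1 := hPK w (by simp)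
    have h2 := (h1.sub ((hvw.smul a).add ((PK.θ_left h hvw).smul b))).sub ((hww.smul c).add ((PK.θ_left h hww).smul d))
    convert h2 using 1
    module
  have hu2 : PK Q θ (c • w + d • θ w) t := by
    have h1 := hPK t (by simp)
    have h2 := (h1.sub ((hvt.smul a).add ((PK.θ_left h hvt).smul b))).sub ((htt.smul f).add ((PK.θ_left h htt).smul g))
    convert h2 using 1
    module
  have key : ∀ {x y : V} {a b : F}, PK Q θ (a • x + b • θ x) y → ¬ PK Q θ x y → a = 0 ∧ b = 0 := by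
    intro x y a b hxy hn
    by_contra hcon
    apply hn
    have h1 := (hxy.smul (a + b * τ)).sub ((PK.θ_left h hxy).smul b)
    rw [h.smul_θ] at h1
    have h2 := h1.smul (a * a + τ * (a * b) + ν * (b * b))⁻¹
    rwa [smul_smul, inv_mul_cancel₀ (h.N_ne hcon), one_smul] at h2
  obtain ⟨rfl, rfl⟩ := key hu1 (fun h' => hwt (h'.symm h))
  obtain ⟨rfl, rfl⟩ := key hu2 hwt
  rw [mem_line]
  exact ⟨a, b, by simp⟩

section fin
variable [Finite F] [FiniteDimensional F V]

variable {M : Subgroup (OGrp Q)}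

/-- a singular vector perpendicular to a singular line and off it -/
theorem exists_off (hQ : (polarBilin Q).Nondegenerate) (h : Ux Q θ τ ν) (hN : 10 ≤ finrank F V) {v : V}
    (hv0 : v ≠ 0) (hv : Q v = 0) : ∃ z, Q z = 0 ∧ z ≠ 0 ∧ PK Q θ z v ∧ z ∉ line θ v := by
  have h2 := finrank_line θ v
  have h4 := finrank_perp hQ (line θ v)
  obtain ⟨C, hC⟩ := Submodule.exists_isCompl (line θ v)
  have h5 := Submodule.finrank_add_eq_of_isCompl hC
  have h6 := Submodule.finrank_sup_add_finrank_inf_eq (Orth.perp Q (line θ v)) C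
  have h7 := Submodule.finrank_le (Orth.perp Q (line θ v) ⊔ C)
  obtain ⟨z, ⟨hz1, hz2⟩, hz0, hz⟩ := exists_sing_mem Q (Orth.perp Q (line θ v) ⊓ C) (by omega)
  refine ⟨z, hz, hz0, PK.of_perp hz1, fun hl => hz0 ?_⟩
  have := hC.disjoint
  rw [Submodule.disjoint_def] at this
  exact this z hl hz2

theorem conn_B (hQ : (polarBilin Q).Nondegenerate) (h : Ux Q θ τ ν) (hN : 10 ≤ finrank F V)
    (hM : ∀ x, Q x = 0 → ∀ c : F, HasE M x (c • θ x)) {v w t : V} (hw : Q w = 0) (ht : Q t = 0) (hwv : PK Q θ w v)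
    (htv : PK Q θ t v) (hwt : ¬ PK Q θ w t) (hvw : HasE M v w) : HasE M v t := by
  let X : Submodule F V := Submodule.span F {x | x ∈ [v, θ v, w, θ w, t, θ t]}
  have hXm : ∀ z ∈ [v, θ v, w, θ w, t, θ t], z ∈ X := fun z hz => Submodule.subset_span hz
  have hX6 : finrank F X ≤ 6 := Symp.finrank_span_list_le (K := F) [v, θ v, w, θ w, t, θ t]
  have hR : finrank F (X ⊓ Orth.perp Q X : Submodule F V) ≤ 2 := by
    refine (Submodule.finrank_mono (?_ : _ ≤ line θ v)).trans (finrank_line θ v)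
    rintro u ⟨hu, hu'⟩
    exact rad_le h hw ht hwv htv hwt hu (fun z hz => hu' z hz)
  -- the functional
  have hs1 := exists_sep hQ [v, θ v, w, t] (h.not_mem_span hw ht hwv htv hwt)
  have hs2 := exists_sep hQ [v, θ v, w, t] (z := θ t) (by
    have := h.not_mem_span ht hw htv hwv (fun h' => hwt (h'.symm h))
    have e : ({x | x ∈ [v, θ v, w, t]} : Set V) = {x | x ∈ [v, θ v, t, w]} := by
      ext z; simp only [List.mem_cons, List.not_mem_nil, or_false, Set.mem_ofPred_eq]; tauto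
    rwa [e])
  obtain ⟨b1, hb1, hb1'⟩ := hs1
  obtain ⟨b2, hb2, hb2'⟩ := hs2
  have hmem : ∀ b, (∀ w' ∈ [v, θ v, w, t], polar Q b w' = 0) → b ∈ Orth.perp Q (Submodule.span F {x | x ∈ [v, θ v, w, t]}) := by
    intro b hb z hz
    change polar Q z b = 0
    induction hz using Submodule.span_induction with
    | mem x hx => rw [pc]; exact hb x hx
    | zero => rw [polar_zero_left]
    | add x y _ _ h1 h2 => rw [pal, h1, h2, add_zero]
    | smul a x _ h1 => rw [psl, h1, mul_zero]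
  obtain ⟨y, hy, hy1, hy2⟩ := exists_polar_ne_two (Q := Q) (P := Orth.perp Q (Submodule.span F {x | x ∈ [v, θ v, w, t]}))
    (a := θ w) (b := θ t) ⟨b1, hmem b1 hb1, by rw [pc, hb1']; exact one_ne_zero⟩
    ⟨b2, hmem b2 hb2, by rw [pc, hb2']; exact one_ne_zero⟩
  have hyp : ∀ w' ∈ [v, θ v, w, t], polar Q y w' = 0 := by
    intro w' hw'
    rw [pc]; exact hy w' (Submodule.subset_span hw')
  obtain ⟨x, hx, hxX⟩ := rep2 hQ X (by omega) y 0
  have hxv : PK Q θ x v := ⟨by rw [hxX v (hXm _ (by simp))]; exact hyp _ (by simp),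
    by rw [hxX _ (hXm _ (by simp))]; exact hyp _ (by simp)⟩
  have hxw : polar Q x w = 0 := by rw [hxX w (hXm _ (by simp))]; exact hyp _ (by simp)
  have hxt : polar Q x t = 0 := by rw [hxX t (hXm _ (by simp))]; exact hyp _ (by simp)
  have hxw' : polar Q x (θ w) ≠ 0 := by rw [hxX _ (hXm _ (by simp)), pc]; exact hy1
  have hxt' : polar Q x (θ t) ≠ 0 := by rw [hxX _ (hXm _ (by simp)), pc]; exact hy2
  have hvx : HasE M v x := by
    refine h.move' hM hvw hx hxv (by rw [pc]; exact hxw) ?_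
    rw [h.adj', pc Q w x, hxw, mul_zero, zero_sub, pc]
    exact neg_ne_zero.2 hxw'
  exact h.move' hM hvx ht htv hxt hxt'

theorem conn (hQ : (polarBilin Q).Nondegenerate) (h : Ux Q θ τ ν) (hN : 10 ≤ finrank F V)
    (hM : ∀ x, Q x = 0 → ∀ c : F, HasE M x (c • θ x)) {v w t : V} (hw : Q w = 0) (ht : Q t = 0) (hwv : PK Q θ w v)
    (htv : PK Q θ t v) (hwl : w ∉ line θ v) (htl : t ∉ line θ v) (hvw : HasE M v w) : HasE M v t := by
  by_cases hwt : PK Q θ w t
  · obtain ⟨p, hp, h1, h2⟩ := exists_polar_ne_two (exists_perp_ne hQ hwl) (exists_perp_ne hQ htl)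
    have hpv := PK.of_perp hp
    have h1' : polar Q p w ≠ 0 := by rw [pc]; exact h1
    set z := p + (-(Q p / polar Q p w)) • w with hz
    have hzq : Q z = 0 := by
      rw [hz, qadd, qsmul, hw, psr]
      field_simp; ring
    have hzv : PK Q θ z v := hpv.add (hwv.smul _)
    have hzw : polar Q w z ≠ 0 := by
      rw [hz, par, psr, pself, hw, mul_zero, mul_zero, add_zero]; exact h1
    have hzt : polar Q t z ≠ 0 := by
      rw [hz, par, psr, pc Q t w, hwt.1, mul_zero, add_zero]; exact h2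
    have hvz := conn_B hQ h hN hM hw hzq hwv hzv (fun h' => hzw h'.1) hvw
    exact conn_B hQ h hN hM hzq ht hzv htv (fun h' => hzt (by rw [pc]; exact h'.1)) hvz
  · exact conn_B hQ h hN hM hw ht hwv htv hwt hvw

theorem hasE_self (hM : ∀ x, Q x = 0 → ∀ c : F, HasE M x (c • θ x)) {v z : V} (hv : Q v = 0) (hz : z ∈ line θ v) :
    HasE M v z := by
  obtain ⟨a, b, rfl⟩ := mem_line.1 hz
  refine HasE.add ?_ (hM v hv b)
  refine ⟨hv, by rw [psr, pself, hv, mul_zero, mul_zero], ?_⟩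
  have : eich Q v (a • v) hv (by rw [psr, pself, hv, mul_zero, mul_zero]) = 1 := by
    refine OGrp_ext fun x => ?_
    rw [eich_apply, coe_one_apply, qsmul, hv, psr]
    module
  rw [this]; exact M.one_mem

theorem full_P (hQ : (polarBilin Q).Nondegenerate) (h : Ux Q θ τ ν) (hN : 10 ≤ finrank F V)
    (hM : ∀ x, Q x = 0 → ∀ c : F, HasE M x (c • θ x)) {v w : V} (hw : Q w = 0) (hwv : PK Q θ w v)
    (hwl : w ∉ line θ v) (hvw : HasE M v w) : ∀ p, PK Q θ p v → HasE M v p := by
  have hv := hvw.sing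
  intro p hp
  by_cases hpq : Q p = 0
  · by_cases hpl : p ∈ line θ v
    · exact hasE_self hM hv hpl
    · exact conn hQ h hN hM hw hpq hwv hp hwl hpl hvw
  · have hsing : ∀ z ∈ line θ v, polar Q z p = 0 := fun z hz => by rw [pc]; exact hp.of_mem hz
    have hpl : p ∉ Submodule.span F {x | x ∈ [v, θ v]} := by
      intro hpl
      obtain ⟨a, b, rfl⟩ := mem_line.1 hpl
      exact hpq (h.q_line hv a b)
    obtain ⟨y, hy, hyp⟩ := exists_sep hQ [v, θ v] hpl
    obtain ⟨x, hx, hxl⟩ := repV2 hQ [v, θ v, p] (by simp; omega) (Q p • y) 0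
    have hxv : PK Q θ x v := by
      constructor
      · rw [hxl v (by simp), psl, hy v (by simp), mul_zero]
      · rw [hxl _ (by simp), psl, hy _ (by simp), mul_zero]
    have hxp : polar Q x p = Q p := by rw [hxl p (by simp), psl, hyp, mul_one]
    have h1 : HasE M v x := conn hQ h hN hM hw hx hwv hxv hwl (fun hl => hpq (by rw [← hxp]; exact hsing x hl)) hvw
    have h2 : HasE M v (p - x) := by
      refine conn hQ h hN hM hw ?_ hwv (hp.sub hxv) hwl (fun hl => hpq ?_) hvw
      · rw [qsub, hx, pc, hxp]; ring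
      · have := hsing _ hl
        rw [pdl, pself, hxp] at this
        linear_combination this
    have h3 := h1.add h2
    rwa [add_sub_cancel] at h3

theorem exists_common (hQ : (polarBilin Q).Nondegenerate) (h : Ux Q θ τ ν) (hN : 10 ≤ finrank F V) {v w : V}
    (hv0 : v ≠ 0) (hv : Q v = 0) (hw0 : w ≠ 0) (hw : Q w = 0) :
    ∃ z, Q z = 0 ∧ z ≠ 0 ∧ PK Q θ z v ∧ PK Q θ z w ∧ z ∉ line θ v ∧ z ∉ line θ w := by
  by_cases hwl : w ∈ line θ v
  · -- the same line
    obtain ⟨z, hz, hz0, hzv, hzl⟩ := exists_off hQ h hN hv0 hv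
    have hsub : ∀ u ∈ line θ w, u ∈ line θ v := by
      intro u hu
      obtain ⟨a, b, rfl⟩ := mem_line.1 hu
      exact Submodule.add_mem _ (Submodule.smul_mem _ _ hwl) (Submodule.smul_mem _ _ (h.θ_mem hwl))
    refine ⟨z, hz, hz0, hzv, PK.of_perp fun u hu => ?_, hzl, fun hl => hzl (hsub _ hl)⟩
    exact hzv.perp u (hsub u hu)
  by_cases hvw : PK Q θ v w
  · have hwv := hvw.symm h
    have hvl : v ∉ line θ w := fun hl => hwl (h.line_symm hl hv0)
    have hvv : PK Q θ v v := PK.of_line h hv self_mem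
    have hww : PK Q θ w w := PK.of_line h hw self_mem
    refine ⟨v + w, by rw [qadd, hv, hw, hvw.1]; ring, ?_, hvv.add hwv, hvw.add hww, ?_, ?_⟩
    · intro h0
      apply hwl
      rw [(neg_eq_of_add_eq_zero_right h0).symm]
      exact Submodule.neg_mem _ self_mem
    · intro hl
      apply hwl
      have := (line θ v).sub_mem hl self_mem
      rwa [add_sub_cancel_left] at this
    · intro hl
      apply hvl
      have := (line θ w).sub_mem hl self_mem
      rwa [add_sub_cancel_right] at this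
  · have h1 := Submodule.finrank_sup_add_finrank_inf_eq (line θ v) (line θ w)
    have h2 := finrank_line θ v
    have h3 := finrank_line θ w
    have h4 := finrank_perp hQ (line θ v ⊔ line θ w)
    obtain ⟨z, hz1, hz0, hz⟩ := exists_sing_mem Q (Orth.perp Q (line θ v ⊔ line θ w)) (by omega)
    have hzv : PK Q θ z v := PK.of_perp fun u hu => hz1 u (Submodule.mem_sup_left hu)
    have hzw : PK Q θ z w := PK.of_perp fun u hu => hz1 u (Submodule.mem_sup_right hu)
    have key : ∀ {x y : V}, x ≠ 0 → ¬ PK Q θ x y → PK Q θ z y → z ∉ line θ x := by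
      intro x y hx0 hxy hzy hl
      apply hxy
      have hx : x ∈ line θ z := h.line_symm hl hz0
      obtain ⟨a, b, e⟩ := mem_line.1 hx
      rw [e]
      exact (hzy.smul a).add ((PK.θ_left h hzy).smul b)
    exact ⟨z, hz, hz0, hzv, hzw, key hv0 hvw hzw, key hw0 (fun h' => hvw (h'.symm h)) hzv⟩

theorem all_P (hQ : (polarBilin Q).Nondegenerate) (h : Ux Q θ τ ν) (hN : 10 ≤ finrank F V)
    (hM : ∀ x, Q x = 0 → ∀ c : F, HasE M x (c • θ x)) {v : V} (hv0 : v ≠ 0) (hv : Q v = 0)
    (hvP : ∀ p, PK Q θ p v → HasE M v p) {w : V} (hw0 : w ≠ 0) (hw : Q w = 0) : ∀ p, PK Q θ p w → HasE M w p := by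
  have step : ∀ {v w : V}, v ≠ 0 → Q v = 0 → (∀ p, PK Q θ p v → HasE M v p) → w ≠ 0 → Q w = 0 → PK Q θ w v → w ∉ line θ v →
      ∀ p, PK Q θ p w → HasE M w p := by
    intro v w hv0 hv hvP hw0 hw hwv hwl
    exact full_P hQ h hN hM hv (hwv.symm h) (fun hl => hwl (h.line_symm hl hv0)) ((hvP w hwv).symm hw)
  obtain ⟨z, hz, hz0, hzv, hzw, hzlv, hzlw⟩ := exists_common hQ h hN hv0 hv hw0 hw
  have h1 := step hv0 hv hvP hz0 hz hzv hzlv
  exact step hz0 hz h1 hw0 hw (hzw.symm h) (fun hl => hzlw (h.line_symm hl hw0))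

theorem fullR_of (hQ : (polarBilin Q).Nondegenerate) (h : Ux Q θ τ ν) (hN : 10 ≤ finrank F V)
    (hall : ∀ w, w ≠ 0 → Q w = 0 → ∀ p, PK Q θ p w → HasE M w p) {v : V} (hv0 : v ≠ 0) (hv : Q v = 0) : FullR M v := by
  have hθv : θ v ∉ Submodule.span F {x | x ∈ [v]} := by
    intro hmem
    have e : ({x | x ∈ [v]} : Set V) = {v} := by ext z; simp
    rw [e] at hmem
    obtain ⟨c, hc⟩ := Submodule.mem_span_singleton.1 hmem
    have := h.indep hv0 (a := c) (b := -1) (by rw [hc]; simp)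
    exact neg_ne_zero.2 one_ne_zero this.2
  obtain ⟨y, hy, hy1⟩ := exists_sep hQ [v] hθv
  obtain ⟨a, ha, hal⟩ := repV2 hQ [v, θ v] (by simp; omega) y 0
  have hav : polar Q a v = 0 := by rw [hal v (by simp)]; exact hy v (by simp)
  have haθ : polar Q a (θ v) = 1 := by rw [hal _ (by simp), hy1]
  have ha0 : a ≠ 0 := by
    rintro rfl
    rw [polar_zero_left] at haθ
    exact one_ne_zero haθ.symm
  -- two vectors
  have h1 := Submodule.finrank_sup_add_finrank_inf_eq (line θ a) (line θ v)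
  have h2 := finrank_line θ a
  have h3 := finrank_line θ v
  have h4 := finrank_perp hQ (line θ a ⊔ line θ v)
  obtain ⟨w, hw, b, hb, hwb⟩ : ∃ w ∈ Orth.perp Q (line θ a ⊔ line θ v), ∃ b ∈ Orth.perp Q (line θ a ⊔ line θ v),
      polar Q w b ≠ 0 := by
    by_contra hcon
    push Not at hcon
    have hle : Orth.perp Q (line θ a ⊔ line θ v) ≤ Orth.perp Q (Orth.perp Q (line θ a ⊔ line θ v)) := by
      intro w hw b hb
      exact hcon b hb w hw
    have h5 := Submodule.finrank_mono hle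
    have h6 := finrank_perp hQ (Orth.perp Q (line θ a ⊔ line θ v))
    omega
  have hPa : ∀ {z}, z ∈ Orth.perp Q (line θ a ⊔ line θ v) → PK Q θ z a := fun hz =>
    PK.of_perp fun u hu => hz u (Submodule.mem_sup_left hu)
  have hPv : ∀ {z}, z ∈ Orth.perp Q (line θ a ⊔ line θ v) → PK Q θ z v := fun hz =>
    PK.of_perp fun u hu => hz u (Submodule.mem_sup_right hu)
  have hca : ∀ c : F, HasE M v (c • a) := by
    intro c
    have hg := hall a ha0 ha b (hPa hb)
    obtain ⟨e1, e2, hg⟩ := hg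
    have hp := hall v hv0 hv ((c * (polar Q w b)⁻¹) • w) ((hPv hw).smul _)
    have h5 := hp.conj hg
    rw [eich_apply, eich_apply, pc Q v b, (hPv hb).1, pc Q v a, hav, psl, psl, (hPa hw).1, mul_assoc,
      inv_mul_cancel₀ hwb] at h5
    simp only [mul_zero, mul_one, zero_smul, add_zero, sub_zero] at h5
    have h6 := h5.sub hp
    rwa [add_sub_cancel_left] at h6
  intro u hu
  have h5 : HasE M v (u - polar Q u (θ v) • a) := by
    refine hall v hv0 hv _ ⟨?_, ?_⟩
    · rw [pdl, psl, hav, pc Q u v, hu, mul_zero, sub_zero]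
    · rw [pdl, psl, haθ, mul_one, sub_self]
  have h6 := h5.add (hca (polar Q u (θ v)))
  rwa [sub_add_cancel] at h6

/-- an unexpected Eichler element yields everything -/
theorem comm_le (hQ : (polarBilin Q).Nondegenerate) (h : Ux Q θ τ ν) (hN : 10 ≤ finrank F V)
    (hM : ∀ x, Q x = 0 → ∀ c : F, HasE M x (c • θ x)) {v w : V} (hv0 : v ≠ 0) (hvw : HasE M v w)
    (hwl : w ∉ line θ v) : commutator (OGrp Q) ≤ M := by
  have hv := hvw.sing
  obtain ⟨z, hzv, hzl⟩ : ∃ z ∈ Orth.perp Q (line θ v), z ∉ line θ v := by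
    by_contra hcon
    push Not at hcon
    have h1 : Orth.perp Q (line θ v) ≤ line θ v := hcon
    have h2 := Submodule.finrank_mono h1
    have h3 := finrank_line θ v
    have h4 := finrank_perp hQ (line θ v)
    omega
  have hzv' := PK.of_perp hzv
  obtain ⟨y, hy, hy1, hy2⟩ := exists_polar_ne_two (exists_perp_ne hQ hwl) (exists_perp_ne hQ hzl)
  have hyv := PK.of_perp hy
  obtain ⟨x, hx, hxl⟩ := repV2 hQ [v, θ v, w, z] (by simp; omega) y 0
  have hxv : PK Q θ x v := ⟨by rw [hxl v (by simp)]; exact hyv.1, by rw [hxl _ (by simp)]; exact hyv.2⟩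
  have hxw : polar Q w x ≠ 0 := by rw [pc, hxl w (by simp), pc]; exact hy1
  have hxz : polar Q z x ≠ 0 := by rw [pc, hxl z (by simp), pc]; exact hy2
  have hxn : x ∉ line θ v := fun hl => hxz (hzv'.of_mem hl)
  have h1 := h.move hM hvw hx hxv 1
  rw [one_mul, one_mul, sub_eq_add_neg, ← neg_smul] at h1
  have hu : PK Q θ (polar Q w (θ x) • x + (-polar Q w x) • θ x) v := (hxv.smul _).add ((PK.θ_left h hxv).smul _)
  have hP := full_P hQ h hN hM (h.q_line hx _ _) hu
    (fun hl => hxn (h.mem_of (fun h' => hxw (neg_eq_zero.1 h'.2)) hl)) h1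
  have hall : ∀ w, w ≠ 0 → Q w = 0 → ∀ p, PK Q θ p w → HasE M w p := fun w hw0 hw =>
    all_P hQ h hN hM hv0 hv hP hw0 hw
  refine Cfsg.Agent.GeoMax.Ort.commutator_le hQ (by omega) M fun a b ha hab => ?_
  by_cases ha0 : a = 0
  · rw [ha0]; exact HasE.zero_left b
  · exact fullR_of hQ h hN hall ha0 ha b hab

/-- an operator preserving all singular lines over the big field is in the big field -/
theorem exists_eq (hQ : (polarBilin Q).Nondegenerate) (h : Ux Q θ τ ν) (hN : 10 ≤ finrank F V) {θ' : V →ₗ[F] V}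
    (hl : ∀ v, Q v = 0 → θ' v ∈ line θ v) : ∃ a b : F, ∀ x, θ' x = a • x + b • θ x := by
  obtain ⟨v₀, hv₀0, hv₀⟩ := exists_sing Q (by omega)
  obtain ⟨a, b, hab⟩ := mem_line.1 (hl v₀ hv₀)
  have step : ∀ {v w : V}, v ≠ 0 → Q v = 0 → θ' v = a • v + b • θ v → Q w = 0 → PK Q θ w v → w ∉ line θ v →
      θ' w = a • w + b • θ w := by
    intro v w hv0 hv hv' hw hwv hwl
    obtain ⟨c, d, hcd⟩ := mem_line.1 (hl w hw)
    obtain ⟨s, t, hst⟩ := mem_line.1 (hl (w + v) (by rw [qadd, hw, hv, hwv.1]; ring))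
    have h1 : (c - s) • w + (d - t) • θ w ∈ line θ v := by
      rw [mem_line]
      refine ⟨s - a, t - b, ?_⟩
      rw [map_add, map_add, hcd, hv'] at hst
      have h2 : (c - s) • w + (d - t) • θ w - ((s - a) • v + (t - b) • θ v) =
          (c • w + d • θ w + (a • v + b • θ v)) - (s • (w + v) + t • (θ w + θ v)) := by module
      rw [← sub_eq_zero, h2, hst, sub_self]
    have h2 : c - s = 0 ∧ d - t = 0 := by
      by_contra hcon
      exact hwl (h.mem_of hcon h1)
    have h3 : (s - a) • v + (t - b) • θ v = 0 := by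
      rw [map_add, map_add, hcd, hv'] at hst
      have e1 : c = s := sub_eq_zero.1 h2.1
      have e2 : d = t := sub_eq_zero.1 h2.2
      rw [e1, e2] at hst
      have h4 : (s - a) • v + (t - b) • θ v =
          (s • (w + v) + t • (θ w + θ v)) - (s • w + t • θ w + (a • v + b • θ v)) := by module
      rw [h4, hst, sub_self]
    have h4 := h.indep hv0 h3
    rw [hcd, sub_eq_zero.1 h2.1, sub_eq_zero.1 h2.2, sub_eq_zero.1 h4.1, sub_eq_zero.1 h4.2]
  have hsing : ∀ w, Q w = 0 → θ' w = a • w + b • θ w := by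
    intro w hw
    by_cases hw0 : w = 0
    · rw [hw0]; simp
    obtain ⟨z, hz, hz0, hzv, hzw, hzlv, hzlw⟩ := exists_common hQ h hN hv₀0 hv₀ hw0 hw
    have h1 := step hv₀0 hv₀ hab hz hzv hzlv
    exact step hz0 hz h1 hw (hzw.symm h) (fun hl => hzlw (h.line_symm hl hw0))
  refine ⟨a, b, fun x => ?_⟩
  by_cases hx : Q x = 0
  · exact hsing x hx
  have hx0 : x ∉ Submodule.span F {x | x ∈ ([] : List V)} := by
    intro hmem
    have e : ({x | x ∈ ([] : List V)} : Set V) = ∅ := by ext z; simp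
    rw [e, Submodule.span_empty, Submodule.mem_bot] at hmem
    exact hx (by rw [hmem, QuadraticMap.map_zero])
  obtain ⟨y, -, hy⟩ := exists_sep hQ [] hx0
  obtain ⟨s, hs, hsl⟩ := repV2 hQ [x] (by simp; omega) (Q x • y) 0
  have hsx : polar Q s x = Q x := by rw [hsl x (by simp), psl, hy, mul_one]
  have h1 := hsing s hs
  have h2 := hsing (x - s) (by rw [qsub, hs, pc, hsx]; ring)
  have h3 : θ' x = θ' (x - s) + θ' s := by rw [← map_add, sub_add_cancel]
  rw [h3, h1, h2, map_sub]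
  module

end fin

end Cfsg.Agent.H98.UO
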