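import Cfsg.Agent.H98.UOA

/-!
Maximality of the normaliser of a quadratic extension field with non-trivial adjunction in `Ω`, dimension at least ten.
-/

set_option autoImplicit false
set_option linter.unusedSectionVars false

namespace Cfsg.Agent.H98.UO

open QuadraticMap Module Cfsg.Agent.Orth Cfsg.Agent.GeoMax.Ort Cfsg.Agent.GeoMax
open Cfsg.Agent.GeoMax.Ort.Ux (line mem_line self_mem PK PK.symm PK.θ_left PK.add PK.sub PK.smul PK.of_mem PK.perp PK.of_perp PK.of_line finrank_line exists_perp_ne)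

section
variable {F V : Type*} [Field F] [AddCommGroup V] [Module F V] [Finite F] [FiniteDimensional F V]
variable {Q : QuadraticForm F V} {θ : V →ₗ[F] V} {τ ν : F}

theorem exists_not_norm (hQ : (polarBilin Q).Nondegenerate) (h : Ux Q θ τ ν) (hN : 10 ≤ finrank F V) :
    ∃ g ∈ commutator (OGrp Q), ∀ a b : F, ∃ x, (g : V ≃ₗ[F] V) (θ x) ≠ a • (g : V ≃ₗ[F] V) x + b • θ ((g : V ≃ₗ[F] V) x) := by
  obtain ⟨v, hv0, hv⟩ := exists_sing Q (by omega)
  obtain ⟨w, hw, hw0, hwv, -, hwl, -⟩ := exists_common hQ h hN hv0 hv hv0 hv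
  obtain ⟨z, hz, hz0, hzv, hzw, -, -⟩ := exists_common hQ h hN hv0 hv hw0 hw
  have hvw : polar Q v w = 0 := by rw [pc]; exact hwv.1
  refine ⟨eich Q v w hv hvw, eich_mem_commutator hQ (by omega) hv hvw, fun a b => ?_⟩
  by_contra hcon
  push Not at hcon
  simp only [eich_apply, hw, zero_mul, zero_smul, sub_zero] at hcon
  have h1 := hcon z
  have hzv' := PK.θ_left h hzv
  have hzw' := PK.θ_left h hzw
  rw [hzv.1, hzw.1, hzv'.1, hzw'.1] at h1
  simp only [zero_smul, add_zero, sub_zero] at h1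
  have h2 := h.indep hz0 (a := a) (b := b - 1) (by rw [sub_smul, ← add_sub_assoc, ← h1, one_smul, sub_self])
  have hb1 : b = 1 := sub_eq_zero.1 h2.2
  have hwn : w ∉ Submodule.span F {x | x ∈ [v]} := by
    intro hmem
    have e : ({x | x ∈ [v]} : Set V) = {v} := by ext z; simp
    rw [e] at hmem
    obtain ⟨c, hc⟩ := Submodule.mem_span_singleton.1 hmem
    exact hwl (mem_line.2 ⟨c, 0, by rw [← hc]; simp⟩)
  obtain ⟨x, hx, hxw⟩ := exists_sep hQ [v] hwn
  have hxv := hx v (by simp)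
  have h3 := hcon x
  rw [h2.1, hb1, hxv, hxw] at h3
  simp only [zero_smul, one_smul, sub_zero, zero_add, map_add] at h3
  have h4 : polar Q (θ x) w • v - polar Q (θ x) v • w = θ v := by
    rw [add_sub_assoc] at h3
    exact add_left_cancel h3
  by_cases h5 : polar Q (θ x) v = 0
  · rw [h5, zero_smul, sub_zero] at h4
    have h6 := h.indep hv0 (a := polar Q (θ x) w) (b := -1) (by rw [h4]; simp)
    exact neg_ne_zero.2 one_ne_zero h6.2
  · apply hwl
    have h6 : polar Q (θ x) v • w ∈ line θ v := by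
      rw [mem_line]
      refine ⟨polar Q (θ x) w, -1, ?_⟩
      rw [← h4]; module
    have h7 := (line θ v).smul_mem (polar Q (θ x) v)⁻¹ h6
    rwa [smul_smul, inv_mul_cancel₀ h5, one_smul] at h7

end

section
open Matrix
open scoped MatrixGroups

variable {ι : Type} [Fintype ι] [DecidableEq ι] {F : Type*} [Field F]

/-- **Maximality of unitary subgroups of `Ω`.** -/
theorem maximal [Finite F] {Q : QuadraticForm F (ι → F)} (hQ : (polarBilin Q).Nondegenerate) (hN : 10 ≤ Fintype.card ι)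
    (K : Subalgebra F (Matrix ι ι F)) (hK : Cfsg.Geo.IsFieldSubalgebra 2 K)
    (hac : Cfsg.Geo.IsAdjointClosedFor (QuadraticMap.polar Q) K) (hnsa : ¬ Cfsg.Geo.IsSelfAdjointFor (QuadraticMap.polar Q) K)
    (hsc : ∀ k ∈ K, ∃ c : F, ∀ v : ι → F, Q (Matrix.mulVec k v) = c * Q v) :
    Cfsg.Geo.IsMaximalIn (Cfsg.Geo.omegaGL ⇑Q) (Cfsg.Geo.subalgebraNormalizer K ⊓ Cfsg.Geo.omegaGL ⇑Q) := by
  have hfr : 10 ≤ finrank F (ι → F) := by rw [Module.finrank_fintype_fun_eq_card]; exact hN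
  -- the generator
  unfold Cfsg.Geo.IsSelfAdjointFor at hnsa
  push Not at hnsa
  obtain ⟨Θ, hΘ, u₀, v₀, huv⟩ := hnsa
  have hns : ∀ c : F, Θ ≠ c • (1 : Matrix ι ι F) := by
    rintro c rfl
    apply huv
    rw [Matrix.smul_mulVec, Matrix.smul_mulVec, Matrix.one_mulVec, Matrix.one_mulVec, psl, psr]
  have hsp := fun k hk => Symp.exists_eq_of_two hK.finrank_eq hΘ hns (k := k) hk
  have hext : ∀ {x y : ι → F}, (∀ z, polar Q x z = polar Q y z) → x = y := by
    intro x y hxy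
    rw [← sub_eq_zero]
    refine hQ.1 _ fun z => ?_
    rw [pbil, pdl, hxy, sub_self]
  obtain ⟨k', hk', hadj⟩ := hac Θ hΘ
  obtain ⟨τ, b, hk⟩ := hsp k' hk'
  have hadj1 : ∀ x y, polar Q (Θ *ᵥ x) y = τ * polar Q x y + b * polar Q x (Θ *ᵥ y) := by
    intro x y
    rw [hadj, hk, Matrix.add_mulVec, Matrix.smul_mulVec, Matrix.smul_mulVec, Matrix.one_mulVec, par, psr, psr]
  have hb : b = -1 := by
    by_contra hb
    have h1b : 1 + b ≠ 0 := fun h0 => hb (by linear_combination h0)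
    have h1 : ∀ x y, (1 - b) * polar Q (Θ *ᵥ x) y = τ * polar Q x y := by
      intro x y
      have e1 := hadj1 x y
      have e2 := hadj1 y x
      rw [pc Q (Θ *ᵥ y) x, pc Q y x, pc Q y (Θ *ᵥ x)] at e2
      have e3 : (1 + b) * ((1 - b) * polar Q (Θ *ᵥ x) y - τ * polar Q x y) = 0 := by
        linear_combination e1 + b * e2
      exact sub_eq_zero.1 ((mul_eq_zero.1 e3).resolve_left h1b)
    by_cases hb1 : 1 - b = 0
    · apply huv
      have e1 := h1 u₀ v₀
      rw [hb1, zero_mul] at e1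
      rw [hadj1, ← e1, zero_add, (sub_eq_zero.1 hb1).symm, one_mul]
    · apply hns (τ / (1 - b))
      apply Matrix.ext_of_mulVec_single
      intro i
      apply hext
      intro z
      rw [Matrix.smul_mulVec, Matrix.one_mulVec, psl]
      have e1 := h1 (Pi.single i 1) z
      field_simp
      linear_combination e1
  obtain ⟨ν, hν⟩ := hsc Θ hΘ
  have hadj2 : ∀ x y, polar Q (Θ *ᵥ x) y = τ * polar Q x y - polar Q x (Θ *ᵥ y) := by
    intro x y
    rw [hadj1, hb]; ring
  have hpp : ∀ x y, polar Q (Θ *ᵥ x) (Θ *ᵥ y) = ν * polar Q x y := by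
    intro x y
    simp only [QuadraticMap.polar, ← Matrix.mulVec_add, hν]; ring
  have hsq : ∀ x, Θ *ᵥ (Θ *ᵥ x) = τ • (Θ *ᵥ x) - ν • x := by
    intro x
    apply hext
    intro z
    rw [hadj2, hpp, pdl, psl, psl]
  have hux : Ux Q (Matrix.mulVecLin Θ) τ ν := by
    refine ⟨fun x => ?_, fun x y => ?_, fun x => ?_, fun x hx => ?_, fun a ha => ?_⟩
    · rw [Matrix.mulVecLin_apply, Matrix.mulVecLin_apply]; exact hsq x
    · rw [Matrix.mulVecLin_apply, Matrix.mulVecLin_apply]; exact hadj2 x y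
    · rw [Matrix.mulVecLin_apply]; exact hν x
    · obtain ⟨c, hc⟩ := hsc (1 + Θ) (K.add_mem K.one_mem hΘ)
      have h1 := hc x
      rw [Matrix.add_mulVec, Matrix.one_mulVec, qadd, hx, hν, hx] at h1
      rw [Matrix.mulVecLin_apply]
      linear_combination h1
    · have h3 : (Θ - a • (1 : Matrix ι ι F)) * (Θ - (τ - a) • (1 : Matrix ι ι F)) = 0 := by
        apply Matrix.ext_of_mulVec_single
        intro i
        rw [← Matrix.mulVec_mulVec, Matrix.zero_mulVec]
        simp only [Matrix.sub_mulVec, Matrix.smul_mulVec, Matrix.one_mulVec, Matrix.mulVec_sub, Matrix.mulVec_smul, hsq]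
        have hz : (-(a * a - τ * a + ν)) • (Pi.single i 1 : ι → F) = 0 := by rw [ha, neg_zero, zero_smul]
        rw [← hz]
        module
      have h4 : Θ - a • (1 : Matrix ι ι F) ∈ K := K.sub_mem hΘ (K.smul_mem K.one_mem a)
      obtain ⟨y, hy, hy1⟩ := hK.inv _ h4 (sub_ne_zero.2 (hns a))
      have h6 := hK.comm _ h4 y hy
      have h5 : Θ - (τ - a) • (1 : Matrix ι ι F) = 0 := by
        calc Θ - (τ - a) • (1 : Matrix ι ι F) = (y * (Θ - a • (1 : Matrix ι ι F))) * (Θ - (τ - a) • (1 : Matrix ι ι F)) := by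
              rw [← h6, hy1, Matrix.one_mul]
          _ = 0 := by rw [Matrix.mul_assoc, h3, Matrix.mul_zero]
      exact hns _ (sub_eq_zero.1 h5)
  refine isMaximalIn_omegaGL Q (H' := (Cfsg.Geo.subalgebraNormalizer K).comap (emGL Q)) (fun g => Iff.rfl) ?_
  constructor
  · refine lt_of_le_of_ne inf_le_right ?_
    intro heq
    obtain ⟨g, hg, hgn⟩ := exists_not_norm hQ hux hfr
    have hgH : g ∈ (Cfsg.Geo.subalgebraNormalizer K).comap (emGL Q) ⊓ commutator (OGrp Q) := by rw [heq]; exact hg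
    obtain ⟨a, b, hab⟩ := hsp _ ((hgH.1 Θ).1 hΘ)
    obtain ⟨x, hx⟩ := hgn a b
    apply hx
    have h3 := congrArg (fun A : Matrix ι ι F => A *ᵥ ((emGL Q g : Matrix ι ι F) *ᵥ x)) hab
    rw [Matrix.add_mulVec, Matrix.smul_mulVec, Matrix.smul_mulVec, Matrix.one_mulVec, ← Matrix.mulVec_mulVec,
      ← Matrix.mulVec_mulVec, gl_inv_mulVec, emGL_mulVec, emGL_mulVec] at h3
    exact h3
  · intro M hHM hMI
    by_cases hMH : M = (Cfsg.Geo.subalgebraNormalizer K).comap (emGL Q) ⊓ commutator (OGrp Q)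
    · exact Or.inl hMH
    right
    refine le_antisymm hMI ?_
    have hM : ∀ x, Q x = 0 → ∀ c : F, HasE M x (c • Matrix.mulVecLin Θ x) := by
      intro x hx c
      have hpol : polar Q x (c • Matrix.mulVecLin Θ x) = 0 := by rw [psr, hux.pol x hx, mul_zero]
      refine ⟨hx, hpol, hHM ⟨?_, eich_mem_commutator hQ (by omega) hx hpol⟩⟩
      refine Symp.mem_norm_of_comm hsp ?_
      apply Matrix.ext_of_mulVec_single
      intro i
      rw [← Matrix.mulVec_mulVec, ← Matrix.mulVec_mulVec, emGL_mulVec, emGL_mulVec, eich_apply, eich_apply,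
        Matrix.mulVecLin_apply, qsmul, hν, hx]
      simp only [mul_zero, zero_mul, zero_smul, sub_zero, Matrix.mulVec_add, Matrix.mulVec_sub, Matrix.mulVec_smul, psr,
        hadj2, hsq, pdr]
      module
    obtain ⟨g, hgM, hg⟩ : ∃ g ∈ M, emGL Q g ∉ Cfsg.Geo.subalgebraNormalizer K := by
      by_contra hcon
      push Not at hcon
      exact hMH (le_antisymm (fun g hg => ⟨hcon g hg, hMI hg⟩) hHM)
    -- the conjugate structure
    let θ' : (ι → F) →ₗ[F] (ι → F) := ((g : (ι → F) ≃ₗ[F] (ι → F)) : (ι → F) →ₗ[F] (ι → F)).comp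
      ((Matrix.mulVecLin Θ).comp (((g⁻¹ : OGrp Q) : (ι → F) ≃ₗ[F] (ι → F)) : (ι → F) →ₗ[F] (ι → F)))
    have hθ' : ∀ x, θ' x = (g : (ι → F) ≃ₗ[F] (ι → F)) (Θ *ᵥ (((g⁻¹ : OGrp Q) : (ι → F) ≃ₗ[F] (ι → F)) x)) := fun x => rfl
    by_cases hall : ∀ v, Q v = 0 → θ' v ∈ line (Matrix.mulVecLin Θ) v
    · exfalso
      obtain ⟨a, b, hab⟩ := Cfsg.Agent.H98.UO.exists_eq hQ hux hfr hall
      have hb0 : b ≠ 0 := by
        rintro rfl
        apply hns a
        apply Matrix.ext_of_mulVec_single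
        intro i
        have h1 := hab ((g : (ι → F) ≃ₗ[F] (ι → F)) (Pi.single i 1))
        rw [hθ', coe_inv_apply_self, zero_smul, add_zero, ← map_smul] at h1
        rw [Matrix.smul_mulVec, Matrix.one_mulVec]
        exact (g : (ι → F) ≃ₗ[F] (ι → F)).injective h1
      apply hg
      refine Symp.mem_norm_of_conj hΘ hsp hb0 (a := a) ?_
      apply Matrix.ext_of_mulVec_single
      intro i
      have h3 := hab (Pi.single i 1)
      rw [hθ', Matrix.mulVecLin_apply] at h3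
      rw [Matrix.add_mulVec, Matrix.smul_mulVec, Matrix.smul_mulVec, Matrix.one_mulVec, ← h3, ← Matrix.mulVec_mulVec,
        ← Matrix.mulVec_mulVec, ← map_inv, emGL_mulVec, emGL_mulVec]
    · push Not at hall
      obtain ⟨v, hv, hvl⟩ := hall
      have hv0 : v ≠ 0 := by
        rintro rfl
        exact hvl (by rw [map_zero]; exact Submodule.zero_mem _)
      have h1 := hM (((g⁻¹ : OGrp Q) : (ι → F) ≃ₗ[F] (ι → F)) v) (by rw [OGrp_q]; exact hv) 1
      have h2 := h1.conj hgM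
      rw [one_smul, coe_apply_inv_self] at h2
      exact comm_le hQ hux hfr hM hv0 h2 hvl

end


/-- **Unitary clause of the orthogonal maximality tables**, `n ≥ 10`. -/
theorem gu_geo {F : Type*} [Field F] [Fintype F] {n : ℕ} (hn : 10 ≤ n) (Q : (Fin n → F) → F)
    (hQ : Cfsg.Geo.IsNondegenerateQuadraticForm Q) (K : Subalgebra F (Matrix (Fin n) (Fin n) F))
    (hK : Cfsg.Geo.IsFieldSubalgebra 2 K) (hac : Cfsg.Geo.IsAdjointClosedFor (QuadraticMap.polar Q) K)
    (hnsa : ¬ Cfsg.Geo.IsSelfAdjointFor (QuadraticMap.polar Q) K)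
    (hsc : ∀ k ∈ K, ∃ c : F, ∀ v : (Fin n → F), Q (Matrix.mulVec k v) = c * Q v) :
    Cfsg.Geo.IsMaximalIn (Cfsg.Geo.omegaGL Q) (Cfsg.Geo.subalgebraNormalizer K ⊓ Cfsg.Geo.omegaGL Q) := by
  have h := maximal (Q := toQF hQ) (toQF_nondeg hQ) (by rw [Fintype.card_fin]; omega) K hK hac hnsa hsc
  exact h

end Cfsg.Agent.H98.UO
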