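import Cfsg.Agent.H98.UniBase
import Cfsg.Agent.Uni.Gen2
import Cfsg.Agent.Uni.Iso
import Cfsg.Agent.Uni.Stab

/-!
Existence lemmas in unitary spaces of large dimension, and Eichler elements in subgroups of `SU`.
-/

set_option autoImplicit false
set_option linter.unusedSectionVars false

namespace Cfsg.Agent.H98.UniMax

open Matrix Cfsg.Geo Module
open scoped MatrixGroups

variable {F : Type*} [Field F] [Fintype F] {n q : ℕ}

local notation "⟪" x ", " y "⟫" => Cfsg.hermForm _ _ q x y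

lemma notMem_span_of_perp (hF : Fintype.card F = q ^ 2) {S : Set (Fin n → F)} {x y : Fin n → F}
    (hy : ∀ c ∈ S, ⟪y, c⟫ = 0) (hxy : ⟪y, x⟫ ≠ 0) : x ∉ Submodule.span F S := by
  intro hx
  apply hxy
  have h1 : y ∈ Uni.perp q (Submodule.span F S) := (Uni.mem_perp_span hF).2 hy
  exact h1 x hx

/-- vectors of `S^⊥` not orthogonal to a given vector outside `⟨S⟩` -/
lemma exists_perp_ne (hF : Fintype.card F = q ^ 2) (S : Finset (Fin n → F)) (w : Fin n → F)
    (hw : w ∉ Submodule.span F (S : Set (Fin n → F))) : ∃ y : Fin n → F, (∀ c ∈ S, ⟪y, c⟫ = 0) ∧ ⟪w, y⟫ ≠ 0 := by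
  by_contra hcon
  push Not at hcon
  apply hw
  rw [← Uni.perp_perp hF (Submodule.span F (S : Set (Fin n → F)))]
  intro y hy
  apply hcon y
  intro c hc
  exact (Uni.mem_perp_span hF).1 hy c hc

/-- isotropic correction -/
lemma exists_correct (hF : Fintype.card F = q ^ 2) (S : Finset (Fin n → F)) (hS : 2 * (S.card + 1) < n)
    (y : Fin n → F) : ∃ z : Fin n → F, (∀ c ∈ S, ⟪z, c⟫ = 0) ∧ ⟪y + z, y + z⟫ = 0 := by
  classical
  obtain ⟨z, hz, hzz⟩ := exists_z hF (insert y S) (by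
    have := Finset.card_insert_le y S
    omega) (s := -⟪y, y⟫) (by rw [Uni.neg_pow_q hF, Uni.hermForm_self_pow_q hF])
  have hzy := hz y (by simp)
  have e3 := (Uni.hermForm_eq_zero_comm hF).1 hzy
  refine ⟨z, fun c hc => hz c (by simp [hc]), ?_⟩
  rw [Uni.hermForm_add_left, Uni.hermForm_add_right hF, Uni.hermForm_add_right hF, hzy, e3, hzz]
  ring

/-- isotropic vectors of `S^⊥` not orthogonal to a given vector outside `⟨S⟩` -/
lemma exists_iso_one (hF : Fintype.card F = q ^ 2) (S : Finset (Fin n → F)) (hS : 2 * (S.card + 2) < n)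
    (w : Fin n → F) (hw : w ∉ Submodule.span F (S : Set (Fin n → F))) :
    ∃ u : Fin n → F, ⟪u, u⟫ = 0 ∧ (∀ c ∈ S, ⟪u, c⟫ = 0) ∧ ⟪w, u⟫ ≠ 0 := by
  classical
  obtain ⟨y, hyS, hyw⟩ := exists_perp_ne hF S w hw
  obtain ⟨z, hzS, hzz⟩ := exists_correct hF (insert w S) (by
    have := Finset.card_insert_le w S
    omega) y
  have hwz : ⟪w, z⟫ = 0 := (Uni.hermForm_eq_zero_comm hF).1 (hzS w (by simp))
  refine ⟨y + z, hzz, fun c hc => ?_, ?_⟩
  · rw [Uni.hermForm_add_left, hyS c hc, hzS c (by simp [hc]), add_zero]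
  · rw [Uni.hermForm_add_right hF, hwz, add_zero]; exact hyw

/-- isotropic partner -/
lemma exists_partner (hF : Fintype.card F = q ^ 2) (S : Finset (Fin n → F)) (hS : 2 * (S.card + 2) < n)
    (w : Fin n → F) (hw : w ∉ Submodule.span F (S : Set (Fin n → F))) :
    ∃ u : Fin n → F, ⟪u, u⟫ = 0 ∧ (∀ c ∈ S, ⟪u, c⟫ = 0) ∧ ⟪w, u⟫ = 1 := by
  obtain ⟨u, hu, huS, hwu⟩ := exists_iso_one hF S hS w hw
  refine ⟨((⟪w, u⟫)⁻¹ ^ q) • u, ?_, fun c hc => ?_, ?_⟩
  · rw [Uni.hermForm_smul_left, Uni.hermForm_smul_right, hu, mul_zero, mul_zero]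
  · rw [Uni.hermForm_smul_left, huS c hc, mul_zero]
  · rw [Uni.hermForm_smul_right, Uni.pow_q_pow_q hF, inv_mul_cancel₀ hwu]

/-- hyperbolic pairs orthogonal to a few vectors -/
lemma exists_hyp_perp (hF : Fintype.card F = q ^ 2) (S : Finset (Fin n → F)) (hS : 2 * (S.card + 2) < n) :
    ∃ z z' : Fin n → F, ⟪z, z⟫ = 0 ∧ ⟪z', z'⟫ = 0 ∧ ⟪z, z'⟫ = 1 ∧ (∀ c ∈ S, ⟪z, c⟫ = 0) ∧ (∀ c ∈ S, ⟪z', c⟫ = 0) := by
  obtain ⟨a, haS, haa⟩ := exists_z hF S (by omega) (one_pow q)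
  have ha : a ∉ Submodule.span F (S : Set (Fin n → F)) :=
    notMem_span_of_perp hF haS (by rw [haa]; exact one_ne_zero)
  obtain ⟨u, hu, huS, hau⟩ := exists_iso_one hF S hS a ha
  obtain ⟨u', hu', hu'S, huu'⟩ := exists_partner hF S hS u (notMem_span_of_perp hF haS hau)
  exact ⟨u, u', hu, hu', huu', huS, hu'S⟩

/-- decomposition of a vector as a combination of isotropic ones -/
lemma exists_decomp_S (hF : Fintype.card F = q ^ 2) (S : Finset (Fin n → F)) (hS : 2 * (S.card + 1) < n)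
    (x : Fin n → F) (hx : ∀ c ∈ S, ⟪x, c⟫ = 0) :
    ∃ (y y' : Fin n → F) (a b : F), ⟪y, y⟫ = 0 ∧ ⟪y', y'⟫ = 0 ∧ x = a • y + b • y' ∧
      (∀ c ∈ S, ⟪y, c⟫ = 0) ∧ (∀ c ∈ S, ⟪y', c⟫ = 0) := by
  classical
  obtain ⟨z, hz, hzz⟩ := exists_z hF (insert x S) (by
    have := Finset.card_insert_le x S
    omega) (s := -⟪x, x⟫) (by rw [Uni.neg_pow_q hF, Uni.hermForm_self_pow_q hF])
  obtain ⟨l, hl, hl2⟩ := Uni.exists_norm_one_sq_ne hF
  have hl1 : l - 1 ≠ 0 := by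
    intro h
    apply hl2
    rw [sub_eq_zero.1 h, one_pow]
  have hzx := hz x (by simp)
  have hxz := (Uni.hermForm_eq_zero_comm hF).1 hzx
  refine ⟨x + z, x + l • z, l / (l - 1), -(1 / (l - 1)), ?_, ?_, ?_, ?_, ?_⟩
  · rw [Uni.hermForm_add_left, Uni.hermForm_add_right hF, Uni.hermForm_add_right hF, hzx, hxz, hzz]
    ring
  · rw [Uni.hermForm_add_left, Uni.hermForm_add_right hF, Uni.hermForm_add_right hF, Uni.hermForm_smul_left,
      Uni.hermForm_smul_left, Uni.hermForm_smul_right, Uni.hermForm_smul_right, hzx, hxz, hzz]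
    have : l * (l ^ q * -⟪x, x⟫) = (l ^ (q + 1)) * -⟪x, x⟫ := by ring
    rw [this, hl]
    ring
  · ext i
    simp only [Pi.add_apply, Pi.smul_apply, smul_eq_mul]
    field_simp
    ring
  · intro c hc
    rw [Uni.hermForm_add_left, hx c hc, hz c (by simp [hc]), add_zero]
  · intro c hc
    rw [Uni.hermForm_add_left, Uni.hermForm_smul_left, hx c hc, hz c (by simp [hc]), mul_zero, add_zero]

/-! ### Eichler elements in a subgroup -/

open Uni

/-- `N` contains the Eichler element with parameters `u, w, s` -/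
def HasE (N : Subgroup (Cfsg.SU n F q)) (u w : Fin n → F) (s : F) : Prop := ∃ g ∈ N, IsEich g u w s

variable {N : Subgroup (Cfsg.SU n F q)}

lemma HasE.conj {u w : Fin n → F} {s : F} (h : HasE N u w s) {k : Cfsg.SU n F q} (hk : k ∈ N) :
    HasE N (act k u) (act k w) s := by
  obtain ⟨g, hg, hE⟩ := h
  exact ⟨k * g * k⁻¹, N.mul_mem (N.mul_mem hk hg) (N.inv_mem hk), hE.conj k⟩

lemma HasE.mul (hF : Fintype.card F = q ^ 2) {u w w' : Fin n → F} {s s' : F} (hu : ⟪u, u⟫ = 0)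
    (huw : ⟪u, w⟫ = 0) (huw' : ⟪u, w'⟫ = 0) (h : HasE N u w s) (h' : HasE N u w' s') :
    HasE N u (w + w') (s + s' - ⟪w', w⟫) := by
  obtain ⟨g, hg, hE⟩ := h
  obtain ⟨g', hg', hE'⟩ := h'
  exact ⟨g * g', N.mul_mem hg hg', hE.mul hF hu huw huw' hE'⟩

lemma HasE.inv (hF : Fintype.card F = q ^ 2) {u w : Fin n → F} {s : F} (hu : ⟪u, u⟫ = 0)
    (huw : ⟪u, w⟫ = 0) (hs : s + s ^ q = -⟪w, w⟫) (h : HasE N u w s) : HasE N u (-w) (s ^ q) := by
  obtain ⟨g, hg, hE⟩ := h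
  exact ⟨g⁻¹, N.inv_mem hg, hE.inv hF hu huw hs⟩

lemma HasE.comm (hF : Fintype.card F = q ^ 2) {u w w' : Fin n → F} {s s' : F} (hu : ⟪u, u⟫ = 0)
    (huw : ⟪u, w⟫ = 0) (huw' : ⟪u, w'⟫ = 0) (hs : s + s ^ q = -⟪w, w⟫) (hs' : s' + s' ^ q = -⟪w', w'⟫)
    (h : HasE N u w s) (h' : HasE N u w' s') : HasE N u 0 (⟪w, w'⟫ - ⟪w', w⟫) := by
  obtain ⟨g, hg, hE⟩ := h
  obtain ⟨g', hg', hE'⟩ := h'
  exact ⟨g * g' * g⁻¹ * g'⁻¹, N.mul_mem (N.mul_mem (N.mul_mem hg hg') (N.inv_mem hg)) (N.inv_mem hg'),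
    hE.commutator hF hu huw huw' hs hs' hE'⟩

/-- scaling the centre -/
lemma hasE_smul_left {u w : Fin n → F} {s c : F} (hF : Fintype.card F = q ^ 2) :
    HasE N (c • u) w s ↔ HasE N u (c ^ q • w) (c ^ (q + 1) * s) := by
  have h : ∀ g : Cfsg.SU n F q, IsEich g (c • u) w s ↔ IsEich g u (c ^ q • w) (c ^ (q + 1) * s) := by
    intro g
    unfold IsEich
    simp only [hermForm_smul_right, pow_q_pow_q hF]
    constructor
    · intro h x
      rw [h x]
      simp only [smul_smul]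
      congr 2
      · rw [mul_comm]
      · rw [mul_comm]
      · rw [pow_succ]; ring
    · intro h x
      rw [h x]
      simp only [smul_smul]
      congr 2
      · rw [mul_comm]
      · rw [mul_comm]
      · rw [pow_succ]; ring
  constructor
  · rintro ⟨g, hg, hE⟩; exact ⟨g, hg, (h g).1 hE⟩
  · rintro ⟨g, hg, hE⟩; exact ⟨g, hg, (h g).2 hE⟩

/-- shifting `w` by a multiple of the centre -/
lemma hasE_shift {u w : Fin n → F} {s b : F} (hF : Fintype.card F = q ^ 2) (h : HasE N u w s) :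
    HasE N u (w + b • u) (s - b + b ^ q) := by
  obtain ⟨g, hg, hE⟩ := h
  refine ⟨g, hg, fun x => ?_⟩
  rw [hE x, hermForm_add_right hF, hermForm_smul_right]
  module

/-- recover the two parameters of a product with an inverse: if `(u, w + x, s)` and `(u, w, s)` occur then so does
`(u, x, *)` -/
lemma HasE.sub (hF : Fintype.card F = q ^ 2) {u w x : Fin n → F} {s : F} (hu : ⟪u, u⟫ = 0)
    (huw : ⟪u, w⟫ = 0) (hux : ⟪u, x⟫ = 0) (hs : s + s ^ q = -⟪w, w⟫) (h : HasE N u w s) (h' : HasE N u (w + x) s) :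
    HasE N u x (⟪w, x⟫) := by
  have h1 := h.inv hF hu huw hs
  have h2 := h1.mul hF hu (by rw [hermForm_neg_right hF, huw, neg_zero])
    (by rw [hermForm_add_right hF, huw, hux, add_zero]) h'
  rw [neg_add_cancel_left, hermForm_neg_right hF, hermForm_add_left, sub_neg_eq_add] at h2
  have h3 : s ^ q + s + (⟪w, w⟫ + ⟪x, w⟫) = ⟪x, w⟫ := by linear_combination hs
  rw [h3] at h2
  -- the other order
  have h4 := h'.mul hF hu (by rw [hermForm_add_right hF, huw, hux, add_zero])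
    (by rw [hermForm_neg_right hF, huw, neg_zero]) h1
  have e1 : w + x + -w = x := by abel
  rw [e1, hermForm_neg_left, hermForm_add_right hF, sub_neg_eq_add] at h4
  have h5 : s + s ^ q + (⟪w, w⟫ + ⟪w, x⟫) = ⟪w, x⟫ := by linear_combination hs
  rwa [h5] at h4

end Cfsg.Agent.H98.UniMax
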