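import Cfsg.Agent.H98.UniRatB

/-!
Overgroups of `SU_n(q₀)` in `SU_n(q)` with coefficient ring equal to the subfield: the stabiliser lemma and the
Frobenius group argument.
-/

set_option autoImplicit false
set_option linter.unusedSectionVars false

namespace Cfsg.Agent.H98.UniMax

open Matrix Cfsg.Geo Module Cfsg.Agent.Uni
open scoped MatrixGroups

variable {F : Type*} [Field F] [Fintype F] {n q q₀ : ℕ} {F₀ : Subfield F} [Fintype F₀]

local notation "⟪" x ", " y "⟫" => Cfsg.hermForm _ _ q x y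
local notation "⟪" x ", " y "⟫₀" => Cfsg.hermForm _ _ q₀ x y

variable {N : Subgroup (Cfsg.SU n F q)}

/-- rational vector -/
def IsRat (F₀ : Subfield F) (x : Fin n → F) : Prop := ∃ x₀ : Fin n → F₀, x = ee x₀

lemma IsRat.add {x y : Fin n → F} (hx : IsRat F₀ x) (hy : IsRat F₀ y) : IsRat F₀ (x + y) := by
  obtain ⟨a, rfl⟩ := hx
  obtain ⟨b, rfl⟩ := hy
  exact ⟨a + b, rfl⟩
lemma IsRat.sub {x y : Fin n → F} (hx : IsRat F₀ x) (hy : IsRat F₀ y) : IsRat F₀ (x - y) := by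
  obtain ⟨a, rfl⟩ := hx
  obtain ⟨b, rfl⟩ := hy
  exact ⟨a - b, rfl⟩
lemma IsRat.smul (c : F₀) {x : Fin n → F} (hx : IsRat F₀ x) : IsRat F₀ ((c : F) • x) := by
  obtain ⟨a, rfl⟩ := hx
  exact ⟨c • a, rfl⟩

namespace Ctx

variable (C : Ctx q₀ F₀ N)
include C

lemma stepA (hbot : ∀ c : F, InD q₀ F₀ N c → c ∈ F₀) {g : Cfsg.SU n F q} (hg : g ∈ N) {y y' : Fin n → F₀} {c : F}
    (hy : ⟪y, y⟫₀ = 0) (hy0 : y ≠ 0) (hy' : ⟪y', y'⟫₀ = 0) (hy'0 : y' ≠ 0) (hc : c ≠ 0)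
    (hgy : act g (ee y) = c • ee y') {z : Fin n → F₀} (hz : ⟪z, z⟫₀ = 0) (hzy : ⟪z, y⟫₀ = 0)
    (hzs : z ∉ Submodule.span F₀ {y}) : IsRat F₀ (c ^ q • act g (ee z)) := by
  classical
  have hn := C.hn
  have hyz := (hermForm_eq_zero_comm C.hF₀).1 hzy
  have hcq : c ^ q ≠ 0 := pow_ne_zero _ hc
  have h1 := (C.ratE0 hy hyz hz).conj hg
  rw [hgy, hasE_smul_left C.hF, mul_zero] at h1
  have hy'z : ⟪ee y', act g (ee z)⟫ = 0 := by
    have h2 := act_form g (ee y) (ee z)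
    rw [hgy, hermForm_smul_left, C.form_zero hyz, mul_eq_zero] at h2
    exact h2.resolve_left hc
  have hgz : ⟪act g (ee z), act g (ee z)⟫ = 0 := by rw [act_form, C.form_zero hz]
  obtain ⟨x₀, b, hx⟩ := C.rat_of_hasE hbot hy' hy'0 (by rw [hermForm_smul_right, hy'z, mul_zero])
    (by rw [hermForm_smul_left, hermForm_smul_right, hgz, zero_pow (q_ne_zero C.hF)]; ring) h1
  -- `g z` is a multiple of a rational vector
  obtain ⟨v, v', hv, -, hvv', hvS, -⟩ := exists_hyp_perp C.hF₀ ({x₀, y'} : Finset (Fin n → F₀)) (by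
    have : ({x₀, y'} : Finset (Fin n → F₀)).card ≤ 2 := Finset.card_le_two
    omega)
  have hv0 : v ≠ 0 := by
    rintro rfl
    rw [hermForm_zero_left] at hvv'
    exact zero_ne_one hvv'
  have hvz : ⟪ee v, act g (ee z)⟫ = 0 := by
    have h2 : ⟪ee v, c ^ q • act g (ee z)⟫ = 0 := by
      rw [hx, hermForm_add_right C.hF, hermForm_smul_right, C.form_zero (hvS x₀ (by simp)),
        C.form_zero (hvS y' (by simp)), mul_zero, add_zero]
    rw [hermForm_smul_right, mul_eq_zero] at h2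
    exact h2.resolve_left (pow_ne_zero _ hcq)
  obtain ⟨a, ha0, haq, k, hk, hkE, -⟩ := C.exists_ratT hz
  have ha0' : (a : F) ≠ 0 := fun h => ha0 (Subtype.ext h)
  have h3 : HasE N (act g (ee z)) 0 (a : F) := by
    have := HasE.conj (⟨k, hk, hkE⟩ : HasE N (ee z) 0 (a : F)) hg
    rwa [act_zero] at this
  obtain ⟨κ, z₀, hz₀⟩ := C.centre_rat hbot ha0' h3 hv hv0 hvz
  have h4 : (c ^ q * κ) • ee z₀ = ee x₀ + b • ee y' := by rw [mul_smul, ← hz₀, hx]
  by_cases hxs : x₀ ∈ Submodule.span F₀ {y'}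
  · exfalso
    obtain ⟨m, hm⟩ := Submodule.mem_span_singleton.1 hxs
    have h5 : c ^ q • act g (ee z) = ((m : F) + b) • ee y' := by
      rw [hx, ← hm, ee_smul, add_smul]
    have h6 : act g (ee z) = act g (((c ^ q)⁻¹ * ((m : F) + b) * c⁻¹) • ee y) := by
      rw [act_smul, hgy, smul_smul, mul_assoc, inv_mul_cancel₀ hc, mul_one, mul_smul, ← h5, smul_smul,
        inv_mul_cancel₀ hcq, one_smul]
    have h7 := act_inj.1 h6
    obtain ⟨d, hd⟩ := ee_smul_rat hy0 h7.symm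
    apply hzs
    rw [Submodule.mem_span_singleton]
    refine ⟨d, ?_⟩
    rw [← ee_inj, ee_smul, ← hd, h7]
  · obtain ⟨f, hfy, hxf⟩ := exists_perp_ne C.hF₀ ({y'} : Finset (Fin n → F₀)) x₀ (by simpa using hxs)
    have hy'f : ⟪y', f⟫₀ = 0 := (hermForm_eq_zero_comm C.hF₀).1 (hfy y' (by simp))
    have h5 := congrArg (fun t => ⟪t, ee f⟫) h4
    simp only [hermForm_smul_left, hermForm_add_left, C.form_zero hy'f, mul_zero, add_zero] at h5
    rw [C.form, C.form] at h5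
    have h6 : (⟪z₀, f⟫₀ : F₀) ≠ 0 := by
      intro h0
      rw [h0] at h5
      apply hxf
      apply Subtype.ext
      rw [← h5]; simp
    have h7 : c ^ q * κ = ((⟪x₀, f⟫₀ / ⟪z₀, f⟫₀ : F₀) : F) := by
      rw [Subfield.coe_div, ← h5, mul_div_assoc, div_self (fun h => h6 (Subtype.ext h)), mul_one]
    refine ⟨(⟪x₀, f⟫₀ / ⟪z₀, f⟫₀) • z₀, ?_⟩
    rw [hx, ← h4, h7, ee_smul]

lemma stepB (hbot : ∀ c : F, InD q₀ F₀ N c → c ∈ F₀) {g : Cfsg.SU n F q} (hg : g ∈ N) {y y' : Fin n → F₀} {c : F}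
    (hy : ⟪y, y⟫₀ = 0) (hy0 : y ≠ 0) (hy' : ⟪y', y'⟫₀ = 0) (hy'0 : y' ≠ 0) (hc : c ≠ 0)
    (hgy : act g (ee y) = c • ee y') (x : Fin n → F₀) (hx : ⟪x, y⟫₀ = 0) : IsRat F₀ (c ^ q • act g (ee x)) := by
  classical
  have hn := C.hn
  have hA : ∀ z : Fin n → F₀, ⟪z, z⟫₀ = 0 → ⟪z, y⟫₀ = 0 → z ∉ Submodule.span F₀ {y} → IsRat F₀ (c ^ q • act g (ee z)) :=
    fun z hz hzy hzs => C.stepA hbot hg hy hy0 hy' hy'0 hc hgy hz hzy hzs
  -- `y` itself
  have hyr : IsRat F₀ (c ^ q • act g (ee y)) := by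
    obtain ⟨z, z', hz, -, hzz', hzS, hz'S⟩ := exists_hyp_perp C.hF₀ ({y} : Finset (Fin n → F₀)) (by
      rw [Finset.card_singleton]; omega)
    have hzy := hzS y (by simp)
    have hyz := (hermForm_eq_zero_comm C.hF₀).1 hzy
    have hyz' := (hermForm_eq_zero_comm C.hF₀).1 (hz'S y (by simp))
    have hzs : z ∉ Submodule.span F₀ {y} := by
      intro h
      obtain ⟨m, rfl⟩ := Submodule.mem_span_singleton.1 h
      rw [hermForm_smul_left, hyz', mul_zero] at hzz'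
      exact zero_ne_one hzz'
    have h1 := hA z hz hzy hzs
    have h2 := hA (y + z) (by
      rw [hermForm_add_left, hermForm_add_right C.hF₀, hermForm_add_right C.hF₀, hy, hyz, hzy, hz]; ring)
      (by rw [hermForm_add_left, hy, hzy, add_zero]) (by
        intro h
        apply hzs
        have := Submodule.sub_mem _ h (Submodule.mem_span_singleton_self y)
        rwa [add_sub_cancel_left] at this)
    have h3 := h2.sub h1
    rwa [ee_add, act_add, smul_add, add_sub_cancel_right] at h3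
  have hiso : ∀ z : Fin n → F₀, ⟪z, z⟫₀ = 0 → ⟪z, y⟫₀ = 0 → IsRat F₀ (c ^ q • act g (ee z)) := by
    intro z hz hzy
    by_cases hzs : z ∈ Submodule.span F₀ {y}
    · obtain ⟨m, rfl⟩ := Submodule.mem_span_singleton.1 hzs
      have := hyr.smul m
      rwa [smul_comm, ← act_smul, ← ee_smul] at this
    · exact hA z hz hzy hzs
  obtain ⟨u, u', a, b, hu, hu', hxy, huy, hu'y⟩ := exists_decomp_S C.hF₀ ({y} : Finset (Fin n → F₀)) (by
    rw [Finset.card_singleton]; omega) x (by simpa using hx)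
  have h1 := (hiso u hu (huy y (by simp))).smul a
  have h2 := (hiso u' hu' (hu'y y (by simp))).smul b
  have h3 := h1.add h2
  have h4 : c ^ q • act g (ee x) = (a : F) • c ^ q • act g (ee u) + (b : F) • c ^ q • act g (ee u') := by
    rw [hxy, ee_add, ee_smul, ee_smul, act_add, act_smul, act_smul, smul_add, smul_comm (c ^ q), smul_comm (c ^ q)]
  rwa [h4]

/-- (C4) an element of `N` mapping a rational isotropic line to a rational line is rational up to scalars -/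
theorem stab_rat (hbot : ∀ c : F, InD q₀ F₀ N c → c ∈ F₀) {g : Cfsg.SU n F q} (hg : g ∈ N) {y y' : Fin n → F₀} {c : F}
    (hy : ⟪y, y⟫₀ = 0) (hy0 : y ≠ 0) (hgy : act g (ee y) = c • ee y') :
    ∃ d : F, d ≠ 0 ∧ ∀ x : Fin n → F₀, IsRat F₀ (d • act g (ee x)) := by
  classical
  have hn := C.hn
  have hgy0 : act g (ee y) ≠ 0 := act_ne_zero (ee_ne_zero hy0)
  have hc : c ≠ 0 := by rintro rfl; exact hgy0 (by rw [hgy, zero_smul])
  have hy'0 : y' ≠ 0 := by rintro rfl; exact hgy0 (by rw [hgy, ee_zero, smul_zero])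
  have hy' : ⟪y', y'⟫₀ = 0 := by
    have h1 := act_form g (ee y) (ee y)
    rw [hgy, hermForm_smul_left, hermForm_smul_right, C.form_zero hy, mul_eq_zero, or_iff_right hc, mul_eq_zero,
      or_iff_right (pow_ne_zero _ hc)] at h1
    exact C.form_zero_iff.1 h1
  have hB := C.stepB hbot hg hy hy0 hy' hy'0 hc hgy
  have hcq : c ^ q ≠ 0 := pow_ne_zero _ hc
  obtain ⟨z, z', hz, -, hzz', hzS, hz'S⟩ := exists_hyp_perp C.hF₀ ({y} : Finset (Fin n → F₀)) (by
    rw [Finset.card_singleton]; omega)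
  have hzy := hzS y (by simp)
  have hyz := (hermForm_eq_zero_comm C.hF₀).1 hzy
  have hyz' := (hermForm_eq_zero_comm C.hF₀).1 (hz'S y (by simp))
  have hz0 : z ≠ 0 := by
    rintro rfl
    rw [hermForm_zero_left] at hzz'
    exact zero_ne_one hzz'
  obtain ⟨z₁, hz₁⟩ := hB z hzy
  have hgz : act g (ee z) = (c ^ q)⁻¹ • ee z₁ := by rw [← hz₁, smul_smul, inv_mul_cancel₀ hcq, one_smul]
  have hgz0 : act g (ee z) ≠ 0 := act_ne_zero (ee_ne_zero hz0)
  have hz₁0 : z₁ ≠ 0 := by rintro rfl; exact hgz0 (by rw [hgz, ee_zero, smul_zero])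
  have hz₁i : ⟪z₁, z₁⟫₀ = 0 := by
    have h1 := act_form g (ee z) (ee z)
    have hci := inv_ne_zero hcq
    rw [hgz, hermForm_smul_left, hermForm_smul_right, C.form_zero hz, mul_eq_zero, or_iff_right hci, mul_eq_zero,
      or_iff_right (pow_ne_zero _ hci)] at h1
    exact C.form_zero_iff.1 h1
  have hB2 := C.stepB hbot hg hz hz0 hz₁i hz₁0 (inv_ne_zero hcq) hgz
  have e1 : ((c ^ q)⁻¹) ^ q = c⁻¹ := by rw [inv_pow, pow_q_pow_q C.hF]
  rw [e1] at hB2
  -- the norm of `c` is rational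
  obtain ⟨m, hm⟩ : ∃ m : F₀, c ^ q * c = m := by
    obtain ⟨y₁, hy₁⟩ := hB y hy
    rw [hgy, smul_smul] at hy₁
    exact ee_smul_rat hy'0 hy₁
  have hB3 : ∀ x : Fin n → F₀, ⟪x, z⟫₀ = 0 → IsRat F₀ (c ^ q • act g (ee x)) := by
    intro x hx
    have h1 := (hB2 x hx).smul m
    rwa [← hm, smul_smul, mul_assoc, mul_inv_cancel₀ hc, mul_one] at h1
  obtain ⟨f, hfz, hyf⟩ := exists_perp_ne C.hF₀ ({z} : Finset (Fin n → F₀)) y (by
    intro h
    rw [Finset.coe_singleton] at h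
    obtain ⟨s, hs⟩ := Submodule.mem_span_singleton.1 h
    rw [← hs, hermForm_smul_left, hzz', mul_one] at hyz'
    rw [hyz', zero_smul] at hs
    exact hy0 hs.symm)
  have hfz' := hfz z (by simp)
  have hfy : ⟪f, y⟫₀ ≠ 0 := fun h => hyf ((hermForm_eq_zero_comm C.hF₀).1 h)
  refine ⟨c ^ q, hcq, fun x => ?_⟩
  have h1 : x = (x - (⟪x, y⟫₀ / ⟪f, y⟫₀) • f) + (⟪x, y⟫₀ / ⟪f, y⟫₀) • f := by abel
  have h2 := hB (x - (⟪x, y⟫₀ / ⟪f, y⟫₀) • f) (by
    rw [hermForm_sub_left, hermForm_smul_left, div_mul_cancel₀ _ hfy, sub_self])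
  have h3 := hB3 ((⟪x, y⟫₀ / ⟪f, y⟫₀) • f) (by rw [hermForm_smul_left, hfz', mul_zero])
  have h4 := h2.add h3
  rwa [← smul_add, ← act_add, ← ee_add, ← h1] at h4

end Ctx

end Cfsg.Agent.H98.UniMax
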