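import Cfsg.Agent.H98.UniRatC

/-!
Overgroups of `SU_n(q₀)` in `SU_n(q)`: conclusion.
-/

set_option autoImplicit false
set_option linter.unusedSectionVars false

namespace Cfsg.Agent.H98.UniMax

open Matrix Cfsg.Geo Module Cfsg.Agent.Uni
open scoped MatrixGroups

variable {F : Type*} [Field F] [Fintype F] {n q q₀ : ℕ} {F₀ : Subfield F} [Fintype F₀]

local notation "⟪" x ", " y "⟫" => Cfsg.hermForm _ _ q x y
local notation "⟪" x ", " y "⟫₀" => Cfsg.hermForm _ _ q₀ x y

variable {N : Subgroup (Cfsg.SU n F q)}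

/-- elements of `N` acting trivially modulo `L` -/
def modGrp (N : Subgroup (Cfsg.SU n F q)) (L : Submodule F (Fin n → F)) : Subgroup (Cfsg.SU n F q) where
  carrier := {x | x ∈ N ∧ ∀ y, act x y - y ∈ L}
  mul_mem' := by
    rintro a b ⟨ha, ha'⟩ ⟨hb, hb'⟩
    refine ⟨N.mul_mem ha hb, fun y => ?_⟩
    have := L.add_mem (ha' (act b y)) (hb' y)
    rwa [sub_add_sub_cancel, ← act_mul] at this
  one_mem' := ⟨N.one_mem, fun y => by rw [act_one, sub_self]; exact L.zero_mem⟩
  inv_mem' := by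
    rintro a ⟨ha, ha'⟩
    refine ⟨N.inv_mem ha, fun y => ?_⟩
    have := L.neg_mem (ha' (act a⁻¹ y))
    rwa [act_act_inv, neg_sub] at this

lemma fix_perp (hF : Fintype.card F = q ^ 2) {U : Submodule F (Fin n → F)} {x : Cfsg.SU n F q} (hx : ∀ y, act x y - y ∈ U)
    {p : Fin n → F} (hp : ∀ u ∈ U, ⟪p, u⟫ = 0) : act x p = p := by
  rw [← sub_eq_zero]
  apply hermForm_nondeg hF
  intro v
  have h1 := act_form x p (act x⁻¹ v)
  rw [act_act_inv] at h1
  have h2 := hp _ (hx (act x⁻¹ v))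
  rw [act_act_inv, hermForm_sub_right hF] at h2
  rw [hermForm_sub_left, h1]
  linear_combination -h2

lemma modGrp_comm (hF : Fintype.card F = q ^ 2) {U : Submodule F (Fin n → F)} (hU : ∀ u ∈ U, ∀ v ∈ U, ⟪u, v⟫ = 0)
    {x x' : Cfsg.SU n F q} (hx : ∀ y, act x y - y ∈ U) (hx' : ∀ y, act x' y - y ∈ U) (y : Fin n → F) :
    act (x * x') y - y = (act x y - y) + (act x' y - y) := by
  have h1 : act x (act x' y - y) = act x' y - y := fix_perp hF hx (fun u hu => hU _ (hx' y) _ hu)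
  rw [act_sub] at h1
  have h2 : act x (act x' y) = act x y + (act x' y - y) := by rw [← h1]; abel
  rw [act_mul, h2]
  abel

theorem modGrp_isComm (hF : Fact (Fintype.card F = q ^ 2)) (U : Submodule F (Fin n → F))
    (hU : Fact (∀ u ∈ U, ∀ v ∈ U, ⟪u, v⟫ = 0)) : IsMulCommutative (modGrp N U) := by
  refine ⟨⟨?_⟩⟩
  rintro ⟨a, ha, ha'⟩ ⟨b, hb, hb'⟩
  apply Subtype.ext
  apply act_ext
  intro y
  change act (a * b) y = act (b * a) y
  have h1 := modGrp_comm hF.out hU.out ha' hb' y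
  have h2 := modGrp_comm hF.out hU.out hb' ha' y
  rw [add_comm, ← h2] at h1
  exact sub_left_injective h1

/-- the homomorphism `x ↦ x y - y` -/
def modHom (hF : Fintype.card F = q ^ 2) {U : Submodule F (Fin n → F)} (hU : ∀ u ∈ U, ∀ v ∈ U, ⟪u, v⟫ = 0)
    (y : Fin n → F) : modGrp N U →* Multiplicative (Fin n → F) where
  toFun x := Multiplicative.ofAdd (act x.1 y - y)
  map_one' := by
    change Multiplicative.ofAdd (act (1 : Cfsg.SU n F q) y - y) = 1
    rw [act_one, sub_self]; rfl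
  map_mul' a b := by
    change Multiplicative.ofAdd (act (a.1 * b.1) y - y) = _
    rw [modGrp_comm hF hU a.2.2 b.2.2 y]; rfl

lemma act_zpow_sub (hF : Fintype.card F = q ^ 2) {U : Submodule F (Fin n → F)} (hU : ∀ u ∈ U, ∀ v ∈ U, ⟪u, v⟫ = 0)
    (x : modGrp N U) (k : ℤ) (y : Fin n → F) : act ((x ^ k : modGrp N U) : Cfsg.SU n F q) y - y =
      (k : F) • (act x.1 y - y) := by
  have h1 := map_zpow (modHom (N := N) hF hU y) x k
  have h2 : Multiplicative.toAdd (modHom (N := N) hF hU y (x ^ k)) = act ((x ^ k : modGrp N U) : Cfsg.SU n F q) y - y := rfl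
  rw [← h2, h1, toAdd_zpow]
  change k • (act x.1 y - y) = _
  rw [Int.cast_smul_eq_zsmul]

namespace Ctx

variable (C : Ctx q₀ F₀ N)
include C

/-- rational isotropic vectors, hyperbolic configuration -/
lemma exists_config : ∃ v v' z z' : Fin n → F₀, ⟪v, v⟫₀ = 0 ∧ ⟪z, z⟫₀ = 0 ∧ ⟪v, z⟫₀ = 0 ∧ ⟪v', v⟫₀ = 1 ∧ ⟪z, z'⟫₀ = 1 ∧
    ⟪v', z⟫₀ = 0 ∧ ⟪v, z'⟫₀ = 0 := by
  classical
  have hn := C.hn
  obtain ⟨v, v', hv, -, hvv', -, -⟩ := exists_hyp_perp C.hF₀ (∅ : Finset (Fin n → F₀)) (by simp; omega)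
  obtain ⟨z, z', hz, -, hzz', hzS, hz'S⟩ := exists_hyp_perp C.hF₀ ({v, v'} : Finset (Fin n → F₀)) (by
    have : ({v, v'} : Finset (Fin n → F₀)).card ≤ 2 := Finset.card_le_two
    omega)
  refine ⟨v, v', z, z', hv, hz, (hermForm_eq_zero_comm C.hF₀).1 (hzS v (by simp)), ?_, hzz',
    (hermForm_eq_zero_comm C.hF₀).1 (hzS v' (by simp)), (hermForm_eq_zero_comm C.hF₀).1 (hz'S v (by simp))⟩
  rw [← hermForm_symm C.hF₀, hvv', one_pow]

/-- rational isotropic vectors orthogonal to few rational ones -/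
lemma exists_ratperp (S : Finset (Fin n → F₀)) (hS : S.card ≤ 4) :
    ∃ u : Fin n → F₀, u ≠ 0 ∧ ⟪u, u⟫₀ = 0 ∧ ∀ c ∈ S, ⟪u, c⟫₀ = 0 := by
  have hn := C.hn
  obtain ⟨z, z', hz, -, hzz', hzS, -⟩ := exists_hyp_perp C.hF₀ S (by omega)
  refine ⟨z, ?_, hz, hzS⟩
  rintro rfl
  rw [hermForm_zero_left] at hzz'
  exact zero_ne_one hzz'

/-- a rational isotropic vector mapped into a rational plane -/
lemma stab_of_plane (hbot : ∀ c : F, InD q₀ F₀ N c → c ∈ F₀) {v z : Fin n → F₀} {x : Cfsg.SU n F q} (hx : x ∈ N)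
    {y₀ : Fin n → F₀} (hy : ⟪y₀, y₀⟫₀ = 0) (hy0 : y₀ ≠ 0)
    (h : act x (ee y₀) ∈ Submodule.span F {ee v, ee z}) :
    ∃ d : F, d ≠ 0 ∧ ∀ x' : Fin n → F₀, IsRat F₀ (d • act x (ee x')) := by
  classical
  obtain ⟨a, ha0, haq, k, hk, hkE, -⟩ := C.exists_ratT hy
  have ha0' : (a : F) ≠ 0 := fun h => ha0 (Subtype.ext h)
  have h3 : HasE N (act x (ee y₀)) 0 (a : F) := by
    have := HasE.conj (⟨k, hk, hkE⟩ : HasE N (ee y₀) 0 (a : F)) hx
    rwa [act_zero] at this
  obtain ⟨u, hu0, hu, huS⟩ := C.exists_ratperp ({v, z} : Finset (Fin n → F₀)) (by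
    have : ({v, z} : Finset (Fin n → F₀)).card ≤ 2 := Finset.card_le_two
    omega)
  have hux : ⟪ee u, act x (ee y₀)⟫ = 0 := by
    obtain ⟨s, t, hst⟩ := Submodule.mem_span_pair.1 h
    rw [← hst, hermForm_add_right C.hF, hermForm_smul_right, hermForm_smul_right, C.form_zero (huS v (by simp)),
      C.form_zero (huS z (by simp)), mul_zero, mul_zero, add_zero]
  obtain ⟨κ, w₀, hw⟩ := C.centre_rat hbot ha0' h3 hu hu0 hux
  exact C.stab_rat hbot hx hy hy0 hw

theorem all_rat (hbot : ∀ c : F, InD q₀ F₀ N c → c ∈ F₀) {g : Cfsg.SU n F q} (hg : g ∈ N) :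
    ∃ d : F, d ≠ 0 ∧ ∀ x : Fin n → F₀, IsRat F₀ (d • act g (ee x)) := by
  classical
  by_contra hgd
  have hn := C.hn
  have hF := C.hF
  obtain ⟨v, v', z, z', hv, hz, hvz, hv'v, hzz', hv'z, hvz'⟩ := C.exists_config
  have hv0 : v ≠ 0 := by
    rintro rfl
    rw [hermForm_zero_right C.hF₀] at hv'v
    exact zero_ne_one hv'v
  have hzv := (hermForm_eq_zero_comm C.hF₀).1 hvz
  set w := act g (ee v) with hw
  have hw0 : w ≠ 0 := act_ne_zero (ee_ne_zero hv0)
  obtain ⟨a, ha0, haq, k, hk, hkE, hkx⟩ := C.exists_ratT hv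
  have ha0' : (a : F) ≠ 0 := fun h => ha0 (Subtype.ext h)
  have hTw : HasE N w 0 (a : F) := by
    have := HasE.conj (⟨k, hk, hkE⟩ : HasE N (ee v) 0 (a : F)) hg
    rwa [act_zero] at this
  have hnp : ∀ u : Fin n → F₀, ⟪u, u⟫₀ = 0 → u ≠ 0 → ⟪ee u, w⟫ ≠ 0 := by
    intro u hu hu0 h0
    obtain ⟨κ, w₀, hw₀⟩ := C.centre_rat hbot ha0' hTw hu hu0 h0
    exact hgd (C.stab_rat hbot hg hv hv0 hw₀)
  set U : Submodule F (Fin n → F) := Submodule.span F {ee v, ee z} with hU
  set L : Submodule F (Fin n → F) := Submodule.span F {ee v, ee z, w} with hL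
  have hUL : U ≤ L := Submodule.span_mono (by intro x; simp; tauto)
  have hvU : ee v ∈ U := Submodule.subset_span (by simp)
  have hzU : ee z ∈ U := Submodule.subset_span (by simp)
  have hwL : w ∈ L := Submodule.subset_span (by simp)
  have hUU : ∀ u ∈ U, ∀ u' ∈ U, ⟪u, u'⟫ = 0 := by
    intro u hu u' hu'
    obtain ⟨s, t, rfl⟩ := Submodule.mem_span_pair.1 hu
    obtain ⟨s', t', rfl⟩ := Submodule.mem_span_pair.1 hu'
    simp only [hermForm_add_left, hermForm_add_right hF, hermForm_smul_left, hermForm_smul_right, C.form_zero hv,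
      C.form_zero hz, C.form_zero hvz, C.form_zero hzv, mul_zero, add_zero]
  have hUw : w ∉ U := by
    intro h
    obtain ⟨u, hu0, hu, huS⟩ := C.exists_ratperp ({v, z} : Finset (Fin n → F₀)) (by
      have : ({v, z} : Finset (Fin n → F₀)).card ≤ 2 := Finset.card_le_two
      omega)
    apply hnp u hu hu0
    obtain ⟨s, t, hst⟩ := Submodule.mem_span_pair.1 h
    rw [← hst, hermForm_add_right C.hF, hermForm_smul_right, hermForm_smul_right, C.form_zero (huS v (by simp)),
      C.form_zero (huS z (by simp)), mul_zero, mul_zero, add_zero]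
  -- the two groups
  set R := modGrp N L with hR
  set A := modGrp N U with hA
  have hcomm : IsMulCommutative A := modGrp_isComm ⟨hF⟩ U ⟨hUU⟩
  have hAR : A ≤ R := fun x hx => ⟨hx.1, fun y => hUL (hx.2 y)⟩
  have hkA : k ∈ A := ⟨hk, fun y => by
    rw [hkx, add_sub_cancel_left]; exact U.smul_mem _ hvU⟩
  have hk1 : k ≠ 1 := by
    intro h
    have h1 := hkx (ee v')
    rw [h, act_one, C.form_one hv'v, mul_one] at h1
    have h2 : (a : F) • ee v = 0 := by
      have := h1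
      rw [left_eq_add] at this
      exact this
    exact (smul_ne_zero ha0' (ee_ne_zero hv0)) h2
  have hAbot : A ≠ ⊥ := by
    intro h
    rw [h, Subgroup.mem_bot] at hkA
    exact hk1 hkA
  have hne : A ≠ R := by
    intro h
    obtain ⟨k', hk', hkE'⟩ := hTw
    have hkx' := (isEich_zero_iff hF k' w _).1 hkE'
    have h1 : k' ∈ R := ⟨hk', fun y => by rw [hkx', add_sub_cancel_left]; exact L.smul_mem _ hwL⟩
    rw [← h] at h1
    obtain ⟨y, hy⟩ := exists_form_ne (q := q) hF hw0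
    have hy' : ⟪y, w⟫ ≠ 0 := fun h0 => hy ((hermForm_eq_zero_comm hF).1 h0)
    have h2 := h1.2 y
    rw [hkx', add_sub_cancel_left] at h2
    apply hUw
    have h3 := U.smul_mem ((a : F) * ⟪y, w⟫)⁻¹ h2
    rwa [smul_smul, inv_mul_cancel₀ (mul_ne_zero ha0' hy'), one_smul] at h3
  -- rational elements of R lie in A
  have hratA : ∀ x ∈ R, (∃ d : F, d ≠ 0 ∧ ∀ y : Fin n → F₀, IsRat F₀ (d • act x (ee y))) → x ∈ A := by
    rintro x ⟨hxN, hxL⟩ ⟨d, hd, hdr⟩
    refine ⟨hxN, ?_⟩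
    have hrat : ∀ y : Fin n → F₀, act x (ee y) - ee y ∈ U := by
      intro y
      obtain ⟨y'', hy''⟩ := hdr y
      have h1 := hxL (ee y)
      rw [hL, Submodule.mem_span_insert] at h1
      obtain ⟨α, p, hp, hαp⟩ := h1
      obtain ⟨β, γ, rfl⟩ := Submodule.mem_span_pair.1 hp
      obtain ⟨u, hu0, hu, huS⟩ := C.exists_ratperp ({y, y'', v, z} : Finset (Fin n → F₀)) Finset.card_le_four
      have h2 := congrArg (fun t => ⟪d • t, ee u⟫) hαp
      have f1 : ⟪ee y, ee u⟫ = 0 := C.form_zero ((hermForm_eq_zero_comm C.hF₀).1 (huS y (by simp)))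
      have f2 : ⟪ee y'', ee u⟫ = 0 := C.form_zero ((hermForm_eq_zero_comm C.hF₀).1 (huS y'' (by simp)))
      have f3 : ⟪ee v, ee u⟫ = 0 := C.form_zero ((hermForm_eq_zero_comm C.hF₀).1 (huS v (by simp)))
      have f4 : ⟪ee z, ee u⟫ = 0 := C.form_zero ((hermForm_eq_zero_comm C.hF₀).1 (huS z (by simp)))
      simp only [smul_sub, smul_add, hy'', hermForm_sub_left, hermForm_add_left, hermForm_smul_left, f1, f2, f3, f4,
        mul_zero, sub_zero, zero_add] at h2
      have hwu : ⟪w, ee u⟫ ≠ 0 := fun h0 => hnp u hu hu0 ((hermForm_eq_zero_comm hF).1 h0)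
      have hγ : γ = 0 := by
        rcases mul_eq_zero.1 h2.symm with h | h
        · exact absurd h hd
        · exact (mul_eq_zero.1 h).resolve_right hwu
      rw [hαp, hγ, zero_smul, add_zero]
      exact U.add_mem (U.smul_mem _ hvU) (U.smul_mem _ hzU)
    intro y
    have h1 : y = ∑ i, y i • (ee (Pi.single i (1 : F₀)) : Fin n → F) := by
      ext j
      rw [Finset.sum_apply, Finset.sum_eq_single j]
      · simp [ee]
      · intro b _ hb
        simp [ee, hb.symm]
      · simp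
    have h2 : act x y - y = ∑ i, y i • (act x (ee (Pi.single i (1 : F₀))) - ee (Pi.single i (1 : F₀))) := by
      conv_lhs => rw [h1]
      have h3 : act x (∑ i, y i • (ee (Pi.single i (1 : F₀)) : Fin n → F)) =
          ∑ i, y i • act x (ee (Pi.single i (1 : F₀))) := by
        rw [act_def, Matrix.mulVec_sum]
        apply Finset.sum_congr rfl
        intro i _
        rw [Matrix.mulVec_smul]; rfl
      rw [h3, ← Finset.sum_sub_distrib]
      apply Finset.sum_congr rfl
      intro i _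
      rw [smul_sub]
    rw [h2]
    exact U.sum_mem fun i _ => U.smul_mem _ (hrat _)
  have hTI : ∀ x ∈ R, ∀ h ∈ A, h ≠ 1 → x * h * x⁻¹ ∈ A → x ∈ A := by
    rintro x hxR h hhA h1 hxh
    apply hratA x hxR
    have hI : ∀ y, act x (act h y - y) ∈ U := by
      intro y
      have h2 := hxh.2 (act x y)
      rw [act_mul, act_mul, act_inv_act] at h2
      rwa [act_sub]
    by_cases hvI : ∃ y, act h y - y = ee v
    · obtain ⟨y, hy⟩ := hvI
      have h2 := hI y
      rw [hy] at h2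
      exact C.stab_of_plane hbot hxR.1 hv hv0 h2
    -- the image of `h - 1` is a line
    obtain ⟨y1, hy1⟩ : ∃ y, act h y - y ≠ 0 := by
      by_contra hcon
      push Not at hcon
      apply h1
      apply act_ext
      intro y
      rw [act_one]
      exact sub_eq_zero.1 (hcon y)
    set p := act h y1 - y1 with hp
    let I : Submodule F (Fin n → F) :=
      { carrier := Set.range fun y => act h y - y
        add_mem' := by
          rintro _ _ ⟨a, rfl⟩ ⟨b, rfl⟩
          exact ⟨a + b, by simp only [act_add]; abel⟩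
        zero_mem' := ⟨0, by simp only [act_zero, sub_zero]⟩
        smul_mem' := by
          rintro c _ ⟨a, rfl⟩
          exact ⟨c • a, by simp only [act_smul, smul_sub]⟩ }
    have hIU : I ≤ U := by
      rintro _ ⟨y, rfl⟩
      exact hhA.2 y
    have hIne : I ≠ U := by
      intro hIU'
      have : ee v ∈ I := by rw [hIU']; exact hvU
      obtain ⟨y, hy⟩ := this
      exact hvI ⟨y, hy⟩
    have hpI : p ∈ I := ⟨y1, rfl⟩
    have hfr : finrank F I ≤ 1 := by
      have h2 := Submodule.finrank_lt_finrank_of_lt (lt_of_le_of_ne hIU hIne)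
      have h3 : finrank F U ≤ 2 := by
        rw [hU]
        refine (finrank_span_le_card _).trans ?_
        have h4 : ({ee v, ee z} : Set (Fin n → F)).toFinset = {ee v, ee z} := by simp
        rw [h4]
        exact Finset.card_le_two
      omega
    have hIp : ∀ y, ∃ c : F, act h y - y = c • p := by
      intro y
      have h2 : I = Submodule.span F {p} := by
        symm
        apply Submodule.eq_of_le_of_finrank_le
        · rw [Submodule.span_singleton_le_iff_mem]; exact hpI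
        · rw [finrank_span_singleton hy1]; exact hfr
      have h3 : act h y - y ∈ I := ⟨y, rfl⟩
      rw [h2] at h3
      obtain ⟨c, hc⟩ := Submodule.mem_span_singleton.1 h3
      exact ⟨c, hc.symm⟩
    have hpU : p ∈ U := hIU hpI
    have hpp : ⟪p, p⟫ = 0 := hUU p hpU p hpU
    obtain ⟨y2, hy2⟩ := exists_form_ne (q := q) hF hy1
    obtain ⟨y3, hy3⟩ : ∃ y3, ⟪p, y3⟫ = 1 := by
      refine ⟨((⟪p, y2⟫)⁻¹ ^ q) • y2, ?_⟩
      rw [hermForm_smul_right, pow_q_pow_q hF, inv_mul_cancel₀ hy2]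
    obtain ⟨c3, hc3⟩ := hIp y3
    have hform : ∀ y, act h y = y + ((-(c3 ^ q)) * ⟪y, p⟫) • p := by
      intro y
      obtain ⟨c, hc⟩ := hIp y
      have h2 := act_form h y y3
      have e1 : act h y = y + c • p := by rw [← hc]; abel
      have e3 : act h y3 = y3 + c3 • p := by rw [← hc3]; abel
      rw [e1, e3, hermForm_add_left, hermForm_add_right hF, hermForm_add_right hF, hermForm_smul_left,
        hermForm_smul_right, hermForm_smul_left, hermForm_smul_right, hpp, hy3] at h2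
      rw [e1]
      congr 2
      linear_combination h2
    have hb0 : -(c3 ^ q) ≠ 0 := by
      intro h0
      apply hy1
      rw [hp, hform, h0, zero_mul, zero_smul, add_zero, sub_self]
    have hTp : HasE N p 0 (-(c3 ^ q)) := ⟨h, hhA.1, (isEich_zero_iff hF h p _).2 hform⟩
    obtain ⟨u, hu0, hu, huS⟩ := C.exists_ratperp ({v, z} : Finset (Fin n → F₀)) (by
      have : ({v, z} : Finset (Fin n → F₀)).card ≤ 2 := Finset.card_le_two
      omega)
    have hup : ⟪ee u, p⟫ = 0 := by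
      obtain ⟨s, t, hst⟩ := Submodule.mem_span_pair.1 hpU
      rw [← hst, hermForm_add_right C.hF, hermForm_smul_right, hermForm_smul_right, C.form_zero (huS v (by simp)),
        C.form_zero (huS z (by simp)), mul_zero, mul_zero, add_zero]
    obtain ⟨κ, p₀, hp₀⟩ := C.centre_rat hbot hb0 hTp hu hu0 hup
    have hκ : κ ≠ 0 := by rintro rfl; exact hy1 (by rw [hp₀, zero_smul])
    have hp₀0 : p₀ ≠ 0 := by rintro rfl; exact hy1 (by rw [hp₀, ee_zero, smul_zero])
    have hp₀i : ⟪p₀, p₀⟫₀ = 0 := by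
      rw [hp₀, hermForm_smul_left, hermForm_smul_right, mul_eq_zero, or_iff_right hκ, mul_eq_zero,
        or_iff_right (pow_ne_zero _ hκ)] at hpp
      exact C.form_zero_iff.1 hpp
    refine C.stab_of_plane hbot (v := v) (z := z) hxR.1 hp₀i hp₀0 ?_
    have h2 := hI y1
    rw [← hp, hp₀, act_smul] at h2
    have h3 := U.smul_mem κ⁻¹ h2
    rwa [smul_smul, inv_mul_cancel₀ hκ, one_smul] at h3
  have hcyc : IsCyclic A := isCyclic_of_ti R A hAR hne hAbot hTI
  obtain ⟨x₀, hx₀⟩ := hcyc.exists_generator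
  obtain ⟨E, hEN, hEx⟩ := C.exists_ratE0 hv hvz hz
  have hEA : E ∈ A := ⟨hEN, fun y => by
    rw [hEx]
    have : y + ⟪y, ee v⟫ • ee z - ⟪y, ee z⟫ • ee v - y = ⟪y, ee v⟫ • ee z - ⟪y, ee z⟫ • ee v := by abel
    rw [this]
    exact U.sub_mem (U.smul_mem _ hzU) (U.smul_mem _ hvU)⟩
  obtain ⟨m, hm⟩ := hx₀ ⟨E, hEA⟩
  obtain ⟨l, hl⟩ := hx₀ ⟨k, hkA⟩
  have e1 := act_zpow_sub hF hUU x₀ m (ee v')
  have e2 := act_zpow_sub hF hUU x₀ l (ee v')
  have hm' : x₀ ^ m = ⟨E, hEA⟩ := hm
  have hl' : x₀ ^ l = ⟨k, hkA⟩ := hl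
  rw [hm', hEx, C.form_one hv'v, C.form_zero hv'z] at e1
  rw [hl', hkx, C.form_one hv'v] at e2
  -- pair with z'
  have g1 := congrArg (fun t => ⟪t, ee z'⟫) e1
  have g2 := congrArg (fun t => ⟪t, ee z'⟫) e2
  simp only [one_smul, zero_smul, sub_zero, add_sub_cancel_left, hermForm_smul_left, C.form_one hzz',
    C.form_zero hvz', mul_zero, mul_one] at g1 g2
  have hl0 : (l : F) = 0 := by
    rcases mul_eq_zero.1 g2.symm with h | h
    · exact h
    · rw [h, mul_zero] at g1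
      exact absurd g1 one_ne_zero
  rw [hl0, zero_smul, add_sub_cancel_left, mul_one] at e2
  exact (smul_ne_zero ha0' (ee_ne_zero hv0)) e2

end Ctx

end Cfsg.Agent.H98.UniMax
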