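import Cfsg.Agent.H98.UniRatE

/-!
Maximality of the subfield subgroups of the special unitary groups.
-/

set_option autoImplicit false
set_option linter.unusedSectionVars false

namespace Cfsg.Agent.H98.UniMax

open Matrix Cfsg.Geo Module Cfsg.Agent.Uni Cfsg.Agent.H98.Subf
open Cfsg.Agent.GeoMax.Un (suGL exists_suGL suGL_coe)
open scoped MatrixGroups

variable {F : Type*} [Field F] [Fintype F] {n q q₀ : ℕ} {F₀ : Subfield F} [Fintype F₀]

local notation "⟪" x ", " y "⟫" => Cfsg.hermForm _ _ q x y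
local notation "⟪" x ", " y "⟫₀" => Cfsg.hermForm _ _ q₀ x y

lemma rtl_iff {x : Fin n → F} : Rtl F₀ x ↔ IsRat F₀ x := by
  constructor
  · intro h
    exact ⟨fun i => ⟨x i, h i⟩, rfl⟩
  · rintro ⟨x₀, rfl⟩ i
    exact (x₀ i).2

theorem exists_q0 {q a r : ℕ} (hr : Odd r) (ha : 0 < a) (h : q ^ 2 = a ^ r) : ∃ s, a = s ^ 2 ∧ q = s ^ r := by
  obtain ⟨k, rfl⟩ := hr
  have h1 : (a ^ k) ^ 2 ∣ q ^ 2 := by
    rw [h, ← pow_mul]
    exact pow_dvd_pow a (by omega)
  have h2 : a ^ k ∣ q := (Nat.pow_dvd_pow_iff (by norm_num)).1 h1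
  obtain ⟨s, rfl⟩ := h2
  have h3 : a ^ (2 * k) * s ^ 2 = a ^ (2 * k) * a := by
    rw [mul_pow, ← pow_mul, mul_comm k 2] at h
    rw [h, pow_succ]
  have h4 : s ^ 2 = a := Nat.eq_of_mul_eq_mul_left (pow_pos ha _) h3
  refine ⟨s, h4.symm, ?_⟩
  rw [← h4, ← pow_mul, ← pow_succ]

theorem hq_of (hF₀ : Fintype.card F₀ = q₀ ^ 2) {r : ℕ} (hr : Odd r) (hq : q = q₀ ^ r) (a : F₀) :
    (a : F) ^ q = ((a ^ q₀ : F₀) : F) := by
  obtain ⟨k, rfl⟩ := hr
  have h1 : ∀ k : ℕ, a ^ (q₀ ^ (2 * k + 1)) = a ^ q₀ := by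
    intro k
    induction k with
    | zero => simp
    | succ k ih =>
      have : q₀ ^ (2 * (k + 1) + 1) = q₀ ^ (2 * k + 1) * q₀ * q₀ := by ring
      rw [this, pow_mul, pow_mul, ih, pow_q_pow_q hF₀]
  rw [hq, ← h1 k]
  rfl

variable {N : Subgroup (Cfsg.SU n F q)}

theorem ctx_of (hF : Fintype.card F = q ^ 2) (hn : 13 ≤ n) (hF₀ : Fintype.card F₀ = q₀ ^ 2)
    (hq : ∀ a : F₀, (a : F) ^ q = ((a ^ q₀ : F₀) : F)) {M : Subgroup (GL (Fin n) F)}
    (hM : H0 F₀ ⊓ (Cfsg.GU n F q ⊓ specialLinear (Fin n) F) ≤ M) : Ctx q₀ F₀ (M.comap (suGL n F q)) := by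
  refine ⟨hF, hn, hF₀, hq, fun g hg => ?_⟩
  rw [Subgroup.mem_comap]
  apply hM
  refine ⟨mem_H0_of one_ne_zero ?_, ?_, ?_⟩
  · intro u hu
    obtain ⟨u₀, rfl⟩ := rtl_iff.1 hu
    obtain ⟨y, hy⟩ := hg u₀
    rw [one_smul]
    exact rtl_iff.2 ⟨y, hy⟩
  · exact SU_pres g
  · change Matrix.GeneralLinearGroup.det _ = 1
    apply Units.ext
    exact (g : Matrix.SpecialLinearGroup (Fin n) F).2

theorem subfield_std (hF : Fintype.card F = q ^ 2) (hn : 13 ≤ n) (hF₀ : Fintype.card F₀ = q₀ ^ 2)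
    (hq : ∀ a : F₀, (a : F) ^ q = ((a ^ q₀ : F₀) : F)) (hp : (finrank F₀ F).Prime) :
    IsMaximalIn (Cfsg.GU n F q ⊓ specialLinear (Fin n) F)
      (H0 F₀ ⊓ (Cfsg.GU n F q ⊓ specialLinear (Fin n) F)) := by
  classical
  refine ⟨lt_of_le_of_ne inf_le_right ?_, ?_⟩
  · intro heq
    -- a nonrational Eichler element
    obtain ⟨c, hc⟩ : ∃ c : F, c ∉ F₀ := by
      by_contra hcon
      push Not at hcon
      have h1 : finrank F₀ F = 1 := by
        rw [finrank_eq_one_iff']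
        refine ⟨1, one_ne_zero, fun w => ⟨⟨w, hcon w⟩, ?_⟩⟩
        change w * 1 = w
        rw [mul_one]
      rw [h1] at hp
      exact Nat.not_prime_one hp
    have C : Ctx q₀ F₀ (⊤ : Subgroup (Cfsg.SU n F q)) := ⟨hF, hn, hF₀, hq, fun _ _ => Subgroup.mem_top _⟩
    obtain ⟨v, v', z, z', hv, hz, hvz, hv'v, hzz', hv'z, hvz'⟩ := C.exists_config
    obtain ⟨g, hg⟩ := exists_eich hF (ee v) (c • ee z) 0 (C.form_zero hv)
      (by rw [hermForm_smul_right, C.form_zero hvz, mul_zero]) (by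
        rw [hermForm_smul_left, hermForm_smul_right, C.form_zero hz, zero_pow (q_ne_zero hF)]; ring)
    have h1 : suGL n F q g ∈ Cfsg.GU n F q ⊓ specialLinear (Fin n) F := by
      refine ⟨SU_pres g, ?_⟩
      change Matrix.GeneralLinearGroup.det _ = 1
      apply Units.ext
      exact (g : Matrix.SpecialLinearGroup (Fin n) F).2
    rw [← heq] at h1
    obtain ⟨d, hd, hdr⟩ := exists_of_mem_H0 h1.1
    have hrat : ∀ x : Fin n → F₀, IsRat F₀ (d • act g (ee x)) := by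
      intro x
      rw [← rtl_iff]
      intro i
      rw [Pi.smul_apply, act_def, Matrix.mulVec, dotProduct, smul_eq_mul, Finset.mul_sum]
      apply F₀.sum_mem
      intro j _
      rw [← mul_assoc]
      exact F₀.mul_mem (hdr i j) (x j).2
    have hv0 : v ≠ 0 := by
      rintro rfl
      rw [hermForm_zero_right C.hF₀] at hv'v
      exact zero_ne_one hv'v
    obtain ⟨x1, hx1⟩ := hrat v
    have e1 : act g (ee v) = ee v := by
      rw [hg, C.form_zero hv, hermForm_smul_right, C.form_zero hvz]; simp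
    rw [e1] at hx1
    obtain ⟨m, hm⟩ := ee_smul_rat hv0 hx1
    obtain ⟨x2, hx2⟩ := hrat v'
    have e2 : act g (ee v') = ee v' + c • ee z := by
      rw [hg, C.form_one hv'v, hermForm_smul_right, C.form_zero hv'z]; simp
    rw [e2, hm, smul_add, smul_smul] at hx2
    have h3 : ((m : F) * c) • ee z = ee (x2 - m • v') := by
      rw [ee_sub, ee_smul, ← hx2]; abel
    have hz0 : z ≠ 0 := by
      rintro rfl
      rw [hermForm_zero_left] at hzz'
      exact zero_ne_one hzz'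
    obtain ⟨m', hm'⟩ := ee_smul_rat hz0 h3
    apply hc
    have hm0 : (m : F) ≠ 0 := by rw [← hm]; exact hd
    have : c = (m : F)⁻¹ * m' := by rw [← hm', ← mul_assoc, inv_mul_cancel₀ hm0, one_mul]
    rw [this]
    exact F₀.mul_mem (F₀.inv_mem (SetLike.coe_mem _)) (SetLike.coe_mem _)
  · intro M hGM hMS
    have C := ctx_of hF hn hF₀ hq hGM
    rcases C.alternative hp with h | h
    · right
      apply le_antisymm hMS
      intro g hg
      obtain ⟨g', rfl⟩ := exists_suGL hg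
      have : g' ∈ M.comap (suGL n F q) := by rw [h]; trivial
      exact this
    · left
      apply le_antisymm _ hGM
      intro g hg
      obtain ⟨g', rfl⟩ := exists_suGL (hMS hg)
      obtain ⟨d, hd, hdr⟩ := h g' hg
      refine ⟨mem_H0_of hd ?_, hMS hg⟩
      intro u hu
      obtain ⟨u₀, rfl⟩ := rtl_iff.1 hu
      exact rtl_iff.2 (hdr u₀)

/-- base change making a rational structure standard -/
theorem exists_std_rat (hF : Fintype.card F = q ^ 2) (hF₀ : Fintype.card F₀ = q₀ ^ 2)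
    (hq : ∀ a : F₀, (a : F) ^ q = ((a ^ q₀ : F₀) : F)) (P : GL (Fin n) F)
    (hP : IsFormRationalStructure (Cfsg.hermForm n F q) F₀ 1 P) :
    ∃ S : GL (Fin n) F₀, P * Matrix.GeneralLinearGroup.map (F₀.subtype : F₀ →+* F) S ∈ Cfsg.GU n F q := by
  classical
  have hP' : ∀ x y : Fin n → F₀, ⟪(P : Matrix (Fin n) (Fin n) F) *ᵥ ee x, (P : Matrix (Fin n) (Fin n) F) *ᵥ ee y⟫ ∈ F₀ := by
    intro x y
    have := hP (ee x) (ee y) (fun i => (x i).2) (fun i => (y i).2)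
    rwa [one_mul] at this
  let f₀ : (Fin n → F₀) → (Fin n → F₀) → F₀ := fun x y => ⟨_, hP' x y⟩
  have hf₀ : ∀ x y, ((f₀ x y : F₀) : F) = ⟪(P : Matrix (Fin n) (Fin n) F) *ᵥ ee x, (P : Matrix (Fin n) (Fin n) F) *ᵥ ee y⟫ :=
    fun _ _ => rfl
  let σ₀ : F₀ ≃+* F₀ := RingEquiv.ofBijective (conjHom hF₀) ⟨(conjHom hF₀).injective, fun x => ⟨x ^ q₀, by
    change (x ^ q₀) ^ q₀ = x
    exact pow_q_pow_q hF₀ x⟩⟩
  have hσ₀ : ∀ x, σ₀ x = x ^ q₀ := fun _ => rfl
  have hspan : ∀ w : Fin n → F, (∀ x : Fin n → F₀, ⟪(P : Matrix (Fin n) (Fin n) F) *ᵥ ee x, w⟫ = 0) → w = 0 := by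
    intro w hw
    apply hermForm_nondeg' hF
    intro y
    have h1 : y = (P : Matrix (Fin n) (Fin n) F) *ᵥ (((P⁻¹ : GL (Fin n) F) : Matrix (Fin n) (Fin n) F) *ᵥ y) := by
      rw [GeoMax.gl_mulVec_inv]
    set y' := ((P⁻¹ : GL (Fin n) F) : Matrix (Fin n) (Fin n) F) *ᵥ y with hy'
    have h2 : y' = ∑ i, y' i • (ee (Pi.single i (1 : F₀)) : Fin n → F) := by
      ext j
      rw [Finset.sum_apply, Finset.sum_eq_single j]
      · simp [ee]
      · intro b _ hb
        simp [ee, hb.symm]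
      · simp
    rw [h1, h2, Matrix.mulVec_sum, hermForm_sum_left]
    apply Finset.sum_eq_zero
    intro i _
    rw [Matrix.mulVec_smul, hermForm_smul_left, hw, mul_zero]
  have hU : IsUnitaryForm σ₀ f₀ := by
    refine ⟨?_, ?_, ?_, ?_, ?_, ?_⟩
    · intro h
      obtain ⟨x, hx⟩ := exists_pow_q_ne hF₀
      apply hx
      have := congrArg (fun e : F₀ ≃+* F₀ => e x) h
      exact this
    · intro a
      rw [hσ₀, hσ₀, pow_q_pow_q hF₀]
    · intro x y v
      apply Subtype.ext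
      rw [Subfield.coe_add, hf₀, hf₀, hf₀, ee_add, Matrix.mulVec_add, hermForm_add_left]
    · intro c x v
      apply Subtype.ext
      rw [Subfield.coe_mul, hf₀, hf₀, ee_smul, Matrix.mulVec_smul, hermForm_smul_left]
    · intro v w
      apply Subtype.ext
      rw [hσ₀, ← hq, hf₀, hf₀, hermForm_symm hF]
    · have key : ∀ v : Fin n → F₀, v ≠ 0 → ∃ x, f₀ x v ≠ 0 := by
        intro v hv
        by_contra hcon
        push Not at hcon
        apply hv
        have h1 := hspan ((P : Matrix (Fin n) (Fin n) F) *ᵥ ee v) (fun x => by rw [← hf₀, hcon]; rfl)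
        have h2 : ee v = (0 : Fin n → F) := by
          apply GeoMax.gl_mulVec_injective P
          simpa using h1
        exact ee_inj.1 (h2.trans ee_zero.symm)
      intro v hv
      refine ⟨key v hv, ?_⟩
      obtain ⟨x, hx⟩ := key v hv
      refine ⟨x, fun h => hx ?_⟩
      apply Subtype.ext
      have h1 : ((f₀ v x : F₀) : F) = 0 := by rw [h]; rfl
      rw [hf₀] at h1 ⊢
      exact (hermForm_eq_zero_comm hF).1 h1
  obtain ⟨q', hq', hσ', S, hS⟩ := exists_std_form hU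
  have hqq : q' = q₀ := by
    have h1 : q' ^ 2 = q₀ ^ 2 := by rw [← hq', ← hF₀]
    exact Nat.pow_left_injective (by norm_num) h1
  subst hqq
  refine ⟨S, ?_⟩
  change Pres q _
  apply (preserves_iff hF _).2
  have hcol : ∀ i : Fin n, (fun r => ((P * Matrix.GeneralLinearGroup.map (F₀.subtype : F₀ →+* F) S : GL (Fin n) F) :
      Matrix (Fin n) (Fin n) F) r i) = (P : Matrix (Fin n) (Fin n) F) *ᵥ ee ((S : Matrix (Fin n) (Fin n) F₀) *ᵥ Pi.single i 1) := by
    intro i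
    rw [← mulVec_single_one', Units.val_mul, ← Matrix.mulVec_mulVec]
    congr 1
    rw [mulVec_single_one', mulVec_single_one']
    rfl
  intro i j
  change ⟪(fun r => ((P * Matrix.GeneralLinearGroup.map (F₀.subtype : F₀ →+* F) S : GL (Fin n) F) :
      Matrix (Fin n) (Fin n) F) r i), (fun r => ((P * Matrix.GeneralLinearGroup.map (F₀.subtype : F₀ →+* F) S : GL (Fin n) F) :
      Matrix (Fin n) (Fin n) F) r j)⟫ = _
  rw [hcol, hcol, ← hf₀, hS]
  have h1 := (IsON.single (F := F₀) (q := q') (n := n) hF₀) i j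
  rw [h1]
  split_ifs <;> rfl

theorem subfield_maximal (hF : Fintype.card F = q ^ 2) (hn : 13 ≤ n) (hF₀ : Fintype.card F₀ = q₀ ^ 2)
    (hq : ∀ a : F₀, (a : F) ^ q = ((a ^ q₀ : F₀) : F)) (hp : (finrank F₀ F).Prime) (P : GL (Fin n) F)
    (hP : IsFormRationalStructure (Cfsg.hermForm n F q) F₀ 1 P) :
    IsMaximalIn (Cfsg.GU n F q ⊓ specialLinear (Fin n) F)
      (subfieldSubgroup F₀ P ⊓ (Cfsg.GU n F q ⊓ specialLinear (Fin n) F)) := by
  obtain ⟨S, hS⟩ := exists_std_rat hF hF₀ hq P hP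
  set S' : GL (Fin n) F := Matrix.GeneralLinearGroup.map (F₀.subtype : F₀ →+* F) S with hS'
  have h1 := Subf.isMaximalIn_map (MulAut.conj (P * S')) (subfield_std hF hn hF₀ hq hp)
  have h2 : (Cfsg.GU n F q).map (MulAut.conj (P * S')).toMonoidHom = Cfsg.GU n F q := by
    ext g
    constructor
    · rintro ⟨g, hg, rfl⟩
      exact Subgroup.mul_mem _ (Subgroup.mul_mem _ hS hg) (Subgroup.inv_mem _ hS)
    · intro hg
      refine ⟨(P * S')⁻¹ * g * (P * S'), Subgroup.mul_mem _ (Subgroup.mul_mem _ (Subgroup.inv_mem _ hS) hg) hS, ?_⟩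
      change (P * S') * ((P * S')⁻¹ * g * (P * S')) * (P * S')⁻¹ = g
      group
  have h3 : (H0 F₀).map (MulAut.conj (P * S')).toMonoidHom = subfieldSubgroup F₀ P := by
    have hmem : S' ∈ H0 (ι := Fin n) F₀ := Subgroup.mem_sup_left ⟨S, rfl⟩
    ext g
    constructor
    · rintro ⟨g, hg, rfl⟩
      refine ⟨S' * g * S'⁻¹, Subgroup.mul_mem _ (Subgroup.mul_mem _ hmem hg) (Subgroup.inv_mem _ hmem), ?_⟩
      change P * (S' * g * S'⁻¹) * P⁻¹ = (P * S') * g * (P * S')⁻¹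
      group
    · rintro ⟨g, hg, rfl⟩
      refine ⟨S'⁻¹ * g * S', Subgroup.mul_mem _ (Subgroup.mul_mem _ (Subgroup.inv_mem _ hmem) hg) hmem, ?_⟩
      change (P * S') * (S'⁻¹ * g * S') * (P * S')⁻¹ = P * g * P⁻¹
      group
  have h4 : (Cfsg.GU n F q ⊓ specialLinear (Fin n) F).map (MulAut.conj (P * S')).toMonoidHom =
      Cfsg.GU n F q ⊓ specialLinear (Fin n) F := by
    rw [Subgroup.map_inf _ _ _ (MulAut.conj (P * S')).injective, Subf.map_conj_specialLinear, h2]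
  have h5 : (H0 F₀ ⊓ (Cfsg.GU n F q ⊓ specialLinear (Fin n) F)).map (MulAut.conj (P * S')).toMonoidHom =
      subfieldSubgroup F₀ P ⊓ (Cfsg.GU n F q ⊓ specialLinear (Fin n) F) := by
    rw [Subgroup.map_inf _ _ _ (MulAut.conj (P * S')).injective, h4, h3]
  rw [h4, h5] at h1
  exact h1

end Cfsg.Agent.H98.UniMax

theorem Cfsg.Agent.H98.UniMax.subfield_main {F : Type*} [Field F] [Fintype F] (n q : ℕ)
    (hF : Fintype.card F = q ^ 2) (hn : 13 ≤ n) (F₀ : Subfield F) (r : ℕ) (hr : r.Prime) (hro : Odd r)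
    (hcard : Fintype.card F = Nat.card F₀ ^ r) (P : Matrix.GeneralLinearGroup (Fin n) F)
    (hP : Cfsg.Geo.IsFormRationalStructure (Cfsg.hermForm n F q) F₀ 1 P) :
    Cfsg.Geo.IsMaximalIn (Cfsg.GU n F q ⊓ Cfsg.Geo.specialLinear (Fin n) F)
      (Cfsg.Geo.subfieldSubgroup F₀ P ⊓ (Cfsg.GU n F q ⊓ Cfsg.Geo.specialLinear (Fin n) F)) := by
  have : Fintype F₀ := Fintype.ofFinite _
  rw [Nat.card_eq_fintype_card] at hcard
  obtain ⟨q₀, h1, h2⟩ := Cfsg.Agent.H98.UniMax.exists_q0 hro Fintype.card_pos (hF.symm.trans hcard)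
  have hfr : Module.finrank F₀ F = r := by
    have h3 := Module.natCard_eq_pow_finrank (K := F₀) (V := F)
    rw [Nat.card_eq_fintype_card, Nat.card_eq_fintype_card, hcard] at h3
    exact (Nat.pow_right_injective (Fintype.one_lt_card (α := F₀)) h3).symm
  exact Cfsg.Agent.H98.UniMax.subfield_maximal hF hn h1 (Cfsg.Agent.H98.UniMax.hq_of h1 hro h2) (by rw [hfr]; exact hr) P hP
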